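import Mathlib
import Cfsg.Agent.H59.UniqueOrderP
import Cfsg.Agent.S3742

/-!
# Team piece S0688-G1b

A nonabelian normal `r`-subgroup of class at most two in a group whose commuting elements of
equal prime order generate the same cyclic subgroup is a quaternion group of order `8`.
-/

set_option autoImplicit false

namespace Cfsg.Agent.H85

open scoped commutatorElement

theorem g1b_card_mulAut_quaternion : Nat.card (MulAut (QuaternionGroup 2)) = 24 := by
  obtain ⟨e⟩ := Cfsg.Agent.S3742.result
  rw [Nat.card_congr e.toEquiv, Nat.card_eq_fintype_card, Fintype.card_perm, Fintype.card_fin]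
  rfl

theorem g1b {H : Type*} [Group H] [Finite H]
    (hU : ∀ r : ℕ, r.Prime → ∀ x y : H, x * y = y * x → x ^ r = 1 → y ^ r = 1 → x ≠ 1 → y ≠ 1 →
      x ∈ Subgroup.zpowers y)
    (N : Subgroup H) (r : ℕ) (hr : r.Prime) (hNn : N.Normal)
    (hNc : ∃ x ∈ N, ∃ y ∈ N, x * y ≠ y * x) (hNr : IsPGroup r N)
    (hcl : ∀ x ∈ N, ∀ y ∈ N, ∀ z ∈ N, ⁅x, y⁆ * z = z * ⁅x, y⁆) :
    ∃ a b : H, orderOf a = 4 ∧ b * a * b⁻¹ = a⁻¹ ∧ b * b = a ^ 2 ∧
      Subgroup.closure {a, b} = N ∧ Nat.card N = 8 ∧
      (Subgroup.centralizer ({a, b} : Set H)).index ∣ 24 ∧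
      (∀ h ∈ N, h * a * h⁻¹ = a ∨ h * a * h⁻¹ = a⁻¹) := by
  have : Fact r.Prime := ⟨hr⟩
  obtain ⟨x0, hx0, y0, hy0, hxy0⟩ := hNc
  have : Nontrivial N := by
    refine ⟨⟨⟨x0, hx0⟩, 1, ?_⟩⟩
    intro h
    apply hxy0
    have h1 : x0 = 1 := by simpa using congrArg Subtype.val h
    rw [h1]; simp
  have hcn : Nontrivial (Subgroup.center N) := hNr.center_nontrivial
  have hcp : IsPGroup r (Subgroup.center N) := hNr.to_subgroup _
  obtain ⟨n, hn0, hn⟩ := (hcp.nontrivial_iff_card).1 hcn
  have hrdvd : r ∣ Nat.card (Subgroup.center N) := by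
    rw [hn]; exact dvd_pow_self r (by omega)
  obtain ⟨z, hz⟩ := exists_prime_orderOf_dvd_card' (G := Subgroup.center N) r hrdvd
  -- the central element of order r
  set zN : N := (z : N) with hzN
  have hzNo : orderOf zN = r := by rw [hzN, Subgroup.orderOf_coe]; exact hz
  have hzNc : ∀ u : N, u * zN = zN * u := fun u => (Subgroup.mem_center_iff.1 z.2 u)
  have hzN1 : zN ≠ 1 := by
    intro h
    rw [h, orderOf_one] at hzNo
    exact hr.one_lt.ne hzNo
  have hzNr : zN ^ r = 1 := by rw [← hzNo]; exact pow_orderOf_eq_one zN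
  have hkey : ∀ P : Subgroup N, Nat.card P = r → P = Subgroup.zpowers zN := by
    intro P hP
    have : Nontrivial P := by
      rw [← Finite.one_lt_card_iff_nontrivial, hP]; exact hr.one_lt
    obtain ⟨u, hu⟩ := exists_ne (1 : P)
    have hur : u ^ r = 1 := by rw [← hP]; exact pow_card_eq_one'
    have hu1 : ((u : N) : H) ≠ 1 := by
      intro h
      apply hu
      apply Subtype.ext
      apply Subtype.ext
      simpa using h
    have hur' : ((u : N) : H) ^ r = 1 := by
      have := congrArg (fun t : P => ((t : N) : H)) hur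
      simpa using this
    have hzr' : (zN : H) ^ r = 1 := by
      have := congrArg (fun t : N => (t : H)) hzNr
      simpa using this
    have hz1' : (zN : H) ≠ 1 := by
      intro h
      apply hzN1
      apply Subtype.ext
      simpa using h
    have hcomm : (zN : H) * ((u : N) : H) = ((u : N) : H) * (zN : H) := by
      have := congrArg (fun t : N => (t : H)) (hzNc (u : N))
      simpa using this.symm
    have hmem := hU r hr (zN : H) ((u : N) : H) hcomm hzr' hur' hz1' hu1
    obtain ⟨i, hi⟩ := Subgroup.mem_zpowers_iff.1 hmem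
    have hzu : zN = (u : N) ^ i := by
      apply Subtype.ext
      simpa using hi.symm
    have hle : Subgroup.zpowers zN ≤ P := by
      rw [Subgroup.zpowers_le, hzu]
      exact P.zpow_mem u.2 i
    symm
    apply Subgroup.eq_of_le_of_card_ge hle
    rw [Nat.card_zpowers, hzNo, hP]
  have huniq : ∀ P K : Subgroup N, Nat.card P = r → Nat.card K = r → P = K := by
    intro P K hP hK
    rw [hkey P hP, hkey K hK]
  have hncomm : ¬ (∀ x y : N, x * y = y * x) := by
    intro h
    apply hxy0
    have := congrArg (fun t : N => (t : H)) (h ⟨x0, hx0⟩ ⟨y0, hy0⟩)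
    simpa using this
  have hncyc : ¬ IsCyclic N := by
    intro hc
    apply hncomm
    intro x y
    have := hc
    exact IsCyclic.commGroup.mul_comm x y
  by_cases hr2 : r = 2
  swap
  · exact absurd (Cfsg.Agent.H59.isCyclic_of_unique_odd r hr2 _ N rfl hNr huniq) hncyc
  subst hr2
  obtain ⟨a, g, k, hk1, hoa, hga, hconj, hgg, hcos, hout, -⟩ :=
    Cfsg.Agent.H59.quaternion_structure_of_unique_two hNr huniq hncyc
  -- class two gives a ^ 4 = 1
  have hcl' : ∀ x y w : N, ⁅x, y⁆ * w = w * ⁅x, y⁆ := by
    intro x y w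
    apply Subtype.ext
    have := hcl x x.2 y y.2 w w.2
    simpa [commutatorElement_def] using this
  have h1 := hcl' g a g
  have hcomm_ga : ⁅g, a⁆ = a⁻¹ * a⁻¹ := by
    rw [commutatorElement_def, hconj]
  rw [hcomm_ga] at h1
  have ha4 : a ^ 4 = 1 := by
    have h2 : g * (a⁻¹ * a⁻¹) * g⁻¹ = a * a := by
      have : g * (a⁻¹ * a⁻¹) * g⁻¹ = (g * a * g⁻¹)⁻¹ * (g * a * g⁻¹)⁻¹ := by group
      rw [this, hconj, inv_inv]
    have h3 : g * (a⁻¹ * a⁻¹) * g⁻¹ = a⁻¹ * a⁻¹ := by
      rw [← h1]; group
    rw [h3] at h2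
    have : a ^ 4 = a * a * (a * a) := by
      simp only [pow_succ, pow_zero, one_mul, mul_assoc]
    rw [this]
    nth_rewrite 1 [← h2]
    group
  have hk2 : k ≤ 2 := by
    have hd : (2:ℕ) ^ k ∣ 2 ^ 2 := by
      rw [← hoa]; exact orderOf_dvd_of_pow_eq_one ha4
    exact (Nat.pow_dvd_pow_iff_le_right (by norm_num)).1 hd
  have hkne1 : k ≠ 1 := by
    intro hk
    subst hk
    apply hncomm
    have haa : a * a = 1 := by
      have : a ^ 2 = 1 := by
        have := pow_orderOf_eq_one a
        rw [hoa] at this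
        simpa using this
      rwa [pow_two] at this
    have hainv : a⁻¹ = a := inv_eq_of_mul_eq_one_left haa
    have hcga : Commute g a := by
      have : g * a * g⁻¹ = a := by rw [hconj, hainv]
      exact mul_inv_eq_iff_eq_mul.1 this
    intro x y
    rcases hcos x with hx | hx <;> rcases hcos y with hy | hy
    · obtain ⟨i, hi⟩ := Subgroup.mem_zpowers_iff.1 hx
      obtain ⟨j, hj⟩ := Subgroup.mem_zpowers_iff.1 hy
      rw [← hi, ← hj]
      exact (Commute.zpow_zpow_self a i j).eq
    · obtain ⟨i, hi⟩ := Subgroup.mem_zpowers_iff.1 hx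
      obtain ⟨j, hj⟩ := Subgroup.mem_zpowers_iff.1 hy
      have hy' : y = g * a ^ j := by rw [hj]; group
      rw [← hi, hy']
      exact ((hcga.symm.zpow_left i).mul_right (Commute.zpow_zpow_self a i j)).eq
    · obtain ⟨i, hi⟩ := Subgroup.mem_zpowers_iff.1 hx
      obtain ⟨j, hj⟩ := Subgroup.mem_zpowers_iff.1 hy
      have hx' : x = g * a ^ i := by rw [hi]; group
      rw [← hj, hx']
      exact ((hcga.zpow_right j).mul_left (Commute.zpow_zpow_self a i j)).eq
    · obtain ⟨i, hi⟩ := Subgroup.mem_zpowers_iff.1 hx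
      obtain ⟨j, hj⟩ := Subgroup.mem_zpowers_iff.1 hy
      have hx' : x = g * a ^ i := by rw [hi]; group
      have hy' : y = g * a ^ j := by rw [hj]; group
      rw [hx', hy']
      have c1 : Commute g (g * a ^ j) := (Commute.refl g).mul_right (hcga.zpow_right j)
      have c2 : Commute (a ^ i) (g * a ^ j) :=
        (hcga.symm.zpow_left i).mul_right (Commute.zpow_zpow_self a i j)
      exact (c1.mul_left c2).eq
  have hk : k = 2 := by omega
  subst hk
  have hoa4 : orderOf a = 4 := by rw [hoa]; norm_num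
  have hgg2 : g * g = a ^ 2 := by rw [hgg]; norm_num
  have hoa22 : orderOf a = 2 * 2 := by rw [hoa4]
  obtain ⟨e⟩ := Cfsg.Agent.H59.quaternionEquiv (n := 2) hoa22 hconj hgg2 hga hcos
  have hcard8 : Nat.card N = 8 := by
    rw [Nat.card_congr e.toEquiv, Nat.card_eq_fintype_card, QuaternionGroup.card]
  refine ⟨(a : H), (g : H), ?_, ?_, ?_, ?_, hcard8, ?_, ?_⟩
  · rw [Subgroup.orderOf_coe]; exact hoa4
  · have := congrArg (fun t : N => (t : H)) hconj
    simpa using this
  · have := congrArg (fun t : N => (t : H)) hgg2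
    simpa using this
  · apply le_antisymm
    · rw [Subgroup.closure_le]
      intro t ht
      rcases ht with rfl | rfl
      · exact a.2
      · exact g.2
    · intro h hh
      have ha_mem : (a : H) ∈ Subgroup.closure ({(a : H), (g : H)} : Set H) :=
        Subgroup.subset_closure (by simp)
      have hg_mem : (g : H) ∈ Subgroup.closure ({(a : H), (g : H)} : Set H) :=
        Subgroup.subset_closure (by simp)
      rcases hcos ⟨h, hh⟩ with hx | hx
      · obtain ⟨i, hi⟩ := Subgroup.mem_zpowers_iff.1 hx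
        have : h = (a : H) ^ i := by
          have := congrArg (fun t : N => (t : H)) hi
          simpa using this.symm
        rw [this]
        exact Subgroup.zpow_mem _ ha_mem i
      · obtain ⟨i, hi⟩ := Subgroup.mem_zpowers_iff.1 hx
        have : h = (g : H) * (a : H) ^ i := by
          have := congrArg (fun t : N => (t : H)) hi
          simp only [Subgroup.coe_zpow, Subgroup.coe_mul, Subgroup.coe_inv] at this
          rw [this]; group
        rw [this]
        exact Subgroup.mul_mem _ hg_mem (Subgroup.zpow_mem _ ha_mem i)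
  · -- index of the centralizer
    have hclos : Subgroup.closure ({(a : H), (g : H)} : Set H) = N := by
      apply le_antisymm
      · rw [Subgroup.closure_le]
        intro t ht
        rcases ht with rfl | rfl
        · exact a.2
        · exact g.2
      · intro h hh
        have ha_mem : (a : H) ∈ Subgroup.closure ({(a : H), (g : H)} : Set H) :=
          Subgroup.subset_closure (by simp)
        have hg_mem : (g : H) ∈ Subgroup.closure ({(a : H), (g : H)} : Set H) :=
          Subgroup.subset_closure (by simp)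
        rcases hcos ⟨h, hh⟩ with hx | hx
        · obtain ⟨i, hi⟩ := Subgroup.mem_zpowers_iff.1 hx
          have : h = (a : H) ^ i := by
            have := congrArg (fun t : N => (t : H)) hi
            simpa using this.symm
          rw [this]
          exact Subgroup.zpow_mem _ ha_mem i
        · obtain ⟨i, hi⟩ := Subgroup.mem_zpowers_iff.1 hx
          have : h = (g : H) * (a : H) ^ i := by
            have := congrArg (fun t : N => (t : H)) hi
            simp only [Subgroup.coe_zpow, Subgroup.coe_mul, Subgroup.coe_inv] at this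
            rw [this]; group
          rw [this]
          exact Subgroup.mul_mem _ hg_mem (Subgroup.zpow_mem _ ha_mem i)
    let φ : H →* MulAut N := MulAut.conjNormal
    have hker : φ.ker ≤ Subgroup.centralizer ({(a : H), (g : H)} : Set H) := by
      intro h hh
      rw [MonoidHom.mem_ker] at hh
      rw [Subgroup.mem_centralizer_iff]
      intro t ht
      have htN : t ∈ N := by
        rcases ht with rfl | rfl
        · exact a.2
        · exact g.2
      have h1 : φ h ⟨t, htN⟩ = ⟨t, htN⟩ := by rw [hh]; rfl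
      have h2 : h * t * h⁻¹ = t := by
        have := congrArg (fun t : N => (t : H)) h1
        simpa [φ] using this
      exact (mul_inv_eq_iff_eq_mul.1 h2).symm
    have hdvd1 := Subgroup.index_dvd_of_le hker
    have hdvd2 : φ.ker.index ∣ 24 := by
      rw [Subgroup.index_ker]
      have h3 : Nat.card φ.range ∣ Nat.card (MulAut N) := Subgroup.card_subgroup_dvd_card _
      have h4 : Nat.card (MulAut N) = 24 := by
        rw [Nat.card_congr (MulAut.congr e).toEquiv]
        exact g1b_card_mulAut_quaternion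
      rwa [h4] at h3
    exact hdvd1.trans hdvd2
  · intro h hh
    by_cases hx : (⟨h, hh⟩ : N) ∈ Subgroup.zpowers a
    · left
      obtain ⟨i, hi⟩ := Subgroup.mem_zpowers_iff.1 hx
      have : h = (a : H) ^ i := by
        have := congrArg (fun t : N => (t : H)) hi
        simpa using this.symm
      rw [this]; group
    · right
      have := congrArg (fun t : N => (t : H)) (hout ⟨h, hh⟩ hx).1
      simpa using this

example {H : Type*} [Group H] [Finite H]
    (hU : ∀ r : ℕ, r.Prime → ∀ x y : H, x * y = y * x → x ^ r = 1 → y ^ r = 1 → x ≠ 1 → y ≠ 1 →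
      x ∈ Subgroup.zpowers y)
    (N : Subgroup H) (r : ℕ) (hr : r.Prime) (hNn : N.Normal)
    (hNc : ∃ x ∈ N, ∃ y ∈ N, x * y ≠ y * x) (hNr : IsPGroup r N)
    (hcl : ∀ x ∈ N, ∀ y ∈ N, ∀ z ∈ N, ⁅x, y⁆ * z = z * ⁅x, y⁆) :
    ∃ a b : H, orderOf a = 4 ∧ b * a * b⁻¹ = a⁻¹ ∧ b * b = a ^ 2 ∧
      Subgroup.closure {a, b} = N ∧ Nat.card N = 8 ∧
      (Subgroup.centralizer ({a, b} : Set H)).index ∣ 24 ∧
      (∀ h ∈ N, h * a * h⁻¹ = a ∨ h * a * h⁻¹ = a⁻¹) :=
  g1b hU N r hr hNn hNc hNr hcl

end Cfsg.Agent.H85
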