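import Mathlib
import Cfsg.Prelude
import Cfsg.Agent.H11.Cores

/-!
# S5048 pieces NETOP, NLE, FIN
-/

set_option autoImplicit false

namespace Cfsg.Agent.H85.RIFin

variable {G : Type*} [Group G] {D : Set G}

theorem twoZCore_ne_top [Finite G] (hD : Cfsg.IsRootInvolutionSet D) {a b : G} (ha : a ∈ D)
    (hb : b ∈ D) (hne : a ≠ b) (hodd : Odd (orderOf (a * b))) : Cfsg.twoZCore G ≠ ⊤ := by
  intro htop
  have ha2 : a * a = 1 := by
    have h2 : orderOf a = 2 := hD.orderOf_eq a ha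
    rw [← pow_two, ← h2, pow_orderOf_eq_one]
  have hb2 : b * b = 1 := by
    have h2 : orderOf b = 2 := hD.orderOf_eq b hb
    rw [← pow_two, ← h2, pow_orderOf_eq_one]
  have hmem : a ∈ Cfsg.twoZCore G := by
    rw [htop]
    exact Subgroup.mem_top a
  have hc : (QuotientGroup.mk' (Cfsg.pCore 2 G) a) ∈ Subgroup.center (G ⧸ Cfsg.pCore 2 G) := hmem
  have hcomm := Subgroup.mem_center_iff.1 hc (QuotientGroup.mk' _ b)
  have h1 : (b * a)⁻¹ * (a * b) ∈ Cfsg.pCore 2 G := by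
    apply QuotientGroup.eq.1
    simpa using hcomm
  have e : (b * a)⁻¹ * (a * b) = (a * b) ^ 2 := by
    have hai : a⁻¹ = a := inv_eq_of_mul_eq_one_left ha2
    have hbi : b⁻¹ = b := inv_eq_of_mul_eq_one_left hb2
    rw [mul_inv_rev, hai, hbi, pow_two]
  rw [e] at h1
  have : Fact (Nat.Prime 2) := ⟨Nat.prime_two⟩
  have hp : IsPGroup 2 (Cfsg.pCore 2 G) := Cfsg.Agent.H11.isPGroup_pCore 2
  obtain ⟨k, hk⟩ := hp ⟨(a * b) ^ 2, h1⟩
  have hk' : ((a * b) ^ 2) ^ 2 ^ k = 1 := by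
    have := congrArg Subtype.val hk
    simpa using this
  rw [← pow_mul] at hk'
  have hdvd : orderOf (a * b) ∣ 2 * 2 ^ k := orderOf_dvd_of_pow_eq_one hk'
  have hcop : Nat.Coprime (orderOf (a * b)) (2 * 2 ^ k) := by
    rw [← pow_succ']
    exact Nat.Coprime.pow_right _ (Nat.Coprime.symm (Nat.coprime_two_left.2 hodd))
  have h1' : orderOf (a * b) = 1 := Nat.Coprime.eq_one_of_dvd hcop hdvd
  rw [orderOf_eq_one_iff] at h1'
  apply hne
  calc a = a * (b * b) := by rw [hb2, mul_one]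
    _ = (a * b) * b := by rw [mul_assoc]
    _ = b := by rw [h1', one_mul]

theorem normal_le_twoZCore [Finite G] (hD : Cfsg.IsRootInvolutionSet D)
    (hclass : ∀ a ∈ D, ∀ b ∈ D, ∃ g : G, b = g * a * g⁻¹)
    {a : G} (ha : a ∈ D) (N : Subgroup G) [N.Normal]
    (hcore : ∀ n ∈ N, a * n * a⁻¹ * n⁻¹ ∈ Cfsg.pCore 2 G) : N ≤ Cfsg.twoZCore G := by
  intro n hn
  change QuotientGroup.mk' (Cfsg.pCore 2 G) n ∈ Subgroup.center (G ⧸ Cfsg.pCore 2 G)
  rw [Subgroup.mem_center_iff]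
  intro q
  obtain ⟨g, rfl⟩ := QuotientGroup.mk'_surjective _ q
  have hg : g ∈ Subgroup.closure D := by
    rw [hD.generates]
    exact Subgroup.mem_top g
  have hnorm : (Cfsg.pCore 2 G).Normal := inferInstance
  have key : Commute (QuotientGroup.mk' (Cfsg.pCore 2 G) g) (QuotientGroup.mk' (Cfsg.pCore 2 G) n) := by
    refine Subgroup.closure_induction (p := fun g _ => Commute (QuotientGroup.mk' (Cfsg.pCore 2 G) g)
      (QuotientGroup.mk' (Cfsg.pCore 2 G) n)) ?_ ?_ ?_ ?_ hg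
    · intro d hd
      obtain ⟨h, rfl⟩ := hclass a ha d hd
      have hm : h⁻¹ * n * h ∈ N := by
        have := (inferInstance : N.Normal).conj_mem n hn h⁻¹
        simpa using this
      have h1 := hnorm.conj_mem _ (hcore _ hm) h
      have e : h * (a * (h⁻¹ * n * h) * a⁻¹ * (h⁻¹ * n * h)⁻¹) * h⁻¹ =
          h * a * h⁻¹ * n * (h * a * h⁻¹)⁻¹ * n⁻¹ := by group
      rw [e] at h1
      have h2 : QuotientGroup.mk' (Cfsg.pCore 2 G) (h * a * h⁻¹ * n * (h * a * h⁻¹)⁻¹ * n⁻¹) = 1 :=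
        (QuotientGroup.eq_one_iff _).2 h1
      rw [map_mul, map_mul, map_mul, map_inv, map_inv] at h2
      change QuotientGroup.mk' (Cfsg.pCore 2 G) (h * a * h⁻¹) * QuotientGroup.mk' (Cfsg.pCore 2 G) n =
        QuotientGroup.mk' (Cfsg.pCore 2 G) n * QuotientGroup.mk' (Cfsg.pCore 2 G) (h * a * h⁻¹)
      have h3 := mul_inv_eq_one.1 h2
      have h4 := mul_inv_eq_iff_eq_mul.1 h3
      exact h4
    · exact Commute.one_left _
    · intro x y _ _ hx hy
      rw [map_mul]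
      exact Commute.mul_left hx hy
    · intro x _ hx
      rw [map_inv]
      exact Commute.inv_left hx
  exact key.eq

theorem radical_eq_of_forall [Finite G] (hne : Cfsg.twoZCore G ≠ ⊤)
    (hle : ∀ N : Subgroup G, N.Normal → N ≠ ⊤ → N ≤ Cfsg.twoZCore G) :
    Cfsg.solvableRadical G = Cfsg.twoZCore G ∧ IsSimpleGroup (G ⧸ Cfsg.twoZCore G) := by
  classical
  have : Fact (Nat.Prime 2) := ⟨Nat.prime_two⟩
  have hOle : Cfsg.pCore 2 G ≤ Cfsg.twoZCore G := by
    intro x hx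
    change QuotientGroup.mk' (Cfsg.pCore 2 G) x ∈ Subgroup.center (G ⧸ Cfsg.pCore 2 G)
    have : QuotientGroup.mk' (Cfsg.pCore 2 G) x = 1 := (QuotientGroup.eq_one_iff _).2 hx
    rw [this]
    exact Subgroup.one_mem _
  -- simplicity
  have hsimple : IsSimpleGroup (G ⧸ Cfsg.twoZCore G) := by
    have hex : ∃ g : G, g ∉ Cfsg.twoZCore G := by
      by_contra hcon
      push Not at hcon
      exact hne ((Subgroup.eq_top_iff' _).2 hcon)
    obtain ⟨g₀, hg₀⟩ := hex
    have : Nontrivial (G ⧸ Cfsg.twoZCore G) :=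
      ⟨⟨QuotientGroup.mk' _ g₀, 1, fun h => hg₀ ((QuotientGroup.eq_one_iff _).1 h)⟩⟩
    refine ⟨fun H hH => ?_⟩
    have hNn : (H.comap (QuotientGroup.mk' (Cfsg.twoZCore G))).Normal := hH.comap _
    by_cases htop : H.comap (QuotientGroup.mk' (Cfsg.twoZCore G)) = ⊤
    · right
      rw [eq_top_iff]
      intro q _
      obtain ⟨g, rfl⟩ := QuotientGroup.mk'_surjective _ q
      have : g ∈ H.comap (QuotientGroup.mk' (Cfsg.twoZCore G)) := by
        rw [htop]
        exact Subgroup.mem_top g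
      exact this
    · left
      rw [eq_bot_iff]
      intro q hq
      obtain ⟨g, rfl⟩ := QuotientGroup.mk'_surjective _ q
      have hg : g ∈ Cfsg.twoZCore G := hle _ hNn htop hq
      rw [Subgroup.mem_bot]
      exact (QuotientGroup.eq_one_iff _).2 hg
  refine ⟨?_, hsimple⟩
  apply le_antisymm
  · apply sSup_le
    rintro N ⟨hNn, hNs⟩
    by_cases htop : N = ⊤
    · exfalso
      subst htop
      have : Group.IsSolvable G :=
        Group.isSolvable_of_surjective (f := (⊤ : Subgroup G).subtype) (fun g => ⟨⟨g, Subgroup.mem_top g⟩, rfl⟩)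
      have hQs : Group.IsSolvable (G ⧸ Cfsg.twoZCore G) := inferInstance
      have hcomm : ∀ x y : G ⧸ Cfsg.twoZCore G, x * y = y * x :=
        IsSimpleGroup.comm_iff_isSolvable.2 hQs
      let _ : CommGroup (G ⧸ Cfsg.twoZCore G) :=
        { (inferInstance : Group (G ⧸ Cfsg.twoZCore G)) with mul_comm := hcomm }
      have : IsCyclic (G ⧸ Cfsg.twoZCore G) := IsSimpleGroup.isCyclic
      let f : (G ⧸ Cfsg.pCore 2 G) →* (G ⧸ Cfsg.twoZCore G) :=
        QuotientGroup.lift (Cfsg.pCore 2 G) (QuotientGroup.mk' (Cfsg.twoZCore G))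
          (fun x hx => (QuotientGroup.eq_one_iff _).2 (hOle hx))
      have hker : f.ker ≤ Subgroup.center (G ⧸ Cfsg.pCore 2 G) := by
        intro q hq
        obtain ⟨g, rfl⟩ := QuotientGroup.mk'_surjective _ q
        rw [MonoidHom.mem_ker] at hq
        have hg : g ∈ Cfsg.twoZCore G := (QuotientGroup.eq_one_iff _).1 hq
        exact hg
      have hab := (f.isMulCommutative_of_isCyclic_of_ker_le_center hker).is_comm.comm
      apply hne
      rw [eq_top_iff]
      intro g _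
      change QuotientGroup.mk' (Cfsg.pCore 2 G) g ∈ Subgroup.center (G ⧸ Cfsg.pCore 2 G)
      rw [Subgroup.mem_center_iff]
      intro q
      exact hab _ _
    · exact hle N hNn htop
  · apply le_sSup
    refine ⟨inferInstance, ?_⟩
    have hp : IsPGroup 2 (Cfsg.pCore 2 G) := Cfsg.Agent.H11.isPGroup_pCore 2
    have : Group.IsNilpotent ↥(Cfsg.pCore 2 G) := hp.isNilpotent
    have : Group.IsSolvable ↥(Cfsg.pCore 2 G) := inferInstance
    let g : ↥(Cfsg.twoZCore G) →* ↥(Subgroup.center (G ⧸ Cfsg.pCore 2 G)) :=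
      ((QuotientGroup.mk' (Cfsg.pCore 2 G)).comp (Cfsg.twoZCore G).subtype).codRestrict
        (Subgroup.center (G ⧸ Cfsg.pCore 2 G)) (fun z => z.2)
    have : Group.IsSolvable ↥(Subgroup.center (G ⧸ Cfsg.pCore 2 G)) :=
      Group.isSolvable_of_comm (fun a b => Subtype.ext (Subgroup.mem_center_iff.1 b.2 a))
    refine Group.isSolvable_of_ker_le_range (Subgroup.inclusion hOle) g ?_
    intro z hz
    rw [MonoidHom.mem_ker] at hz
    have h1 : QuotientGroup.mk' (Cfsg.pCore 2 G) (z : G) = 1 := congrArg Subtype.val hz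
    have h2 : (z : G) ∈ Cfsg.pCore 2 G := (QuotientGroup.eq_one_iff _).1 h1
    exact ⟨⟨z, h2⟩, Subtype.ext rfl⟩

end Cfsg.Agent.H85.RIFin
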