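import Mathlib
import Cfsg.Prelude
import Cfsg.Agent.H40.RootInv
import Cfsg.Agent.H53.RootCore
import Cfsg.Agent.H85.RIFin

set_option autoImplicit false
namespace Cfsg.Agent.H85.RI

variable {G : Type*} [Group G] {D : Set G}

-- ===== RI-B1 =====
theorem b1 (hD : Cfsg.IsRootInvolutionSet D) {u v x : G} (hu : u ∈ D) (hv : v ∈ D)
    (huv : u * v = v * u) (hne : u ≠ v) (huvD : u * v ∈ D) (hx : x ∈ D) (hxu : x * u = u * x)
    (hodd : Odd (orderOf (v * x))) : x = v :=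
  Cfsg.Agent.H40.RootInv.b1 hD hu hv huv hne huvD hx hxu hodd

-- ===== RI-NSA =====
theorem nsa (hD : Cfsg.IsRootInvolutionSet D)
    (hb1 : ∀ u v x : G, u ∈ D → v ∈ D → u * v = v * u → u ≠ v → u * v ∈ D → x ∈ D →
      x * u = u * x → Odd (orderOf (v * x)) → x = v)
    {u v x : G} (hu : u ∈ D) (hv : v ∈ D)
    (huv : u * v = v * u) (hne : u ≠ v) (huvD : u * v ∈ D) (hx : x ∈ D) (hxne : x ≠ u * v)
    (hodd : Odd (orderOf (u * v * x))) :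
    (x ≠ u ∧ Odd (orderOf (u * x))) ∨ (x ≠ v ∧ Odd (orderOf (v * x))) :=
  Cfsg.Agent.H40.RootInv.nsa hD hb1 hu hv huv hne huvD hx hxne hodd

-- ===== RI-CLASS =====
theorem conj_of_connected (hD : Cfsg.IsRootInvolutionSet D)
    (hc : Cfsg.IsConnectedSet (Cfsg.OddAdj D) D) {a b : G} (ha : a ∈ D) (hb : b ∈ D) :
    ∃ g : G, b = g * a * g⁻¹ :=
  Cfsg.Agent.H40.RootInv.conj_of_connected hD hc ha hb

-- ===== RI-TWO =====
theorem two_elt_of_normal (hD : Cfsg.IsRootInvolutionSet D)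
    (hnsa : ∀ u v x : G, u ∈ D → v ∈ D → u * v = v * u → u ≠ v → u * v ∈ D → x ∈ D →
      x ≠ u * v → Odd (orderOf (u * v * x)) →
      (x ≠ u ∧ Odd (orderOf (u * x))) ∨ (x ≠ v ∧ Odd (orderOf (v * x))))
    {a b : G} (ha : a ∈ D) (hb : b ∈ D) (hab : a * b = b * a) (hne : a ≠ b) (habD : a * b ∈ D)
    (N : Subgroup G) [N.Normal] (hN : ∀ d ∈ D, d ∉ N) {n : G} (hn : n ∈ N) :
    orderOf (a * (n * a * n⁻¹)) ∣ 4 :=
  Cfsg.Agent.H40.RootInv.two_elt_of_normal hD hnsa ha hb hab hne habD N hN hn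

-- ===== RI-CORE =====
theorem comm_mem_core [Finite G] {a : G} (ha : orderOf a = 2)
    (N : Subgroup G) [N.Normal] (h4 : ∀ n ∈ N, orderOf (a * (n * a * n⁻¹)) ∣ 4) :
    ∀ n ∈ N, a * n * a⁻¹ * n⁻¹ ∈ Cfsg.pCore 2 G :=
  Cfsg.Agent.H53.RootInv.comm_mem_core ha N h4

-- ===== RI-NLE =====
theorem normal_le_twoZCore [Finite G] (hD : Cfsg.IsRootInvolutionSet D)
    (hclass : ∀ a ∈ D, ∀ b ∈ D, ∃ g : G, b = g * a * g⁻¹)
    {a : G} (ha : a ∈ D) (N : Subgroup G) [N.Normal]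
    (hcore : ∀ n ∈ N, a * n * a⁻¹ * n⁻¹ ∈ Cfsg.pCore 2 G) : N ≤ Cfsg.twoZCore G :=
  Cfsg.Agent.H85.RIFin.normal_le_twoZCore hD hclass ha N hcore

-- ===== RI-NETOP =====
theorem twoZCore_ne_top [Finite G] (hD : Cfsg.IsRootInvolutionSet D) {a b : G} (ha : a ∈ D)
    (hb : b ∈ D) (hne : a ≠ b) (hodd : Odd (orderOf (a * b))) : Cfsg.twoZCore G ≠ ⊤ :=
  Cfsg.Agent.H85.RIFin.twoZCore_ne_top hD ha hb hne hodd

-- ===== RI-FIN =====
theorem radical_eq_of_forall [Finite G] (hne : Cfsg.twoZCore G ≠ ⊤)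
    (hle : ∀ N : Subgroup G, N.Normal → N ≠ ⊤ → N ≤ Cfsg.twoZCore G) :
    Cfsg.solvableRadical G = Cfsg.twoZCore G ∧ IsSimpleGroup (G ⧸ Cfsg.twoZCore G) :=
  Cfsg.Agent.H85.RIFin.radical_eq_of_forall hne hle

end Cfsg.Agent.H85.RI
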