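import Mathlib
import Cfsg.Prelude
import Cfsg.Agent.H85.RIPieces

/-!
# S5046 (Timmesfeld: E_d = {e : C_D(d) ∪ V_d = C_D(e) ∪ V_e}) — definitions, basic lemmas and the
exact statements of the team pieces (helper85).
-/

set_option autoImplicit false

namespace Cfsg.Agent.H85.RT

universe u

/-- `a` and `b` are twins: they have the same odd partners. -/
def Tw {G : Type*} [Group G] (D : Set G) (a b : G) : Prop :=
  Cfsg.oddPartners D a = Cfsg.oddPartners D b

section basic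
variable {G : Type*} [Group G] {D : Set G}

theorem mem_odd_iff {a y : G} :
    y ∈ Cfsg.oddPartners D a ↔ y ∈ D ∧ y ≠ a ∧ Odd (orderOf (a * y)) := Iff.rfl

theorem Tw.symm {a b : G} (h : Tw D a b) : Tw D b a := Eq.symm h

theorem Tw.trans {a b c : G} (h : Tw D a b) (h' : Tw D b c) : Tw D a c := Eq.trans h h'

theorem Tw.refl (a : G) : Tw D a a := rfl

theorem orderOf_conj' (g a : G) : orderOf (g * a * g⁻¹) = orderOf a := by
  have := orderOf_injective (MulAut.conj g).toMonoidHom (MulAut.conj g).injective a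
  simpa [MulAut.conj_apply] using this

theorem orderOf_mul_comm' (a b : G) : orderOf (a * b) = orderOf (b * a) := by
  have e : b * a = a⁻¹ * (a * b) * a⁻¹⁻¹ := by group
  rw [e, orderOf_conj']

theorem mem_odd_conj (hD : Cfsg.IsRootInvolutionSet D) {a y : G} (g : G)
    (h : y ∈ Cfsg.oddPartners D a) : g * y * g⁻¹ ∈ Cfsg.oddPartners D (g * a * g⁻¹) := by
  obtain ⟨hy, hne, hodd⟩ := h
  refine ⟨hD.conj_mem y hy g, ?_, ?_⟩
  · intro he
    apply hne
    have : g⁻¹ * (g * y * g⁻¹) * g = g⁻¹ * (g * a * g⁻¹) * g := by rw [he]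
    simpa [mul_assoc] using this
  · have e : g * a * g⁻¹ * (g * y * g⁻¹) = g * (a * y) * g⁻¹ := by group
    rw [e, orderOf_conj']
    exact hodd

theorem mem_odd_conj_iff (hD : Cfsg.IsRootInvolutionSet D) {a y : G} (g : G) :
    g * y * g⁻¹ ∈ Cfsg.oddPartners D (g * a * g⁻¹) ↔ y ∈ Cfsg.oddPartners D a := by
  refine ⟨fun h => ?_, mem_odd_conj hD g⟩
  have := mem_odd_conj hD g⁻¹ h
  simpa [mul_assoc] using this

/-- conjugation transports twins. -/
theorem tw_conj (hD : Cfsg.IsRootInvolutionSet D) {a b : G} (g : G) (h : Tw D a b) :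
    Tw D (g * a * g⁻¹) (g * b * g⁻¹) := by
  ext y
  have e : y = g * (g⁻¹ * y * g) * g⁻¹ := by group
  rw [e, mem_odd_conj_iff hD, mem_odd_conj_iff hD, h]

end basic

/-! ## The exact statements of the pieces -/

/-- C1: if `d` commutes with `t` then `d` is not an odd partner of a `V`-conjugate of `t`. -/
def StC1 : Prop :=
  ∀ {G : Type u} [Group G] {D : Set G}, Cfsg.IsRootInvolutionSet D →
    ∀ {t d y : G}, t ∈ D → d ∈ D → y ∈ D → t * d = d * t → orderOf (t * y) = 4 →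
      ¬ (d ≠ y * t * y⁻¹ ∧ Odd (orderOf (y * t * y⁻¹ * d)))

/-- CARD: inclusion of odd-partner sets is equality (all members are conjugate, `G` finite). -/
def StCard : Prop :=
  ∀ {G : Type u} [Group G] [Finite G] {D : Set G}, Cfsg.IsRootInvolutionSet D →
    Cfsg.IsConnectedSet (Cfsg.OddAdj D) D →
    ∀ {a b : G}, a ∈ D → b ∈ D → Cfsg.oddPartners D a ⊆ Cfsg.oddPartners D b → Tw D a b

/-- 4GL: the product of two different commuting twins, if in `D`, is a twin of them. -/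
def St4GL : Prop :=
  ∀ {G : Type u} [Group G] [Finite G] {D : Set G}, Cfsg.IsRootInvolutionSet D →
    Cfsg.IsConnectedSet (Cfsg.OddAdj D) D →
    ∀ {a b : G}, a ∈ D → b ∈ D → Tw D a b → a ≠ b → a * b = b * a → a * b ∈ D → Tw D (a * b) a

/-- FWD: the easy direction. -/
def StFwd : Prop :=
  ∀ {G : Type u} [Group G] {D : Set G}, Cfsg.IsRootInvolutionSet D →
    ∀ {d e f : G}, d ∈ D → e ∈ D → Cfsg.commutingMembers D d = Cfsg.commutingMembers D e →
      f ∈ Cfsg.fourPartners D d → f ∈ Cfsg.commutingMembers D e ∪ Cfsg.fourPartners D e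

/-- TRI: trichotomy. -/
def StTri : Prop :=
  ∀ {G : Type u} [Group G] {D : Set G}, Cfsg.IsRootInvolutionSet D →
    ∀ {d e : G}, d ∈ D → e ∈ D →
      Cfsg.commutingMembers D d ∪ Cfsg.fourPartners D d =
        Cfsg.commutingMembers D e ∪ Cfsg.fourPartners D e → Tw D d e

/-- VODD -/
def StVOdd : Prop :=
  ∀ {G : Type u} [Group G] {D : Set G}, Cfsg.IsRootInvolutionSet D →
    ∀ {x z y r : G}, x ∈ D → z ∈ D → y ∈ D → r ∈ D → x * z = z * x → x ≠ z → x * z ∈ D →
      orderOf (x * y) = 4 → Tw D z r → y ∈ Cfsg.oddPartners D r →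
      orderOf ((x * y) ^ 2 * r) = 4 ∧ ((x * y) ^ 2 * r) ^ 2 ∈ D

/-- COMMCONJ -/
def StCommConj : Prop :=
  ∀ {G : Type u} [Group G] [Finite G] {D : Set G}, Cfsg.IsRootInvolutionSet D →
    Cfsg.IsConnectedSet (Cfsg.OddAdj D) D →
    ∀ {s y r₁ r₂ : G}, s ∈ D → y ∈ D → r₁ ∈ D → r₂ ∈ D → Tw D r₁ r₂ → r₁ * r₂ = r₂ * r₁ →
      orderOf (s * r₁) = 4 → orderOf (s * r₂) = 4 → s ≠ y → s * y = y * s → s * y ∈ D →
      y ∈ Cfsg.oddPartners D r₁ → (s * r₁ * s⁻¹) * r₂ = r₂ * (s * r₁ * s⁻¹)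

/-- TRANS: the normalizer of a twin class is transitive on it. -/
def StTrans : Prop :=
  ∀ {G : Type u} [Group G] {D : Set G}, Cfsg.IsRootInvolutionSet D →
    Cfsg.IsConnectedSet (Cfsg.OddAdj D) D →
    ∀ {r r' : G}, r ∈ D → r' ∈ D → Tw D r r' →
      ∃ g : G, g * r * g⁻¹ = r' ∧ ∀ w, w ∈ D → Tw D w r → Tw D (g * w * g⁻¹) r

/-- TWCOMM: the commutator of two non-commuting twins is a twin. -/
def StTwComm : Prop :=
  ∀ {G : Type u} [Group G] [Finite G] {D : Set G}, Cfsg.IsRootInvolutionSet D →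
    Cfsg.IsConnectedSet (Cfsg.OddAdj D) D →
    ∀ {c w : G}, c ∈ D → w ∈ D → Tw D c w → c * w ≠ w * c →
      orderOf (c * w) = 4 ∧ (c * w) ^ 2 ∈ D ∧ Tw D ((c * w) ^ 2) c

/-- P2: twins commute. -/
def StP2 : Prop :=
  ∀ {G : Type u} [Group G] [Finite G] {D : Set G}, Cfsg.IsRootInvolutionSet D →
    Cfsg.IsConnectedSet (Cfsg.OddAdj D) D →
    ∀ {c w : G}, c ∈ D → w ∈ D → Tw D c w → c * w = w * c

/-- CASEA: the core contradiction. -/
def StCaseA : Prop :=
  ∀ {G : Type u} [Group G] [Finite G] {D : Set G}, Cfsg.IsRootInvolutionSet D →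
    Cfsg.IsConnectedSet (Cfsg.OddAdj D) D →
    ∀ {x e y : G}, x ∈ D → e ∈ D → orderOf (x * e) = 4 → Tw D (x * e * x⁻¹) e →
      y ∈ Cfsg.oddPartners D e → orderOf (x * y) = 4 → False

/-- CENT: twins have the same commuting members. -/
def StCent : Prop :=
  ∀ {G : Type u} [Group G] [Finite G] {D : Set G}, Cfsg.IsRootInvolutionSet D →
    Cfsg.IsConnectedSet (Cfsg.OddAdj D) D →
    ∀ {d e x : G}, d ∈ D → e ∈ D → x ∈ D → Tw D d e → x * d = d * x → x * e = e * x

end Cfsg.Agent.H85.RT
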