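import Mathlib
import Cfsg.Prelude
import Cfsg.Agent.H85.RTDefs

/-!
# S5046: the piece CASEA (helper85)
-/

set_option autoImplicit false

namespace Cfsg.Agent.H85.RT

universe u

open Cfsg.Agent.H40.RootInv

section
variable {G : Type*} [Group G] {D : Set G}

theorem sq_eq_one_of_comm {a b : G} (ha : a * a = 1) (hb : b * b = 1) (h : a * b = b * a) :
    (a * b) ^ 2 = 1 := by
  rw [pow_two]
  calc a * b * (a * b) = a * (b * a) * b := by group
    _ = a * (a * b) * b := by rw [h]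
    _ = (a * a) * (b * b) := by group
    _ = 1 := by rw [ha, hb, one_mul]

/-- the dihedral group of order 8 generated by a `V`-pair. -/
theorem d8_pack (hD : Cfsg.IsRootInvolutionSet D) {a b : G} (ha : a ∈ D) (hb : b ∈ D)
    (h : orderOf (a * b) = 4) :
    ∃ c, c = (a * b) ^ 2 ∧ c ∈ D ∧ c * c = 1 ∧ c * a = a * c ∧ c * b = b * c ∧
      a * c = b * a * b ∧ c * b = a * b * a ∧ c ≠ a ∧ c ≠ b ∧ a * b ≠ b * a ∧ a * c ∈ D ∧
      c * b ∈ D := by
  have haa := sq_of_mem hD ha
  have hbb := sq_of_mem hD hb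
  have hainv : a⁻¹ = a := inv_eq_of_mul_eq_one_left haa
  have hbinv : b⁻¹ = b := inv_eq_of_mul_eq_one_left hbb
  have hp4 : (a * b) ^ 4 = 1 := by rw [← h]; exact pow_orderOf_eq_one _
  have hnc : a * b ≠ b * a := by
    intro hcomm
    have h2 : (a * b) ^ 2 = 1 := sq_eq_one_of_comm haa hbb hcomm
    have := orderOf_dvd_of_pow_eq_one h2
    rw [h] at this
    omega
  have hcD : (a * b) ^ 2 ∈ D := by
    rcases hD.pair a ha b hb with h1 | h1 | h1
    · exact absurd h1 hnc
    · rw [h] at h1; exact absurd h1 (by decide)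
    · exact h1.2
  obtain ⟨d1, d2, d3, d4, d5⟩ := dih8 haa hbb hp4
  refine ⟨(a * b) ^ 2, rfl, hcD, ?_, ?_, ?_, ?_, ?_, ?_, ?_, hnc, ?_, ?_⟩
  · rw [pow_two]; exact d1
  · rw [pow_two, d5, d4]
  · rw [pow_two, d3, d2]
  · rw [pow_two]; exact d4
  · rw [pow_two]; exact d3
  · intro hca
    rw [pow_two] at hca
    have h1 : b * a * b = 1 := by rw [← d4, hca, haa]
    apply ne_one_of_mem hD ha
    calc a = (b * b) * a * (b * b) := by rw [hbb, one_mul, mul_one]
      _ = b * (b * a * b) * b := by group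
      _ = 1 := by rw [h1, mul_one, hbb]
  · intro hcb
    rw [pow_two] at hcb
    have h1 : a * b * a = 1 := by rw [← d3, hcb, hbb]
    apply ne_one_of_mem hD hb
    calc b = (a * a) * b * (a * a) := by rw [haa, one_mul, mul_one]
      _ = a * (a * b * a) * a := by group
      _ = 1 := by rw [h1, mul_one, haa]
  · rw [pow_two, d4]
    have := hD.conj_mem a ha b
    rwa [hbinv] at this
  · rw [pow_two, d3]
    have := hD.conj_mem b hb a
    rwa [hainv] at this

/-- if `y` is an odd partner of `r` then so is `y r y⁻¹`. -/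
theorem conj_mem_odd (hD : Cfsg.IsRootInvolutionSet D) {r y : G} (hr : r ∈ D)
    (hy : y ∈ Cfsg.oddPartners D r) : y * r * y⁻¹ ∈ Cfsg.oddPartners D r := by
  obtain ⟨hyD, hne, hodd⟩ := hy
  have hrr := sq_of_mem hD hr
  have hyy := sq_of_mem hD hyD
  have hyinv : y⁻¹ = y := inv_eq_of_mul_eq_one_left hyy
  have e1 : r * (y * r * y⁻¹) = (r * y) ^ 2 := by rw [hyinv, pow_two]; group
  refine ⟨hD.conj_mem r hr y, ?_, ?_⟩
  · intro h
    have h2 : (r * y) ^ 2 = 1 := by rw [← e1, h, hrr]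
    have h1 : orderOf (r * y) = 1 := odd_dvd_two hodd (orderOf_dvd_of_pow_eq_one h2)
    rw [orderOf_eq_one_iff] at h1
    apply hne
    calc y = r * (r * y) := by rw [← mul_assoc, hrr, one_mul]
      _ = r := by rw [h1, mul_one]
  · rw [e1, Nat.Coprime.orderOf_pow (Nat.coprime_two_right.mpr hodd)]
    exact hodd

end

/-- CASEA -/
theorem caseA (hc1 : StC1.{u}) (h4 : St4GL.{u}) (hv : StVOdd.{u}) (hcc : StCommConj.{u}) :
    StCaseA.{u} := by
  intro G _ _ D hD hc x e y hx he ho4 htwf hy hxy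
  have hyD : y ∈ D := hy.1
  have hxx := sq_of_mem hD hx
  have hee := sq_of_mem hD he
  have hyy := sq_of_mem hD hyD
  have hxinv : x⁻¹ = x := inv_eq_of_mul_eq_one_left hxx
  obtain ⟨z, hz, hzD, hzz, hzx, hze, hxz_eq, hze_eq, hz_ne_x, hz_ne_e, hxe_nc, hxzD, hzeD⟩ :=
    d8_pack hD hx he ho4
  obtain ⟨s, hs, hsD, hss, hsx, hsy, hxs_eq, hsy_eq, hs_ne_x, hs_ne_y, hxy_nc, hxsD, hsyD⟩ :=
    d8_pack hD hx hyD hxy
  have hsinv : s⁻¹ = s := inv_eq_of_mul_eq_one_left hss
  -- f = z * e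
  have hf_eq : x * e * x⁻¹ = z * e := by rw [hxinv, hze_eq]
  rw [hf_eq] at htwf
  have hf_ne : z * e ≠ e := by
    intro h
    apply ne_one_of_mem hD hzD
    calc z = z * e * e := by rw [mul_assoc, hee, mul_one]
      _ = e * e := by rw [h]
      _ = 1 := hee
  have hfe_comm : z * e * e = e * (z * e) := by
    calc z * e * e = e * z * e := by rw [hze]
      _ = e * (z * e) := mul_assoc _ _ _
  have hfe_eq : z * e * e = z := by rw [mul_assoc, hee, mul_one]
  have hfeD : z * e * e ∈ D := by rw [hfe_eq]; exact hzD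
  have htwzf : Tw D z (z * e) := by
    have := h4 hD hc hzeD he htwf hf_ne hfe_comm hfeD
    rwa [hfe_eq] at this
  have htwze : Tw D z e := htwzf.trans htwf
  have hxz : x * z = z * x := hzx.symm
  have hx_ne_z : x ≠ z := fun h => hz_ne_x h.symm
  have hyz : y ∈ Cfsg.oddPartners D z := by rw [htwze]; exact hy
  have hyf : y ∈ Cfsg.oddPartners D (z * e) := by rw [htwf]; exact hy
  -- VODD
  have hse := hv hD hx hzD hyD he hxz hx_ne_z hxzD hxy htwze hy
  have hsz := hv hD hx hzD hyD hzD hxz hx_ne_z hxzD hxy (Tw.refl z) hyz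
  have hsf := hv hD hx hzD hyD hzeD hxz hx_ne_z hxzD hxy htwzf hyf
  rw [← hs] at hse hsz hsf
  obtain ⟨t, ht, htD, htt, hts, hte, hst_eq, hte_eq, ht_ne_s, ht_ne_e, hse_nc, hstD, hteD⟩ :=
    d8_pack hD hsD he hse.1
  -- COMMCONJ
  have hcc1 := hcc hD hc hsD hyD he hzD htwze.symm hze.symm hse.1 hsz.1 hs_ne_y hsy hsyD hy
  rw [hsinv, ← hte_eq] at hcc1
  have htz : t * z = z * t := by
    calc t * z = t * z * e * e := by rw [mul_assoc (t * z), hee, mul_one]
      _ = t * e * z * e := by rw [mul_assoc t z e, hze, ← mul_assoc]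
      _ = z * (t * e) * e := by rw [hcc1]
      _ = z * t := by rw [mul_assoc z, mul_assoc t, hee, mul_one]
  -- (x s f)^2 = t z
  have hxsf_sq : (x * s * (z * e)) ^ 2 = t * z := by
    have e1 : x * s * (z * e) * x = s * e := by
      calc x * s * (z * e) * x = x * s * (x * e * x) * x := by rw [hze_eq]
        _ = (x * s) * x * e * (x * x) := by group
        _ = (s * x) * x * e * (x * x) := by rw [← hsx]
        _ = s * (x * x) * e * (x * x) := by group
        _ = s * e := by rw [hxx, mul_one, mul_one]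
    calc (x * s * (z * e)) ^ 2 = (x * s * (z * e) * x) * s * (z * e) := by rw [pow_two]; group
      _ = s * e * s * (z * e) := by rw [e1]
      _ = t * e * (z * e) := by rw [hte_eq]
      _ = t * (e * z) * e := by group
      _ = t * (z * e) * e := by rw [hze]
      _ = t * z * (e * e) := by group
      _ = t * z := by rw [hee, mul_one]
  have htz_ne : t * z ≠ 1 := by
    intro h
    have htz' : t = z := by
      calc t = t * z * z := by rw [mul_assoc, hzz, mul_one]
        _ = z := by rw [h, one_mul]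
    obtain ⟨c, -, -, -, -, -, -, -, -, -, hnc, -, -⟩ := d8_pack hD hsD hzD hsz.1
    apply hnc
    rw [← htz']; exact hts.symm
  have hxs2 : (x * s) * (x * s) = 1 := sq_of_mem hD hxsD
  have hff : (z * e) * (z * e) = 1 := sq_of_mem hD hzeD
  have hxsf : orderOf (x * s * (z * e)) = 4 ∧ (x * s * (z * e)) ^ 2 ∈ D := by
    rcases hD.pair (x * s) hxsD (z * e) hzeD with h | h | h
    · exfalso
      apply htz_ne
      rw [← hxsf_sq]
      exact sq_eq_one_of_comm hxs2 hff h
    · exfalso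
      have hfne : z * e ≠ x * s := by
        intro h'
        apply htz_ne
        rw [← hxsf_sq, ← h', hff, one_pow]
      rcases Cfsg.Agent.H85.RI.nsa hD
        (fun u v x hu hv huv hne huvD hx hxu hodd =>
          Cfsg.Agent.H85.RI.b1 hD hu hv huv hne huvD hx hxu hodd)
        hx hsD hsx.symm (fun h => hs_ne_x h.symm) hxsD hzeD hfne h with ⟨_, h1⟩ | ⟨_, h1⟩
      · have e2 : x * (z * e) = e * x := by
          rw [hze_eq]
          calc x * (x * e * x) = (x * x) * e * x := by group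
            _ = e * x := by rw [hxx, one_mul]
        rw [e2, orderOf_mul_comm', ho4] at h1
        exact absurd h1 (by decide)
      · rw [hsf.1] at h1
        exact absurd h1 (by decide)
    · exact h
  have htzD : t * z ∈ D := by rw [← hxsf_sq]; exact hxsf.2
  -- y₁ = y f y⁻¹
  have hy1f : y * (z * e) * y⁻¹ ∈ Cfsg.oddPartners D (z * e) := conj_mem_odd hD hzeD hyf
  have hy1e : y * (z * e) * y⁻¹ ∈ Cfsg.oddPartners D e := by rw [← htwf]; exact hy1f
  have hy1D : y * (z * e) * y⁻¹ ∈ D := hy1e.1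
  have hxy1_eq : x * (y * (z * e) * y⁻¹) = y * (x * s * (z * e)) * y⁻¹ := by
    rw [hxs_eq]
    calc x * (y * (z * e) * y⁻¹) = (y * y) * x * (y * (z * e) * y⁻¹) := by rw [hyy, one_mul]
      _ = y * (y * x * y * (z * e)) * y⁻¹ := by group
  have hxy1 : orderOf (x * (y * (z * e) * y⁻¹)) = 4 := by
    rw [hxy1_eq, orderOf_conj']; exact hxsf.1
  have hxy1_sq : (x * (y * (z * e) * y⁻¹)) ^ 2 = y * (t * z) * y⁻¹ := by
    rw [hxy1_eq, conj_pow, hxsf_sq]
  have hv1 := hv hD hx hzD hy1D he hxz hx_ne_z hxzD hxy1 htwze hy1e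
  rw [hxy1_sq] at hv1
  -- the four-group y {t, tz, z} y⁻¹ against e
  have hyzy : y * z * y⁻¹ ∈ Cfsg.oddPartners D e := by
    rw [← htwze]; exact conj_mem_odd hD hzD hyz
  have huv_eq : y * t * y⁻¹ * (y * (t * z) * y⁻¹) = y * z * y⁻¹ := by
    calc y * t * y⁻¹ * (y * (t * z) * y⁻¹) = y * (t * t) * z * y⁻¹ := by group
      _ = y * z * y⁻¹ := by rw [htt, mul_one]
  have hvu_eq : y * (t * z) * y⁻¹ * (y * t * y⁻¹) = y * z * y⁻¹ := by
    calc y * (t * z) * y⁻¹ * (y * t * y⁻¹) = y * (t * z) * t * y⁻¹ := by group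
      _ = y * (z * t) * t * y⁻¹ := by rw [htz]
      _ = y * z * (t * t) * y⁻¹ := by group
      _ = y * z * y⁻¹ := by rw [htt, mul_one]
  have hu_D : y * t * y⁻¹ ∈ D := hD.conj_mem t htD y
  have hv_D : y * (t * z) * y⁻¹ ∈ D := hD.conj_mem _ htzD y
  have huv_ne : y * t * y⁻¹ ≠ y * (t * z) * y⁻¹ := by
    intro h
    apply ne_one_of_mem hD hzD
    have h' : t = t * z := by
      have h'' := congrArg (fun g => y⁻¹ * g * y) h
      simpa [mul_assoc] using h''
    calc z = t * (t * z) := by rw [← mul_assoc, htt, one_mul]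
      _ = t * t := by rw [← h']
      _ = 1 := htt
  have hodd5 : Odd (orderOf (y * t * y⁻¹ * (y * (t * z) * y⁻¹) * e)) := by
    rw [huv_eq, orderOf_mul_comm']; exact hyzy.2.2
  have hne5 : e ≠ y * t * y⁻¹ * (y * (t * z) * y⁻¹) := by
    rw [huv_eq]; exact fun h => hyzy.2.1 h.symm
  have huvD5 : y * t * y⁻¹ * (y * (t * z) * y⁻¹) ∈ D := by rw [huv_eq]; exact hyzy.1
  have hcomm5 : y * t * y⁻¹ * (y * (t * z) * y⁻¹) = y * (t * z) * y⁻¹ * (y * t * y⁻¹) := by
    rw [huv_eq, hvu_eq]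
  have h5 : e ≠ y * t * y⁻¹ ∧ Odd (orderOf (y * t * y⁻¹ * e)) := by
    rcases Cfsg.Agent.H85.RI.nsa hD
      (fun u v x hu hv huv hne huvD hx hxu hodd =>
        Cfsg.Agent.H85.RI.b1 hD hu hv huv hne huvD hx hxu hodd)
      hu_D hv_D hcomm5 huv_ne huvD5 he hne5 hodd5 with h | h
    · exact h
    · exfalso
      have h2 := h.2
      rw [hv1.1] at h2
      exact absurd h2 (by decide)
  -- o(t y) = 4
  have hty4 : orderOf (t * y) = 4 := by
    rcases hD.pair t htD y hyD with h | h | h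
    · exfalso
      exact hy.2.1 (Cfsg.Agent.H85.RI.b1 hD htD he hte ht_ne_e hteD hyD h.symm hy.2.2)
    · exfalso
      have hty : t = y := Cfsg.Agent.H85.RI.b1 hD hsD hyD hsy hs_ne_y hsyD htD hts
        (by rw [orderOf_mul_comm']; exact h)
      have hye : e * y = y * e := by rw [← hty]; exact hte.symm
      have h2 : (e * y) ^ 2 = 1 := sq_eq_one_of_comm hee hyy hye
      have h1 : orderOf (e * y) = 1 := odd_dvd_two hy.2.2 (orderOf_dvd_of_pow_eq_one h2)
      rw [orderOf_eq_one_iff] at h1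
      apply hy.2.1
      calc y = e * (e * y) := by rw [← mul_assoc, hee, one_mul]
        _ = e := by rw [h1, mul_one]
    · exact h.1
  exact hc1 hD htD he hyD hte hty4 h5

end Cfsg.Agent.H85.RT
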