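import Mathlib
import Cfsg.Prelude
import Cfsg.Agent.H85.RTDefs
import Cfsg.Agent.H85.RTCaseA

/-!
# S5047 (Timmesfeld: a ∈ D, b ∈ X_a − E_a ⟹ some x ∈ V_b has o(a x) = 3) — definitions and the exact
statements of the team pieces (helper85).
-/

set_option autoImplicit false

namespace Cfsg.Agent.H85.RX

open Cfsg.Agent.H85.RT

universe u

/-- `S(a, x)`: the members `g ≠ a` of `D` commuting with `a`, with `g a ∈ D` and `o(g x) = 4`. -/
def SS {G : Type*} [Group G] (D : Set G) (a x : G) : Set G :=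
  {g | g ∈ D ∧ g * a = a * g ∧ g ≠ a ∧ g * a ∈ D ∧ orderOf (g * x) = 4}

/-- `Φ(g) = ((g x)² a)²`. -/
def Phi {G : Type*} [Group G] (a x g : G) : G := ((g * x) ^ 2 * a) ^ 2

/-- ODDMUL: an involution `w` commuting with `u`, with `u` and `w u` both of odd order, is trivial. -/
def StOddMul : Prop :=
  ∀ {G : Type u} [Group G] {u w : G}, w * w = 1 → w * u = u * w → Odd (orderOf u) →
    Odd (orderOf (w * u)) → w = 1

/-- PHIMEM: `Φ` maps `S(a, x)` into itself. -/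
def StPhiMem : Prop :=
  ∀ {G : Type u} [Group G] {D : Set G}, Cfsg.IsRootInvolutionSet D →
    ∀ {a x g : G}, a ∈ D → x ∈ Cfsg.oddPartners D a → g ∈ SS D a x → Phi a x g ∈ SS D a x

/-- INJA: `Φ(g₁) = Φ(g₂)` forces `(g₁ x)² = (g₂ x)²`. -/
def StInjA : Prop :=
  ∀ {G : Type u} [Group G] {D : Set G}, Cfsg.IsRootInvolutionSet D →
    ∀ {a x g₁ g₂ : G}, a ∈ D → x ∈ Cfsg.oddPartners D a → g₁ ∈ SS D a x → g₂ ∈ SS D a x →
      Phi a x g₁ = Phi a x g₂ → (g₁ * x) ^ 2 = (g₂ * x) ^ 2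

/-- INJB: `(g₁ x)² = (g₂ x)²` forces `g₁ = g₂`. -/
def StInjB : Prop :=
  ∀ {G : Type u} [Group G] {D : Set G}, Cfsg.IsRootInvolutionSet D →
    ∀ {a x g₁ g₂ : G}, a ∈ D → x ∈ Cfsg.oddPartners D a → g₁ ∈ SS D a x → g₂ ∈ SS D a x →
      (g₁ * x) ^ 2 = (g₂ * x) ^ 2 → g₁ = g₂

/-- CLAIM1: a product partner `b` of `a` which is not a twin of `a` is a commutator `(f a)²`. -/
def StClaim1 : Prop :=
  ∀ {G : Type u} [Group G] [Finite G] {D : Set G}, Cfsg.IsRootInvolutionSet D →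
    Cfsg.IsConnectedSet (Cfsg.OddAdj D) D →
    ∀ {a b : G}, a ∈ D → b ∈ D → b ≠ a → b * a = a * b → b * a ∈ D → ¬ Tw D a b →
      ∃ f ∈ D, (f * a) ^ 2 = b

/-- S4: the `S₄`-configuration forces order `3`. -/
def StS4 : Prop :=
  ∀ {G : Type u} [Group G] {D : Set G}, Cfsg.IsRootInvolutionSet D →
    ∀ {a b f x : G}, a ∈ D → b ∈ D → f ∈ D → x ∈ D → b * a = a * b → b * a ∈ D →
      (f * a) ^ 2 = b → (x * b) ^ 2 = f → orderOf (a * x) = 3

end Cfsg.Agent.H85.RX
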