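import Mathlib
import Cfsg.Agent.H49.PtDefs
import Cfsg.Agent.H77.TmDefs2

/-!
# S5973-EXEVEN sub-tree (helper85, for helper49's S5973 project): piece statements

Target: `Cfsg.Agent.H49.Pt.StExEven` (elements of `Ω⁺_{2d}(q)` of odd prime order `r ≠ p`,
`i = ord_r(q)` even, with `A` blocks spread evenly over the types).  All pieces below are
form-type-free (abstract quadratic spaces) except `StTransP`.
-/

set_option autoImplicit false
open scoped MatrixGroups
open scoped Matrix

namespace Cfsg.Agent.H85.PtEx

open Cfsg.Agent.H45 Cfsg.Agent.H42.Ti Cfsg.Agent.H77.Tq Cfsg.Agent.H77.Tm Module Polynomial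

universe u

/-- EX-MODALL (= X4 of board post 7554): for `i` even and any multiplicities, an abstract
quadratic space with a fixed-point-free isometry of order `r` whose `φ`-primary parts have the
prescribed dimensions `i * mult φ`. -/
def StModAllQ : Prop :=
  ∀ (F : Type u) [Field F] [Fintype F] (p : ℕ) [Fact p.Prime] [CharP F p] (r : ℕ), r.Prime →
    r ≠ 2 → r ≠ p → Even (ii F r) → ∀ Φs : Finset F[X], IsCycSet F r Φs → ∀ mult : F[X] → ℕ,
    ∃ (V : Type u) (_ : AddCommGroup V) (_ : Module F V) (_ : FiniteDimensional F V)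
      (Q : QuadraticForm F V) (g : Module.End F V),
      QCtx r Q g ∧ Module.finrank F V = ii F r * ∑ φ ∈ Φs, mult φ ∧
      LinearMap.ker (g - 1) = ⊥ ∧
      ∀ φ ∈ Φs, Module.finrank F ↥(LinearMap.ker (aeval g φ)) = ii F r * mult φ

/-- EX-ANISOEX: every finite field has an anisotropic binary form `x² + a x y + b y²`. -/
def StAnisoEx : Prop :=
  ∀ (F : Type u) [Field F] [Fintype F], ∃ a b : F, Aniso a b

/-- EX-TRANSP: a nondegenerate quadratic space of dimension `2 d` with a totally singular
subspace of dimension `d` is isometric to the standard plus-type space. -/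
def StTransP : Prop :=
  ∀ (F : Type u) [Field F] [Fintype F] (V : Type u) [AddCommGroup V] [Module F V]
    [FiniteDimensional F V] (Q : QuadraticForm F V) (d : ℕ),
    (∀ x, (∀ y, QuadraticMap.polar ⇑Q x y = 0) → x = 0) → Module.finrank F V = 2 * d →
    (∃ M : Submodule F V, TS Q M ∧ Module.finrank F ↥M = d) →
    ∃ e : V ≃ₗ[F] (Fin d ⊕ Fin d → F), ∀ v, Cfsg.quadFormPlus d F (e v) = Q v

/-- EX-PRODFIX: the orthogonal sum of a fixed-point-free model `(V, Q, g)` and a nondegenerate
space `(C, QC)` with the identity: again a `QCtx`, fixed space of dimension `dim C`, and the same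
`φ`-primary dimensions for every divisor `φ` of the `r`-th cyclotomic polynomial. -/
def StProdFix : Prop :=
  ∀ (F : Type u) [Field F] [Fintype F] (V : Type u) [AddCommGroup V] [Module F V]
    [FiniteDimensional F V] (C : Type u) [AddCommGroup C] [Module F C] [FiniteDimensional F C]
    (r : ℕ) (Q : QuadraticForm F V) (g : Module.End F V) (QC : QuadraticForm F C),
    QCtx r Q g → LinearMap.ker (g - 1) = ⊥ →
    (∀ x, (∀ y, QuadraticMap.polar ⇑QC x y = 0) → x = 0) →
    QCtx r (Q.prod QC) (g.prodMap (1 : Module.End F C) : Module.End F (V × C)) ∧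
    Module.finrank F ↥(LinearMap.ker
      ((g.prodMap (1 : Module.End F C) : Module.End F (V × C)) - 1)) = Module.finrank F C ∧
    ∀ φ : F[X], φ ∣ cyclotomic r F →
      Module.finrank F ↥(LinearMap.ker
        (aeval (g.prodMap (1 : Module.End F C) : Module.End F (V × C)) φ)) =
        Module.finrank F ↥(LinearMap.ker (aeval g φ))

/-- EX-TSPROD: the product of two totally singular subspaces is totally singular in the
orthogonal sum, and dimensions add. -/
def StTsProd : Prop :=
  ∀ (F : Type u) [Field F] (V : Type u) [AddCommGroup V] [Module F V] [FiniteDimensional F V]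
    (C : Type u) [AddCommGroup C] [Module F C] [FiniteDimensional F C]
    (Q : QuadraticForm F V) (QC : QuadraticForm F C) (L : Submodule F V) (N : Submodule F C),
    TS Q L → TS QC N →
    TS (Q.prod QC) (L.prod N) ∧
      Module.finrank F ↥(L.prod N) = Module.finrank F ↥L + Module.finrank F ↥N

/-- EX-MINUSPROD: the orthogonal sum of two nondegenerate even-dimensional spaces without
totally singular subspaces of half dimension has a totally singular subspace of half
dimension (product-space form of `Cfsg.Agent.H77.Tm.StMinusSum`). -/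
def StMinusProd : Prop :=
  ∀ (F : Type u) [Field F] [Fintype F] (V : Type u) [AddCommGroup V] [Module F V]
    [FiniteDimensional F V] (C : Type u) [AddCommGroup C] [Module F C] [FiniteDimensional F C]
    (Q : QuadraticForm F V) (QC : QuadraticForm F C) (e₁ e₂ : ℕ),
    (∀ x, (∀ y, QuadraticMap.polar ⇑Q x y = 0) → x = 0) →
    (∀ x, (∀ y, QuadraticMap.polar ⇑QC x y = 0) → x = 0) →
    Module.finrank F V = 2 * e₁ → Module.finrank F C = 2 * e₂ →
    (∀ U : Submodule F V, TS Q U → Module.finrank F ↥U < e₁) →
    (∀ U : Submodule F C, TS QC U → Module.finrank F ↥U < e₂) →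
    ∃ M : Submodule F (V × C), TS (Q.prod QC) M ∧ Module.finrank F ↥M = e₁ + e₂

/-- EX-TOMAT: an isometry `g` of finite order of an abstract space isometric (via `e`) to a
coordinate space `(ι → F, Q')` gives a matrix `x` in the isometry group of `Q'` with the same
order bound, the same kernel dimensions, and `x` scalar only if `g` is. -/
def StToMat : Prop :=
  ∀ (F : Type u) [Field F] [Fintype F] (ι : Type) [Fintype ι] [DecidableEq ι] (V : Type u)
    [AddCommGroup V] [Module F V] [FiniteDimensional F V] (Q : QuadraticForm F V)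
    (g : Module.End F V) (Q' : (ι → F) → F) (e : V ≃ₗ[F] (ι → F)) (r : ℕ),
    0 < r → (∀ v, Q' (e v) = Q v) → (∀ x, Q (g x) = Q x) → g ^ r = 1 →
    ∃ x : GL ι F, x ∈ Cfsg.isometryGroup F Q' ∧ x ^ r = 1 ∧
      Module.finrank F ↥(LinearMap.ker (Matrix.toLin' (x : Matrix ι ι F) - 1)) =
        Module.finrank F ↥(LinearMap.ker (g - 1)) ∧
      (∀ φ : F[X],
        Module.finrank F ↥(LinearMap.ker (aeval (Matrix.toLin' (x : Matrix ι ι F)) φ)) =
          Module.finrank F ↥(LinearMap.ker (aeval g φ))) ∧
      ∀ z : F, (x : Matrix ι ι F) = z • (1 : Matrix ι ι F) → g = z • (1 : Module.End F V)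

/-- EX-NONSCAL: for `i = ord_r(q)` even, an endomorphism with `g ^ r = 1` whose fixed space is
proper is not a scalar. -/
def StNonScal : Prop :=
  ∀ (F : Type u) [Field F] [Fintype F] (V : Type u) [AddCommGroup V] [Module F V]
    [FiniteDimensional F V] (r : ℕ) (g : Module.End F V) (z : F),
    r.Prime → Even (ii F r) → g ^ r = 1 →
    Module.finrank F ↥(LinearMap.ker (g - 1)) < Module.finrank F V →
    g ≠ z • (1 : Module.End F V)

end Cfsg.Agent.H85.PtEx
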