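import Mathlib
import Cfsg.Agent.H85.PtExDefs
import Cfsg.Agent.H49.InvOmega
import Cfsg.Agent.H72.TiSpread

/-!
# S5973-EXEVEN (helper85, for helper49's S5973 project): assembly

`exEven` : `Cfsg.Agent.H49.Pt.StExEven` from the piece statements of `H85/PtExDefs.lean`,
helper61's abstract models (`StModAllQ`) and helper77's generic `StTypeU`, `StOddMemAll`.
-/

set_option autoImplicit false
open scoped MatrixGroups
open scoped Matrix

namespace Cfsg.Agent.H85.PtEx

open Cfsg.Agent.H45 Cfsg.Agent.H42.Ti Cfsg.Agent.H77.Tq Cfsg.Agent.H77.Tm Module Polynomial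

universe u

theorem exEven (hC : StCycSet.{u}) (hAll : StModAllQ.{u}) (hAE : StAnisoEx.{u})
    (hTr : StTransP.{u}) (hPF : StProdFix.{u}) (hTP : StTsProd.{u}) (hMP : StMinusProd.{u})
    (hTM : StToMat.{u}) (hNS : StNonScal.{u}) (hTU : StTypeU.{u, u}) (hOM : StOddMemAll.{u}) :
    Cfsg.Agent.H49.Pt.StExEven.{u} := by
  classical
  intro F _ _ p _ _ d r hd hr hr2 hrp hev Φs hΦ A hA hAo hAe
  have hrF : (r : F) ≠ 0 := by
    intro h
    have h1 : p ∣ r := (CharP.cast_eq_zero_iff F p r).1 h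
    have hp : p.Prime := Fact.out
    exact hrp ((Nat.prime_dvd_prime_iff_eq hp hr).1 h1).symm
  obtain ⟨hcard, -, -⟩ := (hC F r hr hrF).2 Φs hΦ
  have hr3 : 3 ≤ r := by
    have := hr.two_le
    omega
  have hi0 : 0 < ii F r := by
    rcases Nat.eq_zero_or_pos (ii F r) with h | h
    · rw [h, mul_zero] at hcard
      omega
    · exact h
  have hc0 : 0 < Φs.card := by
    rcases Nat.eq_zero_or_pos Φs.card with h | h
    · rw [h, zero_mul] at hcard
      omega
    · exact h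
  have ht : (r - 1) / ii F r = Φs.card := by
    rw [← hcard, Nat.mul_div_cancel _ hi0]
  obtain ⟨mult, hm1, hm2⟩ := Cfsg.Agent.H72.Ti.tiSpread F[X] Φs A hc0
  obtain ⟨V, _, _, _, Q, g, hQ, hfin, hker, hφ⟩ := hAll F p r hr hr2 hrp hev Φs hΦ mult
  rw [hm1] at hfin
  obtain ⟨h, hh⟩ := hev
  have hh2 : ii F r / 2 = h := by omega
  have hiA : ii F r * A = 2 * (h * A) := by rw [hh]; ring
  have hiApos : 0 < ii F r * A := Nat.mul_pos hi0 hA
  have hrange : LinearMap.range (g - 1) = ⊤ := LinearMap.ker_eq_bot_iff_range_eq_top.mp hker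
  have hfr : Module.finrank F ↥(LinearMap.range (g - 1)) = ii F r * A := by
    rw [hrange, finrank_top, hfin]
  obtain ⟨hTUe, hTUo⟩ := hTU F V r Q g hQ ⟨h, hh⟩ A hfr
  -- the common part: a nondegenerate complement `C` and a totally singular subspace of dimension `d`
  have main : ∀ (C : Type u) [AddCommGroup C] [Module F C] [FiniteDimensional F C]
      (QC : QuadraticForm F C), (∀ x, (∀ y, QuadraticMap.polar ⇑QC x y = 0) → x = 0) →
      Module.finrank F C + ii F r * A = 2 * d →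
      (∃ M : Submodule F (V × C), TS (Q.prod QC) M ∧ Module.finrank F ↥M = d) →
      ∃ x : GL (Fin d ⊕ Fin d) F, x ∈ Cfsg.Geo.omegaGL (Cfsg.quadFormPlus d F) ∧ x ^ r = 1 ∧
        Cfsg.Agent.H49.Pt.fixDim d x + ii F r * A = 2 * d ∧
        (∀ z : F, (x : Matrix (Fin d ⊕ Fin d) (Fin d ⊕ Fin d) F) ≠
          z • (1 : Matrix (Fin d ⊕ Fin d) (Fin d ⊕ Fin d) F)) ∧
        Cfsg.Agent.H49.Pt.sDim d r Φs x ≤
          if A ≤ (r - 1) / ii F r then 0 else (A - (r - 1) / ii F r + 1) / 2 := by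
    intro C _ _ _ QC hQC hfC hM
    obtain ⟨hctx, hk1, hk2⟩ := hPF F V C r Q g QC hQ hker hQC
    have hfV0 : Module.finrank F (V × C) = 2 * d := by
      rw [Module.finrank_prod, hfin]
      omega
    obtain ⟨e, he⟩ := hTr F (V × C) (Q.prod QC) d hctx.nondeg hfV0 hM
    obtain ⟨x, hx1, hx2, hx3, hx4, hx5⟩ := hTM F (Fin d ⊕ Fin d) (V × C) (Q.prod QC)
      (g.prodMap (1 : Module.End F C) : Module.End F (V × C)) (Cfsg.quadFormPlus d F) e r
      hr.pos he hctx.isom hctx.pow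
    refine ⟨x, ?_, hx2, ?_, ?_, ?_⟩
    · have h5 : 5 ≤ Fintype.card (Fin d ⊕ Fin d) := by
        rw [Fintype.card_sum, Fintype.card_fin]
        omega
      exact hOM F (Fin d ⊕ Fin d) (Cfsg.Agent.H49.QP d F) (Cfsg.Agent.H49.QP_nondeg d F) h5 x r
        hx1 (hr.odd_of_ne_two hr2) hx2
    · show Module.finrank F ↥(LinearMap.ker (Matrix.toLin'
        (x : Matrix (Fin d ⊕ Fin d) (Fin d ⊕ Fin d) F) - 1)) + ii F r * A = 2 * d
      rw [hx3, hk1]
      exact hfC
    · intro z hz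
      refine hNS F (V × C) r (g.prodMap (1 : Module.End F C) : Module.End F (V × C)) z hr
        ⟨h, hh⟩ hctx.pow ?_ (hx5 z hz)
      rw [hk1, hfV0]
      omega
    · show ∑ φ ∈ Φs, Module.finrank F ↥(LinearMap.ker (aeval (Matrix.toLin'
        (x : Matrix (Fin d ⊕ Fin d) (Fin d ⊕ Fin d) F)) φ)) / (2 * ii F r) ≤ _
      rw [ht]
      refine le_trans (le_of_eq ?_) hm2
      apply Finset.sum_congr rfl
      intro φ hφm
      rw [hx4 φ, hk2 φ ((hΦ φ).1 hφm).2.2, hφ φ hφm, Nat.mul_comm 2 (ii F r)]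
      exact Nat.mul_div_mul_left _ _ hi0
  rcases Nat.even_or_odd A with hAev | hAodd
  · -- `A` even: complement of plus type
    have hle : h * A ≤ d := by
      have := hAe hAev
      rw [hh2] at this
      exact this
    obtain ⟨e, he⟩ : ∃ e : ℕ, h * A + e = d := ⟨d - h * A, by omega⟩
    refine main (Fin e ⊕ Fin e → F) (Cfsg.Agent.H49.QP e F)
      (fun x hx => (Cfsg.Agent.H49.QP_nondeg e F).1 x hx) ?_ ?_
    · rw [Cfsg.Agent.H49.finrank_plus e F]
      omega
    · obtain ⟨L, -, hLts, hLf⟩ := hTUe hAev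
      obtain ⟨hts, hf⟩ := hTP F V (Fin e ⊕ Fin e → F) Q (Cfsg.Agent.H49.QP e F) L
        (Cfsg.Agent.H49.U0 e F) hLts (fun u hu => Cfsg.Agent.H49.U0_ts e F u hu)
      refine ⟨L.prod (Cfsg.Agent.H49.U0 e F), hts, ?_⟩
      rw [hf, Cfsg.Agent.H49.finrank_U0 e F]
      rw [hfr] at hLf
      omega
  · -- `A` odd: complement of minus type
    have hle : h * A + 1 ≤ d := by
      have := hAo hAodd
      rw [hh2] at this
      exact this
    obtain ⟨k, hk⟩ : ∃ k : ℕ, h * A + (k + 1) = d := ⟨d - h * A - 1, by omega⟩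
    obtain ⟨a, b, hab⟩ := hAE F
    have hdisc : a ^ 2 - 4 * b ≠ 0 := Cfsg.Agent.H49.disc_ne_zero_of_aniso a b hab
    refine main ((Fin k ⊕ Fin k) ⊕ Fin 2 → F) (Cfsg.Agent.H49.QMin k F a b)
      (fun x hx => (Cfsg.Agent.H49.QMin_nondeg k a b hdisc).1 x hx) ?_ ?_
    · rw [Cfsg.Agent.H49.finrank_minus k]
      omega
    · have h1 : ∀ U : Submodule F V, TS Q U → Module.finrank F ↥U < h * A := by
        intro U hU
        have := hTUo hAodd U (by rw [hrange]; exact le_top) hU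
        rw [hfr] at this
        omega
      have h2 : ∀ U : Submodule F ((Fin k ⊕ Fin k) ⊕ Fin 2 → F),
          TS (Cfsg.Agent.H49.QMin k F a b) U → Module.finrank F ↥U < k + 1 := by
        intro U hU
        have := Cfsg.Agent.H49.QMin_ts_le k a b hab hdisc U (fun u hu => hU u hu)
        omega
      obtain ⟨M, hM1, hM2⟩ := hMP F V ((Fin k ⊕ Fin k) ⊕ Fin 2 → F) Q
        (Cfsg.Agent.H49.QMin k F a b) (h * A) (k + 1) hQ.nondeg
        (fun x hx => (Cfsg.Agent.H49.QMin_nondeg k a b hdisc).1 x hx)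
        (by rw [hfin, hiA]) (Cfsg.Agent.H49.finrank_minus k) h1 h2
      exact ⟨M, hM1, by rw [hM2]; exact hk⟩

example (hC : Cfsg.Agent.H42.Ti.StCycSet.{u}) (hAll : StModAllQ.{u}) (hAE : StAnisoEx.{u})
    (hTr : StTransP.{u}) (hPF : StProdFix.{u}) (hTP : StTsProd.{u}) (hMP : StMinusProd.{u})
    (hTM : StToMat.{u}) (hNS : StNonScal.{u}) (hTU : Cfsg.Agent.H77.Tm.StTypeU.{u, u})
    (hOM : Cfsg.Agent.H77.Tm.StOddMemAll.{u}) : Cfsg.Agent.H49.Pt.StExEven.{u} :=
  exEven hC hAll hAE hTr hPF hTP hMP hTM hNS hTU hOM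

end Cfsg.Agent.H85.PtEx

#print axioms Cfsg.Agent.H85.PtEx.exEven
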