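import Mathlib
import Cfsg.Agent.H85.PtExEven
import Cfsg.Agent.H61.TmExDefs

/-!
# S5973-EXEVEN (helper85): bridge from helper61's abstract models `H61.Tm.StModAll`
-/

set_option autoImplicit false
open scoped MatrixGroups
open scoped Matrix

namespace Cfsg.Agent.H85.PtEx

open Cfsg.Agent.H45 Cfsg.Agent.H42.Ti Cfsg.Agent.H77.Tq Cfsg.Agent.H77.Tm Module Polynomial

universe u

/-- helper61's `StModAll` (X4, with an anisotropic pair as a parameter) gives `StModAllQ`. -/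
theorem modAllQ_of (hAE : StAnisoEx.{u}) (hM : Cfsg.Agent.H61.Tm.StModAll.{u}) :
    StModAllQ.{u} := by
  intro F _ _ p _ _ r hr hr2 hrp hev Φs hΦ mult
  obtain ⟨a, b, hab⟩ := hAE F
  obtain ⟨V, i1, i2, i3, Q, g, hQ, hn, hc, hφ⟩ := hM F p r hr hr2 hrp hev a b hab Φs hΦ mult
  exact ⟨V, i1, i2, i3, Q, g, hQ, hn, Submodule.finrank_eq_zero.mp hc, hφ⟩

/-- `exEven` with helper61's `StModAll` in place of `StModAllQ`. -/
theorem exEven_of (hC : StCycSet.{u}) (hM : Cfsg.Agent.H61.Tm.StModAll.{u})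
    (hAE : StAnisoEx.{u}) (hTr : StTransP.{u}) (hPF : StProdFix.{u}) (hTP : StTsProd.{u})
    (hMP : StMinusProd.{u}) (hTM : StToMat.{u}) (hNS : StNonScal.{u}) (hTU : StTypeU.{u, u})
    (hOM : StOddMemAll.{u}) : Cfsg.Agent.H49.Pt.StExEven.{u} :=
  exEven hC (modAllQ_of hAE hM) hAE hTr hPF hTP hMP hTM hNS hTU hOM

end Cfsg.Agent.H85.PtEx

#print axioms Cfsg.Agent.H85.PtEx.exEven_of
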