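import Mathlib
import Cfsg.Agent.H90.BG134Defs

set_option autoImplicit false

/-!
# S1428-FROBAB (helper85): the norm / partition argument for a Frobenius-like action

`frobAb_strong`: `B/A` abelian of order prime to `|Q|`, `Q` and `R` act, `|R| = r` prime,
`R` normalizes `Q`, `C_Q(R) = 1`, `C_{B/A}(R) = 1`: then `Q` centralizes `B/A`.
`frobAb : StFrobAb G` is the special case `C_{B/A}(Q) = 1`.
-/

namespace Cfsg.Agent.H85.BG134

open Finset

universe u v

/-- Abstract norm / partition argument: `K` acts on the commutative group `V`, `Q ≤ K` finite,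
`t` of prime order `r` normalizes `Q` with `C_Q(t) = 1` and `C_V(t) = 1`.  Then every
`|Q|`-th power in `V` is fixed by `Q`. -/
theorem frob_norm_abs {K : Type u} {V : Type v} [Group K] [CommGroup V]
    (act : K → V →* V) (h1 : ∀ w, act 1 w = w)
    (hmul : ∀ x y w, act (x * y) w = act x (act y w))
    (Q : Subgroup K) [Finite Q] (t : K) (r : ℕ) (hr : r.Prime) (ht : t ^ r = 1)
    (htQ : t ∈ Subgroup.normalizer (Q : Set K))
    (hC : ∀ x ∈ Q, x * t = t * x → x = 1)
    (hV : ∀ w : V, act t w = w → w = 1) (v : V) :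
    ∀ y ∈ Q, act y (v ^ Nat.card Q) = v ^ Nat.card Q := by
  classical
  haveI : Fintype Q := Fintype.ofFinite Q
  have hNR : ∀ w : V, ∏ i ∈ range r, act (t ^ i) w = 1 := by
    intro w
    apply hV
    rw [map_prod]
    have e1 : ∏ i ∈ range r, act t (act (t ^ i) w) = ∏ i ∈ range r, act (t ^ (i + 1)) w := by
      refine Finset.prod_congr rfl fun i _ => ?_
      rw [pow_succ', hmul]
    rw [e1]
    have e2 := Finset.prod_range_succ' (fun i => act (t ^ i) w) r
    have e3 := Finset.prod_range_succ (fun i => act (t ^ i) w) r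
    rw [e2] at e3
    simp only [pow_zero, ht, h1] at e3
    exact mul_right_cancel e3
  have hNQ : ∀ (w : V) (y : K), y ∈ Q →
      act y (∏ x : Q, act (x : K) w) = ∏ x : Q, act (x : K) w := by
    intro w y hy
    rw [map_prod]
    have := Equiv.prod_comp (Equiv.mulLeft (⟨y, hy⟩ : Q)) (fun x : Q => act (x : K) w)
    rw [← this]
    refine Finset.prod_congr rfl fun x _ => ?_
    rw [← hmul]
    rfl
  have htj : ∀ j : ℕ, t ^ j ∈ Subgroup.normalizer (Q : Set K) :=
    fun j => Subgroup.pow_mem _ htQ j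
  have hCj : ∀ j : ℕ, 0 < j → j < r → ∀ x ∈ Q, x * t ^ j = t ^ j * x → x = 1 := by
    intro j hj0 hjr x hx hcomm
    apply hC x hx
    have hcop : Nat.Coprime j r :=
      Nat.Coprime.symm ((Nat.Prime.coprime_iff_not_dvd hr).2 (Nat.not_dvd_of_pos_of_lt hj0 hjr))
    obtain ⟨m, -, hm⟩ := Nat.exists_mul_mod_eq_one_of_coprime hcop hr.one_lt
    have hpow : t ^ (j * m) = t := by
      conv_lhs => rw [← Nat.div_add_mod (j * m) r, pow_add, pow_mul, ht, one_pow, one_mul, hm,
        pow_one]
    have hc : Commute x ((t ^ j) ^ m) := (show Commute x (t ^ j) from hcomm).pow_right m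
    rw [← pow_mul, hpow] at hc
    exact hc
  obtain ⟨r', rfl⟩ : ∃ r', r = r' + 1 := ⟨r - 1, by have := hr.pos; omega⟩
  have hP1 : ∏ x : Q, ∏ i ∈ range (r' + 1), act ((x : K) * t ^ i * (x : K)⁻¹) v = 1 := by
    refine Finset.prod_eq_one fun x _ => ?_
    have : ∏ i ∈ range (r' + 1), act ((x : K) * t ^ i * (x : K)⁻¹) v
        = act (x : K) (∏ i ∈ range (r' + 1), act (t ^ i) (act (x : K)⁻¹ v)) := by
      rw [map_prod]
      refine Finset.prod_congr rfl fun i _ => ?_
      rw [hmul, hmul]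
    rw [this, hNR, map_one]
  have hP2 : ∏ x : Q, ∏ i ∈ range (r' + 1), act ((x : K) * t ^ i * (x : K)⁻¹) v
      = (∏ i ∈ range r', ∏ x : Q, act (x : K) (act (t ^ (i + 1)) v)) * v ^ Fintype.card Q := by
    have hx : ∀ x : Q, ∏ i ∈ range (r' + 1), act ((x : K) * t ^ i * (x : K)⁻¹) v
        = (∏ i ∈ range r', act ((x : K) * t ^ (i + 1) * (x : K)⁻¹) v) * v := by
      intro x
      rw [Finset.prod_range_succ']
      simp [h1]
    simp_rw [hx]
    rw [Finset.prod_mul_distrib, Finset.prod_const, Finset.card_univ, Finset.prod_comm]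
    congr 1
    refine Finset.prod_congr rfl fun i hi => ?_
    have hi' : i + 1 < r' + 1 := by simpa using hi
    set s := t ^ (i + 1) with hs
    let e : Q → Q := fun x => ⟨(x : K) * (s * (x : K)⁻¹ * s⁻¹),
      Q.mul_mem x.2 (((Subgroup.mem_normalizer_iff.1 (htj (i + 1))) _).1 (Q.inv_mem x.2))⟩
    have he : Function.Injective e := by
      intro x y hxy
      have h : (x : K) * (s * (x : K)⁻¹ * s⁻¹) = (y : K) * (s * (y : K)⁻¹ * s⁻¹) :=
        congrArg Subtype.val hxy
      have h' : (x : K) * s * (x : K)⁻¹ = (y : K) * s * (y : K)⁻¹ := by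
        have := congrArg (· * s) h
        simpa [mul_assoc] using this
      have h2 : ((y : K)⁻¹ * x) * s = s * ((y : K)⁻¹ * x) := by
        calc ((y : K)⁻¹ * x) * s = (y : K)⁻¹ * ((x : K) * s * (x : K)⁻¹) * x := by group
          _ = (y : K)⁻¹ * ((y : K) * s * (y : K)⁻¹) * x := by rw [h']
          _ = s * ((y : K)⁻¹ * x) := by group
      have h3 := hCj (i + 1) (Nat.succ_pos i) hi' _ (Q.mul_mem (Q.inv_mem y.2) x.2) h2
      rw [inv_mul_eq_one] at h3
      exact Subtype.ext h3.symm
    have hb : Function.Bijective e := Finite.injective_iff_bijective.1 he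
    rw [← hb.prod_comp (fun x : Q => act (x : K) (act s v))]
    refine Finset.prod_congr rfl fun x _ => ?_
    rw [← hmul]
    congr 1
    simp only [e]
    group
  intro y hy
  have hP : (∏ i ∈ range r', ∏ x : Q, act (x : K) (act (t ^ (i + 1)) v)) * v ^ Fintype.card Q
      = 1 := by rw [← hP2, hP1]
  have hv : v ^ Nat.card Q
      = (∏ i ∈ range r', ∏ x : Q, act (x : K) (act (t ^ (i + 1)) v))⁻¹ := by
    rw [Nat.card_eq_fintype_card]
    exact eq_inv_of_mul_eq_one_right hP
  rw [hv, map_inv, map_prod]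
  congr 1
  exact Finset.prod_congr rfl fun i _ => hNQ _ y hy

/-- A generator of a subgroup of prime order. -/
theorem exists_gen_of_prime_card {G : Type u} [Group G] (R : Subgroup G) (r : ℕ)
    (hr : r.Prime) (hRc : Nat.card R = r) :
    ∃ t ∈ R, t ≠ 1 ∧ t ^ r = 1 ∧ (∀ g ∈ R, ∃ k : ℤ, g = t ^ k) ∧
      ∀ x : G, x * t = t * x → x ∈ Subgroup.centralizer (R : Set G) := by
  haveI : Fact r.Prime := ⟨hr⟩
  haveI : Finite R := Nat.finite_of_card_ne_zero (by rw [hRc]; exact hr.ne_zero)
  obtain ⟨t0, ht0⟩ : ∃ t : R, t ≠ 1 := by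
    haveI : Nontrivial R := Finite.one_lt_card_iff_nontrivial.1 (by rw [hRc]; exact hr.one_lt)
    exact exists_ne 1
  have hgen : Subgroup.zpowers t0 = ⊤ := zpowers_eq_top_of_prime_card hRc ht0
  have hRt : ∀ g ∈ R, ∃ k : ℤ, g = (t0 : G) ^ k := by
    intro g hg
    have hm : (⟨g, hg⟩ : R) ∈ Subgroup.zpowers t0 := by rw [hgen]; trivial
    obtain ⟨k, hk⟩ := Subgroup.mem_zpowers_iff.1 hm
    refine ⟨k, ?_⟩
    have := congrArg Subtype.val hk
    simpa using this.symm
  refine ⟨(t0 : G), t0.2, fun h => ht0 (Subtype.ext h), ?_, hRt, ?_⟩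
  · have h : t0 ^ r = 1 := by rw [← hRc]; exact pow_card_eq_one'
    have := congrArg Subtype.val h
    simpa using this
  · intro x hx
    rw [Subgroup.mem_centralizer_iff]
    intro g hg
    obtain ⟨k, rfl⟩ := hRt g hg
    exact ((show Commute x (t0 : G) from hx).zpow_right k).symm.eq

/-- Strong form of (FROBAB): `Q` centralizes `B/A`. -/
theorem frobAb_strong {G : Type u} [Group G] [Finite G] (A B Q R : Subgroup G) (r : ℕ)
    (hr : r.Prime) (hRc : Nat.card R = r)
    (hBA : B ≤ Subgroup.normalizer (A : Set G)) (hcomm : ⁅B, B⁆ ≤ A)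
    (hQA : Q ≤ Subgroup.normalizer (A : Set G)) (hQB : Q ≤ Subgroup.normalizer (B : Set G))
    (hRA : R ≤ Subgroup.normalizer (A : Set G)) (hRB : R ≤ Subgroup.normalizer (B : Set G))
    (hRQ : R ≤ Subgroup.normalizer (Q : Set G))
    (hQR : Q ⊓ Subgroup.centralizer (R : Set G) = ⊥)
    (hcop : (A.relIndex B).Coprime (Nat.card Q))
    (hfix : ∀ b ∈ B, (∀ g ∈ R, b * g * b⁻¹ * g⁻¹ ∈ A) → b ∈ A) :
    ∀ b ∈ B, ∀ g ∈ Q, b * g * b⁻¹ * g⁻¹ ∈ A := by
  classical
  obtain ⟨t, htR, -, htr, hRt, htc⟩ := exists_gen_of_prime_card R r hr hRc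
  set N : Subgroup G := Subgroup.normalizer (A : Set G) ⊓ Subgroup.normalizer (B : Set G)
    with hN
  haveI hnorm : (A.subgroupOf B).Normal := Subgroup.normal_subgroupOf_of_le_normalizer hBA
  letI instV : CommGroup (↥B ⧸ A.subgroupOf B) :=
    { (inferInstance : Group (↥B ⧸ A.subgroupOf B)) with
      mul_comm := by
        intro a b
        induction a using QuotientGroup.induction_on with
        | H a =>
        induction b using QuotientGroup.induction_on with
        | H b =>
        rw [← QuotientGroup.mk_mul, ← QuotientGroup.mk_mul, QuotientGroup.eq]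
        rw [Subgroup.mem_subgroupOf]
        apply hcomm
        have := Subgroup.commutator_mem_commutator (Subgroup.inv_mem _ b.2)
          (Subgroup.inv_mem _ a.2)
        simpa [commutatorElement_def, mul_assoc] using this }
  let cj : N → (↥B →* ↥B) := fun n =>
    { toFun := fun b => ⟨(n : G) * b * (n : G)⁻¹,
        ((Subgroup.mem_normalizer_iff.1 n.2.2) _).1 b.2⟩
      map_one' := by ext; simp
      map_mul' := by intro a b; ext; simp }
  have hcj : ∀ n : N, A.subgroupOf B ≤ (A.subgroupOf B).comap (cj n) := by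
    intro n b hb
    rw [Subgroup.mem_comap, Subgroup.mem_subgroupOf]
    exact ((Subgroup.mem_normalizer_iff.1 n.2.1) _).1 (Subgroup.mem_subgroupOf.1 hb)
  let act : N → ((↥B ⧸ A.subgroupOf B) →* (↥B ⧸ A.subgroupOf B)) := fun n =>
    QuotientGroup.map (A.subgroupOf B) (A.subgroupOf B) (cj n) (hcj n)
  have hact : ∀ (n : N) (b : B), act n (QuotientGroup.mk b) = QuotientGroup.mk (cj n b) :=
    fun n b => rfl
  have hcjv : ∀ (n : N) (b : B), ((cj n b : B) : G) = (n : G) * b * (n : G)⁻¹ := fun n b => rfl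
  have h1 : ∀ w, act 1 w = w := by
    intro w
    induction w using QuotientGroup.induction_on with
    | H b =>
    rw [hact]
    congr 1
    ext
    rw [hcjv]
    simp
  have hmul : ∀ x y w, act (x * y) w = act x (act y w) := by
    intro x y w
    induction w using QuotientGroup.induction_on with
    | H b =>
    rw [hact, hact, hact]
    congr 1
    ext
    rw [hcjv, hcjv, hcjv]
    simp [mul_assoc]
  -- fixed iff
  have hfixiff : ∀ (n : N) (b : B), act n (QuotientGroup.mk b) = QuotientGroup.mk b →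
      (b : G) * n * (b : G)⁻¹ * (n : G)⁻¹ ∈ A := by
    intro n b h
    rw [hact, QuotientGroup.eq, Subgroup.mem_subgroupOf] at h
    have h' : ((n : G) * b * (n : G)⁻¹)⁻¹ * (b : G) ∈ A := by simpa [hcjv] using h
    have hb := ((Subgroup.mem_normalizer_iff.1 (hBA b.2)) _).1 h'
    have e : (b : G) * (((n : G) * b * (n : G)⁻¹)⁻¹ * (b : G)) * (b : G)⁻¹
        = (b : G) * n * (b : G)⁻¹ * (n : G)⁻¹ := by group
    rwa [e] at hb
  have htN : t ∈ N := ⟨hRA htR, hRB htR⟩
  have hQN : Q ≤ N := le_inf hQA hQB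
  set t' : N := ⟨t, htN⟩ with ht'
  have hV' : ∀ w : ↥B ⧸ A.subgroupOf B, act t' w = w → w = 1 := by
    intro w
    induction w using QuotientGroup.induction_on with
    | H b =>
    intro hw
    let stab : Subgroup N :=
      { carrier := {n | act n (QuotientGroup.mk b) = QuotientGroup.mk b}
        mul_mem' := by
          intro x y hx hy
          simp only [Set.mem_setOf_eq] at hx hy ⊢
          rw [hmul, hy, hx]
        one_mem' := h1 _
        inv_mem' := by
          intro x hx
          simp only [Set.mem_setOf_eq] at hx ⊢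
          conv_lhs => rw [← hx]
          rw [← hmul, inv_mul_cancel, h1] }
    have hts : t' ∈ stab := hw
    have hbA : (b : G) ∈ A := by
      apply hfix _ b.2
      intro g hg
      obtain ⟨k, rfl⟩ := hRt g hg
      have hk : t' ^ k ∈ stab := Subgroup.zpow_mem _ hts k
      have := hfixiff (t' ^ k) b hk
      rw [Subgroup.coe_zpow] at this
      exact this
    exact (QuotientGroup.eq_one_iff b).2 (Subgroup.mem_subgroupOf.2 hbA)
  have ht'r : t' ^ r = 1 := Subtype.ext (by rw [Subgroup.coe_pow]; exact htr)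
  have htQ' : t' ∈ Subgroup.normalizer ((Q.subgroupOf N : Subgroup N) : Set N) := by
    rw [Subgroup.mem_normalizer_iff]
    intro h
    rw [Subgroup.mem_subgroupOf, Subgroup.mem_subgroupOf]
    exact (Subgroup.mem_normalizer_iff.1 (hRQ htR)) h
  have hC' : ∀ x ∈ Q.subgroupOf N, x * t' = t' * x → x = 1 := by
    intro x hx hc
    have hxc : (x : G) ∈ Q ⊓ Subgroup.centralizer (R : Set G) :=
      ⟨Subgroup.mem_subgroupOf.1 hx, htc _ (congrArg Subtype.val hc)⟩
    rw [hQR, Subgroup.mem_bot] at hxc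
    exact Subtype.ext hxc
  have hcardQ : Nat.card (Q.subgroupOf N) = Nat.card Q :=
    Nat.card_congr (Subgroup.subgroupOfEquivOfLe hQN).toEquiv
  have hall : ∀ (w : ↥B ⧸ A.subgroupOf B), ∀ y ∈ Q.subgroupOf N, act y w = w := by
    intro w y hy
    have hc : (Nat.card (↥B ⧸ A.subgroupOf B)).Coprime (Nat.card (Q.subgroupOf N)) := by
      rw [hcardQ]; exact hcop
    obtain ⟨v, hv⟩ := (powCoprime hc).surjective w
    have hv' : v ^ Nat.card (Q.subgroupOf N) = w := hv
    rw [← hv']
    exact frob_norm_abs act h1 hmul (Q.subgroupOf N) t' r hr ht'r htQ' hC' hV' v y hy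
  intro b hb g hg
  exact hfixiff ⟨g, hQN hg⟩ ⟨b, hb⟩ (hall _ _ (Subgroup.mem_subgroupOf.2 hg))

/-- **S1428-FROBAB**. -/
theorem frobAb {G : Type u} [Group G] [Finite G] : Cfsg.Agent.H90.BG134.StFrobAb G := by
  intro A B Q R r hr hRc _ _ hBA hcomm hQA hQB hRA hRB hRQ hQR hcop hfQ hfR b hb
  exact hfQ b hb (frobAb_strong A B Q R r hr hRc hBA hcomm hQA hQB hRA hRB hRQ hQR hcop hfR b hb)

example {G : Type u} [Group G] [Finite G] : Cfsg.Agent.H90.BG134.StFrobAb G := frobAb

end Cfsg.Agent.H85.BG134
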