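import Mathlib
import Cfsg.Agent.H90.BG134Defs
import Cfsg.Agent.H85.BG134FrobAb

set_option autoImplicit false

/-!
# S1428-FROBFIX (helper85)

`S` an `s`-group, `Q` a `q`-group, `|R| = r`, `Q R` acts on `S`, `C_Q(R) = 1 = C_S(R)`:
then `Q` centralizes `S`.  Induction on `|S|` with `A := ⁅S, S⁆`: `C_{S/A}(R) = 1` (fixed points
of a fixed-point-free element lift), so `Q` centralizes `S/A` by `frobAb_strong`, `Q` centralizes
`A` by induction, and a `q`-element stabilizing the series `1 ≤ A ≤ S` of the `s`-group `S` is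
trivial on `S`.
-/

namespace Cfsg.Agent.H85.BG134

universe u

/-- An element normalizing `S` normalizes `⁅S, S⁆`. -/
theorem normalizer_le_normalizer_comm {G : Type u} [Group G] (S : Subgroup G) :
    Subgroup.normalizer (S : Set G) ≤ Subgroup.normalizer ((⁅S, S⁆ : Subgroup G) : Set G) := by
  intro n hn
  have hmap : S.map (MulAut.conj n).toMonoidHom = S := by
    ext x
    rw [Subgroup.mem_map]
    constructor
    · rintro ⟨y, hy, rfl⟩
      exact ((Subgroup.mem_normalizer_iff.1 hn) y).1 hy
    · intro hx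
      refine ⟨n⁻¹ * x * n, ?_, by simp [mul_assoc]⟩
      have := ((Subgroup.mem_normalizer_iff.1 (Subgroup.inv_mem _ hn)) x).1 hx
      simpa using this
  have hc : (⁅S, S⁆ : Subgroup G).map (MulAut.conj n).toMonoidHom = ⁅S, S⁆ := by
    rw [Subgroup.map_commutator, hmap]
  rw [Subgroup.mem_normalizer_iff]
  intro h
  constructor
  · intro hh
    have : (MulAut.conj n).toMonoidHom h ∈
        (⁅S, S⁆ : Subgroup G).map (MulAut.conj n).toMonoidHom := Subgroup.mem_map_of_mem _ hh
    rw [hc] at this
    simpa using this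
  · intro hh
    rw [← hc] at hh
    obtain ⟨y, hy, hyh⟩ := Subgroup.mem_map.1 hh
    have : y = h := by
      have : n * y * n⁻¹ = n * h * n⁻¹ := by simpa using hyh
      simpa using this
    rwa [← this]

theorem pow_card_of_mem {G : Type u} [Group G] (H : Subgroup G) {g : G} (hg : g ∈ H) :
    g ^ Nat.card H = 1 := by
  have h := pow_card_eq_one' (G := ↥H) (x := ⟨g, hg⟩)
  have h2 : (((⟨g, hg⟩ : H) ^ Nat.card H : H) : G) = 1 := by rw [h]; rfl
  rwa [Subgroup.coe_pow] at h2

/-- **S1428-FROBFIX**. -/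
theorem frobFix {G : Type u} [Group G] [Finite G] (_hAb : Cfsg.Agent.H90.BG134.StFrobAb G) :
    Cfsg.Agent.H90.BG134.StFrobFix G := by
  intro s q r hs hq hr hsq _ _ S Q R hS hQ hRc hQS hRS hRQ hQR hSR
  haveI : Fact s.Prime := ⟨hs⟩
  haveI : Fact q.Prime := ⟨hq⟩
  obtain ⟨t, htR, -, -, -, htc⟩ := exists_gen_of_prime_card R r hr hRc
  obtain ⟨m, hm⟩ := hQ.exists_card_eq
  have key : ∀ n : ℕ, ∀ S : Subgroup G, Nat.card S = n → IsPGroup s S →
      Q ≤ Subgroup.normalizer (S : Set G) → R ≤ Subgroup.normalizer (S : Set G) →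
      S ⊓ Subgroup.centralizer (R : Set G) = ⊥ → S ≤ Subgroup.centralizer (Q : Set G) := by
    intro n
    induction n using Nat.strong_induction_on with
    | _ n ih =>
    intro S hn hS hQS hRS hSR
    by_cases hbot : S = ⊥
    · rw [hbot]; exact bot_le
    set A : Subgroup G := ⁅S, S⁆ with hA
    have hAS : A ≤ S := Subgroup.commutator_le_self S
    have hAne : A ≠ S := by
      haveI : Nontrivial S := (Subgroup.nontrivial_iff_ne_bot S).2 hbot
      haveI := hS.isNilpotent
      have hlt := Group.IsSolvable.commutator_lt_top_of_nontrivial (↥S)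
      intro h
      have h2 : (commutator ↥S).map S.subtype = (⊤ : Subgroup S).map S.subtype := by
        rw [Subgroup.map_subtype_commutator, ← hA, h, ← MonoidHom.range_eq_map,
          Subgroup.range_subtype]
      exact hlt.ne (Subgroup.map_injective S.subtype_injective h2)
    have hcardlt : Nat.card A < n := by
      rw [← hn]
      by_contra hge
      exact hAne (Subgroup.eq_of_le_of_card_ge hAS (not_lt.1 hge))
    have hQA : Q ≤ Subgroup.normalizer (A : Set G) :=
      hQS.trans (normalizer_le_normalizer_comm S)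
    have hRA : R ≤ Subgroup.normalizer (A : Set G) :=
      hRS.trans (normalizer_le_normalizer_comm S)
    have hSA : S ≤ Subgroup.normalizer (A : Set G) :=
      Subgroup.le_normalizer.trans (normalizer_le_normalizer_comm S)
    have hAR : A ⊓ Subgroup.centralizer (R : Set G) = ⊥ := by
      rw [eq_bot_iff, ← hSR]; exact inf_le_inf_right _ hAS
    have hAQ : A ≤ Subgroup.centralizer (Q : Set G) :=
      ih (Nat.card A) hcardlt A rfl (hS.to_le hAS) hQA hRA hAR
    obtain ⟨k, hk⟩ := hS.exists_card_eq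
    have hcop0 : (Nat.card S).Coprime (Nat.card Q) := by
      rw [hk, hm]; exact Nat.Coprime.pow _ _ ((Nat.coprime_primes hs hq).2 hsq)
    have hcop : (A.relIndex S).Coprime (Nat.card Q) :=
      Nat.Coprime.coprime_dvd_left (Subgroup.relIndex_dvd_card A S) hcop0
    have hfix : ∀ b ∈ S, (∀ g ∈ R, b * g * b⁻¹ * g⁻¹ ∈ A) → b ∈ A := by
      intro b hb hbR
      have hbt := hbR t htR
      have htA := Subgroup.mem_normalizer_iff.1 (hRA htR)
      let φ : A → A := fun a => ⟨(a : G) * t * (a : G)⁻¹ * t⁻¹, by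
        have h1 := (htA _).1 (A.inv_mem a.2)
        have := A.mul_mem a.2 h1
        simpa [mul_assoc] using this⟩
      have hinj : ∀ x ∈ S, ∀ y ∈ S, x * t * x⁻¹ * t⁻¹ = y * t * y⁻¹ * t⁻¹ → x = y := by
        intro x hx y hy h
        have h' : x * t * x⁻¹ = y * t * y⁻¹ := mul_right_cancel h
        have h2 : (y⁻¹ * x) * t = t * (y⁻¹ * x) := by
          calc (y⁻¹ * x) * t = y⁻¹ * (x * t * x⁻¹) * x := by group
            _ = y⁻¹ * (y * t * y⁻¹) * x := by rw [h']
            _ = t * (y⁻¹ * x) := by group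
        have h3 : y⁻¹ * x ∈ S ⊓ Subgroup.centralizer (R : Set G) :=
          ⟨S.mul_mem (S.inv_mem hy) hx, htc _ h2⟩
        rw [hSR, Subgroup.mem_bot, inv_mul_eq_one] at h3
        exact h3.symm
      have hφ : Function.Injective φ := by
        intro x y hxy
        exact Subtype.ext (hinj _ (hAS x.2) _ (hAS y.2) (congrArg Subtype.val hxy))
      have hsurj : Function.Surjective φ := Finite.injective_iff_surjective.1 hφ
      obtain ⟨a, ha⟩ := hsurj ⟨b * t * b⁻¹ * t⁻¹, hbt⟩
      have := hinj _ (hAS a.2) _ hb (congrArg Subtype.val ha)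
      rw [← this]; exact a.2
    have hcent := frobAb_strong A S Q R r hr hRc hSA le_rfl hQA hQS hRA hRS hRQ hQR hcop hfix
    intro b hb
    rw [Subgroup.mem_centralizer_iff]
    intro g hg
    set c := b * g * b⁻¹ * g⁻¹ with hc
    have hcA : c ∈ A := hcent b hb g hg
    have hcg : Commute c g := (Subgroup.mem_centralizer_iff.1 (hAQ hcA) g hg).symm
    have hconj : b * g * b⁻¹ = c * g := by rw [hc]; group
    have hpow : c ^ Nat.card Q = 1 := by
      have h1 : (b * g * b⁻¹) ^ Nat.card Q = 1 := by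
        rw [conj_pow, pow_card_of_mem Q hg]; simp
      rw [hconj, hcg.mul_pow, pow_card_of_mem Q hg, mul_one] at h1
      exact h1
    have hpowS : c ^ Nat.card S = 1 := pow_card_of_mem S (hAS hcA)
    have hc1 : c = 1 := by
      have hd1 := orderOf_dvd_of_pow_eq_one hpow
      have hd2 := orderOf_dvd_of_pow_eq_one hpowS
      have := Nat.dvd_gcd hd2 hd1
      rw [show Nat.gcd (Nat.card S) (Nat.card Q) = 1 from hcop0] at this
      exact orderOf_eq_one_iff.1 (Nat.dvd_one.1 this)
    have hbg : b * g * b⁻¹ = g := by rw [hconj, hc1, one_mul]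
    calc g * b = (b * g * b⁻¹) * b := by rw [hbg]
      _ = b * g := by group
  exact key _ S rfl hS hQS hRS hSR

example {G : Type u} [Group G] [Finite G] (hAb : Cfsg.Agent.H90.BG134.StFrobAb G) :
    Cfsg.Agent.H90.BG134.StFrobFix G := frobFix hAb

end Cfsg.Agent.H85.BG134
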