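import Mathlib

/-!
# Groups generated by two elements satisfying the braid relation

For `x y` with `x y x = y x y` put `Δ = x y x` and `z = Δ²`.  Then `z` is central in `⟨x, y⟩`, and if
the powers of `y` are among `1, y, y⁻¹`, every element of `⟨x, y⟩` has one of the two forms
`x ^ i z ^ e` and `x ^ i Δ x ^ j z ^ e`.
-/

set_option autoImplicit false

namespace Cfsg.Agent.H85

variable {P : Type*} [Group P]

/-- The two normal forms. -/
def BraidForm (x y g : P) : Prop :=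
  (∃ i e : ℤ, g = x ^ i * ((x * y * x) ^ 2) ^ e) ∨
  (∃ i j e : ℤ, g = x ^ i * (x * y * x) * x ^ j * ((x * y * x) ^ 2) ^ e)

theorem braid_semiconj_x {x y : P} (hb : x * y * x = y * x * y) : SemiconjBy (x * y * x) x y := by
  show x * y * x * x = y * (x * y * x)
  calc x * y * x * x = (y * x * y) * x := by rw [hb]
    _ = y * (x * y * x) := by group

theorem braid_semiconj_y {x y : P} (hb : x * y * x = y * x * y) : SemiconjBy (x * y * x) y x := by
  show x * y * x * y = x * (x * y * x)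
  calc x * y * x * y = x * (y * x * y) := by group
    _ = x * (x * y * x) := by rw [hb]

theorem braid_z_comm_x {x y : P} (hb : x * y * x = y * x * y) : Commute ((x * y * x) ^ 2) x := by
  rw [pow_two]
  exact (braid_semiconj_y hb).mul_left (braid_semiconj_x hb)

theorem braid_z_comm_y {x y : P} (hb : x * y * x = y * x * y) : Commute ((x * y * x) ^ 2) y := by
  rw [pow_two]
  exact (braid_semiconj_x hb).mul_left (braid_semiconj_y hb)

theorem bf_one (x y : P) : BraidForm x y 1 := Or.inl ⟨0, 0, by simp⟩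

theorem bf_delta (x y : P) : BraidForm x y (x * y * x) := Or.inr ⟨0, 0, 0, by simp⟩

theorem bf_x_mul {x y g : P} (h : BraidForm x y g) (k : ℤ) : BraidForm x y (x ^ k * g) := by
  rcases h with ⟨i, e, rfl⟩ | ⟨i, j, e, rfl⟩
  · exact Or.inl ⟨k + i, e, by simp only [zpow_add, mul_assoc]⟩
  · exact Or.inr ⟨k + i, j, e, by simp only [zpow_add, mul_assoc]⟩

theorem bf_mul_z {x y g : P} (h : BraidForm x y g) (k : ℤ) :
    BraidForm x y (g * ((x * y * x) ^ 2) ^ k) := by
  rcases h with ⟨i, e, rfl⟩ | ⟨i, j, e, rfl⟩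
  · exact Or.inl ⟨i, e + k, by simp only [zpow_add, mul_assoc]⟩
  · exact Or.inr ⟨i, j, e + k, by simp only [zpow_add, mul_assoc]⟩

theorem bf_mul_x {x y g : P} (hb : x * y * x = y * x * y) (h : BraidForm x y g) (k : ℤ) :
    BraidForm x y (g * x ^ k) := by
  have hz : ∀ e : ℤ, Commute (((x * y * x) ^ 2) ^ e) (x ^ k) :=
    fun e => ((braid_z_comm_x hb).zpow_left e).zpow_right k
  rcases h with ⟨i, e, rfl⟩ | ⟨i, j, e, rfl⟩
  · refine Or.inl ⟨i + k, e, ?_⟩
    calc x ^ i * ((x * y * x) ^ 2) ^ e * x ^ k = x ^ i * (((x * y * x) ^ 2) ^ e * x ^ k) := by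
          rw [mul_assoc]
      _ = x ^ i * (x ^ k * ((x * y * x) ^ 2) ^ e) := by rw [(hz e).eq]
      _ = x ^ (i + k) * ((x * y * x) ^ 2) ^ e := by rw [zpow_add, ← mul_assoc]
  · refine Or.inr ⟨i, j + k, e, ?_⟩
    calc x ^ i * (x * y * x) * x ^ j * ((x * y * x) ^ 2) ^ e * x ^ k
        = x ^ i * (x * y * x) * x ^ j * (((x * y * x) ^ 2) ^ e * x ^ k) := by rw [mul_assoc]
      _ = x ^ i * (x * y * x) * x ^ j * (x ^ k * ((x * y * x) ^ 2) ^ e) := by rw [(hz e).eq]
      _ = x ^ i * (x * y * x) * x ^ (j + k) * ((x * y * x) ^ 2) ^ e := by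
          rw [zpow_add]; simp only [mul_assoc]

theorem bf_y {x y : P} (hb : x * y * x = y * x * y) : BraidForm x y y := by
  have h1 := bf_mul_x hb (bf_x_mul (bf_delta x y) (-1)) (-1)
  have e : x ^ (-1 : ℤ) * (x * y * x) * x ^ (-1 : ℤ) = y := by group
  rwa [e] at h1

theorem bf_y_inv {x y : P} (hb : x * y * x = y * x * y) : BraidForm x y y⁻¹ := by
  have h1 := bf_mul_x hb (bf_x_mul (bf_mul_z (bf_delta x y) (-1)) 1) 1
  have e : x ^ (1 : ℤ) * (x * y * x * ((x * y * x) ^ 2) ^ (-1 : ℤ)) * x ^ (1 : ℤ) = y⁻¹ := by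
    rw [pow_two]; group
  rwa [e] at h1

theorem bf_y_zpow {x y : P} (hb : x * y * x = y * x * y)
    (hy : ∀ k : ℤ, y ^ k = 1 ∨ y ^ k = y ∨ y ^ k = y⁻¹) (k : ℤ) : BraidForm x y (y ^ k) := by
  rcases hy k with h | h | h
  · rw [h]; exact bf_one x y
  · rw [h]; exact bf_y hb
  · rw [h]; exact bf_y_inv hb

theorem bf_y_mul {x y g : P} (hb : x * y * x = y * x * y)
    (hy : ∀ k : ℤ, y ^ k = 1 ∨ y ^ k = y ∨ y ^ k = y⁻¹) (h : BraidForm x y g) :
    BraidForm x y (y * g) ∧ BraidForm x y (y⁻¹ * g) := by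
  rcases h with ⟨i, e, rfl⟩ | ⟨i, j, e, rfl⟩
  · constructor
    · have := bf_mul_z (bf_mul_x hb (bf_y hb) i) e
      rwa [mul_assoc] at this
    · have := bf_mul_z (bf_mul_x hb (bf_y_inv hb) i) e
      rwa [mul_assoc] at this
  · constructor
    · have hsc := ((braid_semiconj_x hb).zpow_right (i - 1)).eq
      have e1 : y * (x ^ i * (x * y * x)) = x ^ (-1 : ℤ) * y ^ (i - 1) * ((x * y * x) ^ 2) ^ (1 : ℤ) := by
        calc y * (x ^ i * (x * y * x)) = x⁻¹ * ((x * y * x) * x ^ (i - 1)) * (x * y * x) := by group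
          _ = x⁻¹ * (y ^ (i - 1) * (x * y * x)) * (x * y * x) := by rw [hsc]
          _ = x ^ (-1 : ℤ) * y ^ (i - 1) * ((x * y * x) ^ 2) ^ (1 : ℤ) := by
            rw [zpow_one, pow_two]; group
      have h1 := bf_mul_z (bf_mul_x hb (bf_mul_z (bf_x_mul (bf_y_zpow hb hy (i - 1)) (-1)) 1) j) e
      have e2 : y * (x ^ i * (x * y * x) * x ^ j * ((x * y * x) ^ 2) ^ e) =
          x ^ (-1 : ℤ) * y ^ (i - 1) * ((x * y * x) ^ 2) ^ (1 : ℤ) * x ^ j * ((x * y * x) ^ 2) ^ e := by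
        rw [← e1]; simp only [mul_assoc]
      rw [e2]
      exact h1
    · have hsc := ((braid_semiconj_y hb).zpow_right (i + 1)).eq
      have e1 : y⁻¹ * (x ^ i * (x * y * x)) = x ^ (1 : ℤ) * y ^ (i + 1) := by
        calc y⁻¹ * (x ^ i * (x * y * x)) = y⁻¹ * x⁻¹ * (x ^ (i + 1) * (x * y * x)) := by group
          _ = y⁻¹ * x⁻¹ * ((x * y * x) * y ^ (i + 1)) := by rw [hsc]
          _ = x ^ (1 : ℤ) * y ^ (i + 1) := by group
      have h1 := bf_mul_z (bf_mul_x hb (bf_x_mul (bf_y_zpow hb hy (i + 1)) 1) j) e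
      have e2 : y⁻¹ * (x ^ i * (x * y * x) * x ^ j * ((x * y * x) ^ 2) ^ e) =
          x ^ (1 : ℤ) * y ^ (i + 1) * x ^ j * ((x * y * x) ^ 2) ^ e := by
        rw [← e1]; simp only [mul_assoc]
      rw [e2]
      exact h1

/-- Every element of `⟨x, y⟩` has one of the two normal forms. -/
theorem braid_closure {x y : P} (hb : x * y * x = y * x * y)
    (hy : ∀ k : ℤ, y ^ k = 1 ∨ y ^ k = y ∨ y ^ k = y⁻¹) {g : P}
    (hg : g ∈ Subgroup.closure ({x, y} : Set P)) : BraidForm x y g := by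
  have key : ∀ s : P, BraidForm x y s → BraidForm x y (g * s) ∧ BraidForm x y (g⁻¹ * s) := by
    induction hg using Subgroup.closure_induction with
    | mem g hg =>
      intro s hs
      rcases hg with rfl | rfl
      · refine ⟨?_, ?_⟩
        · have := bf_x_mul hs 1
          rwa [zpow_one] at this
        · have := bf_x_mul hs (-1)
          rwa [zpow_neg_one] at this
      · exact bf_y_mul hb hy hs
    | one =>
      intro s hs
      simp only [one_mul, inv_one]
      exact ⟨hs, hs⟩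
    | mul g h _ _ ihg ihh =>
      intro s hs
      refine ⟨?_, ?_⟩
      · rw [mul_assoc]
        exact (ihg _ (ihh s hs).1).1
      · rw [mul_inv_rev, mul_assoc]
        exact (ihh _ (ihg s hs).2).2
    | inv g _ ihg =>
      intro s hs
      rw [inv_inv]
      exact ⟨(ihg s hs).2, (ihg s hs).1⟩
  have := (key 1 (bf_one x y)).1
  rwa [mul_one] at this

/-- With `x³ = y³ = 1` the central element `z` has square one. -/
theorem braid_z_sq {x y : P} (hb : x * y * x = y * x * y) (hx : x ^ 3 = 1) (hy : y ^ 3 = 1) :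
    ((x * y * x) ^ 2) ^ 2 = 1 := by
  have hx2 : x * x = x⁻¹ := by
    apply eq_inv_of_mul_eq_one_left
    rw [← hx, pow_succ, pow_two]
  have hy2 : y * y = y⁻¹ := by
    apply eq_inv_of_mul_eq_one_left
    rw [← hy, pow_succ, pow_two]
  have hzx := (braid_z_comm_x hb).eq
  have hzy := (braid_z_comm_y hb).eq
  have e1 : (x * y * x) ^ 2 = (y * x⁻¹) * (y * x⁻¹) := by
    calc (x * y * x) ^ 2 = x⁻¹ * ((x * y * x) ^ 2 * x) := by rw [hzx]; group
      _ = y * (x * x) * y * (x * x) := by rw [pow_two]; group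
      _ = (y * x⁻¹) * (y * x⁻¹) := by rw [hx2]; group
  have e2 : (x * y * x) ^ 2 = (x * y⁻¹) * (x * y⁻¹) := by
    calc (x * y * x) ^ 2 = y⁻¹ * ((x * y * x) ^ 2 * y) := by rw [hzy]; group
      _ = y⁻¹ * ((y * x * y) ^ 2 * y) := by rw [hb]
      _ = x * (y * y) * x * (y * y) := by rw [pow_two]; group
      _ = (x * y⁻¹) * (x * y⁻¹) := by rw [hy2]; group
  calc ((x * y * x) ^ 2) ^ 2 = (x * y * x) ^ 2 * (x * y * x) ^ 2 := pow_two _
    _ = ((y * x⁻¹) * (y * x⁻¹)) * ((x * y⁻¹) * (x * y⁻¹)) := by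
      nth_rewrite 1 [e1]
      rw [e2]
    _ = 1 := by group

/-- With `x² = y² = 1` the element `z` is trivial. -/
theorem braid_z_one {x y : P} (hx : x ^ 2 = 1) (hy : y ^ 2 = 1) : (x * y * x) ^ 2 = 1 := by
  have hx2 : x * x = 1 := by rw [← pow_two]; exact hx
  have hy2 : y * y = 1 := by rw [← pow_two]; exact hy
  calc (x * y * x) ^ 2 = x * y * (x * x) * y * x := by rw [pow_two]; group
    _ = x * (y * y) * x := by rw [hx2]; group
    _ = 1 := by rw [hy2, mul_one, hx2]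

/-- Powers of an element of order dividing `2` or `3`. -/
theorem zpow_cases_of_pow {y : P} {p : ℕ} (hp : p = 2 ∨ p = 3) (hy : y ^ p = 1) (k : ℤ) :
    y ^ k = 1 ∨ y ^ k = y ∨ y ^ k = y⁻¹ := by
  have hk : y ^ k = y ^ (k % (p : ℤ)) := by
    conv_lhs => rw [← Int.emod_add_mul_ediv k (p : ℤ)]
    rw [zpow_add, zpow_mul, zpow_natCast, hy, one_zpow, mul_one]
  rw [hk]
  rcases hp with rfl | rfl
  · have : k % ((2 : ℕ) : ℤ) = 0 ∨ k % ((2 : ℕ) : ℤ) = 1 := by omega
    rcases this with h | h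
    · left; rw [h, zpow_zero]
    · right; left; rw [h, zpow_one]
  · have : k % ((3 : ℕ) : ℤ) = 0 ∨ k % ((3 : ℕ) : ℤ) = 1 ∨ k % ((3 : ℕ) : ℤ) = 2 := by omega
    rcases this with h | h | h
    · left; rw [h, zpow_zero]
    · right; left; rw [h, zpow_one]
    · right; right
      rw [h]
      apply eq_inv_of_mul_eq_one_left
      rw [← zpow_add_one]
      exact_mod_cast hy

end Cfsg.Agent.H85
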