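import Mathlib

set_option autoImplicit false
open Matrix

/-!
Linear groups over the field with two elements: a normal 2-subgroup of `GL_n(2)` is trivial.
-/

namespace Cfsg.Agent.H85.GL2

theorem zmod2_cases : ∀ x : ZMod 2, x = 0 ∨ x = 1 := by decide

theorem zmod2_eq_one : ∀ x : ZMod 2, x ≠ 0 → x = 1 := by decide

theorem zadd_self (x : ZMod 2) : x + x = 0 := CharTwo.add_self_eq_zero x

theorem vadd_self {ι : Type*} (u : ι → ZMod 2) : u + u = 0 := by
  funext i; exact CharTwo.add_self_eq_zero (u i)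

theorem madd_self {ι κ : Type*} (A : Matrix ι κ (ZMod 2)) : A + A = 0 := by
  ext i j; exact CharTwo.add_self_eq_zero (A i j)

theorem abab {ι : Type*} (u w : ι → ZMod 2) : u + w + u + w = 0 := by
  funext i
  have h1 := CharTwo.add_self_eq_zero (u i)
  have h2 := CharTwo.add_self_eq_zero (w i)
  simp only [Pi.add_apply, Pi.zero_apply]
  linear_combination h1 + h2

/-- The action of `GL_n(2)` on column vectors. -/
@[instance_reducible]
def glAct (n : ℕ) : MulAction (GL (Fin n) (ZMod 2)) (Fin n → ZMod 2) where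
  smul g v := (g : Matrix (Fin n) (Fin n) (ZMod 2)) *ᵥ v
  one_smul v := by
    show ((1 : GL (Fin n) (ZMod 2)) : Matrix (Fin n) (Fin n) (ZMod 2)) *ᵥ v = v
    simp
  mul_smul g h v := by
    show ((g * h : GL (Fin n) (ZMod 2)) : Matrix (Fin n) (Fin n) (ZMod 2)) *ᵥ v =
      (g : Matrix (Fin n) (Fin n) (ZMod 2)) *ᵥ ((h : Matrix (Fin n) (Fin n) (ZMod 2)) *ᵥ v)
    simp [Matrix.mulVec_mulVec]

/-- A covector taking the value one on two given nonzero vectors. -/
theorem exists_covec {n : ℕ} (u v : Fin n → ZMod 2) (hu : u ≠ 0) (hv : v ≠ 0) :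
    ∃ c : Fin n → ZMod 2, c ⬝ᵥ u = 1 ∧ c ⬝ᵥ v = 1 := by
  obtain ⟨i, hi⟩ : ∃ i, u i ≠ 0 := by
    by_contra h
    push Not at h
    exact hu (funext h)
  obtain ⟨j, hj⟩ : ∃ j, v j ≠ 0 := by
    by_contra h
    push Not at h
    exact hv (funext h)
  have hi1 := zmod2_eq_one _ hi
  have hj1 := zmod2_eq_one _ hj
  rcases zmod2_cases (v i) with h0 | h1
  · rcases zmod2_cases (u j) with h0' | h1'
    · refine ⟨Pi.single i 1 + Pi.single j 1, ?_, ?_⟩
      · rw [add_dotProduct, single_dotProduct, single_dotProduct, hi1, h0']; simp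
      · rw [add_dotProduct, single_dotProduct, single_dotProduct, hj1, h0]; simp
    · exact ⟨Pi.single j 1, by rw [single_dotProduct, h1']; simp,
        by rw [single_dotProduct, hj1]; simp⟩
  · exact ⟨Pi.single i 1, by rw [single_dotProduct, hi1]; simp,
      by rw [single_dotProduct, h1]; simp⟩

/-- `GL_n(2)` is transitive on nonzero vectors. -/
theorem exists_gl_map {n : ℕ} (u v : Fin n → ZMod 2) (hu : u ≠ 0) (hv : v ≠ 0) :
    ∃ h : GL (Fin n) (ZMod 2), (h : Matrix (Fin n) (Fin n) (ZMod 2)) *ᵥ u = v := by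
  obtain ⟨c, hcu, hcv⟩ := exists_covec u v hu hv
  set N : Matrix (Fin n) (Fin n) (ZMod 2) := vecMulVec (u + v) c with hN
  have hNN : N * N = 0 := by
    rw [hN, vecMulVec_mul_vecMulVec, dotProduct_add, hcu, hcv]
    have : (1 : ZMod 2) + 1 = 0 := by decide
    rw [this, zero_smul]
    ext i j; simp [vecMulVec_apply]
  have hMM : (1 + N) * (1 + N) = 1 := by
    rw [mul_add, add_mul, add_mul, one_mul, mul_one, one_mul, hNN, add_zero, add_assoc,
      madd_self, add_zero]
  refine ⟨⟨1 + N, 1 + N, hMM, hMM⟩, ?_⟩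
  show (1 + N) *ᵥ u = v
  rw [add_mulVec, one_mulVec, hN, vecMulVec_mulVec, hcu]
  simp only [MulOpposite.op_one, one_smul]
  rw [← add_assoc, vadd_self, zero_add]

/-- A normal 2-subgroup of `GL_n(2)` is trivial. -/
theorem normal_two_eq_bot {n : ℕ} (hn : 1 ≤ n) (N : Subgroup (GL (Fin n) (ZMod 2))) [N.Normal]
    (hN : IsPGroup 2 N) : N = ⊥ := by
  have : Fact (Nat.Prime 2) := ⟨Nat.prime_two⟩
  let _ := glAct n
  have hdvd : 2 ∣ Nat.card (Fin n → ZMod 2) := by
    rw [Nat.card_eq_fintype_card, Fintype.card_pi_const, ZMod.card]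
    exact dvd_pow_self 2 (by omega)
  have h0 : (0 : Fin n → ZMod 2) ∈ MulAction.fixedPoints N (Fin n → ZMod 2) := by
    intro g
    show ((g : GL (Fin n) (ZMod 2)) : Matrix (Fin n) (Fin n) (ZMod 2)) *ᵥ 0 = 0
    simp
  obtain ⟨b, hb, hb0⟩ := hN.exists_fixed_point_of_prime_dvd_card_of_fixed_point
    (α := Fin n → ZMod 2) hdvd h0
  have hbfix : ∀ g ∈ N, (g : Matrix (Fin n) (Fin n) (ZMod 2)) *ᵥ b = b := fun g hg => hb ⟨g, hg⟩
  rw [eq_bot_iff]
  intro g hg
  rw [Subgroup.mem_bot]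
  have hall : ∀ x : Fin n → ZMod 2, (g : Matrix (Fin n) (Fin n) (ZMod 2)) *ᵥ x = x := by
    intro x
    by_cases hx : x = 0
    · rw [hx]; simp
    · obtain ⟨h, hh⟩ := exists_gl_map b x (Ne.symm hb0) hx
      have hconj : h⁻¹ * g * h ∈ N := by
        have := Subgroup.Normal.conj_mem (inferInstance : N.Normal) g hg h⁻¹
        simpa using this
      have h1 := hbfix _ hconj
      have h2 : (g : Matrix (Fin n) (Fin n) (ZMod 2)) *ᵥ x =
          (h : Matrix (Fin n) (Fin n) (ZMod 2)) *ᵥ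
            (((h⁻¹ * g * h : GL (Fin n) (ZMod 2)) : Matrix (Fin n) (Fin n) (ZMod 2)) *ᵥ b) := by
        rw [← hh, Matrix.mulVec_mulVec, Matrix.mulVec_mulVec]
        congr 1
        have : h * (h⁻¹ * g * h) = g * h := by group
        rw [← Units.val_mul, ← Units.val_mul, this]
      rw [h2, h1, hh]
  apply Units.ext
  ext i j
  have := congrFun (hall (Pi.single j 1)) i
  rw [Matrix.mulVec_single_one] at this
  simpa [Matrix.one_apply, Pi.single_apply, eq_comm] using this

end Cfsg.Agent.H85.GL2
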