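import Mathlib
import Cfsg.Prelude.Def_MonsterType
import Cfsg.Agent.H92.Extra2
import Cfsg.Agent.H85.NilChain
import Cfsg.Agent.H85.GL2Core

set_option autoImplicit false
open Cfsg
open Matrix

/-!
An abstract model of the centralizer `2^{1+2n} : GL_n(2)` of a transvection.
-/

namespace Cfsg.Agent.H85.ExtraCore

open Cfsg.Agent.H85.GL2

/-- A parametrization `q a u v * k g` of a group of shape `2^{1+2n} : GL_n(2)` inside `G`. -/
structure Param {G : Type*} [Group G] (n : ℕ)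
    (q : ZMod 2 → (Fin n → ZMod 2) → (Fin n → ZMod 2) → G)
    (k : GL (Fin n) (ZMod 2) →* G) : Prop where
  mul : ∀ a u v a' u' v', q a u v * q a' u' v' = q (a + a' + u ⬝ᵥ v') (u + u') (v + v')
  conj : ∀ g a u v, k g * q a u v * (k g)⁻¹ =
    q a (u ᵥ* ((g⁻¹ : GL (Fin n) (ZMod 2)) : Matrix (Fin n) (Fin n) (ZMod 2)))
      ((g : Matrix (Fin n) (Fin n) (ZMod 2)) *ᵥ v)
  inj : ∀ a u v a' u' v', q a u v = q a' u' v' → a = a' ∧ u = u' ∧ v = v'
  disj : ∀ a u v g, q a u v = k g → g = 1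
  kinj : Function.Injective k

namespace Param

variable {G : Type*} [Group G] {n : ℕ}
  {q : ZMod 2 → (Fin n → ZMod 2) → (Fin n → ZMod 2) → G} {k : GL (Fin n) (ZMod 2) →* G}

omit [Group G] in
theorem q_congr {a a' : ZMod 2} {u u' v v' : Fin n → ZMod 2} (ha : a = a') (hu : u = u')
    (hv : v = v') : q a u v = q a' u' v' := by
  subst ha hu hv; rfl

theorem q_one (P : Param n q k) : q 0 0 0 = 1 := by
  have h := P.mul 0 0 0 0 0 0
  simpa using h

theorem q_inv (P : Param n q k) (a : ZMod 2) (u v : Fin n → ZMod 2) :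
    (q a u v)⁻¹ = q (a + u ⬝ᵥ v) u v := by
  apply inv_eq_of_mul_eq_one_right
  rw [P.mul, vadd_self, vadd_self, ← P.q_one]
  apply q_congr _ rfl rfl
  have h1 := zadd_self a
  have h2 := zadd_self (u ⬝ᵥ v)
  linear_combination h1 + h2

/-- The subgroup `Q₀ = {q a u v}`. -/
def Q0 (P : Param n q k) : Subgroup G where
  carrier := {x | ∃ a u v, x = q a u v}
  mul_mem' := by
    rintro _ _ ⟨a, u, v, rfl⟩ ⟨a', u', v', rfl⟩
    exact ⟨_, _, _, P.mul ..⟩
  one_mem' := ⟨0, 0, 0, P.q_one.symm⟩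
  inv_mem' := by
    rintro _ ⟨a, u, v, rfl⟩
    exact ⟨_, _, _, P.q_inv ..⟩

theorem mem_Q0 (P : Param n q k) {x : G} : x ∈ P.Q0 ↔ ∃ a u v, x = q a u v := Iff.rfl

theorem q_mem (P : Param n q k) (a : ZMod 2) (u v : Fin n → ZMod 2) : q a u v ∈ P.Q0 :=
  ⟨a, u, v, rfl⟩

/-- The elementary abelian subgroup `E₀ = {q a 0 v}`. -/
def E0 (P : Param n q k) : Subgroup G where
  carrier := {x | ∃ a v, x = q a 0 v}
  mul_mem' := by
    rintro _ _ ⟨a, v, rfl⟩ ⟨a', v', rfl⟩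
    refine ⟨a + a', v + v', ?_⟩
    rw [P.mul]
    exact q_congr (by simp) (by simp) rfl
  one_mem' := ⟨0, 0, P.q_one.symm⟩
  inv_mem' := by
    rintro _ ⟨a, v, rfl⟩
    refine ⟨a, v, ?_⟩
    rw [P.q_inv]
    exact q_congr (by simp) rfl rfl

theorem E0_le (P : Param n q k) : P.E0 ≤ P.Q0 := by
  rintro _ ⟨a, v, rfl⟩
  exact ⟨a, 0, v, rfl⟩

theorem E0_elem (P : Param n q k) : Cfsg.IsElementaryAbelian 2 P.E0 := by
  refine ⟨isMulCommutative_of_comm ?_, ?_⟩
  · rintro _ ⟨a, v, rfl⟩ _ ⟨a', v', rfl⟩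
    rw [P.mul, P.mul]
    exact q_congr (by simp [add_comm]) rfl (add_comm _ _)
  · rintro _ ⟨a, v, rfl⟩
    rw [pow_two, P.mul, ← P.q_one]
    exact q_congr (by simpa using zadd_self a) (by simp) (vadd_self v)

theorem card_E0 (P : Param n q k) : Nat.card ↥P.E0 = 2 ^ (n + 1) := by
  have e : (ZMod 2 × (Fin n → ZMod 2)) ≃ ↥P.E0 :=
    Equiv.ofBijective (fun t => ⟨q t.1 0 t.2, ⟨t.1, t.2, rfl⟩⟩) (by
      constructor
      · rintro ⟨a, v⟩ ⟨a', v'⟩ h
        have h' := P.inj _ _ _ _ _ _ (congrArg Subtype.val h)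
        exact Prod.ext h'.1 h'.2.2
      · rintro ⟨_, a, v, rfl⟩
        exact ⟨(a, v), rfl⟩)
  rw [← Nat.card_congr e, Nat.card_prod, Nat.card_eq_fintype_card, Nat.card_eq_fintype_card,
    Fintype.card_pi_const, ZMod.card]
  ring

theorem card_Q0 (P : Param n q k) : Nat.card ↥P.Q0 = 2 ^ (2 * n + 1) := by
  have e : (ZMod 2 × (Fin n → ZMod 2) × (Fin n → ZMod 2)) ≃ ↥P.Q0 :=
    Equiv.ofBijective (fun t => ⟨q t.1 t.2.1 t.2.2, ⟨t.1, t.2.1, t.2.2, rfl⟩⟩) (by
      constructor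
      · rintro ⟨a, u, v⟩ ⟨a', u', v'⟩ h
        have h' := P.inj _ _ _ _ _ _ (congrArg Subtype.val h)
        exact Prod.ext h'.1 (Prod.ext h'.2.1 h'.2.2)
      · rintro ⟨_, a, u, v, rfl⟩
        exact ⟨(a, u, v), rfl⟩)
  rw [← Nat.card_congr e, Nat.card_prod, Nat.card_prod, Nat.card_eq_fintype_card,
    Nat.card_eq_fintype_card, Fintype.card_pi_const, ZMod.card]
  ring

theorem z_ne_one (P : Param n q k) : q 1 0 0 ≠ 1 := by
  intro h
  rw [← P.q_one] at h
  exact one_ne_zero (P.inj _ _ _ _ _ _ h).1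

theorem z_mul_self (P : Param n q k) : q 1 0 0 * q 1 0 0 = 1 := by
  rw [P.mul, ← P.q_one]
  exact q_congr (by simp; decide) (by simp) (by simp)

theorem q_z_comm (P : Param n q k) (a : ZMod 2) (u v : Fin n → ZMod 2) :
    q a u v * q 1 0 0 = q 1 0 0 * q a u v := by
  rw [P.mul, P.mul]
  exact q_congr (by simp [add_comm]) (by simp) (by simp)

theorem k_z_comm (P : Param n q k) (g : GL (Fin n) (ZMod 2)) :
    k g * q 1 0 0 = q 1 0 0 * k g := by
  have h := P.conj g 1 0 0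
  rw [mul_inv_eq_iff_eq_mul] at h
  rw [h]
  congr 1
  exact q_congr rfl (by simp) (by simp)

/-- Moving `k g` across `q a u v`. -/
theorem k_q (P : Param n q k) (g : GL (Fin n) (ZMod 2)) (a : ZMod 2) (u v : Fin n → ZMod 2) :
    k g * q a u v =
      q a (u ᵥ* ((g⁻¹ : GL (Fin n) (ZMod 2)) : Matrix (Fin n) (Fin n) (ZMod 2)))
        ((g : Matrix (Fin n) (Fin n) (ZMod 2)) *ᵥ v) * k g := by
  rw [← P.conj g a u v]; group

theorem conj_k_mem (P : Param n q k) (g : GL (Fin n) (ZMod 2)) {y : G} (hy : y ∈ P.Q0) :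
    k g * y * (k g)⁻¹ ∈ P.Q0 := by
  obtain ⟨a, u, v, rfl⟩ := hy
  rw [P.conj]
  exact P.q_mem ..

theorem exists_comm (P : Param n q k) (a : ZMod 2) (u v : Fin n → ZMod 2) (a' : ZMod 2)
    (u' v' : Fin n → ZMod 2) :
    ∃ c, q a u v * q a' u' v' * (q a u v)⁻¹ * (q a' u' v')⁻¹ = q c 0 0 := by
  rw [P.q_inv, P.q_inv, P.mul, P.mul, P.mul]
  exact ⟨_, q_congr rfl (abab u u') (abab v v')⟩

theorem central_iff (P : Param n q k) (a : ZMod 2) (u v : Fin n → ZMod 2)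
    (h : ∀ x ∈ P.Q0, x * q a u v = q a u v * x) : u = 0 ∧ v = 0 := by
  constructor
  · funext i
    have h1 := h _ (P.q_mem 0 0 (Pi.single i 1))
    rw [P.mul, P.mul] at h1
    have h2 := (P.inj _ _ _ _ _ _ h1).1
    rw [dotProduct_single, zero_dotProduct] at h2
    simpa using h2.symm
  · funext i
    have h1 := h _ (P.q_mem 0 (Pi.single i 1) 0)
    rw [P.mul, P.mul] at h1
    have h2 := (P.inj _ _ _ _ _ _ h1).1
    rw [single_dotProduct, dotProduct_zero] at h2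
    simpa using h2

theorem extraspecial [Finite G] (P : Param n q k) (hn : 1 ≤ n) : Cfsg.IsExtraspecial 2 ↥P.Q0 := by
  refine Cfsg.Agent.H92.isExtraspecial_two_of P.Q0 (q 1 0 0) (P.q_mem ..) P.z_ne_one P.z_mul_self
    ?_ ?_ ?_ ?_ ?_
  · rintro _ ⟨a, u, v, rfl⟩
    exact P.q_z_comm a u v
  · rintro _ ⟨a, u, v, rfl⟩ _ ⟨a', u', v', rfl⟩
    obtain ⟨c, hc⟩ := P.exists_comm a u v a' u' v'
    rw [hc]
    rcases zmod2_cases c with rfl | rfl
    · left; exact P.q_one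
    · right; rfl
  · rintro _ ⟨a, u, v, rfl⟩
    rw [P.mul, vadd_self, vadd_self]
    rcases zmod2_cases (a + a + u ⬝ᵥ v) with h | h
    · left; rw [h]; exact P.q_one
    · right; rw [h]
  · rintro _ ⟨a, u, v, rfl⟩ hc
    obtain ⟨rfl, rfl⟩ := P.central_iff a u v hc
    rcases zmod2_cases a with rfl | rfl
    · left; exact P.q_one
    · right; rfl
  · let i : Fin n := ⟨0, hn⟩
    refine ⟨_, P.q_mem 0 (Pi.single i 1) 0, _, P.q_mem 0 0 (Pi.single i 1), ?_⟩
    intro h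
    rw [P.mul, P.mul] at h
    have h2 := (P.inj _ _ _ _ _ _ h).1
    rw [single_dotProduct, zero_dotProduct] at h2
    simp at h2

theorem gl_eq_one_of_mulVec (g : GL (Fin n) (ZMod 2))
    (h : ∀ x : Fin n → ZMod 2, (g : Matrix (Fin n) (Fin n) (ZMod 2)) *ᵥ x = x) : g = 1 := by
  apply Units.ext
  ext i j
  have := congrFun (h (Pi.single j 1)) i
  rw [Matrix.mulVec_single_one] at this
  simpa [Matrix.one_apply, Pi.single_apply, eq_comm] using this

theorem mem_centerMap (P : Param n q k) {x : G} :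
    x ∈ (Subgroup.center ↥P.Q0).map P.Q0.subtype ↔ x = 1 ∨ x = q 1 0 0 := by
  rw [Cfsg.Agent.H92.mem_centerMap_iff]
  constructor
  · rintro ⟨⟨a, u, v, rfl⟩, hc⟩
    obtain ⟨rfl, rfl⟩ := P.central_iff a u v hc
    rcases zmod2_cases a with rfl | rfl
    · left; exact P.q_one
    · right; rfl
  · rintro (rfl | rfl)
    · exact ⟨one_mem _, fun y _ => by simp⟩
    · refine ⟨P.q_mem .., fun y hy => ?_⟩
      obtain ⟨a, u, v, rfl⟩ := hy
      exact P.q_z_comm a u v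

section Main

variable (P : Param n q k) (C : Subgroup G)
  (hC : ∀ x, x ∈ C ↔ x * q 1 0 0 = q 1 0 0 * x)
  (hdec : ∀ x ∈ C, ∃ a u v g, x = q a u v * k g)

include hC in
theorem Q0_le_C : P.Q0 ≤ C := by
  rintro _ ⟨a, u, v, rfl⟩
  rw [hC]
  exact P.q_z_comm a u v

include P hC in
theorem k_mem_C (g : GL (Fin n) (ZMod 2)) : k g ∈ C := by
  rw [hC]
  exact P.k_z_comm g

include hdec in
theorem conj_mem {x y : G} (hx : x ∈ C) (hy : y ∈ P.Q0) : x * y * x⁻¹ ∈ P.Q0 := by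
  obtain ⟨a, u, v, g, rfl⟩ := hdec x hx
  have : q a u v * k g * y * (q a u v * k g)⁻¹ =
      q a u v * (k g * y * (k g)⁻¹) * (q a u v)⁻¹ := by group
  rw [this]
  exact P.Q0.mul_mem (P.Q0.mul_mem (P.q_mem ..) (P.conj_k_mem g hy)) (P.Q0.inv_mem (P.q_mem ..))

include hC hdec in
theorem pcore_eq (hn : 1 ≤ n) : (Cfsg.pCore 2 ↥C).map C.subtype = P.Q0 := by
  have : Fact (Nat.Prime 2) := ⟨Nat.prime_two⟩
  have hQC := P.Q0_le_C C hC
  have hnorm : (P.Q0.subgroupOf C).Normal := by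
    constructor
    intro y hy x
    rw [Subgroup.mem_subgroupOf] at hy ⊢
    exact P.conj_mem C hdec x.2 hy
  have hp : IsPGroup 2 ↥(P.Q0.subgroupOf C) :=
    (IsPGroup.of_card P.card_Q0).of_equiv (Subgroup.subgroupOfEquivOfLe hQC).symm
  apply le_antisymm
  · rw [Subgroup.map_le_iff_le_comap]
    unfold Cfsg.pCore
    apply sSup_le
    rintro N ⟨hNn, hNp⟩
    have hp' : IsPGroup 2 ↥(N ⊔ P.Q0.subgroupOf C) := IsPGroup.to_sup_of_normal_right hNp hp
    have hn' : (N ⊔ P.Q0.subgroupOf C).Normal := inferInstance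
    let kC : GL (Fin n) (ZMod 2) →* ↥C := k.codRestrict C (P.k_mem_C C hC)
    have hkC : Function.Injective kC := fun a b h => P.kinj (congrArg Subtype.val h)
    have hbot : (N ⊔ P.Q0.subgroupOf C).comap kC = ⊥ :=
      normal_two_eq_bot hn _ (hp'.comap_of_injective kC hkC)
    intro x hx
    show (x : G) ∈ P.Q0
    obtain ⟨a, u, v, g, hxg⟩ := hdec x x.2
    have hq : (⟨q a u v, hQC (P.q_mem ..)⟩ : ↥C) ∈ N ⊔ P.Q0.subgroupOf C :=
      Subgroup.mem_sup_right (by rw [Subgroup.mem_subgroupOf]; exact P.q_mem ..)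
    have hk : kC g ∈ N ⊔ P.Q0.subgroupOf C := by
      have : kC g = (⟨q a u v, hQC (P.q_mem ..)⟩ : ↥C)⁻¹ * x := by
        apply Subtype.ext
        show k g = (q a u v)⁻¹ * (x : G)
        rw [hxg]; group
      rw [this]
      exact Subgroup.mul_mem _ (Subgroup.inv_mem _ hq) (Subgroup.mem_sup_left hx)
    have hg : g ∈ (N ⊔ P.Q0.subgroupOf C).comap kC := hk
    rw [hbot, Subgroup.mem_bot] at hg
    rw [hxg, hg, map_one, mul_one]
    exact P.q_mem ..
  · intro x hx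
    refine ⟨⟨x, hQC hx⟩, ?_, rfl⟩
    have hle : P.Q0.subgroupOf C ≤ Cfsg.pCore 2 ↥C := le_sSup ⟨hnorm, hp⟩
    apply hle
    rw [Subgroup.mem_subgroupOf]; exact hx

include hC hdec in
theorem mem_centralizer_Q0 {x : G} :
    x ∈ Subgroup.centralizer (P.Q0 : Set G) ↔ x = 1 ∨ x = q 1 0 0 := by
  constructor
  · intro hx
    rw [Subgroup.mem_centralizer_iff] at hx
    have hxC : x ∈ C := by
      rw [hC]; exact (hx _ (P.q_mem 1 0 0)).symm
    obtain ⟨a, u, v, g, rfl⟩ := hdec x hxC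
    have hg : g = 1 := by
      apply gl_eq_one_of_mulVec
      intro w
      have h1 := hx _ (P.q_mem 0 0 w)
      rw [mul_assoc (q a u v), P.k_q, ← mul_assoc, ← mul_assoc, P.mul, P.mul] at h1
      have h2 := (P.inj _ _ _ _ _ _ (mul_right_cancel h1)).2.2
      exact add_left_cancel (h2.symm.trans (add_comm w v))
    subst hg
    rw [map_one, mul_one]
    obtain ⟨rfl, rfl⟩ := P.central_iff a u v (fun y hy => by
      have := hx y hy
      rwa [map_one, mul_one] at this)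
    rcases zmod2_cases a with rfl | rfl
    · left; exact P.q_one
    · right; rfl
  · rintro (rfl | rfl)
    · exact Subgroup.one_mem _
    · rw [Subgroup.mem_centralizer_iff]
      rintro _ ⟨a, u, v, rfl⟩
      exact P.q_z_comm a u v

include hC hdec in
theorem centralizer_eq :
    Subgroup.centralizer (P.Q0 : Set G) = (Subgroup.center ↥P.Q0).map P.Q0.subtype := by
  ext x
  rw [P.mem_centralizer_Q0 C hC hdec, P.mem_centerMap]

include hC hdec in
theorem centralizer_center_le :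
    Subgroup.centralizer (((Subgroup.center ↥P.Q0).map P.Q0.subtype : Subgroup G) : Set G) ≤
      Subgroup.normalizer (P.Q0 : Set G) := by
  intro x hx
  rw [Subgroup.mem_centralizer_iff] at hx
  have hxC : x ∈ C := by
    rw [hC]; exact (hx _ (P.mem_centerMap.mpr (Or.inr rfl))).symm
  apply mem_normalizer_of_conj_mem
  · intro m hm
    exact P.conj_mem C hdec hxC hm
  · intro m hm
    have := P.conj_mem C hdec (C.inv_mem hxC) hm
    simpa using this

include hC hdec in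
theorem complement : ∃ K : Subgroup G, K ≤ C ∧ P.Q0 ⊓ K = ⊥ ∧ P.Q0 ⊔ K = C ∧
    Nonempty (↥K ≃* GL (Fin n) (ZMod 2)) := by
  refine ⟨k.range, ?_, ?_, ?_, ⟨(MonoidHom.ofInjective P.kinj).symm⟩⟩
  · rintro _ ⟨g, rfl⟩; exact P.k_mem_C C hC g
  · rw [eq_bot_iff]
    rintro x ⟨⟨a, u, v, rfl⟩, ⟨g, hg⟩⟩
    have := P.disj a u v g hg.symm
    rw [Subgroup.mem_bot, ← hg, this, map_one]
  · apply le_antisymm
    · exact sup_le (P.Q0_le_C C hC) (by rintro _ ⟨g, rfl⟩; exact P.k_mem_C C hC g)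
    · intro x hx
      obtain ⟨a, u, v, g, rfl⟩ := hdec x hx
      exact Subgroup.mul_mem_sup (P.q_mem ..) ⟨g, rfl⟩

end Main

end Param

end Cfsg.Agent.H85.ExtraCore
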