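import Mathlib
import Cfsg.Agent.H85.ExtraCore

set_option autoImplicit false
open Cfsg
open Matrix

/-!
The holomorph `2^{n+1} : GL_{n+1}(2)`: the centralizer of an involution of the normal subgroup.
-/

namespace Cfsg.Agent.H85.Holo

open Cfsg.Agent.H85.GL2 Cfsg.Agent.H85.ExtraCore

/-- Coordinates on an elementary abelian 2-group of order `2^(n+1)` with a marked element. -/
theorem exists_coords {H : Type*} [Group H] [Finite H] (n : ℕ) (hcomm : ∀ x y : H, x * y = y * x)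
    (hsq : ∀ x : H, x ^ 2 = 1) (hcard : Nat.card H = 2 ^ (n + 1)) (z : H) (hz : z ≠ 1) :
    ∃ ψ : ZMod 2 × (Fin n → ZMod 2) → H, Function.Bijective ψ ∧
      (∀ x y, ψ (x + y) = ψ x * ψ y) ∧ ψ (1, 0) = z := by
  let _ : CommGroup H := { (inferInstance : Group H) with mul_comm := hcomm }
  let _ : Module (ZMod 2) (Additive H) := AddCommGroup.zmodModule (n := 2) (fun x => by
    have := hsq (Additive.toMul x)
    exact congrArg Additive.ofMul this)
  have hfinA : Finite (Additive H) := inferInstanceAs (Finite H)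
  have hrank : Module.finrank (ZMod 2) (Additive H) = n + 1 := by
    have h1 := Module.natCard_eq_pow_finrank (K := ZMod 2) (V := Additive H)
    rw [Nat.card_zmod] at h1
    have h2 : Nat.card (Additive H) = 2 ^ (n + 1) := hcard
    rw [h2] at h1
    exact (Nat.pow_right_injective (le_refl 2) h1).symm
  set z' : Additive H := Additive.ofMul z with hz'def
  have hz' : z' ≠ 0 := fun h => hz (congrArg Additive.toMul h)
  obtain ⟨W, hW⟩ := Submodule.exists_isCompl (Submodule.span (ZMod 2) {z'})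
  have hWrank : Module.finrank (ZMod 2) W = n := by
    have h1 := Submodule.finrank_add_eq_of_isCompl hW
    rw [finrank_span_singleton hz', hrank] at h1
    omega
  let b := Module.finBasisOfFinrankEq (ZMod 2) W hWrank
  let L : (ZMod 2 × (Fin n → ZMod 2)) ≃ₗ[ZMod 2] Additive H :=
    (LinearEquiv.prodCongr (LinearEquiv.toSpanNonzeroSingleton (ZMod 2) (Additive H) z' hz')
      b.equivFun.symm).trans (Submodule.prodEquivOfIsCompl _ _ hW)
  refine ⟨fun x => Additive.toMul (L x), ?_, ?_, ?_⟩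
  · exact Additive.toMul.bijective.comp L.bijective
  · intro x y
    show Additive.toMul (L (x + y)) = Additive.toMul (L x) * Additive.toMul (L y)
    rw [map_add]; rfl
  · show Additive.toMul (L (1, 0)) = z
    have : L (1, 0) = z' := by
      simp [L]
    rw [this]; rfl

/-- The shear `(a, w) ↦ (a + u ⬝ w, w)`. -/
def tau {n : ℕ} (u : Fin n → ZMod 2) :
    (ZMod 2 × (Fin n → ZMod 2)) ≃+ (ZMod 2 × (Fin n → ZMod 2)) where
  toFun x := (x.1 + u ⬝ᵥ x.2, x.2)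
  invFun x := (x.1 + u ⬝ᵥ x.2, x.2)
  left_inv x := by
    refine Prod.ext ?_ rfl
    show x.1 + u ⬝ᵥ x.2 + u ⬝ᵥ x.2 = x.1
    rw [add_assoc, zadd_self, add_zero]
  right_inv x := by
    refine Prod.ext ?_ rfl
    show x.1 + u ⬝ᵥ x.2 + u ⬝ᵥ x.2 = x.1
    rw [add_assoc, zadd_self, add_zero]
  map_add' x y := by
    refine Prod.ext ?_ rfl
    show (x + y).1 + u ⬝ᵥ (x + y).2 = x.1 + u ⬝ᵥ x.2 + (y.1 + u ⬝ᵥ y.2)
    rw [Prod.fst_add, Prod.snd_add, dotProduct_add]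
    ring

theorem tau_apply {n : ℕ} (u : Fin n → ZMod 2) (x : ZMod 2 × (Fin n → ZMod 2)) :
    tau u x = (x.1 + u ⬝ᵥ x.2, x.2) := rfl

theorem tau_trans {n : ℕ} (u u' : Fin n → ZMod 2) : (tau u').trans (tau u) = tau (u + u') := by
  apply AddEquiv.ext
  intro x
  rw [AddEquiv.trans_apply, tau_apply, tau_apply, tau_apply, add_dotProduct]
  refine Prod.ext ?_ rfl
  show x.1 + u' ⬝ᵥ x.2 + u ⬝ᵥ x.2 = x.1 + (u ⬝ᵥ x.2 + u' ⬝ᵥ x.2)
  ring

theorem tau_zero {n : ℕ} : tau (0 : Fin n → ZMod 2) = AddEquiv.refl _ := by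
  apply AddEquiv.ext
  intro x
  rw [tau_apply]
  refine Prod.ext ?_ rfl
  show x.1 + 0 ⬝ᵥ x.2 = x.1
  rw [zero_dotProduct, add_zero]

/-- The block action `(a, w) ↦ (a, g w)`. -/
def gam {n : ℕ} (g : GL (Fin n) (ZMod 2)) :
    (ZMod 2 × (Fin n → ZMod 2)) ≃+ (ZMod 2 × (Fin n → ZMod 2)) where
  toFun x := (x.1, (g : Matrix (Fin n) (Fin n) (ZMod 2)) *ᵥ x.2)
  invFun x := (x.1, ((g⁻¹ : GL (Fin n) (ZMod 2)) : Matrix (Fin n) (Fin n) (ZMod 2)) *ᵥ x.2)
  left_inv x := by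
    refine Prod.ext rfl ?_
    show ((g⁻¹ : GL (Fin n) (ZMod 2)) : Matrix (Fin n) (Fin n) (ZMod 2)) *ᵥ
      ((g : Matrix (Fin n) (Fin n) (ZMod 2)) *ᵥ x.2) = x.2
    rw [mulVec_mulVec, ← Units.val_mul, inv_mul_cancel, Units.val_one, one_mulVec]
  right_inv x := by
    refine Prod.ext rfl ?_
    show (g : Matrix (Fin n) (Fin n) (ZMod 2)) *ᵥ
      (((g⁻¹ : GL (Fin n) (ZMod 2)) : Matrix (Fin n) (Fin n) (ZMod 2)) *ᵥ x.2) = x.2
    rw [mulVec_mulVec, ← Units.val_mul, mul_inv_cancel, Units.val_one, one_mulVec]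
  map_add' x y := by
    refine Prod.ext rfl ?_
    show (g : Matrix (Fin n) (Fin n) (ZMod 2)) *ᵥ (x + y).2 =
      (g : Matrix (Fin n) (Fin n) (ZMod 2)) *ᵥ x.2 + (g : Matrix (Fin n) (Fin n) (ZMod 2)) *ᵥ y.2
    rw [Prod.snd_add, mulVec_add]

theorem gam_apply {n : ℕ} (g : GL (Fin n) (ZMod 2)) (x : ZMod 2 × (Fin n → ZMod 2)) :
    gam g x = (x.1, (g : Matrix (Fin n) (Fin n) (ZMod 2)) *ᵥ x.2) := rfl

theorem gam_mul {n : ℕ} (g h : GL (Fin n) (ZMod 2)) : gam (g * h) = (gam h).trans (gam g) := by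
  apply AddEquiv.ext
  intro x
  rw [AddEquiv.trans_apply, gam_apply, gam_apply, gam_apply]
  refine Prod.ext rfl ?_
  show ((g * h : GL (Fin n) (ZMod 2)) : Matrix (Fin n) (Fin n) (ZMod 2)) *ᵥ x.2 =
    (g : Matrix (Fin n) (Fin n) (ZMod 2)) *ᵥ ((h : Matrix (Fin n) (Fin n) (ZMod 2)) *ᵥ x.2)
  rw [mulVec_mulVec, Units.val_mul]

theorem gam_tau {n : ℕ} (g : GL (Fin n) (ZMod 2)) (u : Fin n → ZMod 2) :
    ((gam g⁻¹).trans (tau u)).trans (gam g) =
      tau (u ᵥ* ((g⁻¹ : GL (Fin n) (ZMod 2)) : Matrix (Fin n) (Fin n) (ZMod 2))) := by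
  apply AddEquiv.ext
  intro x
  rw [AddEquiv.trans_apply, AddEquiv.trans_apply, gam_apply, gam_apply, tau_apply, tau_apply]
  refine Prod.ext ?_ ?_
  · show x.1 + u ⬝ᵥ (((g⁻¹ : GL (Fin n) (ZMod 2)) : Matrix (Fin n) (Fin n) (ZMod 2)) *ᵥ x.2) = _
    rw [dotProduct_mulVec]
  · show (g : Matrix (Fin n) (Fin n) (ZMod 2)) *ᵥ
      (((g⁻¹ : GL (Fin n) (ZMod 2)) : Matrix (Fin n) (Fin n) (ZMod 2)) *ᵥ x.2) = x.2
    rw [mulVec_mulVec, ← Units.val_mul, mul_inv_cancel, Units.val_one, one_mulVec]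

/-- A coordinate system on a split extension of an elementary abelian 2-group by its
automorphism group. -/
structure Sys {G : Type*} [Group G] (n : ℕ) (U M : Subgroup G)
    (ψ : ZMod 2 × (Fin n → ZMod 2) → G)
    (μ : ((ZMod 2 × (Fin n → ZMod 2)) ≃+ (ZMod 2 × (Fin n → ZMod 2))) → G) : Prop where
  add : ∀ x y, ψ (x + y) = ψ x * ψ y
  inj : Function.Injective ψ
  memU : ∀ x, ψ x ∈ U
  surj : ∀ u ∈ U, ∃ x, ψ x = u
  memM : ∀ α, μ α ∈ M
  act : ∀ α x, μ α * ψ x * (μ α)⁻¹ = ψ (α x)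
  comp : ∀ α β, μ (β.trans α) = μ α * μ β
  surjM : ∀ m ∈ M, ∃ α, μ α = m
  disj : U ⊓ M = ⊥
  top : ∀ x : G, ∃ u ∈ U, ∃ m ∈ M, x = u * m

theorem exists_sys {G : Type*} [Group G] [Finite G] (n : ℕ) (U M : Subgroup G) [U.Normal]
    (hU : Cfsg.IsElementaryAbelian 2 U) (hUcard : Nat.card ↥U = 2 ^ (n + 1)) (hUM : U ⊓ M = ⊥)
    (hUM' : U ⊔ M = ⊤) (hfaith : ∀ m ∈ M, (∀ u ∈ U, m * u * m⁻¹ = u) → m = 1)
    (hfull : ∀ φ : ↥U ≃* ↥U, ∃ m ∈ M, ∀ u : ↥U, ((φ u : ↥U) : G) = m * u * m⁻¹)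
    (z : G) (hzU : z ∈ U) (hz1 : z ≠ 1) :
    ∃ (ψ : ZMod 2 × (Fin n → ZMod 2) → G)
      (μ : ((ZMod 2 × (Fin n → ZMod 2)) ≃+ (ZMod 2 × (Fin n → ZMod 2))) → G),
      Sys n U M ψ μ ∧ ψ (1, 0) = z := by
  obtain ⟨ψU, hbij, hadd, hψz⟩ := exists_coords (H := ↥U) n (fun x y => hU.1.is_comm.comm x y)
    (fun x => Subtype.ext (by simpa using hU.2 x x.2)) hUcard ⟨z, hzU⟩
    (fun h => hz1 (congrArg Subtype.val h))
  let eM : Multiplicative (ZMod 2 × (Fin n → ZMod 2)) ≃* ↥U :=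
    { toEquiv := Multiplicative.toAdd.trans (Equiv.ofBijective ψU hbij)
      map_mul' := fun x y => hadd _ _ }
  have heM : ∀ x, eM (Multiplicative.ofAdd x) = ψU x := fun x => rfl
  have hsurj : ∀ u ∈ U, ∃ x, (ψU x : G) = u := by
    intro u hu
    obtain ⟨x, hx⟩ := hbij.2 ⟨u, hu⟩
    exact ⟨x, congrArg Subtype.val hx⟩
  have uniq : ∀ m ∈ M, ∀ m' ∈ M,
      (∀ x, m * (ψU x : G) * m⁻¹ = m' * (ψU x : G) * m'⁻¹) → m = m' := by
    intro m hm m' hm' h
    have h1 : m'⁻¹ * m = 1 := by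
      apply hfaith _ (M.mul_mem (M.inv_mem hm') hm)
      intro u hu
      obtain ⟨x, rfl⟩ := hsurj u hu
      have := h x
      calc m'⁻¹ * m * (ψU x : G) * (m'⁻¹ * m)⁻¹ = m'⁻¹ * (m * (ψU x : G) * m⁻¹) * m' := by group
        _ = (ψU x : G) := by rw [this]; group
    exact (inv_mul_eq_one.mp h1).symm
  have exists_mu : ∀ α : (ZMod 2 × (Fin n → ZMod 2)) ≃+ (ZMod 2 × (Fin n → ZMod 2)),
      ∃ m ∈ M, ∀ x, m * (ψU x : G) * m⁻¹ = (ψU (α x) : G) := by
    intro α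
    obtain ⟨m, hm, hmφ⟩ := hfull (eM.symm.trans ((AddEquiv.toMultiplicative α).trans eM))
    refine ⟨m, hm, fun x => ?_⟩
    rw [← hmφ (ψU x)]
    congr 1
    rw [← heM x, ← heM (α x)]
    simp
  choose μ hμM hμ using exists_mu
  have μ_mul : ∀ α β, μ (β.trans α) = μ α * μ β := by
    intro α β
    apply uniq _ (hμM _) _ (M.mul_mem (hμM _) (hμM _))
    intro x
    rw [hμ, AddEquiv.trans_apply, ← hμ α, ← hμ β]
    group
  refine ⟨fun x => (ψU x : G), μ,
    ⟨?_, ?_, ?_, hsurj, hμM, hμ, μ_mul, ?_, hUM, ?_⟩, congrArg Subtype.val hψz⟩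
  · intro x y
    show ((ψU (x + y) : ↥U) : G) = (ψU x : G) * (ψU y : G)
    rw [hadd]; rfl
  · intro x y h
    exact hbij.1 (Subtype.ext h)
  · intro x
    exact (ψU x).2
  · intro m hm
    refine ⟨AddEquiv.toMultiplicative.symm (eM.trans ((MulAut.conjNormal m).trans eM.symm)), ?_⟩
    apply uniq _ (hμM _) _ hm
    intro x
    rw [hμ]
    have : ψU ((AddEquiv.toMultiplicative.symm (eM.trans ((MulAut.conjNormal m).trans eM.symm))) x)
        = MulAut.conjNormal m (ψU x) := by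
      rw [← heM x, ← heM]
      simp
    rw [this, MulAut.conjNormal_apply]
  · intro x
    have hx : x ∈ ((U ⊔ M : Subgroup G) : Set G) := by rw [hUM']; trivial
    rw [Subgroup.normal_mul] at hx
    obtain ⟨u, hu, m, hm, rfl⟩ := Set.mem_mul.mp hx
    exact ⟨u, hu, m, hm, rfl⟩

theorem gam_one {n : ℕ} : gam (1 : GL (Fin n) (ZMod 2)) = AddEquiv.refl _ := by
  apply AddEquiv.ext
  intro x
  rw [gam_apply]
  refine Prod.ext rfl ?_
  show ((1 : GL (Fin n) (ZMod 2)) : Matrix (Fin n) (Fin n) (ZMod 2)) *ᵥ x.2 = x.2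
  rw [Units.val_one, one_mulVec]

namespace Sys

variable {G : Type*} [Group G] {n : ℕ} {U M : Subgroup G}
  {ψ : ZMod 2 × (Fin n → ZMod 2) → G}
  {μ : ((ZMod 2 × (Fin n → ZMod 2)) ≃+ (ZMod 2 × (Fin n → ZMod 2))) → G}

theorem psi_zero (S : Sys n U M ψ μ) : ψ 0 = 1 := by
  have := S.add 0 0
  simpa using this

theorem mu_refl (S : Sys n U M ψ μ) : μ (AddEquiv.refl _) = 1 := by
  have := S.comp (AddEquiv.refl _) (AddEquiv.refl _)
  have h : (AddEquiv.refl (ZMod 2 × (Fin n → ZMod 2))).trans (AddEquiv.refl _) =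
      AddEquiv.refl _ := rfl
  rw [h] at this
  simpa using this

theorem mu_inj (S : Sys n U M ψ μ)
    {α β : (ZMod 2 × (Fin n → ZMod 2)) ≃+ (ZMod 2 × (Fin n → ZMod 2))} (h : μ α = μ β) :
    α = β := by
  apply AddEquiv.ext
  intro x
  apply S.inj
  rw [← S.act, ← S.act, h]

theorem um_eq (S : Sys n U M ψ μ) {u u' m m' : G} (hu : u ∈ U) (hu' : u' ∈ U) (hm : m ∈ M)
    (hm' : m' ∈ M) (h : u * m = u' * m') : u = u' ∧ m = m' := by
  have h1 : u'⁻¹ * u = m' * m⁻¹ := by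
    rw [inv_mul_eq_iff_eq_mul, ← mul_assoc, ← h]; group
  have h2 : u'⁻¹ * u ∈ U ⊓ M :=
    ⟨U.mul_mem (U.inv_mem hu') hu, by rw [h1]; exact M.mul_mem hm' (M.inv_mem hm)⟩
  rw [S.disj, Subgroup.mem_bot] at h2
  have h3 : u = u' := by
    rw [inv_mul_eq_one] at h2; exact h2.symm
  subst h3
  exact ⟨rfl, mul_left_cancel h⟩

/-- The complement `GL_n(2)`. -/
def kHom (S : Sys n U M ψ μ) : GL (Fin n) (ZMod 2) →* G where
  toFun g := μ (gam g)
  map_one' := by rw [gam_one, S.mu_refl]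
  map_mul' g h := by rw [gam_mul, S.comp]

theorem kHom_apply (S : Sys n U M ψ μ) (g : GL (Fin n) (ZMod 2)) : S.kHom g = μ (gam g) := rfl

theorem mu_gam_inv (S : Sys n U M ψ μ) (g : GL (Fin n) (ZMod 2)) :
    μ (gam g⁻¹) * μ (gam g) = 1 := by
  rw [← S.comp, ← gam_mul, inv_mul_cancel, gam_one, S.mu_refl]

theorem mu_gam_inv' (S : Sys n U M ψ μ) (g : GL (Fin n) (ZMod 2)) :
    μ (gam g) * μ (gam g⁻¹) = 1 := by
  rw [← S.comp, ← gam_mul, mul_inv_cancel, gam_one, S.mu_refl]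

theorem param (S : Sys n U M ψ μ) : Param n (fun a u v => ψ (a, v) * μ (tau u)) S.kHom where
  mul := by
    intro a u v a' u' v'
    show ψ (a, v) * μ (tau u) * (ψ (a', v') * μ (tau u')) =
      ψ (a + a' + u ⬝ᵥ v', v + v') * μ (tau (u + u'))
    have h1 : μ (tau u) * ψ (a', v') = ψ (tau u (a', v')) * μ (tau u) := by
      rw [← S.act]; group
    calc ψ (a, v) * μ (tau u) * (ψ (a', v') * μ (tau u'))
        = ψ (a, v) * (μ (tau u) * ψ (a', v')) * μ (tau u') := by group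
      _ = ψ (a, v) * (ψ (tau u (a', v')) * μ (tau u)) * μ (tau u') := by rw [h1]
      _ = (ψ (a, v) * ψ (tau u (a', v'))) * (μ (tau u) * μ (tau u')) := by group
      _ = _ := by
        rw [← S.add, ← S.comp, tau_trans, tau_apply]
        congr 2
        exact Prod.ext (by simp [add_assoc]) rfl
  conj := by
    intro g a u v
    show μ (gam g) * (ψ (a, v) * μ (tau u)) * (μ (gam g))⁻¹ =
      ψ (a, (g : Matrix (Fin n) (Fin n) (ZMod 2)) *ᵥ v) *
        μ (tau (u ᵥ* ((g⁻¹ : GL (Fin n) (ZMod 2)) : Matrix (Fin n) (Fin n) (ZMod 2))))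
    have h1 : μ (gam g) * ψ (a, v) * (μ (gam g))⁻¹ =
        ψ (a, (g : Matrix (Fin n) (Fin n) (ZMod 2)) *ᵥ v) := by
      rw [S.act]; rfl
    have hinv : (μ (gam g))⁻¹ = μ (gam g⁻¹) := inv_eq_of_mul_eq_one_right (S.mu_gam_inv' g)
    have h2 : μ (gam g) * μ (tau u) * (μ (gam g))⁻¹ =
        μ (tau (u ᵥ* ((g⁻¹ : GL (Fin n) (ZMod 2)) : Matrix (Fin n) (Fin n) (ZMod 2)))) := by
      rw [← gam_tau, S.comp, S.comp, hinv, mul_assoc]
    calc μ (gam g) * (ψ (a, v) * μ (tau u)) * (μ (gam g))⁻¹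
        = (μ (gam g) * ψ (a, v) * (μ (gam g))⁻¹) * (μ (gam g) * μ (tau u) * (μ (gam g))⁻¹) := by
          group
      _ = _ := by rw [h1, h2]
  inj := by
    intro a u v a' u' v' h
    obtain ⟨h1, h2⟩ := S.um_eq (S.memU _) (S.memU _) (S.memM _) (S.memM _) h
    have h3 := S.inj h1
    have h4 := S.mu_inj h2
    refine ⟨(Prod.ext_iff.mp h3).1, ?_, (Prod.ext_iff.mp h3).2⟩
    funext i
    have := congrArg Prod.fst (DFunLike.congr_fun h4 (0, Pi.single i 1))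
    simpa [tau_apply, dotProduct_single] using this
  disj := by
    intro a u v g h
    have h' : ψ (a, v) * μ (tau u) = 1 * μ (gam g) := by rw [one_mul]; exact h
    obtain ⟨h1, h2⟩ := S.um_eq (S.memU _) U.one_mem (S.memM _) (S.memM _) h'
    have h4 := S.mu_inj h2
    apply Param.gl_eq_one_of_mulVec
    intro w
    have := congrArg Prod.snd (DFunLike.congr_fun h4 (0, w))
    simpa [tau_apply, gam_apply] using this.symm
  kinj := by
    intro g h hgh
    have h4 := S.mu_inj hgh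
    have h5 : h⁻¹ * g = 1 := by
      apply Param.gl_eq_one_of_mulVec
      intro w
      have h6 : (g : Matrix (Fin n) (Fin n) (ZMod 2)) *ᵥ w =
          (h : Matrix (Fin n) (Fin n) (ZMod 2)) *ᵥ w :=
        congrArg Prod.snd (DFunLike.congr_fun h4 (0, w))
      rw [Units.val_mul, ← mulVec_mulVec, h6, mulVec_mulVec, ← Units.val_mul, inv_mul_cancel,
        Units.val_one, one_mulVec]
    exact (inv_mul_eq_one.mp h5).symm

theorem decomp (S : Sys n U M ψ μ) (x : G) (hx : x * ψ (1, 0) = ψ (1, 0) * x) :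
    ∃ a u v g, x = ψ (a, v) * μ (tau u) * S.kHom g := by
  obtain ⟨u₀, hu₀, m, hm, rfl⟩ := S.top x
  obtain ⟨⟨a, v⟩, rfl⟩ := S.surj u₀ hu₀
  obtain ⟨α, rfl⟩ := S.surjM m hm
  have hα : α (1, 0) = (1, 0) := by
    apply S.inj
    rw [← S.act]
    have hc : ψ (a, v) * ψ (1, 0) = ψ (1, 0) * ψ (a, v) := by
      rw [← S.add, ← S.add, add_comm]
    have h3 : μ α * ψ (1, 0) = ψ (1, 0) * μ α := by
      have h2 : ψ (a, v) * (μ α * ψ (1, 0)) = ψ (a, v) * (ψ (1, 0) * μ α) := by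
        rw [← mul_assoc, hx, ← mul_assoc, ← mul_assoc, hc]
      exact mul_left_cancel h2
    rw [h3]; group
  set c : Fin n → ZMod 2 := fun i => (α (0, Pi.single i 1)).1 with hc
  set D : Matrix (Fin n) (Fin n) (ZMod 2) := Matrix.of fun i j => (α (0, Pi.single j 1)).2 i
    with hD
  have hlin : ∀ w : Fin n → ZMod 2, α (0, w) = (c ⬝ᵥ w, D *ᵥ w) := by
    intro w
    let f : (Fin n → ZMod 2) →ₗ[ZMod 2] (ZMod 2 × (Fin n → ZMod 2)) :=
      ((α : (ZMod 2 × (Fin n → ZMod 2)) →+ (ZMod 2 × (Fin n → ZMod 2))).comp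
        (AddMonoidHom.inr (ZMod 2) (Fin n → ZMod 2))).toZModLinearMap 2
    have hf : ∀ w, f w = α (0, w) := fun w => rfl
    have hsingle : ∀ i : Fin n, (fun j => if i = j then (1 : ZMod 2) else 0) = Pi.single i 1 := by
      intro i; funext j; simp [Pi.single_apply, eq_comm]
    have h1 := LinearMap.pi_apply_eq_sum_univ f w
    rw [← hf, h1]
    simp only [hsingle, hf]
    refine Prod.ext ?_ ?_
    · simp only [Prod.fst_sum, Prod.smul_fst, smul_eq_mul, dotProduct]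
      apply Finset.sum_congr rfl
      intro i _
      rw [mul_comm]
    · funext j
      simp only [Prod.snd_sum, Prod.smul_snd, Finset.sum_apply, Pi.smul_apply, smul_eq_mul,
        mulVec, dotProduct, hD, of_apply]
      apply Finset.sum_congr rfl
      intro i _
      rw [mul_comm]
  have hDinj : ∀ w, D *ᵥ w = 0 → w = 0 := by
    intro w hw
    have h1 := hlin w
    rw [hw] at h1
    rcases zmod2_cases (c ⬝ᵥ w) with h | h
    · rw [h] at h1
      have : ((0 : ZMod 2), w) = (0 : ZMod 2 × (Fin n → ZMod 2)) :=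
        α.injective (by rw [h1, map_zero]; rfl)
      exact (Prod.ext_iff.mp this).2
    · rw [h] at h1
      have : ((0 : ZMod 2), w) = (1, 0) := α.injective (by rw [h1, hα])
      have h01 : (0 : ZMod 2) = 1 := (Prod.ext_iff.mp this).1
      exact absurd h01 (by decide)
  have hdet : D.det ≠ 0 := by
    intro h0
    obtain ⟨w, hw0, hw⟩ := Matrix.exists_mulVec_eq_zero_iff.mpr h0
    exact hw0 (hDinj w hw)
  let g : GL (Fin n) (ZMod 2) := Matrix.GeneralLinearGroup.mkOfDetNeZero D hdet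
  have hg : (g : Matrix (Fin n) (Fin n) (ZMod 2)) = D := rfl
  have hαeq : α = (tau c).trans (gam g) := by
    apply AddEquiv.ext
    rintro ⟨a', w⟩
    rw [AddEquiv.trans_apply, tau_apply, gam_apply, hg]
    have hsplit : ((a', w) : ZMod 2 × (Fin n → ZMod 2)) = (a', 0) + (0, w) := by simp
    have ha' : α (a', 0) = (a', 0) := by
      rcases zmod2_cases a' with rfl | rfl
      · exact map_zero α
      · exact hα
    rw [hsplit, map_add, hlin, ha']
    simp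
  refine ⟨a, c ᵥ* ((g⁻¹ : GL (Fin n) (ZMod 2)) : Matrix (Fin n) (Fin n) (ZMod 2)), v, g, ?_⟩
  rw [hαeq, S.comp, ← gam_tau, S.comp, S.comp, S.kHom_apply]
  simp only [mul_assoc]
  rw [S.mu_gam_inv, mul_one]

end Sys

end Cfsg.Agent.H85.Holo
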