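import Cfsg.Agent.H52.SnDefs
import Cfsg.Agent.S0617
import Cfsg.Agent.H14.TFail

/-!
# PURE (helper85, for the S2944 route of helper52's J(T)-component project)

`StPure`: `V ⊴ X` elementary abelian 2-group, `X` 2-solvable, `O₂(X / C_X(V)) = 1`, `T` a Sylow
2-subgroup, `W ⊴ X` a subgroup of `V` of order 4 not centralised by `J(X)`.  Then some `a ∈ T`
does not centralise `W` and satisfies `[V, a] ≤ W` (a "pure" element: it acts on `V` like an
involution of the `SL(2,2)`-factor belonging to `W` in Glauberman's structure theorem S0617).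
-/

set_option autoImplicit false
set_option linter.unusedVariables false

open Cfsg
open scoped commutatorElement Pointwise

namespace Cfsg.Agent.H85.Jc

open Cfsg.Agent.H14.Holo

universe u

/-- PURE. -/
def StPure : Prop := ∀ {X : Type u} [Group X] [Finite X] (V W T : Subgroup X) [V.Normal]
    [W.Normal],
  IsElementaryAbelian 2 V → IsPSolvable 2 X →
  pCore 2 (X ⧸ Subgroup.centralizer (V : Set X)) = ⊥ →
  IsPGroup 2 ↥T → Odd T.index → W ≤ V → Nat.card ↥W = 4 →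
  ¬ thompsonSubgroup 2 X ≤ Subgroup.centralizer (W : Set X) →
  ∃ a ∈ T, (∃ w ∈ W, a * w ≠ w * a) ∧ ∀ v ∈ V, a * v * a⁻¹ * v⁻¹ ∈ W

theorem sl22_sq_or_cube : ∀ g : Matrix.SpecialLinearGroup (Fin 2) (ZMod 2),
    g ^ 2 = 1 ∨ g ^ 3 = 1 := by decide

/-- An involution of `SL(2,2)`. -/
def sl22Inv : Matrix.SpecialLinearGroup (Fin 2) (ZMod 2) := ⟨!![0, 1; 1, 0], by decide⟩

theorem sl22Inv_sq : sl22Inv ^ 2 = 1 := by decide

theorem sl22Inv_conj : ∀ g : Matrix.SpecialLinearGroup (Fin 2) (ZMod 2),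
    g ^ 3 = 1 → sl22Inv * g * sl22Inv⁻¹ = g⁻¹ := by decide

theorem map_conj_eq {Y : Type u} [Group Y] (K : Subgroup Y) (h : Y)
    (hh : h ∈ Subgroup.normalizer (K : Set Y)) :
    K.map (MulAut.conj h).toMonoidHom = K := by
  ext x
  constructor
  · rintro ⟨y, hy, rfl⟩
    exact (Subgroup.mem_normalizer_iff.mp hh y).mp hy
  · intro hx
    refine ⟨h⁻¹ * x * h, ?_, ?_⟩
    · have h1 := (Subgroup.mem_normalizer_iff.mp hh (h⁻¹ * x * h))
      apply h1.mpr
      have e : h * (h⁻¹ * x * h) * h⁻¹ = x := by group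
      rw [e]
      exact hx
    · show h * (h⁻¹ * x * h) * h⁻¹ = x
      group

/-- The abstract core: in a group `H` generated by independent normal copies of `SL(2,2)` acting
on `Vh` as in S0617, an `H`-invariant subgroup `Wh` of order 4 that is not centralised by `H`
is the commutator `[Vh, E]` of one factor, and an involution of that factor is pure. -/
theorem core {Y : Type u} [Group Y] [Finite Y] (Vh H Wh : Subgroup Y) [Vh.Normal] {ι : Type u}
    (E : ι → Subgroup Y)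
    (hN : ∀ i, H ≤ Subgroup.normalizer ((E i : Subgroup Y) : Set Y))
    (hiso : ∀ i, Nonempty (↥(E i) ≃* Matrix.SpecialLinearGroup (Fin 2) (ZMod 2)))
    (hc4 : ∀ i, Nat.card ↥⁅Vh, E i⁆ = 4)
    (hsup : (⨆ i, E i) = H)
    (hind2 : iSupIndep (fun o : Option ι =>
      o.elim (Vh ⊓ Subgroup.centralizer (H : Set Y)) (fun i => ⁅Vh, E i⁆)))
    (hWhV : Wh ≤ Vh) (hWh4 : Nat.card ↥Wh = 4)
    (hWhN : ∀ h ∈ H, ∀ x ∈ Wh, h * x * h⁻¹ ∈ Wh)
    (hnc : ¬ H ≤ Subgroup.centralizer (Wh : Set Y)) :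
    ∃ s ∈ H, s ^ 2 = 1 ∧ (∃ x ∈ Wh, s * x ≠ x * s) ∧ ∀ v ∈ Vh, s * v * s⁻¹ * v⁻¹ ∈ Wh := by
  have hEH : ∀ i, E i ≤ H := fun i => hsup ▸ le_iSup E i
  obtain ⟨i₀, hi₀⟩ : ∃ i, ¬ E i ≤ Subgroup.centralizer (Wh : Set Y) := by
    by_contra hcon
    push_neg at hcon
    exact hnc (hsup ▸ iSup_le hcon)
  obtain ⟨e₀, he₀, he₀W⟩ := SetLike.not_le_iff_exists.mp hi₀
  rw [Subgroup.mem_centralizer_iff] at he₀W
  push_neg at he₀W
  obtain ⟨x₀, hx₀, hx₀e⟩ := he₀W
  obtain ⟨U, hU⟩ : ∃ U : Subgroup Y, U = ⁅Vh, E i₀⁆ := ⟨_, rfl⟩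
  have hUN : ∀ h ∈ H, ∀ u ∈ U, h * u * h⁻¹ ∈ U := by
    intro h hh u hu
    have hmap : U.map (MulAut.conj h).toMonoidHom = U := by
      rw [hU, Subgroup.map_commutator,
        map_conj_eq Vh h (by rw [Subgroup.normalizer_eq_top]; exact Subgroup.mem_top h),
        map_conj_eq (E i₀) h (hN i₀ hh)]
    rw [← hmap]
    exact ⟨u, hu, rfl⟩
  have hUVh : U ≤ Vh := by
    rw [hU]
    exact Subgroup.commutator_le_left Vh (E i₀)
  have hcommU : ∀ e ∈ E i₀, ∀ v ∈ Vh, e * v * e⁻¹ * v⁻¹ ∈ U := by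
    intro e he v hv
    have h1 : e * v * e⁻¹ * v⁻¹ = ⁅e, v⁆ := rfl
    rw [h1, hU, Subgroup.commutator_comm]
    exact Subgroup.commutator_mem_commutator he hv
  obtain ⟨c, hc⟩ : ∃ c, c = e₀ * x₀ * e₀⁻¹ * x₀⁻¹ := ⟨_, rfl⟩
  have hc1 : c ≠ 1 := by
    intro h1
    apply hx₀e
    rw [hc] at h1
    calc x₀ * e₀ = (e₀ * x₀ * e₀⁻¹ * x₀⁻¹)⁻¹ * (e₀ * x₀) := by group
      _ = e₀ * x₀ := by rw [h1, inv_one, one_mul]
  have hcW : c ∈ Wh := by
    rw [hc]
    exact Wh.mul_mem (hWhN e₀ (hEH i₀ he₀) x₀ hx₀) (Wh.inv_mem hx₀)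
  have hcU : c ∈ U := by
    rw [hc]
    exact hcommU e₀ he₀ x₀ (hWhV hx₀)
  -- an element of `U` centralised by `E i₀` is trivial
  have hfix : ∀ u ∈ U, (∀ e ∈ E i₀, e * u = u * e) → u = 1 := by
    intro u hu hcomm
    have hall : ∀ i, E i ≤ Subgroup.centralizer ({u} : Set Y) := by
      intro i e he
      rw [Subgroup.mem_centralizer_iff]
      intro y hy
      rw [Set.mem_singleton_iff] at hy
      subst hy
      by_cases hii : i = i₀
      · subst hii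
        exact (hcomm e he).symm
      · have ht1 : e * y * e⁻¹ * y⁻¹ ∈ ⁅Vh, E i⁆ := by
          have h1 : e * y * e⁻¹ * y⁻¹ = ⁅e, y⁆ := rfl
          rw [h1, Subgroup.commutator_comm]
          exact Subgroup.commutator_mem_commutator he (hUVh hu)
        have ht2 : e * y * e⁻¹ * y⁻¹ ∈ ⁅Vh, E i₀⁆ := by
          rw [← hU]
          exact U.mul_mem (hUN e (hEH i he) y hu) (U.inv_mem hu)
        have hd : Disjoint ⁅Vh, E i⁆ ⁅Vh, E i₀⁆ :=
          hind2.pairwiseDisjoint (i := some i) (j := some i₀) (by simpa using hii)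
        have h3 := Subgroup.disjoint_def.mp hd ht1 ht2
        calc y * e = (e * y * e⁻¹ * y⁻¹)⁻¹ * (e * y) := by group
          _ = e * y := by rw [h3, inv_one, one_mul]
    have hH : H ≤ Subgroup.centralizer ({u} : Set Y) := hsup ▸ iSup_le hall
    have hu2 : u ∈ Vh ⊓ Subgroup.centralizer (H : Set Y) := by
      refine Subgroup.mem_inf.mpr ⟨hUVh hu, ?_⟩
      rw [Subgroup.mem_centralizer_iff]
      intro h hh
      have h4 := Subgroup.mem_centralizer_iff.mp (hH hh) u (Set.mem_singleton u)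
      exact h4.symm
    have hd : Disjoint (Vh ⊓ Subgroup.centralizer (H : Set Y)) ⁅Vh, E i₀⁆ :=
      hind2.pairwiseDisjoint (i := none) (j := some i₀) (by simp)
    exact Subgroup.disjoint_def.mp hd hu2 (hU ▸ hu)
  -- `U = Wh`
  have hU4 : Nat.card ↥U = 4 := hU ▸ hc4 i₀
  obtain ⟨D, hD⟩ : ∃ D : Subgroup Y, D = Wh ⊓ U := ⟨_, rfl⟩
  have hcD : c ∈ D := hD ▸ Subgroup.mem_inf.mpr ⟨hcW, hcU⟩
  have hDU : D ≤ U := hD ▸ inf_le_right
  have hDW : D ≤ Wh := hD ▸ inf_le_left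
  have hDdvd : Nat.card ↥D ∣ 4 := hU4 ▸ Subgroup.card_dvd_of_le hDU
  have hDcard : Nat.card ↥D = 4 := by
    have hD1 : Nat.card ↥D ≠ 1 := by
      intro h1
      have hbot := Subgroup.eq_bot_of_card_eq D h1
      rw [hbot, Subgroup.mem_bot] at hcD
      exact hc1 hcD
    have hD2 : Nat.card ↥D ≠ 2 := by
      intro h2
      obtain ⟨y, -, hyu⟩ := (Nat.card_eq_two_iff' (1 : ↥D)).mp h2
      apply hc1
      apply hfix c hcU
      intro e he
      have hmem : e * c * e⁻¹ ∈ D := by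
        rw [hD]
        exact Subgroup.mem_inf.mpr ⟨hWhN e (hEH i₀ he) c hcW, hUN e (hEH i₀ he) c hcU⟩
      have hne : (⟨e * c * e⁻¹, hmem⟩ : ↥D) ≠ 1 := by
        intro h
        have h' : e * c * e⁻¹ = 1 := congrArg Subtype.val h
        apply hc1
        calc c = e⁻¹ * (e * c * e⁻¹) * e := by group
          _ = 1 := by rw [h']; group
      have hne2 : (⟨c, hcD⟩ : ↥D) ≠ 1 := by
        intro h
        exact hc1 (congrArg Subtype.val h)
      have h5 : (⟨e * c * e⁻¹, hmem⟩ : ↥D) = ⟨c, hcD⟩ := (hyu _ hne).trans (hyu _ hne2).symm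
      have h6 : e * c * e⁻¹ = c := congrArg Subtype.val h5
      calc e * c = (e * c * e⁻¹) * e := by group
        _ = c * e := by rw [h6]
    have hmemd : Nat.card ↥D ∈ Nat.divisors 4 := Nat.mem_divisors.mpr ⟨hDdvd, by norm_num⟩
    have h4 : Nat.divisors 4 = {1, 2, 4} := by decide
    rw [h4] at hmemd
    simp only [Finset.mem_insert, Finset.mem_singleton] at hmemd
    rcases hmemd with h | h | h
    · exact absurd h hD1
    · exact absurd h hD2
    · exact h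
  have hDeqU : D = U := Subgroup.eq_of_le_of_card_ge hDU (by rw [hU4, hDcard])
  have hDeqW : D = Wh := Subgroup.eq_of_le_of_card_ge hDW (by rw [hWh4, hDcard])
  have hUW : U = Wh := hDeqU.symm.trans hDeqW
  obtain ⟨φ⟩ := hiso i₀
  rcases sl22_sq_or_cube (φ ⟨e₀, he₀⟩) with h2 | h3
  · have he2 : e₀ ^ 2 = 1 := by
      have h : (⟨e₀, he₀⟩ : ↥(E i₀)) ^ 2 = 1 := by
        apply φ.injective
        rw [map_pow, h2, map_one]
      exact congrArg Subtype.val h
    refine ⟨e₀, hEH i₀ he₀, he2, ⟨x₀, hx₀, fun h => hx₀e h.symm⟩, ?_⟩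
    intro v hv
    rw [← hUW]
    exact hcommU e₀ he₀ v hv
  · obtain ⟨s, hs⟩ : ∃ s : ↥(E i₀), s = φ.symm sl22Inv := ⟨_, rfl⟩
    have he3 : e₀ ^ 3 = 1 := by
      have h : (⟨e₀, he₀⟩ : ↥(E i₀)) ^ 3 = 1 := by
        apply φ.injective
        rw [map_pow, h3, map_one]
      exact congrArg Subtype.val h
    have hs2 : (s : Y) ^ 2 = 1 := by
      have h : s ^ 2 = 1 := by
        apply φ.injective
        rw [map_pow, hs, φ.apply_symm_apply, map_one]
        exact sl22Inv_sq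
      exact congrArg Subtype.val h
    have hconj : (s : Y) * e₀ * (s : Y)⁻¹ = e₀⁻¹ := by
      have h : s * ⟨e₀, he₀⟩ * s⁻¹ = (⟨e₀, he₀⟩ : ↥(E i₀))⁻¹ := by
        apply φ.injective
        rw [map_mul, map_mul, map_inv, map_inv, hs, φ.apply_symm_apply]
        exact sl22Inv_conj _ h3
      exact congrArg Subtype.val h
    refine ⟨s, hEH i₀ s.2, hs2, ?_, ?_⟩
    · by_contra hcon
      push_neg at hcon
      apply hx₀e
      have hy : e₀ * x₀ * e₀⁻¹ ∈ Wh := hWhN e₀ (hEH i₀ he₀) x₀ hx₀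
      have k1 := hcon _ hy
      have k2 := hcon x₀ hx₀
      have a1 : (s : Y) * e₀ = e₀⁻¹ * s := by
        calc (s : Y) * e₀ = ((s : Y) * e₀ * (s : Y)⁻¹) * s := by group
          _ = e₀⁻¹ * s := by rw [hconj]
      have a2 : (s : Y) * e₀⁻¹ = e₀ * s := by
        have h : (s : Y) * e₀⁻¹ * (s : Y)⁻¹ = e₀ := by
          calc (s : Y) * e₀⁻¹ * (s : Y)⁻¹ = ((s : Y) * e₀ * (s : Y)⁻¹)⁻¹ := by group
            _ = e₀ := by rw [hconj, inv_inv]
        calc (s : Y) * e₀⁻¹ = ((s : Y) * e₀⁻¹ * (s : Y)⁻¹) * s := by group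
          _ = e₀ * s := by rw [h]
      have a3 : (s : Y) * (e₀ * x₀ * e₀⁻¹) = e₀⁻¹ * x₀ * e₀ * s := by
        calc (s : Y) * (e₀ * x₀ * e₀⁻¹) = ((s : Y) * e₀) * x₀ * e₀⁻¹ := by group
          _ = e₀⁻¹ * ((s : Y) * x₀) * e₀⁻¹ := by rw [a1]; group
          _ = e₀⁻¹ * x₀ * ((s : Y) * e₀⁻¹) := by rw [k2]; group
          _ = e₀⁻¹ * x₀ * e₀ * s := by rw [a2]; group
      have a4 : e₀⁻¹ * x₀ * e₀ = e₀ * x₀ * e₀⁻¹ := mul_right_cancel (a3.symm.trans k1)
      have he3' : e₀⁻¹ = e₀ ^ 2 := by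
        have h : e₀ ^ 2 * e₀ = 1 := by rw [← pow_succ]; exact he3
        exact (eq_inv_of_mul_eq_one_left h).symm
      have a5 : x₀ * e₀ ^ 2 = e₀ ^ 2 * x₀ := by
        calc x₀ * e₀ ^ 2 = e₀ * (e₀⁻¹ * x₀ * e₀) * e₀ := by rw [pow_two]; group
          _ = e₀ * (e₀ * x₀ * e₀⁻¹) * e₀ := by rw [a4]
          _ = e₀ ^ 2 * x₀ := by rw [pow_two]; group
      rw [← he3'] at a5
      calc x₀ * e₀ = e₀ * (e₀⁻¹ * x₀) * e₀ := by group
        _ = e₀ * (x₀ * e₀⁻¹) * e₀ := by rw [a5]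
        _ = e₀ * x₀ := by group
    · intro v hv
      rw [← hUW]
      exact hcommU s s.2 v hv

/-- PURE, proved from Glauberman's structure theorem S0617 in the holomorph of `V`. -/
theorem jcPure : StPure.{u} := by
  intro X _ _ V W T _ hWn hV hsep hO hT hTi hWV hW4 hJW
  haveI : Fact (Nat.Prime 2) := ⟨Nat.prime_two⟩
  haveI hJn := thompsonSubgroup_normal 2 X
  have hV' := Vh_elemAb V hV
  haveI hVhn := Vh_normal V
  have hHV : (thompsonSubgroup 2 X).map (psi V) ≤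
      Subgroup.normalizer ((Vh V : Subgroup (Hol V)) : Set (Hol V)) := by
    rw [Subgroup.normalizer_eq_top]
    exact le_top
  have hHR : (thompsonSubgroup 2 X).map (psi V) ≤ (psi V).range := by
    rintro _ ⟨j, -, rfl⟩
    exact ⟨j, rfl⟩
  have hf : (thompsonSubgroup 2 X).map (psi V) ⊓
      Subgroup.centralizer ((Vh V : Subgroup (Hol V)) : Set (Hol V)) = ⊥ := by
    rw [eq_bot_iff, ← range_faithful V]
    exact inf_le_inf_right _ hHR
  have hnorm : (psi V).range ≤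
      Subgroup.normalizer (((thompsonSubgroup 2 X).map (psi V) : Subgroup (Hol V)) :
        Set (Hol V)) := by
    rintro _ ⟨g, rfl⟩
    rw [Subgroup.mem_normalizer_iff]
    intro h
    constructor
    · rintro ⟨j, hj, rfl⟩
      refine ⟨g * j * g⁻¹, hJn.conj_mem j hj g, ?_⟩
      simp
    · rintro ⟨j, hj, hjh⟩
      refine ⟨g⁻¹ * j * g, ?_, ?_⟩
      · have := hJn.conj_mem j hj g⁻¹
        simpa using this
      · rw [map_mul, map_mul, hjh, map_inv]
        group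
  have hS1 := hS1_of_normal (p := 2) (psi V).range ((thompsonSubgroup 2 X).map (psi V)) hHR
    hnorm (range_isPSolvable V hsep) (range_pCore_eq_bot V hO)
  have hS3 : (thompsonSubgroup 2 X).map (psi V) = ⨆ A : {A : Subgroup (Hol V) //
      A ≤ (thompsonSubgroup 2 X).map (psi V) ∧ IsBestOffenderOn 2 (Vh V) A},
      (A : Subgroup (Hol V)) := by
    apply le_antisymm
    · conv_lhs => unfold Cfsg.thompsonSubgroup
      rw [Subgroup.map_le_iff_le_comap]
      apply sSup_le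
      intro A hA
      rw [← Subgroup.map_le_iff_le_comap]
      exact le_iSup (fun A : {A : Subgroup (Hol V) //
        A ≤ (thompsonSubgroup 2 X).map (psi V) ∧ IsBestOffenderOn 2 (Vh V) A} =>
          (A : Subgroup (Hol V)))
        ⟨A.map (psi V), Subgroup.map_mono (le_sSup hA), bestOffender_map V hV hA⟩
    · exact iSup_le fun A => A.2.1
  -- the copy of `W` in the holomorph
  obtain ⟨Wh, hWh⟩ : ∃ Wh : Subgroup (Hol V),
      Wh = (W.subgroupOf V).map (SemidirectProduct.inl : ↥V →* Hol V) := ⟨_, rfl⟩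
  have hmemWh : ∀ v : ↥V, (SemidirectProduct.inl v : Hol V) ∈ Wh ↔ (v : X) ∈ W := by
    intro v
    rw [hWh]
    constructor
    · rintro ⟨v', hv', hvv'⟩
      have h1 : v' = v := SemidirectProduct.inl_injective hvv'
      subst h1
      exact Subgroup.mem_subgroupOf.mp hv'
    · intro hv
      exact ⟨v, Subgroup.mem_subgroupOf.mpr hv, rfl⟩
  have hWhV : Wh ≤ Vh V := by
    rw [hWh]
    rintro _ ⟨v, -, rfl⟩
    exact ⟨v, rfl⟩
  have hWh4 : Nat.card ↥Wh = 4 := by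
    rw [hWh, Subgroup.card_map_of_injective SemidirectProduct.inl_injective, ← hW4]
    exact Nat.card_congr (Subgroup.subgroupOfEquivOfLe hWV).toEquiv
  have hconjW : ∀ (g : X) (x : Hol V), x ∈ Wh → psi V g * x * (psi V g)⁻¹ ∈ Wh := by
    intro g x hx
    rw [hWh] at hx
    obtain ⟨v, hv, rfl⟩ := hx
    rw [psi_conj, hmemWh, MulAut.conjNormal_apply]
    exact hWn.conj_mem _ (Subgroup.mem_subgroupOf.mp hv) g
  have hWhN : ∀ h ∈ (thompsonSubgroup 2 X).map (psi V), ∀ x ∈ Wh, h * x * h⁻¹ ∈ Wh := by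
    rintro _ ⟨j, -, rfl⟩ x hx
    exact hconjW j x hx
  have hcomm_tr : ∀ (g : X) (v : ↥V),
      psi V g * SemidirectProduct.inl v = SemidirectProduct.inl v * psi V g →
      g * (v : X) = (v : X) * g := by
    intro g v h
    have h2 : psi V g * SemidirectProduct.inl v * (psi V g)⁻¹ = SemidirectProduct.inl v := by
      rw [h, mul_inv_cancel_right]
    rw [psi_conj] at h2
    have h3 := congrArg Subtype.val (SemidirectProduct.inl_injective h2)
    rw [MulAut.conjNormal_apply] at h3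
    calc g * (v : X) = (g * (v : X) * g⁻¹) * g := by group
      _ = (v : X) * g := by rw [h3]
  have hnc : ¬ (thompsonSubgroup 2 X).map (psi V) ≤
      Subgroup.centralizer (Wh : Set (Hol V)) := by
    intro hle
    apply hJW
    intro j hj
    rw [Subgroup.mem_centralizer_iff]
    intro w hw
    have h1 := hle (Subgroup.mem_map_of_mem (psi V) hj)
    rw [Subgroup.mem_centralizer_iff] at h1
    have h2 := h1 (SemidirectProduct.inl ⟨w, hWV hw⟩) ((hmemWh ⟨w, hWV hw⟩).mpr hw)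
    exact (hcomm_tr j ⟨w, hWV hw⟩ h2.symm).symm
  have hH1 : (thompsonSubgroup 2 X).map (psi V) ≠ ⊥ := by
    intro h
    apply hnc
    rw [h]
    exact bot_le
  obtain ⟨-, hE, hind, hsup, hind2, -⟩ :=
    Cfsg.Agent.S0617.result _ _ hV' hHV hf hS1 hS3 hH1
  obtain ⟨s, hsH, hs2, ⟨x, hxW, hsx⟩, hsV⟩ :=
    core (Vh V) ((thompsonSubgroup 2 X).map (psi V)) Wh _
      (fun i => (hE i).1) (fun i => (hE i).2.1) (fun i => (hE i).2.2) hsup hind2 hWhV hWh4
      hWhN hnc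
  obtain ⟨a₁, ha₁J, rfl⟩ := hsH
  -- the 2-part of `a₁`
  have hn0 : orderOf a₁ ≠ 0 := (orderOf_pos a₁).ne'
  obtain ⟨k, m, hm, hkm⟩ := Nat.exists_eq_two_pow_mul_odd hn0
  obtain ⟨a₂, ha₂⟩ : ∃ a₂, a₂ = a₁ ^ m := ⟨_, rfl⟩
  have hpsia₂ : psi V a₂ = psi V a₁ := by
    rw [ha₂, map_pow]
    obtain ⟨q, rfl⟩ := hm
    rw [pow_succ, pow_mul, hs2, one_pow, one_mul]
  have ha₂k : a₂ ^ 2 ^ k = 1 := by
    rw [ha₂, ← pow_mul, mul_comm, ← hkm, pow_orderOf_eq_one]
  have hP : IsPGroup 2 ↥(Subgroup.zpowers a₂) := by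
    rintro ⟨g, hg⟩
    obtain ⟨z, rfl⟩ := Subgroup.mem_zpowers_iff.mp hg
    refine ⟨k, Subtype.ext ?_⟩
    show (a₂ ^ z) ^ 2 ^ k = 1
    rw [← zpow_natCast, ← zpow_mul, mul_comm, zpow_mul, zpow_natCast, ha₂k, one_zpow]
  obtain ⟨P, hPle⟩ := hP.exists_le_sylow
  have hT2 : ¬ 2 ∣ T.index := by
    rw [← even_iff_two_dvd, Nat.not_even_iff_odd]
    exact hTi
  obtain ⟨g, hg⟩ := MulAction.exists_smul_eq X P (hT.toSylow hT2)
  have hgT : g * a₂ * g⁻¹ ∈ T := by
    have h1 : a₂ ∈ (P : Subgroup X) := hPle (Subgroup.mem_zpowers a₂)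
    have h2 : g * a₂ * g⁻¹ ∈ ((g • P : Sylow 2 X) : Subgroup X) := by
      rw [Sylow.smul_def, Sylow.pointwise_smul_def]
      exact ⟨a₂, h1, rfl⟩
    rw [hg] at h2
    exact h2
  refine ⟨g * a₂ * g⁻¹, hgT, ?_, ?_⟩
  · rw [hWh] at hxW
    obtain ⟨v, hv, rfl⟩ := hxW
    have hvW : (v : X) ∈ W := Subgroup.mem_subgroupOf.mp hv
    refine ⟨g * (v : X) * g⁻¹, hWn.conj_mem _ hvW g, ?_⟩
    intro h
    apply hsx
    have h1 : a₂ * (v : X) = (v : X) * a₂ := by
      have h0 : g * (a₂ * (v : X)) * g⁻¹ = g * ((v : X) * a₂) * g⁻¹ := by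
        calc g * (a₂ * (v : X)) * g⁻¹ = (g * a₂ * g⁻¹) * (g * (v : X) * g⁻¹) := by group
          _ = (g * (v : X) * g⁻¹) * (g * a₂ * g⁻¹) := h
          _ = g * ((v : X) * a₂) * g⁻¹ := by group
      exact mul_left_cancel (mul_right_cancel h0)
    rw [← hpsia₂]
    have h2 := psi_conj V a₂ v
    have h3 : (MulAut.conjNormal a₂ : MulAut ↥V) v = v := by
      apply Subtype.ext
      rw [MulAut.conjNormal_apply, h1]
      group
    rw [h3] at h2
    calc psi V a₂ * SemidirectProduct.inl v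
        = (psi V a₂ * SemidirectProduct.inl v * (psi V a₂)⁻¹) * psi V a₂ := by group
      _ = SemidirectProduct.inl v * psi V a₂ := by rw [h2]
  · intro v hv
    have hv' : g⁻¹ * v * g ∈ V := by
      have h0 := (inferInstance : V.Normal).conj_mem v hv g⁻¹
      simpa using h0
    have h1 := hsV (SemidirectProduct.inl ⟨g⁻¹ * v * g, hv'⟩) ⟨_, rfl⟩
    rw [← hpsia₂, psi_conj, ← map_inv, ← map_mul, hmemWh] at h1
    have h2 : a₂ * (g⁻¹ * v * g) * a₂⁻¹ * (g⁻¹ * v * g)⁻¹ ∈ W := by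
      have e0 : (((MulAut.conjNormal a₂ : MulAut ↥V) ⟨g⁻¹ * v * g, hv'⟩ *
          (⟨g⁻¹ * v * g, hv'⟩ : ↥V)⁻¹ : ↥V) : X) =
          a₂ * (g⁻¹ * v * g) * a₂⁻¹ * (g⁻¹ * v * g)⁻¹ := by
        rw [Subgroup.coe_mul, Subgroup.coe_inv, MulAut.conjNormal_apply]
      rw [← e0]
      exact h1
    have h3 := hWn.conj_mem _ h2 g
    have e : g * a₂ * g⁻¹ * v * (g * a₂ * g⁻¹)⁻¹ * v⁻¹ =
        g * (a₂ * (g⁻¹ * v * g) * a₂⁻¹ * (g⁻¹ * v * g)⁻¹) * g⁻¹ := by group
    rw [e]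
    exact h3

example : StPure.{u} := jcPure

end Cfsg.Agent.H85.Jc

#print axioms Cfsg.Agent.H85.Jc.jcPure
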