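import Mathlib
import Cfsg.Agent.H86.NdDefs

/-!
# ND-ARBACKP (helper85, for helper86's S5989/S5991 project)
-/

set_option autoImplicit false

namespace Cfsg.Agent.H85.Nd

open Cfsg.Agent.H86.Nd

/-- `c` is even and positive. -/
theorem nd_c_facts (i c : ℕ) (hi : 0 < i) (hc : c = (if Even i then i else 2 * i)) :
    0 < c ∧ Even c := by
  subst hc
  split_ifs with h
  · exact ⟨hi, h⟩
  · exact ⟨by omega, even_two_mul i⟩

/-- The generic shape: if `c A < 2 d`, `m` odd, `c` even, and the remainder condition holds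
whenever needed. -/
theorem nd_shape (d m c A : ℕ) (hc0 : 0 < c) (hce : Even c) (hm : Odd m) (hmd : m < d)
    (hA : c * A ≤ 2 * d) (hrem : m % c + 1 ≤ 2 * d - c * A) :
    ∃ j e : ℕ, j ≤ A ∧ 1 ≤ e ∧ e + 1 ≤ 2 * d - c * A ∧ c * j + e = m := by
  have hdm : c * (m / c) + m % c = m := Nat.div_add_mod m c
  have hev1 : Even (c * (m / c)) := hce.mul_right _
  obtain ⟨t1, ht1⟩ := hev1
  obtain ⟨s, hs⟩ := hm
  rcases Nat.lt_or_ge A (m / c) with hlt | hge
  · -- j = A
    have h1 : c * (A + 1) ≤ c * (m / c) := Nat.mul_le_mul_left c hlt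
    have h2 : c * (A + 1) = c * A + c := Nat.mul_succ c A
    refine ⟨A, m - c * A, le_refl _, ?_, ?_, ?_⟩ <;> omega
  · refine ⟨m / c, m % c, hge, ?_, hrem, hdm⟩
    omega

theorem arBackP : StArBackP := by
  intro d m i c A hi hc hm hmd hR hA hadm
  obtain ⟨hc0, hce⟩ := nd_c_facts i c hi hc
  apply nd_shape d m c A hc0 hce hm hmd hA
  have hdd : c * (2 * d / c) + 2 * d % c = 2 * d := Nat.div_add_mod (2 * d) c
  have hAq : A ≤ 2 * d / c := (Nat.le_div_iff_mul_le hc0).mpr (by rw [Nat.mul_comm]; exact hA)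
  have hAq' : c * A ≤ c * (2 * d / c) := Nat.mul_le_mul_left c hAq
  have hmlt : m % c < c := Nat.mod_lt m hc0
  rcases hR with ⟨-, -, -, hlt⟩ | ⟨hie, h⟩
  · omega
  · rcases h with ⟨h0, hodd⟩ | ⟨-, -, hlt⟩
    · have hci : c = i := by rw [hc, if_pos hie]
      have hne : c * A ≠ 2 * d := by
        intro heq
        rcases hadm heq with h1 | h1
        · exact (Nat.not_even_iff_odd.mpr h1) hie
        · have hAeq : 2 * d / i = A := by
            rw [← hci]
            exact Nat.div_eq_of_eq_mul_right hc0 heq.symm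
          rw [hAeq] at hodd
          exact (Nat.not_even_iff_odd.mpr hodd) h1
      have hAlt : A < 2 * d / c := by
        rcases Nat.lt_or_ge A (2 * d / c) with h1 | h1
        · exact h1
        · exfalso
          have : A = 2 * d / c := le_antisymm hAq h1
          rw [← this] at hdd
          omega
      have h1 : c * (A + 1) ≤ c * (2 * d / c) := Nat.mul_le_mul_left c hAlt
      have h2 : c * (A + 1) = c * A + c := Nat.mul_succ c A
      omega
    · omega

example : StArBackP := arBackP

end Cfsg.Agent.H85.Nd
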