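import Mathlib
import Cfsg.Agent.H86.NdDefs

/-!
# ND-ARFWDP (helper85, for helper86's S5989/S5991 project)
-/

set_option autoImplicit false

namespace Cfsg.Agent.H85.Nd

open Cfsg.Agent.H86.Nd

/-- `c` is even and positive (copy for this file). -/
theorem nd_c_facts' (i c : ℕ) (hi : 0 < i) (hc : c = (if Even i then i else 2 * i)) :
    0 < c ∧ Even c := by
  subst hc
  split_ifs with h
  · exact ⟨hi, h⟩
  · exact ⟨by omega, even_two_mul i⟩

theorem arFwdP : StArFwdP := by
  intro d m i c hi hc hm hmd hd hR
  obtain ⟨hc0, hce⟩ := nd_c_facts' i c hi hc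
  rcases Nat.lt_or_ge (2 * d) c with hbig | hle
  · exact Or.inr ⟨by omega, Or.inl hbig⟩
  · have hdd : c * (2 * d / c) + 2 * d % c = 2 * d := Nat.div_add_mod (2 * d) c
    have hdlt : 2 * d % c < c := Nat.mod_lt _ hc0
    have hdm : c * (m / c) + m % c = m := Nat.div_add_mod m c
    have hmlt : m % c < c := Nat.mod_lt m hc0
    have hev1 : Even (c * (m / c)) := hce.mul_right _
    obtain ⟨t1, ht1⟩ := hev1
    obtain ⟨s, hs⟩ := hm
    have hmpos : 0 < m % c := by omega
    have hA1 : 1 ≤ 2 * d / c := (Nat.le_div_iff_mul_le hc0).mpr (by omega)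
    have hAle : c * (2 * d / c) ≤ 2 * d := by omega
    rcases Nat.eq_zero_or_pos (2 * d % c) with h0 | hpos
    · -- `c ∣ 2 d`
      refine Or.inl ⟨2 * d / c, hA1, hAle, ?_, ?_⟩
      · intro _
        rcases Nat.even_or_odd i with hie | hio
        · right
          have hci : c = i := by rw [hc, if_pos hie]
          rw [hci]
          by_contra hne
          have hodd : Odd (2 * d / i) := Nat.not_even_iff_odd.mp hne
          apply hR
          right
          exact ⟨hie, Or.inl ⟨h0, hodd⟩⟩
        · exact Or.inl hio
      · intro j e _ he _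
        omega
    · -- `c ∤ 2 d`
      rcases Nat.lt_or_ge (m % c) (2 * d % c) with hlt | hge
      · -- `m < c`, `m < k₀`
        have hmc : m < c := by
          by_contra hcm
          have hcm' : c ≤ m := Nat.le_of_not_lt hcm
          apply hR
          rcases Nat.even_or_odd i with hie | hio
          · right
            have hci : c = i := by rw [hc, if_pos hie]
            refine ⟨hie, Or.inr ⟨?_, hmpos, hlt⟩⟩
            rw [← hci]; exact hcm'
          · left
            exact ⟨hio, hcm', hmpos, hlt⟩
        have hmm : m % c = m := Nat.mod_eq_of_lt hmc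
        refine Or.inr ⟨hmc, Or.inr ⟨2 * d / c, hA1, hAle, ?_, ?_, ?_⟩⟩
        · intro h; omega
        · omega
        · omega
      · refine Or.inl ⟨2 * d / c, hA1, hAle, ?_, ?_⟩
        · intro h; omega
        · intro j e _ he hje
          have hec : e < c := by omega
          have : m % c = e := by
            rw [← hje, Nat.mul_add_mod, Nat.mod_eq_of_lt hec]
          omega

example : StArFwdP := arFwdP

end Cfsg.Agent.H85.Nd
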