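import Mathlib
import Cfsg.Agent.H86.NdDefs
import Cfsg.Agent.H48.EpDefs
import Cfsg.Agent.H49.PtDefs
import Cfsg.Agent.H77.TmDefs
import Cfsg.Agent.H42.TiDefs

/-!
# ND-EXWIRE (helper85, for helper86's S5989/S5991 project)

The existence statements `StExP`, `StExM` of `H86/NdDefs` from the existence pieces of the
S5974 project (`H48.Ep.StExist`), the S5973 project (`H49.Pt.StExOdd`, `StExEven`) and the S5987
project (`H77.Tm.StExOdd`, `StExEven`).
-/

set_option autoImplicit false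
open scoped MatrixGroups
open scoped Matrix

namespace Cfsg.Agent.H85.Nd

open Cfsg.Agent.H45 Cfsg.Agent.H42.Spd Cfsg.Agent.H42.Ti Cfsg.Agent.H86.Nd Module Polynomial

universe u

/-- `(r : F) ≠ 0` for a prime `r ≠ p = char F`. -/
theorem nd_cast_ne_zero {F : Type u} [Field F] (p : ℕ) [hp : Fact p.Prime] [CharP F p]
    (r : ℕ) (hr : r.Prime) (hrp : r ≠ p) : (r : F) ≠ 0 := by
  intro h0
  have h2 := (CharP.cast_eq_zero_iff F p r).mp h0
  exact hrp ((Nat.prime_dvd_prime_iff_eq hp.out hr).mp h2).symm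

theorem exP_of_ep (h : Cfsg.Agent.H48.Ep.StExist.{u}) : StExP.{u} := by
  intro F _ _ p _ _ r hr hr2 hrp d A _ hA1 hAle hAadm
  exact h F p r hr hr2 hrp d A hA1 hAle hAadm

theorem exP_of_pt (hO : Cfsg.Agent.H49.Pt.StExOdd.{u}) (hE : Cfsg.Agent.H49.Pt.StExEven.{u})
    (hC : Cfsg.Agent.H42.Ti.StCycSet.{u}) : StExP.{u} := by
  intro F _ _ p _ _ r hr hr2 hrp d A hd hA1 hAle hAadm
  have hrF : (r : F) ≠ 0 := nd_cast_ne_zero p r hr hrp
  rcases Nat.even_or_odd (ii F r) with hev | hodd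
  · have hci : cc F r = ii F r := by
      have h0 : cc F r = if Even (ii F r) then ii F r else 2 * ii F r := rfl
      rw [h0, if_pos hev]
    rw [hci] at hAle hAadm ⊢
    obtain ⟨⟨Φs, hΦ⟩, -⟩ := hC F r hr hrF
    obtain ⟨h', hh'⟩ := hev
    have e1 : ii F r / 2 = h' := by omega
    have e2 : ii F r * A = 2 * (h' * A) := by rw [hh']; ring
    obtain ⟨x, hxΩ, hxr, hxfix, hxns, -⟩ := hE F p d r hd hr hr2 hrp ⟨h', hh'⟩ Φs hΦ A hA1
      (by
        intro hAodd
        rw [e1]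
        have hne : ii F r * A ≠ 2 * d := by
          intro h
          rcases hAadm h with h1 | h1
          · exact (Nat.not_even_iff_odd.mpr h1) ⟨h', hh'⟩
          · exact (Nat.not_even_iff_odd.mpr hAodd) h1
        omega)
      (by
        intro _
        rw [e1]
        omega)
    exact ⟨x, hxΩ, hxr, hxfix, hxns⟩
  · have hci : cc F r = 2 * ii F r := by
      have h0 : cc F r = if Even (ii F r) then ii F r else 2 * ii F r := rfl
      rw [h0, if_neg (Nat.not_even_iff_odd.mpr hodd)]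
    rw [hci] at hAle ⊢
    obtain ⟨x, hxΩ, hxr, hxfix, hxns⟩ := hO F p d r hd hr hr2 hrp hodd A hA1
      (by
        have e2 : 2 * ii F r * A = 2 * (ii F r * A) := by ring
        omega)
    exact ⟨x, hxΩ, hxr, hxfix, hxns⟩

theorem exM_of_tm (hO : Cfsg.Agent.H77.Tm.StExOdd.{u}) (hE : Cfsg.Agent.H77.Tm.StExEven.{u})
    (hC : Cfsg.Agent.H42.Ti.StCycSet.{u}) : StExM.{u} := by
  intro F _ _ p _ _ r hr hr2 hrp k A a b hk hab hA1 hAle hAadm
  have hrF : (r : F) ≠ 0 := nd_cast_ne_zero p r hr hrp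
  rcases Nat.even_or_odd (ii F r) with hev | hodd
  · have hci : cc F r = ii F r := by
      have h0 : cc F r = if Even (ii F r) then ii F r else 2 * ii F r := rfl
      rw [h0, if_pos hev]
    rw [hci] at hAle hAadm ⊢
    obtain ⟨⟨Φs, hΦ⟩, -⟩ := hC F r hr hrF
    obtain ⟨h', hh'⟩ := hev
    have e1 : ii F r / 2 = h' := by omega
    have e2 : ii F r * A = 2 * (h' * A) := by rw [hh']; ring
    obtain ⟨x, hxΩ, hxr, hxfix, hxns, -⟩ := hE F p k a b r hab hk hr hr2 hrp
      ⟨h', hh'⟩ Φs hΦ A hA1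
      (by
        intro _
        rw [e1]
        omega)
      (by
        intro hAev
        rw [e1]
        have hne : ii F r * A ≠ 2 * k + 2 := fun h => hAadm h (Or.inr hAev)
        omega)
    exact ⟨x, hxΩ, hxr, hxfix, hxns⟩
  · have hci : cc F r = 2 * ii F r := by
      have h0 : cc F r = if Even (ii F r) then ii F r else 2 * ii F r := rfl
      rw [h0, if_neg (Nat.not_even_iff_odd.mpr hodd)]
    rw [hci] at hAle hAadm ⊢
    have hne : 2 * ii F r * A ≠ 2 * k + 2 := fun h => hAadm h (Or.inl hodd)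
    obtain ⟨x, hxΩ, hxr, hxfix, hxns⟩ := hO F p k a b r hab hk hr hr2 hrp hodd A hA1
      (by
        have e2 : 2 * ii F r * A = 2 * (ii F r * A) := by ring
        omega)
    exact ⟨x, hxΩ, hxr, hxfix, hxns⟩

example (h : Cfsg.Agent.H48.Ep.StExist.{u}) : StExP.{u} := exP_of_ep h
example (hO : Cfsg.Agent.H49.Pt.StExOdd.{u}) (hE : Cfsg.Agent.H49.Pt.StExEven.{u})
    (hC : Cfsg.Agent.H42.Ti.StCycSet.{u}) : StExP.{u} := exP_of_pt hO hE hC
example (hO : Cfsg.Agent.H77.Tm.StExOdd.{u}) (hE : Cfsg.Agent.H77.Tm.StExEven.{u})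
    (hC : Cfsg.Agent.H42.Ti.StCycSet.{u}) : StExM.{u} := exM_of_tm hO hE hC

end Cfsg.Agent.H85.Nd
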