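import Mathlib
import Cfsg.Agent.H85.PtExBridge
import Cfsg.Agent.H3.TiCycSet
import Cfsg.Agent.H19.PtExAnisoEx
import Cfsg.Agent.H19.PtExMinusProd
import Cfsg.Agent.H49.PtExTransP
import Cfsg.Agent.H84.PtExProdFix
import Cfsg.Agent.H84.PtExTsProd
import Cfsg.Agent.H84.PtExNonScal
import Cfsg.Agent.Helper55.PtExToMat

/-!
# S5973-EXEVEN (helper85): closed form of the sub-tree

`exEvenFin` : `Cfsg.Agent.H49.Pt.StExEven` from helper61's abstract models (`H61.Tm.StModAll`)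
and helper77's generic `StMinusSum`, `StTypeU`, `StOddMemAll`; all seven EX pieces
(helper19, helper49, helper55, helper84) and `H3.Ti.cycSet` are plugged in.
-/

set_option autoImplicit false

namespace Cfsg.Agent.H85.PtEx

open Cfsg.Agent.H77.Tm

universe u

theorem exEvenFin (hM : Cfsg.Agent.H61.Tm.StModAll.{u}) (hMS : StMinusSum.{u, u})
    (hTU : StTypeU.{u, u}) (hOM : StOddMemAll.{u}) : Cfsg.Agent.H49.Pt.StExEven.{u} :=
  exEven_of Cfsg.Agent.H3.Ti.cycSet hM Cfsg.Agent.H19.PtEx.anisoEx Cfsg.Agent.H49.PtEx.transP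
    Cfsg.Agent.H84.PtEx.prodFix Cfsg.Agent.H84.PtEx.tsProd (Cfsg.Agent.H19.PtEx.minusProd hMS)
    Cfsg.Agent.Helper55.PtEx.toMat Cfsg.Agent.H84.PtEx.nonScal hTU hOM

end Cfsg.Agent.H85.PtEx

#print axioms Cfsg.Agent.H85.PtEx.exEvenFin
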