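import Mathlib
import Cfsg.Agent.H85.PtExFin
import Cfsg.Agent.H61.TmExEvenFinal

/-!
# S5973-EXEVEN (helper85): closed form with helper61's `modAllClosed` plugged in
-/

set_option autoImplicit false

namespace Cfsg.Agent.H85.PtEx

open Cfsg.Agent.H77.Tm

universe u

theorem exEvenClosed (hMS : StMinusSum.{u, u}) (hTU : StTypeU.{u, u}) (hOM : StOddMemAll.{u}) :
    Cfsg.Agent.H49.Pt.StExEven.{u} :=
  exEvenFin Cfsg.Agent.H61.Tm.modAllClosed hMS hTU hOM

end Cfsg.Agent.H85.PtEx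

#print axioms Cfsg.Agent.H85.PtEx.exEvenClosed
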