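import Mathlib
import Cfsg.Agent.H85.NdExWire
import Cfsg.Agent.H85.PtExFin2
import Cfsg.Agent.H15.PtExOdd
import Cfsg.Agent.H28.TmExOdd
import Cfsg.Agent.H28.TmOddMem
import Cfsg.Agent.H28.TmTypeU
import Cfsg.Agent.H28.TmBlockMinus
import Cfsg.Agent.H61.TmExEvenFinal
import Cfsg.Agent.H19.TmAnisoStd
import Cfsg.Agent.H19.TmAnisoIso
import Cfsg.Agent.H11.TmQStruct
import Cfsg.Agent.H8.TmQTrick
import Cfsg.Agent.H18.TmComplPlus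
import Cfsg.Agent.H3.TmMinusSum
import Cfsg.Agent.H24.TmOrd
import Cfsg.Agent.H86.OtSplit
import Cfsg.Agent.H16.SpdBlock
import Cfsg.Agent.H67.SpdRel
import Cfsg.Agent.H77.SpdFix
import Cfsg.Agent.H77.SpdCompl
import Cfsg.Agent.H24.SpdModc
import Cfsg.Agent.H51.SpdDecomp
import Cfsg.Agent.H3.TiPrim
import Cfsg.Agent.H3.TiCompDvd
import Cfsg.Agent.H3.TiIrrSub
import Cfsg.Agent.H3.TiCycSet
import Cfsg.Agent.H3.TiPair
import Cfsg.Agent.H3.TiStepEven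
import Cfsg.Agent.H3.TiUpper
import Cfsg.Agent.H72.TiHalf
import Cfsg.Agent.H72.TiPeel
import Cfsg.Agent.H32.TiAnti
import Cfsg.Agent.H14.TiStepOdd
import Cfsg.Agent.H14.TiBuild
import Cfsg.Agent.H16.TiHypClose
import Cfsg.Agent.H16.TiCompNd
import Cfsg.Agent.H60.TiUpperEven

/-!
# Closed existence statements for helper86's S5989/S5991 project (helper85)

`exPClosed : StExP`, `exMClosed : StExM`, hypothesis-free: the wiring `exP_of_pt`, `exM_of_tm`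
(`H85/NdExWire`) applied to the landed closures of the S5973 / S5987 projects.
-/

set_option autoImplicit false

namespace Cfsg.Agent.H85.Nd

open Cfsg.Agent.H86.Nd

universe u

/-- helper77's `StTypeU`, closed (as in `S5987.lean`). -/
theorem nd_typeU_closed : Cfsg.Agent.H77.Tm.StTypeU.{u, u} := by
  have hBlockRel : Cfsg.Agent.H42.Spd.StBlockRel.{u, u} :=
    Cfsg.Agent.H67.Spd.blockRel Cfsg.Agent.H16.Spd.block
  have hModc : Cfsg.Agent.H42.Spd.StModc.{u, u} :=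
    Cfsg.Agent.H24.Spd.modc hBlockRel Cfsg.Agent.H77.Spd.fix Cfsg.Agent.H77.Spd.compl
  have hDecomp : Cfsg.Agent.H42.Spd.StDecomp.{u, u} :=
    Cfsg.Agent.H51.Spd.decomp Cfsg.Agent.H14.Ti.spdSub hModc Cfsg.Agent.H77.Spd.compl
  have hMinusSum : Cfsg.Agent.H77.Tm.StMinusSum.{u, u} :=
    Cfsg.Agent.H3.Tm.minusSum Cfsg.Agent.H19.Tm.anisoStd Cfsg.Agent.H19.Tm.anisoIso
  have hBlockMinus : Cfsg.Agent.H77.Tm.StBlockMinus.{u, u} :=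
    Cfsg.Agent.H28.Tm.blockMinus Cfsg.Agent.H24.Tm.ord
  exact Cfsg.Agent.H28.Tm.typeU Cfsg.Agent.H8.Tm.qTrick hDecomp hBlockMinus hMinusSum
    Cfsg.Agent.H18.Tm.complPlus

/-- helper77's `StQStruct`, closed (as in `S5987.lean`). -/
theorem nd_qStruct_closed : Cfsg.Agent.H77.Tm.StQStruct.{u, u} := by
  have hBlockRel : Cfsg.Agent.H42.Spd.StBlockRel.{u, u} :=
    Cfsg.Agent.H67.Spd.blockRel Cfsg.Agent.H16.Spd.block
  have hModc : Cfsg.Agent.H42.Spd.StModc.{u, u} :=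
    Cfsg.Agent.H24.Spd.modc hBlockRel Cfsg.Agent.H77.Spd.fix Cfsg.Agent.H77.Spd.compl
  have hTiHalf : Cfsg.Agent.H42.Ti.StTiHalf.{u, u} := Cfsg.Agent.H72.Ti.tiHalf
  have hUpper : Cfsg.Agent.H42.Ti.StTiUpper.{u, u} := Cfsg.Agent.H3.Ti.tiUpper hTiHalf
  have hPrim : Cfsg.Agent.H42.Ti.StTiPrim.{u, u} :=
    Cfsg.Agent.H3.Ti.tiPrim Cfsg.Agent.H3.Ti.cycSet
  have hUpperEven : Cfsg.Agent.H42.Ti.StTiUpperEven.{u, u} :=
    Cfsg.Agent.H60.Ti.tiUpperEven Cfsg.Agent.H3.Ti.cycSet hPrim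
      Cfsg.Agent.H3.Ti.tiCompDvd Cfsg.Agent.H16.Ti.tiCompNd hTiHalf
  have hHypClose : Cfsg.Agent.H42.Ti.StTiHypClose.{u, u} :=
    Cfsg.Agent.H16.Ti.tiHypClose Cfsg.Agent.H3.Ti.tiCompDvd Cfsg.Agent.H3.Ti.tiIrrSub
  have hPair : Cfsg.Agent.H42.Ti.StTiPair.{u, u} :=
    Cfsg.Agent.H3.Ti.tiPair Cfsg.Agent.H3.Ti.tiCompDvd Cfsg.Agent.H3.Ti.tiIrrSub
      hHypClose Cfsg.Agent.H32.Ti.tiAnti
  have hStepEven : Cfsg.Agent.H42.Ti.StTiStepEven.{u, u} :=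
    Cfsg.Agent.H3.Ti.tiStepEven Cfsg.Agent.H3.Ti.cycSet hPrim
      Cfsg.Agent.H3.Ti.tiCompDvd Cfsg.Agent.H16.Ti.tiCompNd hPair
  have hBuild : Cfsg.Agent.H42.Ti.StTiBuild.{u, u} :=
    Cfsg.Agent.H14.Ti.tiBuild Cfsg.Agent.H72.Ti.tiPeel Cfsg.Agent.H14.Ti.tiStepOdd hStepEven
  have hOSplit : Cfsg.Agent.H14.Ot.StOSplit.{u, u} := Cfsg.Agent.H86.Ot.oSplit
  exact Cfsg.Agent.H11.Tm.qStruct Cfsg.Agent.H8.Tm.qTrick hOSplit hModc hUpper hUpperEven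
    hTiHalf hBuild

/-- ND-EXP, closed. -/
theorem exPClosed : StExP.{u} := by
  have hMS : Cfsg.Agent.H77.Tm.StMinusSum.{u, u} :=
    Cfsg.Agent.H3.Tm.minusSum Cfsg.Agent.H19.Tm.anisoStd Cfsg.Agent.H19.Tm.anisoIso
  exact exP_of_pt Cfsg.Agent.H15.Pt.exOdd
    (Cfsg.Agent.H85.PtEx.exEvenClosed hMS nd_typeU_closed Cfsg.Agent.H28.Tm.oddMemAll)
    Cfsg.Agent.H3.Ti.cycSet

/-- ND-EXM, closed. -/
theorem exMClosed : StExM.{u} := by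
  have hExEven : Cfsg.Agent.H77.Tm.StExEven.{u} :=
    Cfsg.Agent.H61.Tm.exEven Cfsg.Agent.H19.Tm.anisoStd Cfsg.Agent.H19.Tm.anisoIso
      Cfsg.Agent.H28.Tm.oddMemAll nd_qStruct_closed nd_typeU_closed Cfsg.Agent.H18.Tm.complPlus
  exact exM_of_tm Cfsg.Agent.H28.Tm.exOdd hExEven Cfsg.Agent.H3.Ti.cycSet

example : StExP.{u} := exPClosed
example : StExM.{u} := exMClosed

end Cfsg.Agent.H85.Nd
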