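import Mathlib
import Cfsg.Prelude.Def_RootSubgroups
import Cfsg.Agent.H85.RootNil

/-!
# Abstract root subgroups: the plane `N = A C` (Timmesfeld II (2.3)(2))

Configuration: `A, B, C, D ∈ S` with `⁅B, A⁆ = C ∈ S` and `⁅D, C⁆ = A`.  Then `B, D` form a rank
one pair and `⟨B, D⟩` acts on `N = A C` like `SL₂` on its natural module.
-/

set_option autoImplicit false

namespace Cfsg.Agent.H85

open Cfsg
open scoped commutatorElement

variable {G : Type*} [Group G] {S : Set (Subgroup G)}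

/-- The plane configuration. -/
structure PlaneCfg (S : Set (Subgroup G)) (A B C D : Subgroup G) : Prop where
  hS : IsRootSubgroupSet S
  hA : A ∈ S
  hB : B ∈ S
  hC : C ∈ S
  hD : D ∈ S
  hBA : RootCommutatorCase S B A
  hBAe : ⁅B, A⁆ = C
  hDC : RootCommutatorCase S D C
  hDCe : ⁅D, C⁆ = A

theorem conj_eq_comm_mul (g x : G) : g * x * g⁻¹ = ⁅g, x⁆ * x := by
  rw [commutatorElement_def]; group

section Plane

variable {A B C D : Subgroup G}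

theorem pc_comm_CA (h : PlaneCfg S A B C D) : ∀ c ∈ C, ∀ a ∈ A, c * a = a * c := by
  intro c hc a ha
  exact rcc_comm_B h.hBA c (by rw [h.hBAe]; exact hc) a ha

theorem pc_comm_CB (h : PlaneCfg S A B C D) : ∀ c ∈ C, ∀ b ∈ B, c * b = b * c := by
  intro c hc b hb
  exact rcc_comm_A h.hBA c (by rw [h.hBAe]; exact hc) b hb

theorem pc_comm_AD (h : PlaneCfg S A B C D) : ∀ a ∈ A, ∀ d ∈ D, a * d = d * a := by
  intro a ha d hd
  exact rcc_comm_A h.hDC a (by rw [h.hDCe]; exact ha) d hd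

theorem pc_beta_mem (h : PlaneCfg S A B C D) {b a : G} (hb : b ∈ B) (ha : a ∈ A) :
    ⁅b, a⁆ ∈ C := by
  rw [← h.hBAe]; exact Subgroup.commutator_mem_commutator hb ha

theorem pc_delta_mem (h : PlaneCfg S A B C D) {d c : G} (hd : d ∈ D) (hc : c ∈ C) :
    ⁅d, c⁆ ∈ A := by
  rw [← h.hDCe]; exact Subgroup.commutator_mem_commutator hd hc

/-- Surjectivity of `a ↦ ⁅b, a⁆` for `b ≠ 1`. -/
theorem pc_beta_surj (h : PlaneCfg S A B C D) {b : G} (hb : b ∈ B) (hb1 : b ≠ 1) {c : G}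
    (hc : c ∈ C) : ∃ a ∈ A, ⁅b, a⁆ = c :=
  rcc_surj_right h.hBA hb hb1 (by rw [h.hBAe]; exact hc)

/-- Surjectivity of `b ↦ ⁅b, a⁆` for `a ≠ 1`. -/
theorem pc_beta_surj' (h : PlaneCfg S A B C D) {a : G} (ha : a ∈ A) (ha1 : a ≠ 1) {c : G}
    (hc : c ∈ C) : ∃ b ∈ B, ⁅b, a⁆ = c :=
  rcc_surj_left h.hBA ha ha1 (by rw [h.hBAe]; exact hc)

theorem pc_delta_surj (h : PlaneCfg S A B C D) {d : G} (hd : d ∈ D) (hd1 : d ≠ 1) {a : G}
    (ha : a ∈ A) : ∃ c ∈ C, ⁅d, c⁆ = a :=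
  rcc_surj_right h.hDC hd hd1 (by rw [h.hDCe]; exact ha)

theorem pc_inf (h : PlaneCfg S A B C D) : A ⊓ C = ⊥ := by
  rw [eq_bot_iff]
  intro x hx
  rw [Subgroup.mem_bot]
  by_contra hx1
  apply h.hS.ne_bot C h.hC
  rw [eq_bot_iff]
  intro c hc
  rw [Subgroup.mem_bot]
  obtain ⟨b, hb, hbx⟩ := pc_beta_surj' h hx.1 hx1 hc
  rw [← hbx, commutatorElement_eq_one_iff_mul_comm]
  exact (pc_comm_CB h x hx.2 b hb).symm

/-- Uniqueness of the decomposition in `N = A C`. -/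
theorem pc_unique (h : PlaneCfg S A B C D) {a a' c c' : G} (ha : a ∈ A) (ha' : a' ∈ A)
    (hc : c ∈ C) (hc' : c' ∈ C) (e : a * c = a' * c') : a = a' ∧ c = c' := by
  have h1 : a'⁻¹ * a = c' * c⁻¹ := by
    calc a'⁻¹ * a = a'⁻¹ * (a * c) * c⁻¹ := by group
      _ = a'⁻¹ * (a' * c') * c⁻¹ := by rw [e]
      _ = c' * c⁻¹ := by group
  have h2 : a'⁻¹ * a ∈ A ⊓ C :=
    ⟨A.mul_mem (A.inv_mem ha') ha, by rw [h1]; exact C.mul_mem hc' (C.inv_mem hc)⟩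
  rw [pc_inf h, Subgroup.mem_bot] at h2
  have h3 : a = a' := by
    have : a = a' * (a'⁻¹ * a) := by group
    rw [this, h2, mul_one]
  refine ⟨h3, ?_⟩
  rw [h3] at e
  exact mul_left_cancel e

theorem pc_mem_N (h : PlaneCfg S A B C D) {n : G} (hn : n ∈ A ⊔ C) :
    ∃ a ∈ A, ∃ c ∈ C, n = a * c :=
  mem_sup_of_comm (fun a ha c hc => (pc_comm_CA h c hc a ha).symm) hn

theorem pc_B_conj (h : PlaneCfg S A B C D) {b : G} (hb : b ∈ B) {n : G} (hn : n ∈ A ⊔ C) :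
    b * n * b⁻¹ ∈ A ⊔ C := by
  obtain ⟨a, ha, c, hc, rfl⟩ := pc_mem_N h hn
  have e : b * (a * c) * b⁻¹ = (b * a * b⁻¹) * (b * c * b⁻¹) := by group
  have e2 : b * c * b⁻¹ = c := by rw [← pc_comm_CB h c hc b hb]; group
  rw [e, e2, conj_eq_comm_mul]
  exact Subgroup.mul_mem _ (Subgroup.mul_mem _ (Subgroup.mem_sup_right (pc_beta_mem h hb ha))
    (Subgroup.mem_sup_left ha)) (Subgroup.mem_sup_right hc)

theorem pc_D_conj (h : PlaneCfg S A B C D) {d : G} (hd : d ∈ D) {n : G} (hn : n ∈ A ⊔ C) :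
    d * n * d⁻¹ ∈ A ⊔ C := by
  obtain ⟨a, ha, c, hc, rfl⟩ := pc_mem_N h hn
  have e : d * (a * c) * d⁻¹ = (d * a * d⁻¹) * (d * c * d⁻¹) := by group
  have e2 : d * a * d⁻¹ = a := by rw [← pc_comm_AD h a ha d hd]; group
  rw [e, e2, conj_eq_comm_mul]
  exact Subgroup.mul_mem _ (Subgroup.mem_sup_left ha)
    (Subgroup.mul_mem _ (Subgroup.mem_sup_left (pc_delta_mem h hd hc)) (Subgroup.mem_sup_right hc))

theorem pc_norm (h : PlaneCfg S A B C D) :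
    B ⊔ D ≤ Subgroup.normalizer ((A ⊔ C : Subgroup G) : Set G) := by
  apply sup_le
  · intro b hb
    exact mem_normalizer_of_conj_mem (fun n hn => pc_B_conj h hb hn)
      (fun n hn => by simpa using pc_B_conj h (B.inv_mem hb) hn)
  · intro d hd
    exact mem_normalizer_of_conj_mem (fun n hn => pc_D_conj h hd hn)
      (fun n hn => by simpa using pc_D_conj h (D.inv_mem hd) hn)

theorem pc_conjBy_N (h : PlaneCfg S A B C D) {x : G} (hx : x ∈ B ⊔ D) :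
    conjBy (A ⊔ C) x = A ⊔ C :=
  conjBy_eq_self_iff.mpr (pc_norm h hx)

/-- `⁅b, n⁆ ∈ C` for `n ∈ N`. -/
theorem pc_comm_N (h : PlaneCfg S A B C D) {b : G} (hb : b ∈ B) {n : G} (hn : n ∈ A ⊔ C) :
    ⁅b, n⁆ ∈ C := by
  obtain ⟨a, ha, c, hc, rfl⟩ := pc_mem_N h hn
  have h1 := pc_comm_CB h c hc b hb
  have h2 := pc_comm_CA h c hc a ha
  have e : ⁅b, a * c⁆ = ⁅b, a⁆ := by
    rw [commutatorElement_def, commutatorElement_def]
    have h1' : c * b⁻¹ = b⁻¹ * c := by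
      have : c * b⁻¹ = b⁻¹ * (b * c) * b⁻¹ := by group
      rw [this, ← h1]; group
    calc b * (a * c) * b⁻¹ * (a * c)⁻¹ = b * a * (c * b⁻¹) * c⁻¹ * a⁻¹ := by group
      _ = b * a * (b⁻¹ * c) * c⁻¹ * a⁻¹ := by rw [h1']
      _ = b * a * b⁻¹ * a⁻¹ := by group
  rw [e]
  exact pc_beta_mem h hb ha

/-- The key computation: a non-identity `b` cannot commute with `d b d⁻¹` for `d ≠ 1`. -/
theorem pc_no_class_two (h : PlaneCfg S A B C D) {b d : G} (hb : b ∈ B) (hb1 : b ≠ 1)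
    (hd : d ∈ D) (hd1 : d ≠ 1) (hcomm : b * (d * b * d⁻¹) = (d * b * d⁻¹) * b) : False := by
  -- Claim 1: `b` normalizes `d C d⁻¹`
  have claim1 : ∀ c ∈ C, b * (d * c * d⁻¹) * b⁻¹ ∈ conjBy C d := by
    intro c hc
    obtain ⟨a₀, ha₀, rfl⟩ := pc_beta_surj h hb hb1 hc
    have hda : d * a₀ * d⁻¹ = a₀ := by rw [← pc_comm_AD h a₀ ha₀ d hd]; group
    have e1 : d * ⁅b, a₀⁆ * d⁻¹ = ⁅d * b * d⁻¹, a₀⁆ := by
      have : d * ⁅b, a₀⁆ * d⁻¹ = ⁅d * b * d⁻¹, d * a₀ * d⁻¹⁆ := by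
        simp only [commutatorElement_def]; group
      rw [this, hda]
    have hbb : b * (d * b * d⁻¹) * b⁻¹ = d * b * d⁻¹ := by rw [hcomm]; group
    have e2 : b * ⁅d * b * d⁻¹, a₀⁆ * b⁻¹ = ⁅d * b * d⁻¹, b * a₀ * b⁻¹⁆ := by
      have : b * ⁅d * b * d⁻¹, a₀⁆ * b⁻¹ = ⁅b * (d * b * d⁻¹) * b⁻¹, b * a₀ * b⁻¹⁆ := by
        simp only [commutatorElement_def]; group
      rw [this, hbb]
    have e3 : ⁅d * b * d⁻¹, b * a₀ * b⁻¹⁆ = d * ⁅b, d⁻¹ * (b * a₀ * b⁻¹) * d⁆ * d⁻¹ := by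
      simp only [commutatorElement_def]; group
    rw [e1, e2, e3]
    apply conj_mem_conjBy
    apply pc_comm_N h hb
    have := pc_D_conj h (D.inv_mem hd) (pc_B_conj h hb (Subgroup.mem_sup_left ha₀ : a₀ ∈ A ⊔ C))
    simpa using this
  -- Claim 2
  have claim2 : ∀ c ∈ C, ⁅d, ⁅b, ⁅d, c⁆⁆⁆ = 1 := by
    intro c hc
    have h1 := claim1 c hc
    rw [mem_conjBy] at h1
    obtain ⟨c', hc'⟩ : ∃ c', c' = d⁻¹ * (b * (d * c * d⁻¹) * b⁻¹) * d := ⟨_, rfl⟩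
    rw [← hc'] at h1
    have e1 : b * (d * c * d⁻¹) * b⁻¹ = d * c' * d⁻¹ := by rw [hc']; group
    have hα := pc_delta_mem h hd hc
    have e2 : b * (d * c * d⁻¹) * b⁻¹ = ⁅d, c⁆ * (⁅b, ⁅d, c⁆⁆ * c) := by
      have hcb : b * c * b⁻¹ = c := by rw [← pc_comm_CB h c hc b hb]; group
      have hCA := pc_comm_CA h _ (pc_beta_mem h hb hα) _ hα
      calc b * (d * c * d⁻¹) * b⁻¹ = b * (⁅d, c⁆ * c) * b⁻¹ := by rw [conj_eq_comm_mul d c]
        _ = (b * ⁅d, c⁆ * b⁻¹) * (b * c * b⁻¹) := by group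
        _ = (⁅b, ⁅d, c⁆⁆ * ⁅d, c⁆) * c := by rw [hcb, conj_eq_comm_mul b ⁅d, c⁆]
        _ = (⁅d, c⁆ * ⁅b, ⁅d, c⁆⁆) * c := by rw [hCA]
        _ = ⁅d, c⁆ * (⁅b, ⁅d, c⁆⁆ * c) := by group
    have e3 : d * c' * d⁻¹ = ⁅d, c'⁆ * c' := conj_eq_comm_mul d c'
    have hu := pc_unique h hα (pc_delta_mem h hd h1)
      (C.mul_mem (pc_beta_mem h hb hα) hc) h1 (by rw [← e2, e1, e3])
    have e4 : ⁅d, c'⁆ = ⁅d, ⁅b, ⁅d, c⁆⁆⁆ * ⁅d, c⁆ := by
      rw [← hu.2]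
      exact rcc_comm_mul_right h.hDC hd (pc_beta_mem h hb hα) hc
    have e5 : ⁅d, c⁆ = ⁅d, ⁅b, ⁅d, c⁆⁆⁆ * ⁅d, c⁆ := by
      calc ⁅d, c⁆ = ⁅d, c'⁆ := hu.1
        _ = _ := e4
    have : ⁅d, ⁅b, ⁅d, c⁆⁆⁆ * ⁅d, c⁆ = 1 * ⁅d, c⁆ := by rw [one_mul]; exact e5.symm
    exact mul_right_cancel this
  -- Claim 3
  obtain ⟨a₂, ha₂, ha₂1⟩ : ∃ a ∈ A, a ≠ 1 := by
    by_contra hno
    push Not at hno
    exact h.hS.ne_bot A h.hA ((Subgroup.eq_bot_iff_forall A).mpr hno)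
  obtain ⟨c₂, hc₂, e₂⟩ := pc_delta_surj h hd hd1 ha₂
  obtain ⟨a₃, ha₃, e₃⟩ := pc_beta_surj h hb hb1 hc₂
  obtain ⟨c₄, hc₄, e₄⟩ := pc_delta_surj h hd hd1 ha₃
  have := claim2 c₄ hc₄
  rw [e₄, e₃, e₂] at this
  exact ha₂1 this

theorem exists_ne_one_of_ne_bot {H : Subgroup G} (h : H ≠ ⊥) : ∃ x ∈ H, x ≠ 1 := by
  by_contra hno
  push Not at hno
  exact h ((Subgroup.eq_bot_iff_forall H).mpr hno)

/-- `B` and `D` form a rank one pair. -/
theorem pc_rankOne (h : PlaneCfg S A B C D) : IsRankOnePair B D := by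
  obtain ⟨b, hb, hb1⟩ := exists_ne_one_of_ne_bot (h.hS.ne_bot B h.hB)
  obtain ⟨d, hd, hd1⟩ := exists_ne_one_of_ne_bot (h.hS.ne_bot D h.hD)
  rcases root_trichotomy h.hS h.hB h.hD with h0 | h1 | h2
  · exfalso
    obtain ⟨a₂, ha₂, ha₂1⟩ := exists_ne_one_of_ne_bot (h.hS.ne_bot A h.hA)
    obtain ⟨c₂, hc₂, e₂⟩ := pc_delta_surj h hd hd1 ha₂
    obtain ⟨a₃, ha₃, e₃⟩ := pc_beta_surj h hb hb1 hc₂
    apply ha₂1
    rw [← e₂, ← e₃, commutatorElement_eq_one_iff_mul_comm]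
    have hdb : d * b = b * d := (comm_of_commutator_eq_bot h0 hb hd).symm
    have hda : d * a₃ = a₃ * d := (pc_comm_AD h a₃ ha₃ d hd).symm
    have hdb' : d * b⁻¹ = b⁻¹ * d := by
      have : d * b⁻¹ = b⁻¹ * (b * d) * b⁻¹ := by group
      rw [this, ← hdb]; group
    have hda' : d * a₃⁻¹ = a₃⁻¹ * d := by
      have : d * a₃⁻¹ = a₃⁻¹ * (a₃ * d) * a₃⁻¹ := by group
      rw [this, ← hda]; group
    rw [commutatorElement_def]
    calc d * (b * a₃ * b⁻¹ * a₃⁻¹) = (d * b) * a₃ * b⁻¹ * a₃⁻¹ := by group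
      _ = b * (d * a₃) * b⁻¹ * a₃⁻¹ := by rw [hdb]; group
      _ = b * a₃ * (d * b⁻¹) * a₃⁻¹ := by rw [hda]; group
      _ = b * a₃ * b⁻¹ * (d * a₃⁻¹) := by rw [hdb']; group
      _ = b * a₃ * b⁻¹ * a₃⁻¹ * d := by rw [hda']; group
  · exact h1
  · exfalso
    apply pc_no_class_two h hb hb1 hd hd1
    -- `⁅b, d⁆` is central in `⟨B, D⟩`
    have hc := h2.2.1 ⁅b, d⁆ (Subgroup.commutator_mem_commutator hb hd) b (Subgroup.mem_sup_left hb)
    rw [commutatorElement_def] at hc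
    have h3 : (d * b⁻¹ * d⁻¹) * b = b * (d * b⁻¹ * d⁻¹) := by
      calc (d * b⁻¹ * d⁻¹) * b = b⁻¹ * (b * d * b⁻¹ * d⁻¹ * b) := by group
        _ = b⁻¹ * (b * (b * d * b⁻¹ * d⁻¹)) := by rw [hc]
        _ = b * (d * b⁻¹ * d⁻¹) := by group
    calc b * (d * b * d⁻¹) = (d * b * d⁻¹) * ((d * b⁻¹ * d⁻¹) * b) * (d * b * d⁻¹) := by group
      _ = (d * b * d⁻¹) * (b * (d * b⁻¹ * d⁻¹)) * (d * b * d⁻¹) := by rw [h3]
      _ = (d * b * d⁻¹) * b := by group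

/-- Injectivity of `a ↦ ⁅b, a⁆`. -/
theorem pc_beta_inj (h : PlaneCfg S A B C D) {b a : G} (hb : b ∈ B) (hb1 : b ≠ 1) (ha : a ∈ A)
    (e : ⁅b, a⁆ = 1) : a = 1 :=
  rcc_inj_right h.hS h.hB h.hD (pc_rankOne h) h.hBA hb hb1 ha e

/-- Injectivity of `b ↦ ⁅b, a⁆`. -/
theorem pc_beta_inj' (h : PlaneCfg S A B C D) {b a : G} (hb : b ∈ B) (ha : a ∈ A) (ha1 : a ≠ 1)
    (e : ⁅b, a⁆ = 1) : b = 1 :=
  rcc_inj_left h.hS h.hB h.hD (pc_rankOne h) h.hBA hb ha ha1 e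

theorem pc_delta_inj (h : PlaneCfg S A B C D) {d c : G} (hd : d ∈ D) (hd1 : d ≠ 1) (hc : c ∈ C)
    (e : ⁅d, c⁆ = 1) : c = 1 :=
  rcc_inj_right h.hS h.hD h.hB (rop_symm (pc_rankOne h)) h.hDC hd hd1 hc e

theorem pc_delta_inj' (h : PlaneCfg S A B C D) {d c : G} (hd : d ∈ D) (hc : c ∈ C) (hc1 : c ≠ 1)
    (e : ⁅d, c⁆ = 1) : d = 1 :=
  rcc_inj_left h.hS h.hD h.hB (rop_symm (pc_rankOne h)) h.hDC hd hc hc1 e

/-- `A` is the set of fixed points of `D` on `N`. -/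
theorem pc_fixA (h : PlaneCfg S A B C D) :
    (A ⊔ C) ⊓ Subgroup.centralizer (D : Set G) = A := by
  apply le_antisymm
  · intro n hn'
    obtain ⟨hn, hcen⟩ := Subgroup.mem_inf.mp hn'
    obtain ⟨a, ha, c, hc, rfl⟩ := pc_mem_N h hn
    obtain ⟨d, hd, hd1⟩ := exists_ne_one_of_ne_bot (h.hS.ne_bot D h.hD)
    have h1 : d * (a * c) = a * c * d := Subgroup.mem_centralizer_iff.mp hcen d hd
    have h2 := pc_comm_AD h a ha d hd
    have h3 : d * c = c * d := by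
      have : d * c = a⁻¹ * (a * d) * c := by group
      rw [this, h2]
      calc a⁻¹ * (d * a) * c = a⁻¹ * (d * (a * c)) := by group
        _ = a⁻¹ * (a * c * d) := by rw [h1]
        _ = c * d := by group
    have h4 : c = 1 := pc_delta_inj h hd hd1 hc (commutatorElement_eq_one_iff_mul_comm.mpr h3)
    rw [h4, mul_one]; exact ha
  · intro a ha
    refine Subgroup.mem_inf.mpr ⟨Subgroup.mem_sup_left ha, ?_⟩
    rw [Subgroup.mem_centralizer_iff]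
    intro d hd
    exact (pc_comm_AD h a ha d hd).symm

/-- `C` is the set of fixed points of `B` on `N`. -/
theorem pc_fixC (h : PlaneCfg S A B C D) :
    (A ⊔ C) ⊓ Subgroup.centralizer (B : Set G) = C := by
  apply le_antisymm
  · intro n hn'
    obtain ⟨hn, hcen⟩ := Subgroup.mem_inf.mp hn'
    obtain ⟨a, ha, c, hc, rfl⟩ := pc_mem_N h hn
    obtain ⟨b, hb, hb1⟩ := exists_ne_one_of_ne_bot (h.hS.ne_bot B h.hB)
    have h1 : b * (a * c) = a * c * b := Subgroup.mem_centralizer_iff.mp hcen b hb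
    have h2 := pc_comm_CB h c hc b hb
    have h3 : b * a = a * b := by
      calc b * a = b * (a * c) * c⁻¹ := by group
        _ = a * c * b * c⁻¹ := by rw [h1]
        _ = a * (c * b) * c⁻¹ := by group
        _ = a * (b * c) * c⁻¹ := by rw [h2]
        _ = a * b := by group
    have h4 : a = 1 := pc_beta_inj h hb hb1 ha (commutatorElement_eq_one_iff_mul_comm.mpr h3)
    rw [h4, one_mul]; exact hc
  · intro c hc
    refine Subgroup.mem_inf.mpr ⟨Subgroup.mem_sup_right hc, ?_⟩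
    rw [Subgroup.mem_centralizer_iff]
    intro b hb
    exact (pc_comm_CB h c hc b hb).symm

theorem conjBy_centralizer (U : Subgroup G) (x : G) :
    conjBy (Subgroup.centralizer (U : Set G)) x =
      Subgroup.centralizer ((conjBy U x : Subgroup G) : Set G) := by
  ext z
  rw [mem_conjBy, Subgroup.mem_centralizer_iff, Subgroup.mem_centralizer_iff]
  constructor
  · intro hz u hu
    have hu' : x⁻¹ * u * x ∈ U := mem_conjBy.mp hu
    have := hz _ hu'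
    calc u * z = x * ((x⁻¹ * u * x) * (x⁻¹ * z * x)) * x⁻¹ := by group
      _ = x * ((x⁻¹ * z * x) * (x⁻¹ * u * x)) * x⁻¹ := by rw [this]
      _ = z * u := by group
  · intro hz u hu
    have hu' : x * u * x⁻¹ ∈ conjBy U x := conj_mem_conjBy hu x
    have := hz _ hu'
    calc u * (x⁻¹ * z * x) = x⁻¹ * ((x * u * x⁻¹) * z) * x := by group
      _ = x⁻¹ * (z * (x * u * x⁻¹)) * x := by rw [this]
      _ = x⁻¹ * z * x * u := by group

/-- Fixed points of a conjugate. -/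
theorem pc_fix_conj (h : PlaneCfg S A B C D) {x : G} (hx : x ∈ B ⊔ D) (U : Subgroup G) :
    conjBy ((A ⊔ C) ⊓ Subgroup.centralizer (U : Set G)) x =
      (A ⊔ C) ⊓ Subgroup.centralizer ((conjBy U x : Subgroup G) : Set G) := by
  rw [conjBy_inf, pc_conjBy_N h hx, conjBy_centralizer]

theorem pc_conjA (h : PlaneCfg S A B C D) {x : G} (hx : x ∈ B ⊔ D) :
    conjBy A x = (A ⊔ C) ⊓ Subgroup.centralizer ((conjBy D x : Subgroup G) : Set G) := by
  rw [← pc_fix_conj h hx, pc_fixA h]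

theorem pc_conjC (h : PlaneCfg S A B C D) {x : G} (hx : x ∈ B ⊔ D) :
    conjBy C x = (A ⊔ C) ⊓ Subgroup.centralizer ((conjBy B x : Subgroup G) : Set G) := by
  rw [← pc_fix_conj h hx, pc_fixC h]

/-- Some element of `⟨B, D⟩` conjugates `A` to `C`. -/
theorem pc_exists_swap (h : PlaneCfg S A B C D) :
    ∃ x ∈ B ⊔ D, conjBy A x = C ∧ conjBy C x = A := by
  have hr := pc_rankOne h
  obtain ⟨x, hx, h1, h2⟩ := rop_exists_conj_pair hr (rop_right_mem_unipotent hr)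
    (left_mem_unipotent B D) hr.ne.symm
  refine ⟨x, hx, ?_, ?_⟩
  · rw [pc_conjA h hx, h2, pc_fixC h]
  · rw [pc_conjC h hx, h1, pc_fixA h]

theorem pc_A_ne_C (h : PlaneCfg S A B C D) : A ≠ C := by
  intro e
  have h1 := pc_inf h
  rw [← e, inf_idem] at h1
  exact h.hS.ne_bot A h.hA h1

/-- The conjugates of `A` under `⟨B, D⟩`. -/
theorem pc_orbit_A (h : PlaneCfg S A B C D) {x : G} (hx : x ∈ B ⊔ D) :
    conjBy A x = C ∨ ∃ b ∈ B, conjBy A x = conjBy A b := by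
  have hr := pc_rankOne h
  have hmem : conjBy D x ∈ unipotentSubgroups B D :=
    conjBy_mem_unipotent (rop_right_mem_unipotent hr) hx
  rcases rop_unipotent_cases hr hmem with h1 | ⟨b, hb, h1⟩
  · left
    rw [pc_conjA h hx, h1, pc_fixC h]
  · right
    refine ⟨b, hb, ?_⟩
    rw [pc_conjA h hx, h1, ← pc_conjA h (Subgroup.mem_sup_left hb)]

/-- The conjugates of `C` under `⟨B, D⟩`. -/
theorem pc_orbit_C (h : PlaneCfg S A B C D) {x : G} (hx : x ∈ B ⊔ D) :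
    conjBy C x = A ∨ ∃ d ∈ D, conjBy C x = conjBy C d := by
  have hr := rop_symm (pc_rankOne h)
  have hx' : x ∈ D ⊔ B := by rw [sup_comm]; exact hx
  have hmem : conjBy B x ∈ unipotentSubgroups D B :=
    conjBy_mem_unipotent (rop_right_mem_unipotent hr) hx'
  rcases rop_unipotent_cases hr hmem with h1 | ⟨d, hd, h1⟩
  · left
    rw [pc_conjC h hx, h1, pc_fixA h]
  · right
    refine ⟨d, hd, ?_⟩
    rw [pc_conjC h hx, h1, ← pc_conjC h (Subgroup.mem_sup_right hd)]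

theorem pc_conjA_inf (h : PlaneCfg S A B C D) {b : G} (hb : b ∈ B) (hb1 : b ≠ 1) :
    A ⊓ conjBy A b = ⊥ := by
  rw [eq_bot_iff]
  intro x hx
  obtain ⟨hxA, hxb⟩ := Subgroup.mem_inf.mp hx
  rw [Subgroup.mem_bot]
  rw [mem_conjBy] at hxb
  have e : x = ⁅b, b⁻¹ * x * b⁆ * (b⁻¹ * x * b) := by rw [commutatorElement_def]; group
  have h1 : ⁅b, b⁻¹ * x * b⁆ ∈ A ⊓ C := by
    refine ⟨?_, pc_beta_mem h hb hxb⟩
    have : ⁅b, b⁻¹ * x * b⁆ = x * (b⁻¹ * x * b)⁻¹ := by rw [commutatorElement_def]; group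
    rw [this]
    exact A.mul_mem hxA (A.inv_mem hxb)
  rw [pc_inf h, Subgroup.mem_bot] at h1
  have h2 := pc_beta_inj h hb hb1 hxb h1
  rw [e, h1, h2, mul_one]

theorem pc_conjC_inf (h : PlaneCfg S A B C D) {d : G} (hd : d ∈ D) (hd1 : d ≠ 1) :
    C ⊓ conjBy C d = ⊥ := by
  rw [eq_bot_iff]
  intro x hx
  obtain ⟨hxC, hxd⟩ := Subgroup.mem_inf.mp hx
  rw [Subgroup.mem_bot]
  rw [mem_conjBy] at hxd
  have e : x = ⁅d, d⁻¹ * x * d⁆ * (d⁻¹ * x * d) := by rw [commutatorElement_def]; group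
  have h1 : ⁅d, d⁻¹ * x * d⁆ ∈ A ⊓ C := by
    refine ⟨pc_delta_mem h hd hxd, ?_⟩
    have : ⁅d, d⁻¹ * x * d⁆ = x * (d⁻¹ * x * d)⁻¹ := by rw [commutatorElement_def]; group
    rw [this]
    exact C.mul_mem hxC (C.inv_mem hxd)
  rw [pc_inf h, Subgroup.mem_bot] at h1
  have h2 := pc_delta_inj h hd hd1 hxd h1
  rw [e, h1, h2, mul_one]

/-- The centralizer of `N` in `⟨B, D⟩` is central in `⟨B, D⟩`. -/
theorem pc_central (h : PlaneCfg S A B C D) {x : G} (hx : x ∈ B ⊔ D)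
    (hxN : ∀ n ∈ A ⊔ C, x * n = n * x) : ∀ y ∈ B ⊔ D, x * y = y * x := by
  have hr := pc_rankOne h
  have hxA : conjBy A x = A := conjBy_eq_of_comm (fun a ha => hxN a (Subgroup.mem_sup_left ha))
  have hxC : conjBy C x = C := conjBy_eq_of_comm (fun c hc => hxN c (Subgroup.mem_sup_right hc))
  have hconj : ∀ n ∈ A ⊔ C, x * n * x⁻¹ = n := by
    intro n hn
    rw [hxN n hn]; group
  have hconj' : ∀ n ∈ A ⊔ C, x⁻¹ * n * x = n := by
    intro n hn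
    have : x⁻¹ * n * x = x⁻¹ * (n * x) := by group
    rw [this, ← hxN n hn]; group
  -- `x` normalizes `D`
  have hxD : conjBy D x = D := by
    have hmem : conjBy D x ∈ unipotentSubgroups B D :=
      conjBy_mem_unipotent (rop_right_mem_unipotent hr) hx
    rcases rop_unipotent_cases hr hmem with h1 | ⟨b, hb, h1⟩
    · exfalso
      apply pc_A_ne_C h
      rw [← hxA, pc_conjA h hx, h1, pc_fixC h]
    · by_cases hb1 : b = 1
      · rw [h1, hb1, conjBy_one]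
      · exfalso
        have e : conjBy A x = conjBy A b := by
          rw [pc_conjA h hx, h1, ← pc_conjA h (Subgroup.mem_sup_left hb)]
        rw [hxA] at e
        have h2 := pc_conjA_inf h hb hb1
        rw [← e, inf_idem] at h2
        exact h.hS.ne_bot A h.hA h2
  -- `x` normalizes `B`
  have hxB : conjBy B x = B := by
    have hr' := rop_symm hr
    have hx' : x ∈ D ⊔ B := by rw [sup_comm]; exact hx
    have hmem : conjBy B x ∈ unipotentSubgroups D B :=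
      conjBy_mem_unipotent (rop_right_mem_unipotent hr') hx'
    rcases rop_unipotent_cases hr' hmem with h1 | ⟨d, hd, h1⟩
    · exfalso
      apply pc_A_ne_C h
      rw [← hxC, pc_conjC h hx, h1, pc_fixA h]
    · by_cases hd1 : d = 1
      · rw [h1, hd1, conjBy_one]
      · exfalso
        have e : conjBy C x = conjBy C d := by
          rw [pc_conjC h hx, h1, ← pc_conjC h (Subgroup.mem_sup_right hd)]
        rw [hxC] at e
        have h2 := pc_conjC_inf h hd hd1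
        rw [← e, inf_idem] at h2
        exact h.hS.ne_bot C h.hC h2
  apply comm_sup
  · intro b hb
    obtain ⟨a, ha, ha1⟩ := exists_ne_one_of_ne_bot (h.hS.ne_bot A h.hA)
    have hb' : x * b * x⁻¹ ∈ B := by
      have := conj_mem_conjBy hb x
      rwa [hxB] at this
    have e1 : ⁅x * b * x⁻¹, a⁆ = ⁅b, a⁆ := by
      have : ⁅x * b * x⁻¹, a⁆ = x * ⁅b, x⁻¹ * a * x⁆ * x⁻¹ := by
        simp only [commutatorElement_def]; group
      rw [this, hconj' a (Subgroup.mem_sup_left ha),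
        hconj _ (Subgroup.mem_sup_right (pc_beta_mem h hb ha))]
    have e2 : ⁅x * b * x⁻¹ * b⁻¹, a⁆ = 1 := by
      rw [rcc_comm_mul_left h.hBA hb' (B.inv_mem hb) ha, rcc_comm_inv_left h.hBA hb ha, e1,
        mul_inv_cancel]
    have e3 := pc_beta_inj' h (B.mul_mem hb' (B.inv_mem hb)) ha ha1 e2
    calc x * b = (x * b * x⁻¹ * b⁻¹) * b * x := by group
      _ = b * x := by rw [e3, one_mul]
  · intro d hd
    obtain ⟨c, hc, hc1⟩ := exists_ne_one_of_ne_bot (h.hS.ne_bot C h.hC)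
    have hd' : x * d * x⁻¹ ∈ D := by
      have := conj_mem_conjBy hd x
      rwa [hxD] at this
    have e1 : ⁅x * d * x⁻¹, c⁆ = ⁅d, c⁆ := by
      have : ⁅x * d * x⁻¹, c⁆ = x * ⁅d, x⁻¹ * c * x⁆ * x⁻¹ := by
        simp only [commutatorElement_def]; group
      rw [this, hconj' c (Subgroup.mem_sup_right hc),
        hconj _ (Subgroup.mem_sup_left (pc_delta_mem h hd hc))]
    have e2 : ⁅x * d * x⁻¹ * d⁻¹, c⁆ = 1 := by
      rw [rcc_comm_mul_left h.hDC hd' (D.inv_mem hd) hc, rcc_comm_inv_left h.hDC hd hc, e1,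
        mul_inv_cancel]
    have e3 := pc_delta_inj' h (D.mul_mem hd' (D.inv_mem hd)) hc hc1 e2
    calc x * d = (x * d * x⁻¹ * d⁻¹) * d * x := by group
      _ = d * x := by rw [e3, one_mul]

theorem pc_orbit_eq (h : PlaneCfg S A B C D) :
    {E | ∃ x ∈ B ⊔ D, E = conjBy A x} = {E | ∃ x ∈ B ⊔ D, E = conjBy C x} := by
  obtain ⟨x₀, hx₀, h1, h2⟩ := pc_exists_swap h
  ext E
  constructor
  · rintro ⟨x, hx, rfl⟩
    exact ⟨x * x₀, Subgroup.mul_mem _ hx hx₀, by rw [← conjBy_conjBy, h2]⟩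
  · rintro ⟨x, hx, rfl⟩
    exact ⟨x * x₀, Subgroup.mul_mem _ hx hx₀, by rw [← conjBy_conjBy, h1]⟩

theorem pc_orbit_eq_A (h : PlaneCfg S A B C D) :
    {E | ∃ x ∈ B ⊔ D, E = conjBy A x} = (fun b : G => conjBy A b) '' (B : Set G) ∪ {C} := by
  obtain ⟨x₀, hx₀, h1, h2⟩ := pc_exists_swap h
  ext E
  constructor
  · rintro ⟨x, hx, rfl⟩
    rcases pc_orbit_A h hx with e | ⟨b, hb, e⟩
    · exact Set.mem_union_right _ (Set.mem_singleton_iff.mpr e)
    · exact Set.mem_union_left _ ⟨b, hb, e.symm⟩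
  · rintro (⟨b, hb, rfl⟩ | e)
    · exact ⟨b, Subgroup.mem_sup_left hb, rfl⟩
    · rw [Set.mem_singleton_iff] at e
      exact ⟨x₀, hx₀, by rw [e, h1]⟩

theorem pc_orbit_eq_C (h : PlaneCfg S A B C D) :
    {E | ∃ x ∈ B ⊔ D, E = conjBy A x} = (fun d : G => conjBy C d) '' (D : Set G) ∪ {A} := by
  rw [pc_orbit_eq h]
  obtain ⟨x₀, hx₀, h1, h2⟩ := pc_exists_swap h
  ext E
  constructor
  · rintro ⟨x, hx, rfl⟩
    rcases pc_orbit_C h hx with e | ⟨d, hd, e⟩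
    · exact Set.mem_union_right _ (Set.mem_singleton_iff.mpr e)
    · exact Set.mem_union_left _ ⟨d, hd, e.symm⟩
  · rintro (⟨d, hd, rfl⟩ | e)
    · exact ⟨d, Subgroup.mem_sup_right hd, rfl⟩
    · rw [Set.mem_singleton_iff] at e
      exact ⟨x₀, hx₀, by rw [e, h2]⟩

theorem pc_partition (h : PlaneCfg S A B C D) :
    IsSubgroupPartition (A ⊔ C) {E | ∃ x ∈ B ⊔ D, E = conjBy A x} := by
  obtain ⟨x₀, hx₀, h1, h2⟩ := pc_exists_swap h
  refine ⟨?_, ?_, ?_⟩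
  · rintro E ⟨x, hx, rfl⟩
    have := conjBy_mono (le_sup_left : A ≤ A ⊔ C) x
    rwa [pc_conjBy_N h hx] at this
  · intro n hn hn1
    obtain ⟨a, ha, c, hc, rfl⟩ := pc_mem_N h hn
    by_cases ha1 : a = 1
    · refine ⟨C, ⟨x₀, hx₀, h1.symm⟩, ?_⟩
      rw [ha1, one_mul]; exact hc
    · obtain ⟨b, hb, e⟩ := pc_beta_surj' h ha ha1 hc
      refine ⟨conjBy A b, ⟨b, Subgroup.mem_sup_left hb, rfl⟩, ?_⟩
      have e2 : a * c = b * a * b⁻¹ := by
        rw [conj_eq_comm_mul, e, pc_comm_CA h c hc a ha]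
      rw [e2]
      exact conj_mem_conjBy ha b
  · rintro E ⟨x, hx, rfl⟩ F ⟨y, hy, rfl⟩ hne
    have hCb : ∀ b ∈ B, C ⊓ conjBy A b = ⊥ := by
      intro b hb
      have e : conjBy C b = C := conjBy_eq_of_comm (fun c hc => (pc_comm_CB h c hc b hb).symm)
      have : conjBy (C ⊓ A) b = C ⊓ conjBy A b := by rw [conjBy_inf, e]
      rw [← this, inf_comm, pc_inf h, conjBy_bot]
    rcases pc_orbit_A h hx with e | ⟨b, hb, e⟩ <;> rcases pc_orbit_A h hy with e' | ⟨b', hb', e'⟩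
    · exact absurd (e.trans e'.symm) hne
    · rw [e, e']; exact hCb b' hb'
    · rw [e, e', inf_comm]; exact hCb b hb
    · rw [e, e']
      have hbb : b⁻¹ * b' ≠ 1 := by
        intro h0
        apply hne
        have : b' = b := by
          have : b' = b * (b⁻¹ * b') := by group
          rw [this, h0, mul_one]
        rw [e, e', this]
      have e3 : conjBy (A ⊓ conjBy A (b⁻¹ * b')) b = conjBy A b ⊓ conjBy A b' := by
        rw [conjBy_inf, conjBy_conjBy]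
        congr 2
        group
      rw [← e3, pc_conjA_inf h (B.mul_mem (B.inv_mem hb) hb') hbb, conjBy_bot]

end Plane

/-- Timmesfeld II (2.3)(2). -/
theorem plane_main (hS : IsRootSubgroupSet S) {A B D : Subgroup G} (hA : A ∈ S) (hB : B ∈ S)
    (hC : ⁅A, B⁆ ∈ S) (hD : D ∈ S) (hDC : ⁅D, ⁅A, B⁆⁆ = A) :
    IsRankOnePair B D ∧
    {E | ∃ x ∈ B ⊔ D, E = conjBy A x} = {E | ∃ x ∈ B ⊔ D, E = conjBy ⁅A, B⁆ x} ∧
    {E | ∃ x ∈ B ⊔ D, E = conjBy A x} = (fun b : G => conjBy A b) '' (B : Set G) ∪ {⁅A, B⁆} ∧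
    {E | ∃ x ∈ B ⊔ D, E = conjBy A x} = (fun d : G => conjBy ⁅A, B⁆ d) '' (D : Set G) ∪ {A} ∧
    IsSubgroupPartition (A ⊔ ⁅A, B⁆) {E | ∃ x ∈ B ⊔ D, E = conjBy A x} ∧
    ∀ x ∈ (B ⊔ D) ⊓ Subgroup.centralizer ((A ⊔ ⁅A, B⁆ : Subgroup G) : Set G),
      ∀ y ∈ B ⊔ D, x * y = y * x := by
  have cfg : PlaneCfg S A B ⁅A, B⁆ D :=
    { hS := hS
      hA := hA
      hB := hB
      hC := hC
      hD := hD
      hBA := rcc_symm (rcc_of_commutator_mem hS hA hB hC)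
      hBAe := Subgroup.commutator_comm B A
      hDC := rcc_of_commutator_mem hS hD hC (by rw [hDC]; exact hA)
      hDCe := hDC }
  refine ⟨pc_rankOne cfg, pc_orbit_eq cfg, pc_orbit_eq_A cfg, pc_orbit_eq_C cfg,
    pc_partition cfg, ?_⟩
  intro x hx y hy
  obtain ⟨hx1, hx2⟩ := Subgroup.mem_inf.mp hx
  apply pc_central cfg hx1 _ y hy
  intro n hn
  exact (Subgroup.mem_centralizer_iff.mp hx2 n hn).symm

end Cfsg.Agent.H85
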