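import Mathlib
import Cfsg.Prelude.Def_RootSubgroups
import Cfsg.Agent.H85.RootPlane
import Cfsg.Agent.S5025

/-!
# Abstract root subgroups: lines through a point and special rank one pairs

Timmesfeld II (2.6) and (2.9): for a line `A B ∩ S` through `A` and a rank one partner `D` of `A`
there is a member `E` of the line with `⁅E, D⁆ ∈ S`, `A E = A B` and `⁅A, ⁅E, D⁆⁆ = E`.
-/

set_option autoImplicit false

namespace Cfsg.Agent.H85

open Cfsg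
open scoped commutatorElement

variable {G : Type*} [Group G] {S : Set (Subgroup G)}

/-- The central translate lemma in elementwise form. -/
theorem central_translate (hS : IsRootSubgroupSet S) {A D : Subgroup G} (hA : A ∈ S) (hD : D ∈ S)
    (hAD : IsRankOnePair A D) {z : G} (hzA : ∀ a ∈ A, z * a = a * z)
    (hzD : ∀ d ∈ D, z * d = d * z) (hz1 : z ≠ 1) {a : G} (ha : a ∈ A) (ha1 : a ≠ 1) :
    z * a ∉ rootElements S := by
  have hz : z ∈ Subgroup.centralizer ((A ⊔ D : Subgroup G) : Set G) := by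
    rw [Subgroup.mem_centralizer_iff]
    intro x hx
    exact (comm_sup hzA hzD x hx).symm
  exact Cfsg.Agent.S5025.result hS hA ⟨hD, hAD⟩ hz hz1 a ha ha1

/-- A rank one pair is never in the commutator case. -/
theorem rop_not_rcc (hS : IsRootSubgroupSet S) {A D : Subgroup G} (hD : D ∈ S)
    (hAD : IsRankOnePair A D) : ¬ RootCommutatorCase S A D := by
  intro h
  obtain ⟨a, ha, ha1⟩ := rop_exists_left hAD
  exact rop_not_conj_comm hAD ha ha1 (rcc_conj_comm hS hD h ha)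

theorem conj_comm_cancel {g x y : G}
    (h : (g⁻¹ * x * g) * (g⁻¹ * y * g) = (g⁻¹ * y * g) * (g⁻¹ * x * g)) : x * y = y * x := by
  have e1 : x * y = g * ((g⁻¹ * x * g) * (g⁻¹ * y * g)) * g⁻¹ := by group
  have e2 : y * x = g * ((g⁻¹ * y * g) * (g⁻¹ * x * g)) * g⁻¹ := by group
  rw [e1, e2, h]

section Line

variable {A B D : Subgroup G}

theorem line_comm (hS : IsRootSubgroupSet S) (hA : A ∈ S) (hB : B ∈ linePartners S A) :
    ∀ x ∈ A ⊔ B, ∀ y ∈ A ⊔ B, x * y = y * x := by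
  have hBS : B ∈ S := hB.1.1
  have hAB : ∀ a ∈ A, ∀ b ∈ B, a * b = b * a := fun a ha b hb =>
    comm_of_commutator_eq_bot hB.1.2.2 ha hb
  apply comm_sup_left
  · intro a ha
    apply comm_sup
    · intro a' ha'; exact comm_of_isMulCommutative (hS.commutative A hA) ha ha'
    · intro b hb; exact hAB a ha b hb
  · intro b hb
    apply comm_sup
    · intro a ha; exact (hAB a ha b hb).symm
    · intro b' hb'; exact comm_of_isMulCommutative (hS.commutative B hBS) hb hb'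

theorem line_root (hB : B ∈ linePartners S A) {x : G} (hx : x ∈ A ⊔ B) (hx1 : x ≠ 1) :
    x ∈ rootElements S := by
  obtain ⟨C, hC, hxC⟩ := hB.2.2.1 x hx hx1
  exact ⟨hx1, C, hC.1, hxC⟩

/-- No member of the line `A B ∩ S` commutes with a rank one partner `D` of `A`. -/
theorem line_not_comm (hS : IsRootSubgroupSet S) (hA : A ∈ S) (hB : B ∈ linePartners S A)
    (hD : D ∈ S) (hAD : IsRankOnePair A D) {E : Subgroup G} (hE : E ∈ membersIn S (A ⊔ B)) :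
    ⁅E, D⁆ ≠ ⊥ := by
  intro h0
  obtain ⟨e, he, he1⟩ := exists_ne_one_of_ne_bot (hS.ne_bot E hE.1)
  obtain ⟨a, ha, ha1⟩ := rop_exists_left hAD
  obtain ⟨d, hd, hd1⟩ := rop_exists_right hAD
  have hzA : ∀ a' ∈ A, e * a' = a' * e := fun a' ha' =>
    line_comm hS hA hB e (hE.2 he) a' (Subgroup.mem_sup_left ha')
  have hzD : ∀ d ∈ D, e * d = d * e := fun d hd => comm_of_commutator_eq_bot h0 he hd
  apply central_translate hS hA hD hAD hzA hzD he1 ha ha1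
  apply line_root hB (Subgroup.mul_mem _ (hE.2 he) (Subgroup.mem_sup_left ha))
  intro h1
  have heA : e ∈ A := by
    have : e = a⁻¹ := eq_inv_of_mul_eq_one_left h1
    rw [this]; exact A.inv_mem ha
  exact rop_not_commute hAD heA he1 hd hd1 (hzD d hd)

end Line

/-- Key lemma: `E` commutes with `A`, `D` is a rank one partner of `A`, `⁅E, D⁆ ∈ S`, and all
products `a e` are root elements. Then `⁅A, ⁅E, D⁆⁆ = E`. -/
theorem comm_case_key (hS : IsRootSubgroupSet S) {A D E : Subgroup G} (hA : A ∈ S) (hD : D ∈ S)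
    (hE : E ∈ S) (hAD : IsRankOnePair A D) (hAE : ∀ a ∈ A, ∀ e ∈ E, a * e = e * a)
    (hED : RootCommutatorCase S E D)
    (hR : ∀ a ∈ A, a ≠ 1 → ∀ e ∈ E, e ≠ 1 → a * e ∈ rootElements S) :
    RootCommutatorCase S A ⁅E, D⁆ ∧ ⁅A, ⁅E, D⁆⁆ = E := by
  have hF : ⁅E, D⁆ ∈ S := hED.1
  have hFD : ∀ f ∈ ⁅E, D⁆, ∀ d ∈ D, f * d = d * f := rcc_comm_B hED
  have hFE : ∀ f ∈ ⁅E, D⁆, ∀ e ∈ E, f * e = e * f := rcc_comm_A hED
  have hDE := rcc_symm hED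
  have hcomm : ⁅D, E⁆ = ⁅E, D⁆ := Subgroup.commutator_comm D E
  obtain ⟨a, ha, ha1⟩ := rop_exists_left hAD
  obtain ⟨d, hd, hd1, hconj⟩ := roc_exists hAD.cond_left ha ha1
  have hM : ∀ e ∈ E, ∀ d' ∈ D,
      (a⁻¹ * (d * e * d⁻¹) * a) * d' = d' * (a⁻¹ * (d * e * d⁻¹) * a) := by
    intro e he d' hd'
    have h1 : a * d' * a⁻¹ ∈ conjBy A d := by rw [hconj]; exact conj_mem_conjBy hd' a
    rw [mem_conjBy] at h1
    have h2 := hAE _ h1 e he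
    have h3 : (d * e * d⁻¹) * (a * d' * a⁻¹) = (a * d' * a⁻¹) * (d * e * d⁻¹) := by
      have e1 : (d * e * d⁻¹) * (a * d' * a⁻¹) =
          d * (e * (d⁻¹ * (a * d' * a⁻¹) * d)) * d⁻¹ := by group
      have e2 : (a * d' * a⁻¹) * (d * e * d⁻¹) =
          d * ((d⁻¹ * (a * d' * a⁻¹) * d) * e) * d⁻¹ := by group
      rw [e1, e2, h2]
    have e1 : (a⁻¹ * (d * e * d⁻¹) * a) * d' =
        a⁻¹ * ((d * e * d⁻¹) * (a * d' * a⁻¹)) * a := by group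
    have e2 : d' * (a⁻¹ * (d * e * d⁻¹) * a) =
        a⁻¹ * ((a * d' * a⁻¹) * (d * e * d⁻¹)) * a := by group
    rw [e1, e2, h3]
  have h2 : RootCommutatorCase S A ⁅E, D⁆ := by
    rcases root_trichotomy hS hA hF with h0 | h1 | h2
    · exfalso
      obtain ⟨e, he, he1⟩ := exists_ne_one_of_ne_bot (hS.ne_bot E hE)
      have hf : ⁅d, e⁆ ∈ ⁅E, D⁆ := commutator_swap_mem he hd
      have haf : a⁻¹ * ⁅d, e⁆ = ⁅d, e⁆ * a⁻¹ := comm_of_commutator_eq_bot h0 (A.inv_mem ha) hf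
      have hae : a⁻¹ * e = e * a⁻¹ := hAE _ (A.inv_mem ha) e he
      have h3 := hM e he d hd
      have e1 : a⁻¹ * (d * e * d⁻¹) * a = ⁅d, e⁆ * e := by
        rw [conj_eq_comm_mul d e]
        calc a⁻¹ * (⁅d, e⁆ * e) * a = (a⁻¹ * ⁅d, e⁆) * e * a := by group
          _ = ⁅d, e⁆ * (a⁻¹ * e) * a := by rw [haf]; group
          _ = ⁅d, e⁆ * e := by rw [hae]; group
      rw [e1] at h3
      have hfd := hFD _ hf d hd
      have hed : e * d = d * e := by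
        calc e * d = ⁅d, e⁆⁻¹ * (⁅d, e⁆ * e * d) := by group
          _ = ⁅d, e⁆⁻¹ * (d * (⁅d, e⁆ * e)) := by rw [h3]
          _ = ⁅d, e⁆⁻¹ * (d * ⁅d, e⁆) * e := by group
          _ = ⁅d, e⁆⁻¹ * (⁅d, e⁆ * d) * e := by rw [hfd]
          _ = d * e := by group
      have hde : ⁅d, e⁆ = 1 := by
        rw [commutatorElement_def, ← hed]; group
      exact he1 (rcc_inj_right hS hD hA (rop_symm hAD) hDE hd hd1 he hde)
    · exfalso
      obtain ⟨e, he, he1⟩ := exists_ne_one_of_ne_bot (hS.ne_bot E hE)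
      have hzA : ∀ a' ∈ A, e * a' = a' * e := fun a' ha' => (hAE a' ha' e he).symm
      have hzF : ∀ f ∈ ⁅E, D⁆, e * f = f * e := fun f hf => (hFE f hf e he).symm
      apply central_translate hS hA hF h1 hzA hzF he1 ha ha1
      rw [hzA a ha]
      exact hR a ha ha1 e he he1
    · exact h2
  have hKA : ∀ k ∈ ⁅A, ⁅E, D⁆⁆, ∀ a' ∈ A, k * a' = a' * k := rcc_comm_A h2
  have hKF : ∀ k ∈ ⁅A, ⁅E, D⁆⁆, ∀ f ∈ ⁅E, D⁆, k * f = f * k := rcc_comm_B h2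
  have hQ : ∀ e ∈ E, ⁅a⁻¹, ⁅d, e⁆⁆ * e = 1 := by
    intro e he
    by_contra hu
    have hf : ⁅d, e⁆ ∈ ⁅E, D⁆ := commutator_swap_mem he hd
    have hk : ⁅a⁻¹, ⁅d, e⁆⁆ ∈ ⁅A, ⁅E, D⁆⁆ :=
      Subgroup.commutator_mem_commutator (A.inv_mem ha) hf
    have he1 : e ≠ 1 := by
      rintro rfl
      apply hu
      simp [commutatorElement_def]
    have huA : ∀ a' ∈ A, (⁅a⁻¹, ⁅d, e⁆⁆ * e) * a' = a' * (⁅a⁻¹, ⁅d, e⁆⁆ * e) := by
      intro a' ha'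
      rw [mul_assoc, ← hAE a' ha' e he, ← mul_assoc, hKA _ hk a' ha', mul_assoc]
    have huD : ∀ d' ∈ D, (⁅a⁻¹, ⁅d, e⁆⁆ * e) * d' = d' * (⁅a⁻¹, ⁅d, e⁆⁆ * e) := by
      intro d' hd'
      have h3 := hM e he d' hd'
      have e1 : a⁻¹ * (d * e * d⁻¹) * a = ⁅d, e⁆ * (⁅a⁻¹, ⁅d, e⁆⁆ * e) := by
        rw [conj_eq_comm_mul d e]
        have hae : a⁻¹ * e = e * a⁻¹ := hAE _ (A.inv_mem ha) e he
        calc a⁻¹ * (⁅d, e⁆ * e) * a = (a⁻¹ * ⁅d, e⁆ * a⁻¹⁻¹) * (a⁻¹ * e) * a := by group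
          _ = (⁅a⁻¹, ⁅d, e⁆⁆ * ⁅d, e⁆) * (e * a⁻¹) * a := by
            rw [conj_eq_comm_mul a⁻¹ ⁅d, e⁆, hae]
          _ = (⁅a⁻¹, ⁅d, e⁆⁆ * ⁅d, e⁆) * e := by group
          _ = ⁅d, e⁆ * (⁅a⁻¹, ⁅d, e⁆⁆ * e) := by rw [hKF _ hk _ hf]; group
      rw [e1] at h3
      have hfd := hFD _ hf d' hd'
      calc (⁅a⁻¹, ⁅d, e⁆⁆ * e) * d'
          = ⁅d, e⁆⁻¹ * (⁅d, e⁆ * (⁅a⁻¹, ⁅d, e⁆⁆ * e) * d') := by group
        _ = ⁅d, e⁆⁻¹ * (d' * (⁅d, e⁆ * (⁅a⁻¹, ⁅d, e⁆⁆ * e))) := by rw [h3]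
        _ = ⁅d, e⁆⁻¹ * (d' * ⁅d, e⁆) * (⁅a⁻¹, ⁅d, e⁆⁆ * e) := by group
        _ = ⁅d, e⁆⁻¹ * (⁅d, e⁆ * d') * (⁅a⁻¹, ⁅d, e⁆⁆ * e) := by rw [hfd]
        _ = d' * (⁅a⁻¹, ⁅d, e⁆⁆ * e) := by group
    apply central_translate hS hA hD hAD huA huD hu ha ha1
    obtain ⟨hae1, E₁, hE₁, haeE₁⟩ := hR a ha ha1 e he he1
    obtain ⟨f', hf', hf'k⟩ := rcc_surj_right h2 ha ha1 (Subgroup.inv_mem _ hk)
    have e2 : ⁅a⁻¹, ⁅d, e⁆⁆ * e * a = f' * (a * e) * f'⁻¹ := by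
      have h4 : f' * a * f'⁻¹ = ⁅a⁻¹, ⁅d, e⁆⁆ * a := by
        rw [conj_eq_comm_mul f' a, ← commutatorElement_inv, hf'k, inv_inv]
      have h5 : f' * e = e * f' := hFE f' hf' e he
      calc ⁅a⁻¹, ⁅d, e⁆⁆ * e * a = ⁅a⁻¹, ⁅d, e⁆⁆ * (e * a) := by group
        _ = ⁅a⁻¹, ⁅d, e⁆⁆ * (a * e) := by rw [hAE a ha e he]
        _ = (f' * a * f'⁻¹) * e := by rw [h4]; group
        _ = f' * a * f'⁻¹ * (e * f') * f'⁻¹ := by group
        _ = f' * a * f'⁻¹ * (f' * e) * f'⁻¹ := by rw [h5]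
        _ = f' * (a * e) * f'⁻¹ := by group
    refine ⟨?_, conjBy E₁ f', hS.conj_mem E₁ hE₁ f', ?_⟩
    · rw [e2]
      intro h6
      apply hae1
      calc a * e = f'⁻¹ * (f' * (a * e) * f'⁻¹) * f' := by group
        _ = 1 := by rw [h6]; group
    · rw [e2]; exact conj_mem_conjBy haeE₁ f'
  refine ⟨h2, le_antisymm ?_ ?_⟩
  · intro k hk
    obtain ⟨f, hf, hfk⟩ := rcc_surj_right h2 (A.inv_mem ha) (by simpa using ha1) hk
    have hf' : f ∈ ⁅D, E⁆ := by rw [hcomm]; exact hf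
    obtain ⟨e, he, hef⟩ := rcc_surj_right hDE hd hd1 hf'
    have h7 := hQ e he
    rw [hef, hfk] at h7
    have h8 : k = e⁻¹ := eq_inv_of_mul_eq_one_left h7
    rw [h8]; exact E.inv_mem he
  · intro e he
    have hf : ⁅d, e⁆ ∈ ⁅E, D⁆ := commutator_swap_mem he hd
    have hk : ⁅a⁻¹, ⁅d, e⁆⁆ ∈ ⁅A, ⁅E, D⁆⁆ :=
      Subgroup.commutator_mem_commutator (A.inv_mem ha) hf
    have h7 := hQ e he
    have h8 : e = (⁅a⁻¹, ⁅d, e⁆⁆)⁻¹ := eq_inv_of_mul_eq_one_right h7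
    rw [h8]; exact Subgroup.inv_mem _ hk

/-- The line theorem: for a line `A B ∩ S` through `A` and a rank one partner `D` of `A` there is
a member `E` of the line in the commutator case with `D`, with `A E = A B` and
`⁅A, ⁅E, D⁆⁆ = E`. -/
theorem line_special_point (hS : IsRootSubgroupSet S) {A B D : Subgroup G} (hA : A ∈ S)
    (hB : B ∈ linePartners S A) (hD : D ∈ S) (hAD : IsRankOnePair A D) :
    ∃ E ∈ S, RootCommutatorCase S E D ∧ (∀ a ∈ A, ∀ e ∈ E, a * e = e * a) ∧ A ⊔ E = A ⊔ B ∧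
      RootCommutatorCase S A ⁅E, D⁆ ∧ ⁅A, ⁅E, D⁆⁆ = E := by
  have hBS : B ∈ S := hB.1.1
  have hcomm := line_comm hS hA hB
  have hAinf : ∀ E ∈ membersIn S (A ⊔ B), RootCommutatorCase S E D → A ⊓ E = ⊥ := by
    intro E hE hED
    by_contra hne
    have : A = E := root_eq_of_inf_ne_bot hS hD hE.1 hAD hne
    exact rop_not_rcc hS hD hAD (this ▸ hED)
  have hkey : ∀ E ∈ membersIn S (A ⊔ B), RootCommutatorCase S E D →
      RootCommutatorCase S A ⁅E, D⁆ ∧ ⁅A, ⁅E, D⁆⁆ = E := by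
    intro E hE hED
    apply comm_case_key hS hA hD hE.1 hAD _ hED
    · intro a ha ha1 e he he1
      apply line_root hB (Subgroup.mul_mem _ (Subgroup.mem_sup_left ha) (hE.2 he))
      intro h1
      have h2 : a = e⁻¹ := eq_inv_of_mul_eq_one_left h1
      have haE : a ∈ A ⊓ E := ⟨ha, h2 ▸ E.inv_mem he⟩
      rw [hAinf E hE hED] at haE
      exact ha1 haE
    · intro a ha e he
      exact hcomm a (Subgroup.mem_sup_left ha) e (hE.2 he)
  by_cases hBD : IsRankOnePair B D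
  · obtain ⟨d, hd, hd1⟩ := rop_exists_right hAD
    obtain ⟨a, ha, ha1, hca⟩ := roc_exists hAD.cond_right hd hd1
    obtain ⟨b, hb, hb1, hcb⟩ := roc_exists hBD.cond_right hd hd1
    have hAB0 : A ⊓ B = ⊥ := by
      by_contra hne
      exact hB.1.2.1 (root_eq_of_inf_ne_bot hS hD hBS hAD hne).symm
    have hu : a⁻¹ * b ∈ A ⊔ B :=
      Subgroup.mul_mem _ (Subgroup.mem_sup_left (A.inv_mem ha)) (Subgroup.mem_sup_right hb)
    have hu1 : a⁻¹ * b ≠ 1 := by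
      intro h1
      have h2 : b = a := by
        calc b = a * (a⁻¹ * b) := by group
          _ = a := by rw [h1, mul_one]
      have h3 : a ∈ A ⊓ B := ⟨ha, h2 ▸ hb⟩
      rw [hAB0] at h3
      exact ha1 h3
    obtain ⟨E, hE, huE⟩ := hB.2.2.1 _ hu hu1
    have hED : RootCommutatorCase S E D := by
      rcases root_trichotomy hS hE.1 hD with h0 | h1 | h2
      · exact absurd h0 (line_not_comm hS hA hB hD hAD hE)
      · exfalso
        apply rop_not_conj_comm h1 huE hu1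
        intro x hx d' hd'
        rw [← conjBy_conjBy, hcb, mem_conjBy, mem_conjBy, inv_inv] at hx
        have h3 : a * d' * a⁻¹ ∈ conjBy A d := by rw [← hca]; exact conj_mem_conjBy hd' a
        rw [mem_conjBy] at h3
        have h4 := hcomm _ (Subgroup.mem_sup_right hx) _ (Subgroup.mem_sup_left h3)
        apply conj_comm_cancel (g := a⁻¹)
        rw [inv_inv]
        apply conj_comm_cancel (g := d)
        exact h4
      · exact h2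
    obtain ⟨h2, hK⟩ := hkey E hE hED
    refine ⟨E, hE.1, hED, fun a' ha' e he => hcomm a' (Subgroup.mem_sup_left ha') e (hE.2 he),
      ?_, h2, hK⟩
    apply le_antisymm (sup_le le_sup_left hE.2)
    apply sup_le le_sup_left
    have e1 : D = conjBy A (a⁻¹ * d) := by
      rw [← conjBy_conjBy, ← hca, conjBy_conjBy]; simp [conjBy_one]
    have e2 : D = conjBy B (b⁻¹ * d) := by
      rw [← conjBy_conjBy, ← hcb, conjBy_conjBy]; simp [conjBy_one]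
    have e3 : B = conjBy A (d⁻¹ * (a⁻¹ * b) * d) := by
      have h5 : conjBy (conjBy B (b⁻¹ * d)) (b⁻¹ * d)⁻¹ =
          conjBy (conjBy A (a⁻¹ * d)) (b⁻¹ * d)⁻¹ := by
        rw [← e1, ← e2]
      rw [conjBy_conjBy, conjBy_conjBy] at h5
      have e4 : (b⁻¹ * d)⁻¹ * (b⁻¹ * d) = 1 := by group
      have e5 : (b⁻¹ * d)⁻¹ * (a⁻¹ * d) = d⁻¹ * (a⁻¹ * b) * d := by
        have hab : a⁻¹ * b = b * a⁻¹ :=
          hcomm _ (Subgroup.mem_sup_left (A.inv_mem ha)) _ (Subgroup.mem_sup_right hb)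
        calc (b⁻¹ * d)⁻¹ * (a⁻¹ * d) = d⁻¹ * (b * a⁻¹) * d := by group
          _ = d⁻¹ * (a⁻¹ * b) * d := by rw [hab]
      rw [e4, e5, conjBy_one] at h5
      exact h5
    have e6 : d⁻¹ * (a⁻¹ * b) * d = ⁅d⁻¹, a⁻¹ * b⁆ * (a⁻¹ * b) := by
      have h6 := conj_eq_comm_mul d⁻¹ (a⁻¹ * b)
      rw [inv_inv] at h6
      exact h6
    have hf : ⁅d⁻¹, a⁻¹ * b⁆ ∈ ⁅E, D⁆ := commutator_swap_mem huE (D.inv_mem hd)
    have e7 : conjBy A (a⁻¹ * b) = A :=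
      conjBy_eq_of_comm (fun a' ha' => hcomm _ hu _ (Subgroup.mem_sup_left ha'))
    have h8 := rcc_conj_le h2 hf
    rw [hK] at h8
    rw [e3, e6, ← conjBy_conjBy, e7]
    exact h8
  · have hBm : B ∈ membersIn S (A ⊔ B) := ⟨hBS, le_sup_right⟩
    have hED : RootCommutatorCase S B D := by
      rcases root_trichotomy hS hBS hD with h0 | h1 | h2
      · exact absurd h0 (line_not_comm hS hA hB hD hAD hBm)
      · exact absurd h1 hBD
      · exact h2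
    obtain ⟨h2, hK⟩ := hkey B hBm hED
    exact ⟨B, hBS, hED,
      fun a' ha' e he => hcomm a' (Subgroup.mem_sup_left ha') e (Subgroup.mem_sup_right he),
      rfl, h2, hK⟩

/-- A point `E ≠ A` of the line and a member `F` of `S` normalizing the line, fixing `E` and
transitive on the other points. -/
theorem line_point (hS : IsRootSubgroupSet S) {A B D : Subgroup G} (hA : A ∈ S)
    (hB : B ∈ linePartners S A) (hD : D ∈ S) (hAD : IsRankOnePair A D) :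
    ∃ E F : Subgroup G, E ∈ membersIn S (A ⊔ B) ∧ E ≠ A ∧ A ⊔ E = A ⊔ B ∧
      (∀ a ∈ A, ∀ e ∈ E, a * e = e * a) ∧
      F ∈ normalizingMembers S (A ⊔ B) ∧ (∀ f ∈ F, conjBy E f = E) ∧
      (∀ C ∈ membersIn S (A ⊔ B), C ≠ E → ∃ f ∈ F, C = conjBy A f) ∧
      (∀ f ∈ F, f ≠ 1 → conjBy A f ≠ A) := by
  obtain ⟨E, hE, hED, hAE, hsup, h2, hK⟩ := line_special_point hS hA hB hD hAD
  have hF : ⁅E, D⁆ ∈ S := hED.1
  have hFE : ∀ f ∈ ⁅E, D⁆, ∀ e ∈ E, f * e = e * f := rcc_comm_A hED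
  have hEm : E ∈ membersIn S (A ⊔ B) := ⟨hE, by rw [← hsup]; exact le_sup_right⟩
  have hEA : E ≠ A := by
    rintro rfl
    exact rop_not_rcc hS hD hAD hED
  have hfix : ∀ f ∈ ⁅E, D⁆, conjBy E f = E := fun f hf => conjBy_eq_of_comm (hFE f hf)
  have hle : ∀ f ∈ ⁅E, D⁆, conjBy (A ⊔ B) f ≤ A ⊔ B := by
    intro f hf
    rw [← hsup, conjBy_sup, hfix f hf]
    apply sup_le _ le_sup_right
    have h3 := rcc_conj_le h2 hf
    rwa [hK] at h3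
  refine ⟨E, ⁅E, D⁆, hEm, hEA, hsup, hAE, ⟨hF, ?_⟩, hfix, ?_, ?_⟩
  · intro f hf
    apply mem_normalizer_of_conj_mem
    · intro m hm
      exact hle f hf (conj_mem_conjBy hm f)
    · intro m hm
      have h3 := hle f⁻¹ (Subgroup.inv_mem _ hf) (conj_mem_conjBy hm f⁻¹)
      simpa using h3
  · intro C hC hCE
    have hmem := rcc_membersIn hS hA hD hAD h2
    rw [hK, hsup] at hmem
    rw [hmem] at hC
    rcases hC with ⟨f, hf, rfl⟩ | hC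
    · exact ⟨f, hf, rfl⟩
    · exact absurd hC hCE
  · intro f hf hf1 hfA
    obtain ⟨a, ha, ha1⟩ := rop_exists_left hAD
    have h3 : f * a * f⁻¹ ∈ A := by
      have h4 := conj_mem_conjBy ha f
      rwa [hfA] at h4
    have h4 : ⁅f, a⁆ ∈ A ⊓ ⁅A, ⁅E, D⁆⁆ := by
      refine ⟨?_, commutator_swap_mem ha hf⟩
      rw [commutatorElement_def]
      exact A.mul_mem h3 (A.inv_mem ha)
    rw [rcc_inf_eq_bot hS hD hAD h2, Subgroup.mem_bot] at h4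
    have h5 : ⁅a, f⁆ = 1 := by rw [← commutatorElement_inv, h4, inv_one]
    exact hf1 (rcc_inj_right hS hA hD hAD h2 ha ha1 hf h5)

/-- Timmesfeld II (2.6): the members of `S` normalizing a line generate a group that is doubly
transitive on the line. -/
theorem line_two_transitive (hS : IsRootSubgroupSet S)
    (hF : ∀ A ∈ S, ¬ IsIsolatedIn (FAdj S) S A) {A B : Subgroup G} (hA : A ∈ S)
    (hB : B ∈ linePartners S A) :
    ∀ C₁ ∈ membersIn S (A ⊔ B), ∀ C₂ ∈ membersIn S (A ⊔ B), ∀ D₁ ∈ membersIn S (A ⊔ B),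
      ∀ D₂ ∈ membersIn S (A ⊔ B), C₁ ≠ C₂ → D₁ ≠ D₂ →
        ∃ x ∈ ⨆ E ∈ normalizingMembers S (A ⊔ B), E, conjBy C₁ x = D₁ ∧ conjBy C₂ x = D₂ := by
  obtain ⟨D, hD, hAD⟩ := exists_partner (hF A hA) hA
  obtain ⟨E, F, hEm, hEA, hsup, hAE, hFn, hFfix, hFtr, hFmove⟩ := line_point hS hA hB hD hAD
  have hA' : A ∈ linePartners S E := by
    refine ⟨⟨hA, hEA.symm, ?_⟩, ?_⟩
    · exact commutator_eq_bot_of_comm (fun e he a ha => (hAE a ha e he).symm)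
    · rw [sup_comm, hsup]; exact hB.2
  obtain ⟨D', hD', hED'⟩ := exists_partner (hF E hEm.1) hEm.1
  obtain ⟨E₂, F₂, hE₂m, hE₂E, -, -, hF₂n, hF₂fix, hF₂tr, -⟩ :=
    line_point hS hEm.1 hA' hD' hED'
  have hN : E ⊔ A = A ⊔ B := by rw [sup_comm, hsup]
  rw [hN] at hE₂m hF₂n hF₂tr
  obtain ⟨R, hR⟩ : ∃ R : Subgroup G, R = ⨆ E ∈ normalizingMembers S (A ⊔ B), E := ⟨_, rfl⟩
  rw [← hR]
  have hFR : F ≤ R := by rw [hR]; exact le_biSup (fun E => E) hFn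
  have hF₂R : F₂ ≤ R := by rw [hR]; exact le_biSup (fun E => E) hF₂n
  have hRn : R ≤ Subgroup.normalizer ((A ⊔ B : Subgroup G) : Set G) := by
    rw [hR]
    apply iSup₂_le
    intro E hE
    exact hE.2
  have hRm : ∀ x ∈ R, ∀ C ∈ membersIn S (A ⊔ B), conjBy C x ∈ membersIn S (A ⊔ B) := by
    intro x hx C hC
    refine ⟨hS.conj_mem C hC.1 x, ?_⟩
    have h3 := conjBy_mono hC.2 x
    rwa [conjBy_eq_self_iff.mpr (hRn hx)] at h3
  have hAm : A ∈ membersIn S (A ⊔ B) := ⟨hA, le_sup_left⟩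
  have hFt : ∀ C ∈ membersIn S (A ⊔ B), C ≠ E → ∀ C' ∈ membersIn S (A ⊔ B), C' ≠ E →
      ∃ f ∈ F, conjBy C f = C' := by
    intro C hC hCE C' hC' hC'E
    obtain ⟨f₁, hf₁, rfl⟩ := hFtr C hC hCE
    obtain ⟨f₂, hf₂, rfl⟩ := hFtr C' hC' hC'E
    refine ⟨f₂ * f₁⁻¹, F.mul_mem hf₂ (F.inv_mem hf₁), ?_⟩
    rw [conjBy_conjBy]
    congr 1
    group
  have hF₂t : ∀ C ∈ membersIn S (A ⊔ B), C ≠ E₂ → ∀ C' ∈ membersIn S (A ⊔ B), C' ≠ E₂ →
      ∃ f ∈ F₂, conjBy C f = C' := by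
    intro C hC hCE C' hC' hC'E
    obtain ⟨f₁, hf₁, rfl⟩ := hF₂tr C hC hCE
    obtain ⟨f₂, hf₂, rfl⟩ := hF₂tr C' hC' hC'E
    refine ⟨f₂ * f₁⁻¹, F₂.mul_mem hf₂ (F₂.inv_mem hf₁), ?_⟩
    rw [conjBy_conjBy]
    congr 1
    group
  -- a third point
  have hT : ∃ T ∈ membersIn S (A ⊔ B), T ≠ E ∧ T ≠ E₂ := by
    by_cases hAE₂ : A = E₂
    · obtain ⟨f, hf, hf1⟩ := exists_ne_one_of_ne_bot (hS.ne_bot F hFn.1)
      refine ⟨conjBy A f, hRm f (hFR hf) A hAm, ?_, ?_⟩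
      · intro h3
        apply hEA
        have h4 : A = conjBy E f⁻¹ := conjBy_eq_iff.mp h3
        rw [h4, hFfix f⁻¹ (F.inv_mem hf)]
      · rw [← hAE₂]; exact hFmove f hf hf1
    · exact ⟨A, hAm, hEA.symm, hAE₂⟩
  obtain ⟨T, hTm, hTE, hTE₂⟩ := hT
  have hP : ∀ C₁ ∈ membersIn S (A ⊔ B), ∀ C₂ ∈ membersIn S (A ⊔ B), C₁ ≠ C₂ →
      ∃ x ∈ R, conjBy C₁ x = E ∧ conjBy C₂ x = E₂ := by
    intro C₁ hC₁ C₂ hC₂ hne
    have h1 : ∃ x₁ ∈ R, conjBy C₁ x₁ = E := by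
      by_cases h1 : C₁ = E
      · exact ⟨1, R.one_mem, by rw [conjBy_one, h1]⟩
      · by_cases h2 : C₁ = E₂
        · obtain ⟨f, hf, hfT⟩ := hFt C₁ hC₁ h1 T hTm hTE
          obtain ⟨f₂, hf₂, hf₂E⟩ := hF₂t T hTm hTE₂ E hEm hE₂E.symm
          refine ⟨f₂ * f, R.mul_mem (hF₂R hf₂) (hFR hf), ?_⟩
          rw [← conjBy_conjBy, hfT, hf₂E]
        · obtain ⟨f₂, hf₂, hf₂E⟩ := hF₂t C₁ hC₁ h2 E hEm hE₂E.symm
          exact ⟨f₂, hF₂R hf₂, hf₂E⟩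
    obtain ⟨x₁, hx₁, hx₁E⟩ := h1
    have h3 : conjBy C₂ x₁ ≠ E := by
      intro h4
      apply hne
      rw [← hx₁E] at h4
      exact (conjBy_inj.mp h4).symm
    obtain ⟨f, hf, hfE₂⟩ := hFt _ (hRm x₁ hx₁ C₂ hC₂) h3 E₂ hE₂m hE₂E
    refine ⟨f * x₁, R.mul_mem (hFR hf) hx₁, ?_, ?_⟩
    · rw [← conjBy_conjBy, hx₁E, hFfix f hf]
    · rw [← conjBy_conjBy, hfE₂]
  intro C₁ hC₁ C₂ hC₂ D₁ hD₁ D₂ hD₂ hC hD
  obtain ⟨x, hx, hx1, hx2⟩ := hP C₁ hC₁ C₂ hC₂ hC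
  obtain ⟨y, hy, hy1, hy2⟩ := hP D₁ hD₁ D₂ hD₂ hD
  refine ⟨y⁻¹ * x, R.mul_mem (R.inv_mem hy) hx, ?_, ?_⟩
  · rw [← conjBy_conjBy, hx1]
    exact (conjBy_eq_iff.mp hy1).symm
  · rw [← conjBy_conjBy, hx2]
    exact (conjBy_eq_iff.mp hy2).symm

end Cfsg.Agent.H85
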