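import Mathlib
import Cfsg.Prelude.Def_RootSubgroups
import Cfsg.Agent.H85.RootSpecial

/-!
# The rank one group of a plane configuration is special (Timmesfeld II (2.9))
-/

set_option autoImplicit false

namespace Cfsg.Agent.H85

open Cfsg
open scoped commutatorElement

variable {G : Type*} [Group G] {S : Set (Subgroup G)} {A B C D : Subgroup G}

theorem pc_swap (h : PlaneCfg S A B C D) : PlaneCfg S C D A B :=
  { hS := h.hS, hA := h.hC, hB := h.hD, hC := h.hA, hD := h.hB,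
    hBA := h.hDC, hBAe := h.hDCe, hDC := h.hBA, hDCe := h.hBAe }

/-- In a plane configuration the rank one pair `(B, D)` is special. -/
theorem pc_special (h : PlaneCfg S A B C D) : IsSpecialRankOnePair B D := by
  have hr := pc_rankOne h
  refine ⟨hr, ?_⟩
  intro b hb hb1 d hd hd1 hconj
  have hdi : d⁻¹ ∈ D := D.inv_mem hd
  have hbi : b⁻¹ ∈ B := B.inv_mem hb
  have hdi1 : d⁻¹ ≠ 1 := by simpa using hd1
  have h1 : conjBy C d⁻¹ = conjBy A b⁻¹ := by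
    rw [pc_conjC h (Subgroup.mem_sup_right hdi), pc_conjA h (Subgroup.mem_sup_left hbi), hconj]
  have h2 : ∀ c ∈ C, d⁻¹ * c * d = b⁻¹ * ⁅d⁻¹, c⁆ * b ∧ ⁅b⁻¹, ⁅d⁻¹, c⁆⁆ = c := by
    intro c hc
    have hm : d⁻¹ * c * d ∈ conjBy A b⁻¹ := by
      rw [← h1]
      have h3 := conj_mem_conjBy hc d⁻¹
      simpa using h3
    rw [mem_conjBy, inv_inv] at hm
    obtain ⟨a, ha_def⟩ : ∃ a, a = b * (d⁻¹ * c * d) * b⁻¹ := ⟨_, rfl⟩
    rw [← ha_def] at hm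
    have e1 : d⁻¹ * c * d = b⁻¹ * a * b := by rw [ha_def]; group
    have e2 : d⁻¹ * c * d = ⁅d⁻¹, c⁆ * c := by
      have h3 := conj_eq_comm_mul d⁻¹ c
      rwa [inv_inv] at h3
    have e3 : b⁻¹ * a * b = ⁅b⁻¹, a⁆ * a := by
      have h3 := conj_eq_comm_mul b⁻¹ a
      rwa [inv_inv] at h3
    have hda : ⁅d⁻¹, c⁆ ∈ A := pc_delta_mem h hdi hc
    have hbc : ⁅b⁻¹, a⁆ ∈ C := pc_beta_mem h hbi hm
    have e4 : ⁅d⁻¹, c⁆ * c = a * ⁅b⁻¹, a⁆ := by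
      rw [← e2, e1, e3, pc_comm_CA h _ hbc a hm]
    obtain ⟨e5, e6⟩ := pc_unique h hda hm hc hbc e4
    constructor
    · rw [e5]; exact e1
    · rw [e5]; exact e6.symm
  have h3 : ∀ c ∈ C, ⁅d⁻¹ * b * d, c⁆ = ⁅b⁻¹ * d⁻¹ * b, c⁆ := by
    intro c hc
    have hbc : b * c = c * b := (pc_comm_CB h c hc b hb).symm
    have hdc : ⁅d, c⁆ ∈ A := pc_delta_mem h hd hc
    have e1 : ⁅b⁻¹ * d⁻¹ * b, c⁆ = b⁻¹ * ⁅d⁻¹, c⁆ * b := by
      have e0 : ⁅b⁻¹ * d⁻¹ * b, c⁆ = b⁻¹ * ⁅d⁻¹, b * c * b⁻¹⁆ * b := by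
        simp only [commutatorElement_def]; group
      rw [e0]
      have e0' : b * c * b⁻¹ = c := by rw [hbc]; group
      rw [e0']
    have e2 : ⁅d⁻¹ * b * d, c⁆ = d⁻¹ * ⁅b, ⁅d, c⁆⁆ * d := by
      have e3 : ⁅d⁻¹ * b * d, c⁆ = d⁻¹ * ⁅b, d * c * d⁻¹⁆ * d := by
        simp only [commutatorElement_def]; group
      have e4 : ⁅b, d * c * d⁻¹⁆ = ⁅b, ⁅d, c⁆⁆ := by
        rw [conj_eq_comm_mul d c]
        have e5 : ⁅b, ⁅d, c⁆ * c⁆ = ⁅b, ⁅d, c⁆⁆ * (⁅d, c⁆ * ⁅b, c⁆ * ⁅d, c⁆⁻¹) := by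
          obtain ⟨x, hx⟩ : ∃ x, x = ⁅d, c⁆ := ⟨_, rfl⟩
          rw [← hx]
          simp only [commutatorElement_def]; group
        rw [e5]
        have e6 : ⁅b, c⁆ = 1 := by rw [commutatorElement_def, hbc]; group
        rw [e6]; group
      rw [e3, e4]
    have e5 : ⁅b, ⁅d, c⁆⁆ = c := by
      have h4 := (h2 c hc).2
      rw [rcc_comm_inv_left h.hDC hd hc, rcc_comm_inv_left h.hBA hb (A.inv_mem hdc),
        rcc_comm_inv_right h.hBA hb hdc, inv_inv] at h4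
      exact h4
    rw [e1, e2, e5, (h2 c hc).1]
  obtain ⟨n₁, hn₁⟩ : ∃ n₁, n₁ = d⁻¹ * b * d := ⟨_, rfl⟩
  obtain ⟨n₂, hn₂⟩ : ∃ n₂, n₂ = b⁻¹ * d⁻¹ * b := ⟨_, rfl⟩
  rw [← hn₁, ← hn₂] at h3 ⊢
  have h4 : ∀ c ∈ C, (n₂⁻¹ * n₁) * c = c * (n₂⁻¹ * n₁) := by
    intro c hc
    have e1 := conj_eq_comm_mul n₁ c
    have e2 := conj_eq_comm_mul n₂ c
    rw [h3 c hc, ← e2] at e1
    calc (n₂⁻¹ * n₁) * c = n₂⁻¹ * (n₁ * c * n₁⁻¹) * n₁ := by group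
      _ = n₂⁻¹ * (n₂ * c * n₂⁻¹) * n₁ := by rw [e1]
      _ = c * (n₂⁻¹ * n₁) := by group
  have hm1 : n₁ ∈ conjBy B d⁻¹ := by
    rw [hn₁]
    have h5 := conj_mem_conjBy hb d⁻¹
    simpa using h5
  have hm2 : n₂ ∈ conjBy B d⁻¹ := by
    rw [hconj, hn₂]
    have h5 := conj_mem_conjBy hdi b⁻¹
    simpa using h5
  have hz : n₂⁻¹ * n₁ ∈ conjBy B d⁻¹ := Subgroup.mul_mem _ (Subgroup.inv_mem _ hm2) hm1
  have hzBD : n₂⁻¹ * n₁ ∈ B ⊔ D := by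
    apply Subgroup.mul_mem
    · apply Subgroup.inv_mem
      rw [hn₂]
      exact Subgroup.mul_mem _ (Subgroup.mul_mem _ (Subgroup.mem_sup_left hbi)
        (Subgroup.mem_sup_right hdi)) (Subgroup.mem_sup_left hb)
    · rw [hn₁]
      exact Subgroup.mul_mem _ (Subgroup.mul_mem _ (Subgroup.mem_sup_right hdi)
        (Subgroup.mem_sup_left hb)) (Subgroup.mem_sup_right hd)
  have h5 : ∀ y ∈ conjBy C d⁻¹, (n₂⁻¹ * n₁) * y = y * (n₂⁻¹ * n₁) := by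
    intro y hy
    rw [mem_conjBy] at hy
    have hz' := hz
    rw [mem_conjBy] at hz'
    apply conj_comm_cancel (g := d⁻¹)
    exact (pc_comm_CB h _ hy _ hz').symm
  have h6 : ∀ a ∈ A, (n₂⁻¹ * n₁) * a = a * (n₂⁻¹ * n₁) := by
    intro a ha
    obtain ⟨c, hc, rfl⟩ := pc_delta_surj h hdi hdi1 ha
    have e1 : ⁅d⁻¹, c⁆ = (d⁻¹ * c * d⁻¹⁻¹) * c⁻¹ := by rw [commutatorElement_def]
    have e2 := h5 _ (conj_mem_conjBy hc d⁻¹)
    have e3 := h4 c⁻¹ (C.inv_mem hc)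
    rw [e1]
    calc n₂⁻¹ * n₁ * (d⁻¹ * c * d⁻¹⁻¹ * c⁻¹)
        = (n₂⁻¹ * n₁ * (d⁻¹ * c * d⁻¹⁻¹)) * c⁻¹ := by group
      _ = (d⁻¹ * c * d⁻¹⁻¹) * (n₂⁻¹ * n₁ * c⁻¹) := by rw [e2]; group
      _ = d⁻¹ * c * d⁻¹⁻¹ * c⁻¹ * (n₂⁻¹ * n₁) := by rw [e3]; group
  have hcen := pc_central h hzBD (comm_sup h6 h4)
  have hzB : n₂⁻¹ * n₁ ∈ B := by
    have hz' := hz
    rw [mem_conjBy, inv_inv] at hz'
    have e1 : d * (n₂⁻¹ * n₁) * d⁻¹ = n₂⁻¹ * n₁ := by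
      rw [← hcen d (Subgroup.mem_sup_right hd)]; group
    rwa [e1] at hz'
  by_contra hne
  have hz1 : n₂⁻¹ * n₁ ≠ 1 := by
    intro h7
    exact hne (inv_mul_eq_one.mp h7).symm
  exact rop_not_commute hr hzB hz1 hd hd1 (hcen d (Subgroup.mem_sup_right hd))

/-- Timmesfeld II (2.9): in a non-degenerate class, every rank one pair is special, and there is
a line partner of `A` in the commutator case with `B`. -/
theorem nondeg_special (hS : IsRootSubgroupClass S) (hnd : IsNondegenerateRootSet S)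
    {A B : Subgroup G} (hA : A ∈ S) (hB : B ∈ rankOnePartners S A) :
    (∃ C ∈ linePartners S A, C ∈ commutatorPartners S B) ∧ IsSpecialRankOnePair A B := by
  obtain ⟨hS', hcl⟩ := hS
  obtain ⟨hBS, hAB⟩ := hB
  obtain ⟨-, -, A₀, hA₀, B₀, hB₀, h0⟩ := hnd
  obtain ⟨g, hg⟩ := hcl.2 A₀ hA₀ A hA
  have hB₁ : conjBy B₀ g ∈ S := hS'.conj_mem B₀ hB₀ g
  have hC₀ : ⁅A, conjBy B₀ g⁆ ∈ S := by
    rw [hg]
    have e1 : ⁅conjBy A₀ g, conjBy B₀ g⁆ = conjBy ⁅A₀, B₀⁆ g :=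
      (Subgroup.map_commutator A₀ B₀ _).symm
    rw [e1]
    exact hS'.conj_mem _ h0.1 g
  have hrcc := rcc_of_commutator_mem hS' hA hB₁ hC₀
  have hline : ⁅A, conjBy B₀ g⁆ ∈ linePartners S A := by
    refine ⟨⟨hC₀, (rcc_ne hS' hrcc).symm, ?_⟩, rcc_partition hS' hA hBS hAB hrcc⟩
    exact commutator_eq_bot_of_comm (fun a ha c hc => (rcc_comm_A hrcc c hc a ha).symm)
  obtain ⟨E, hE, hED, hAE, hsup, h2, hK⟩ := line_special_point hS' hA hline hBS hAB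
  have hEA : E ≠ A := by
    rintro rfl
    exact rop_not_rcc hS' hBS hAB hED
  constructor
  · refine ⟨E, ⟨⟨hE, hEA, commutator_eq_bot_of_comm hAE⟩, ?_⟩, hE, ?_⟩
    · rw [hsup]; exact hline.2
    · rw [Subgroup.commutator_comm B E]; exact hED.1
  · have cfg : PlaneCfg S E B ⁅E, B⁆ A :=
      { hS := hS', hA := hE, hB := hBS, hC := hED.1, hD := hA,
        hBA := rcc_symm hED, hBAe := Subgroup.commutator_comm B E, hDC := h2, hDCe := hK }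
    exact pc_special (pc_swap cfg)

end Cfsg.Agent.H85
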