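import Mathlib
import Cfsg.Prelude.Def_RootSubgroups
import Cfsg.Agent.H85.RankOne

/-!
# Rank one groups acting quadratically (Timmesfeld I §2/§5 type arguments)

We work with a monoid homomorphism `ρ : X →* R` into a ring (for an action on an abelian group `V`,
`R = AddMonoid.End V`).
-/

set_option autoImplicit false

namespace Cfsg.Agent.H85

open Cfsg
open scoped commutatorElement

section Quad

variable {X : Type*} [Group X] {A B : Subgroup X} {R : Type*} [Ring R] (ρ : X →* R)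

/-- `C` acts quadratically: `(c' - 1)(c - 1) = 0` for `c, c' ∈ C`. -/
def QuadOn (C : Subgroup X) : Prop := ∀ c ∈ C, ∀ c' ∈ C, (ρ c' - 1) * (ρ c - 1) = 0

variable {ρ}

theorem rho_inv_mul (g : X) : ρ g⁻¹ * ρ g = 1 := by rw [← map_mul, inv_mul_cancel, map_one]

theorem rho_mul_inv (g : X) : ρ g * ρ g⁻¹ = 1 := by rw [← map_mul, mul_inv_cancel, map_one]

theorem rho_conj_sub_one (g x : X) : ρ (g * x * g⁻¹) - 1 = ρ g * (ρ x - 1) * ρ g⁻¹ := by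
  rw [map_mul, map_mul, mul_sub, sub_mul, mul_one, rho_mul_inv]

theorem quadOn_conj {C : Subgroup X} (h : QuadOn ρ C) (g : X) : QuadOn ρ (conjBy C g) := by
  intro c hc c' hc'
  rw [mem_conjBy] at hc hc'
  have e1 : c = g * (g⁻¹ * c * g) * g⁻¹ := by group
  have e2 : c' = g * (g⁻¹ * c' * g) * g⁻¹ := by group
  rw [e1, e2, rho_conj_sub_one, rho_conj_sub_one]
  have h0 := h _ hc _ hc'
  calc ρ g * (ρ (g⁻¹ * c' * g) - 1) * ρ g⁻¹ * (ρ g * (ρ (g⁻¹ * c * g) - 1) * ρ g⁻¹)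
      = ρ g * (ρ (g⁻¹ * c' * g) - 1) * (ρ g⁻¹ * ρ g) * (ρ (g⁻¹ * c * g) - 1) * ρ g⁻¹ := by
        simp only [mul_assoc]
    _ = ρ g * ((ρ (g⁻¹ * c' * g) - 1) * (ρ (g⁻¹ * c * g) - 1)) * ρ g⁻¹ := by
        rw [rho_inv_mul, mul_one]; simp only [mul_assoc]
    _ = 0 := by rw [h0, mul_zero, zero_mul]

theorem quadOn_right (h : IsRankOnePair A B) (hQ : QuadOn ρ A) : QuadOn ρ B := by
  obtain ⟨x, -, hx⟩ := rop_right_mem_unipotent h
  rw [hx]
  exact quadOn_conj hQ x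

/-- If `(g - 1)² = 0` then `g⁻¹ = 1 - (g - 1)`. -/
theorem rho_inv_of_sq (g : X) (h : (ρ g - 1) * (ρ g - 1) = 0) : ρ g⁻¹ = 1 - (ρ g - 1) := by
  have h1 : ρ g⁻¹ * ((ρ g - 1) * (ρ g - 1)) = ρ g - 1 - (1 - ρ g⁻¹) := by
    calc ρ g⁻¹ * ((ρ g - 1) * (ρ g - 1)) = (ρ g⁻¹ * ρ g - ρ g⁻¹) * (ρ g - 1) := by noncomm_ring
      _ = (1 - ρ g⁻¹) * (ρ g - 1) := by rw [rho_inv_mul]
      _ = ρ g - 1 - (ρ g⁻¹ * ρ g - ρ g⁻¹) := by noncomm_ring
      _ = ρ g - 1 - (1 - ρ g⁻¹) := by rw [rho_inv_mul]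
  rw [h, mul_zero] at h1
  have h2 : ρ g⁻¹ = (ρ g - 1 - (1 - ρ g⁻¹)) + (1 - (ρ g - 1)) := by noncomm_ring
  rw [h2, ← h1, zero_add]

/-- An element of `R` killed on the left by `a - 1` (`a ∈ A`) and `b - 1` (`b ∈ B`) is killed by
`x - 1` for all `x`, when `A ⊔ B = ⊤`. -/
theorem fx_of_gen (hAB : A ⊔ B = ⊤) (U : R) (hA : ∀ a ∈ A, (ρ a - 1) * U = 0)
    (hB : ∀ b ∈ B, (ρ b - 1) * U = 0) : ∀ x : X, (ρ x - 1) * U = 0 := by
  let S : Subgroup X :=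
    { carrier := {x | ρ x * U = U}
      mul_mem' := by
        intro x y hx hy
        show ρ (x * y) * U = U
        rw [map_mul, mul_assoc, hy, hx]
      one_mem' := by
        show ρ 1 * U = U
        rw [map_one, one_mul]
      inv_mem' := by
        intro x hx
        show ρ x⁻¹ * U = U
        calc ρ x⁻¹ * U = ρ x⁻¹ * (ρ x * U) := by rw [hx]
          _ = U := by rw [← mul_assoc, rho_inv_mul, one_mul] }
  have hSA : A ≤ S := by
    intro a ha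
    show ρ a * U = U
    have := hA a ha
    rw [sub_mul, one_mul, sub_eq_zero] at this
    exact this
  have hSB : B ≤ S := by
    intro b hb
    show ρ b * U = U
    have := hB b hb
    rw [sub_mul, one_mul, sub_eq_zero] at this
    exact this
  intro x
  have hx : x ∈ S := (sup_le hSA hSB) (hAB ▸ Subgroup.mem_top x)
  have hx' : ρ x * U = U := hx
  rw [sub_mul, one_mul, hx', sub_self]

/-- Key computation: if `b⁻¹ A b = a⁻¹ B a` then `(a-1)(b-1)(a'-1) - (a'-1)` is killed on the left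
by every `x - 1`. -/
theorem quad_claimA (hAB : A ⊔ B = ⊤) (hQA : QuadOn ρ A) (hQB : QuadOn ρ B) {a b a' : X}
    (ha : a ∈ A) (hb : b ∈ B) (ha' : a' ∈ A) (hconj : conjBy A b⁻¹ = conjBy B a⁻¹) (x : X) :
    (ρ x - 1) * ((ρ a - 1) * (ρ b - 1) * (ρ a' - 1) - (ρ a' - 1)) = 0 := by
  -- b₁ := a b⁻¹ a' b a⁻¹ ∈ B
  have hb₁ : a * (b⁻¹ * a' * b) * a⁻¹ ∈ B := by
    have h1 : b⁻¹ * a' * b ∈ conjBy A b⁻¹ := by
      have := conj_mem_conjBy ha' b⁻¹
      simpa using this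
    rw [hconj, mem_conjBy] at h1
    simpa using h1
  set b₁ := a * (b⁻¹ * a' * b) * a⁻¹ with hb₁def
  set α := ρ a - 1 with hα
  set β := ρ b - 1 with hβ
  set α' := ρ a' - 1 with hα'
  set T := ρ (a * b⁻¹) with hT
  set W := (ρ b₁ - 1) * T with hW
  have hainv : ρ a⁻¹ = 1 - α := rho_inv_of_sq a (hQA a ha a ha)
  have hbinv : ρ b⁻¹ = 1 - β := rho_inv_of_sq b (hQB b hb b hb)
  -- (i)
  have hi : (1 - α) * W = (1 - β) * α' := by
    rw [← hainv, ← hbinv, hW, hT, hα']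
    have e1 : a⁻¹ * b₁ * (a * b⁻¹) = b⁻¹ * a' := by rw [hb₁def]; group
    have e2 : a⁻¹ * (a * b⁻¹) = b⁻¹ := by group
    calc ρ a⁻¹ * ((ρ b₁ - 1) * ρ (a * b⁻¹))
        = ρ a⁻¹ * ρ b₁ * ρ (a * b⁻¹) - ρ a⁻¹ * ρ (a * b⁻¹) := by noncomm_ring
      _ = ρ (a⁻¹ * b₁ * (a * b⁻¹)) - ρ (a⁻¹ * (a * b⁻¹)) := by simp only [map_mul]
      _ = ρ (b⁻¹ * a') - ρ b⁻¹ := by rw [e1, e2]
      _ = ρ b⁻¹ * (ρ a' - 1) := by rw [map_mul]; noncomm_ring
  set U := α' + α * W with hU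
  have hU2 : U = W + β * α' := by
    have : α' + α * W - (W + β * α') = -((1 - α) * W - (1 - β) * α') := by noncomm_ring
    rw [hi, sub_self, neg_zero, sub_eq_zero] at this
    rw [hU]; exact this
  have hUA : ∀ a'' ∈ A, (ρ a'' - 1) * U = 0 := by
    intro a'' ha''
    rw [hU, mul_add, ← mul_assoc, hα', hα, hQA a' ha' a'' ha'', hQA a ha a'' ha'', zero_mul, add_zero]
  have hUB : ∀ b'' ∈ B, (ρ b'' - 1) * U = 0 := by
    intro b'' hb''
    rw [hU2, mul_add, hW, ← mul_assoc, ← mul_assoc, hβ, hQB b₁ hb₁ b'' hb'', hQB b hb b'' hb'',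
      zero_mul, zero_mul, add_zero]
  have hUx := fx_of_gen hAB U hUA hUB
  have hfin : α * β * α' - α' = α * U - U := by
    have hβα' : β * α' = U - W := by rw [hU2]; noncomm_ring
    calc α * β * α' - α' = α * (β * α') - α' := by noncomm_ring
      _ = α * (U - W) - α' := by rw [hβα']
      _ = α * U - (α' + α * W) := by noncomm_ring
      _ = α * U - U := by rw [← hU]
  rw [hfin, mul_sub, ← mul_assoc, hUx x]
  have : (ρ x - 1) * α * U = (ρ x - 1) * (α * U) := by rw [mul_assoc]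
  rw [this, hα, hUx a, mul_zero, sub_zero]

/-- The normal subgroup of elements `x` with `(y - 1)(x - 1) = 0` for all `y`. -/
def quadKer (ρ : X →* R) : Subgroup X where
  carrier := {x | ∀ y : X, (ρ y - 1) * (ρ x - 1) = 0}
  mul_mem' := by
    intro x x' hx hx' y
    have e : ρ (x * x') - 1 = (ρ x - 1) * (ρ x' - 1) + (ρ x - 1) + (ρ x' - 1) := by
      rw [map_mul]; noncomm_ring
    have e2 : (ρ y - 1) * ((ρ x - 1) * (ρ x' - 1) + (ρ x - 1) + (ρ x' - 1)) =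
        (ρ y - 1) * (ρ x - 1) * (ρ x' - 1) + (ρ y - 1) * (ρ x - 1) + (ρ y - 1) * (ρ x' - 1) := by
      noncomm_ring
    show (ρ y - 1) * (ρ (x * x') - 1) = 0
    rw [e, e2, hx y, hx' y]; simp
  one_mem' := by
    intro y
    show (ρ y - 1) * (ρ 1 - 1) = 0
    rw [map_one, sub_self, mul_zero]
  inv_mem' := by
    intro x hx y
    have e : ρ x⁻¹ - 1 = -((ρ x - 1) * ρ x⁻¹) := by
      rw [sub_mul, one_mul, rho_mul_inv]; noncomm_ring
    show (ρ y - 1) * (ρ x⁻¹ - 1) = 0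
    rw [e, mul_neg, ← mul_assoc, hx y]; simp

theorem mem_quadKer {x : X} : x ∈ quadKer ρ ↔ ∀ y : X, (ρ y - 1) * (ρ x - 1) = 0 := Iff.rfl

theorem quadKer_normal : (quadKer ρ).Normal := by
  constructor
  intro x hx g y
  rw [rho_conj_sub_one]
  have e : (ρ y - 1) * ρ g = ρ g * (ρ (g⁻¹ * y * g) - 1) := by
    rw [mul_sub, mul_one, ← map_mul, sub_mul, one_mul, ← map_mul]
    congr 2; group
  calc (ρ y - 1) * (ρ g * (ρ x - 1) * ρ g⁻¹) = (ρ y - 1) * ρ g * (ρ x - 1) * ρ g⁻¹ := by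
        simp only [mul_assoc]
    _ = ρ g * ((ρ (g⁻¹ * y * g) - 1) * (ρ x - 1)) * ρ g⁻¹ := by rw [e]; simp only [mul_assoc]
    _ = 0 := by rw [hx (g⁻¹ * y * g), mul_zero, zero_mul]

/-- If `X = X₀ A` then all triple products `(z-1)(y-1)(x-1)` vanish. -/
theorem quad_P3_of_sup (hQA : QuadOn ρ A) (hsup : quadKer ρ ⊔ A = ⊤) (x y z : X) :
    (ρ z - 1) * (ρ y - 1) * (ρ x - 1) = 0 := by
  have hN : (quadKer ρ).Normal := quadKer_normal
  have hx : x ∈ quadKer ρ ⊔ A := hsup ▸ Subgroup.mem_top x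
  have hy : y ∈ quadKer ρ ⊔ A := hsup ▸ Subgroup.mem_top y
  rw [Subgroup.mem_sup_of_normal_left] at hx hy
  obtain ⟨x₀, hx₀, a', ha', rfl⟩ := hx
  obtain ⟨y₀, hy₀, a'', ha'', rfl⟩ := hy
  have h1 : (ρ (y₀ * a'') - 1) * (ρ (x₀ * a') - 1) = (ρ y₀ - 1) * (ρ a' - 1) := by
    have ex : ρ (x₀ * a') - 1 = (ρ x₀ - 1) * ρ a' + (ρ a' - 1) := by rw [map_mul]; noncomm_ring
    have ey : ρ (y₀ * a'') - 1 = (ρ y₀ - 1) * ρ a'' + (ρ a'' - 1) := by rw [map_mul]; noncomm_ring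
    have h3 : ρ a'' * (ρ a' - 1) = (ρ a'' - 1) * (ρ a' - 1) + (ρ a' - 1) := by noncomm_ring
    calc (ρ (y₀ * a'') - 1) * (ρ (x₀ * a') - 1)
        = (ρ (y₀ * a'') - 1) * (ρ x₀ - 1) * ρ a' + (ρ (y₀ * a'') - 1) * (ρ a' - 1) := by
          rw [ex]; noncomm_ring
      _ = (ρ (y₀ * a'') - 1) * (ρ a' - 1) := by rw [hx₀ (y₀ * a''), zero_mul, zero_add]
      _ = (ρ y₀ - 1) * (ρ a'' * (ρ a' - 1)) + (ρ a'' - 1) * (ρ a' - 1) := by rw [ey]; noncomm_ring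
      _ = (ρ y₀ - 1) * (ρ a' - 1) := by
          rw [h3, hQA a' ha' a'' ha'', zero_add, add_zero]
  rw [mul_assoc, h1, ← mul_assoc, hy₀ z, zero_mul]

theorem quad_comm_of_P3 (hP3 : ∀ x y z : X, (ρ z - 1) * (ρ y - 1) * (ρ x - 1) = 0) (x y : X) :
    ρ ⁅x, y⁆ - 1 = (ρ x - 1) * (ρ y - 1) - (ρ y - 1) * (ρ x - 1) := by
  have e1 : ρ ⁅x, y⁆ - 1 = (ρ x * ρ y - ρ y * ρ x) * ρ (x⁻¹ * y⁻¹) := by
    rw [commutatorElement_def, sub_mul, ← map_mul, ← map_mul, ← map_mul, ← map_mul]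
    have h1 : y * x * (x⁻¹ * y⁻¹) = 1 := by group
    have h2 : x * y * (x⁻¹ * y⁻¹) = x * y * x⁻¹ * y⁻¹ := by group
    rw [h1, h2, map_one]
  have e2 : ρ x * ρ y - ρ y * ρ x = (ρ x - 1) * (ρ y - 1) - (ρ y - 1) * (ρ x - 1) := by noncomm_ring
  have e3 : ((ρ x - 1) * (ρ y - 1) - (ρ y - 1) * (ρ x - 1)) * ρ (x⁻¹ * y⁻¹) =
      (ρ x - 1) * (ρ y - 1) - (ρ y - 1) * (ρ x - 1) +
        ((ρ x - 1) * (ρ y - 1) * (ρ (x⁻¹ * y⁻¹) - 1) - (ρ y - 1) * (ρ x - 1) * (ρ (x⁻¹ * y⁻¹) - 1)) := by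
    noncomm_ring
  rw [e1, e2, e3, hP3, hP3, sub_zero, add_zero]

theorem quad_triple_of_P3 (hP3 : ∀ x y z : X, (ρ z - 1) * (ρ y - 1) * (ρ x - 1) = 0) (x y z : X) :
    ρ ⁅⁅x, y⁆, z⁆ = 1 := by
  have h1 := quad_comm_of_P3 hP3 ⁅x, y⁆ z
  rw [quad_comm_of_P3 hP3 x y] at h1
  have h2 : ((ρ x - 1) * (ρ y - 1) - (ρ y - 1) * (ρ x - 1)) * (ρ z - 1) -
      (ρ z - 1) * ((ρ x - 1) * (ρ y - 1) - (ρ y - 1) * (ρ x - 1)) =
      (ρ x - 1) * (ρ y - 1) * (ρ z - 1) - (ρ y - 1) * (ρ x - 1) * (ρ z - 1) -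
        ((ρ z - 1) * (ρ x - 1) * (ρ y - 1) - (ρ z - 1) * (ρ y - 1) * (ρ x - 1)) := by noncomm_ring
  rw [h2, hP3, hP3, hP3, hP3, sub_zero, sub_zero, sub_eq_zero] at h1
  exact h1

theorem quad_not_P3 (h : IsRankOneGroup X A B) (hker : ∀ x : X, ρ x = 1 → x ∈ Subgroup.center X)
    (hP3 : ∀ x y z : X, (ρ z - 1) * (ρ y - 1) * (ρ x - 1) = 0) : False := by
  apply rog_center_ne_top h
  rw [eq_top_iff]
  intro x _
  rw [← rog_upperCentralSeries_two h]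
  show x ∈ Subgroup.upperCentralSeries X (1 + 1)
  rw [Subgroup.mem_upperCentralSeries_succ_iff]
  intro y
  rw [Subgroup.upperCentralSeries_one, ← rog_upperCentralSeries_two h]
  show ⁅x, y⁆ ∈ Subgroup.upperCentralSeries X (1 + 1)
  rw [Subgroup.mem_upperCentralSeries_succ_iff]
  intro z
  rw [Subgroup.upperCentralSeries_one]
  exact hker _ (quad_triple_of_P3 hP3 x y z)

/-- If the kernel of `ρ` is central and `A` acts quadratically, then `X₀ ≤ Z(X)`. -/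
theorem quadKer_le_center (h : IsRankOneGroup X A B) (hQA : QuadOn ρ A)
    (hker : ∀ x : X, ρ x = 1 → x ∈ Subgroup.center X) : quadKer ρ ≤ Subgroup.center X := by
  rcases rog_dichotomy h (quadKer ρ) quadKer_normal with h1 | h1
  · exact (quad_not_P3 h hker (quad_P3_of_sup hQA h1)).elim
  · exact h1

theorem ring_nm (α β : R) (hα : α * α = 0) (hβ : β * β = 0) :
    (1 - β) * (1 + α) * (1 + β) - (1 - α) * (1 - β) * (1 + α) =
      -(α * β * α - α) - (β * α * β - β) := by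
  have : (1 - β) * (1 + α) * (1 + β) - (1 - α) * (1 - β) * (1 + α) =
      -(α * β * α - α) - (β * α * β - β) + α * α - β * β := by noncomm_ring
  rw [this, hα, hβ, add_zero, sub_zero]

/-- The special relation `b⁻¹ a b = a⁻¹ b⁻¹ a`. -/
theorem quad_special (h : IsRankOneGroup X A B) (hQA : QuadOn ρ A)
    (hker : ∀ x : X, ρ x = 1 → x ∈ Subgroup.center X) {a b : X} (ha : a ∈ A) (hb : b ∈ B)
    (hconj : conjBy A b⁻¹ = conjBy B a⁻¹) : b⁻¹ * a * b = a⁻¹ * b⁻¹ * a := by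
  have hQB := quadOn_right h.2 hQA
  have hainv : ρ a⁻¹ = 1 - (ρ a - 1) := rho_inv_of_sq a (hQA a ha a ha)
  have hbinv : ρ b⁻¹ = 1 - (ρ b - 1) := rho_inv_of_sq b (hQB b hb b hb)
  have en : ρ (b⁻¹ * a * b) = (1 - (ρ b - 1)) * (1 + (ρ a - 1)) * (1 + (ρ b - 1)) := by
    rw [map_mul, map_mul, hbinv]; noncomm_ring
  have em : ρ (a⁻¹ * b⁻¹ * a) = (1 - (ρ a - 1)) * (1 - (ρ b - 1)) * (1 + (ρ a - 1)) := by
    rw [map_mul, map_mul, hbinv, hainv]; noncomm_ring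
  have hnm : ∀ x : X, (ρ x - 1) * (ρ (b⁻¹ * a * b) - ρ (a⁻¹ * b⁻¹ * a)) = 0 := by
    intro x
    have hA := quad_claimA h.1 hQA hQB ha hb ha hconj x
    have hB := quad_claimA (by rw [sup_comm]; exact h.1) hQB hQA hb ha hb hconj.symm x
    rw [en, em, ring_nm _ _ (hQA a ha a ha) (hQB b hb b hb), mul_sub, mul_neg, hA, hB]
    simp
  -- c = n m⁻¹ lies in the quadratic kernel
  have hc : (b⁻¹ * a * b) * (a⁻¹ * b⁻¹ * a)⁻¹ ∈ quadKer ρ := by
    rw [mem_quadKer]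
    intro y
    have e : ρ ((b⁻¹ * a * b) * (a⁻¹ * b⁻¹ * a)⁻¹) - 1 =
        (ρ (b⁻¹ * a * b) - ρ (a⁻¹ * b⁻¹ * a)) * ρ (a⁻¹ * b⁻¹ * a)⁻¹ := by
      rw [sub_mul, rho_mul_inv, map_mul]
    rw [e, ← mul_assoc, hnm y, zero_mul]
  have hcen := quadKer_le_center h hQA hker hc
  have hcC : (b⁻¹ * a * b) * (a⁻¹ * b⁻¹ * a)⁻¹ ∈ conjBy A b⁻¹ := by
    apply Subgroup.mul_mem
    · have := conj_mem_conjBy ha b⁻¹
      simpa using this
    · apply Subgroup.inv_mem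
      rw [hconj]
      have := conj_mem_conjBy (B.inv_mem hb) a⁻¹
      simpa using this
  have hcA : (b⁻¹ * a * b) * (a⁻¹ * b⁻¹ * a)⁻¹ ∈ A := by
    rw [mem_conjBy] at hcC
    have e : b⁻¹⁻¹ * ((b⁻¹ * a * b) * (a⁻¹ * b⁻¹ * a)⁻¹) * b⁻¹ =
        (b⁻¹ * a * b) * (a⁻¹ * b⁻¹ * a)⁻¹ := by
      rw [inv_inv, (Subgroup.mem_center_iff.mp hcen b), mul_assoc, mul_inv_cancel, mul_one]
    rwa [e] at hcC
  have := rog_eq_one_of_mem_center h hcA hcen
  exact mul_inv_eq_one.mp this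

end Quad

/-! ### Actions on abelian groups -/

section Action

variable {X : Type*} [Group X] {A B : Subgroup X} {V : Type*} [AddCommGroup V] [DistribMulAction X V]

theorem end_sub_apply (f g : AddMonoid.End V) (v : V) : (f - g) v = f v - g v := rfl
theorem end_one_apply (v : V) : (1 : AddMonoid.End V) v = v := rfl
theorem end_mul_apply (f g : AddMonoid.End V) (v : V) : (f * g) v = f (g v) := rfl
theorem end_zero_apply (v : V) : (0 : AddMonoid.End V) v = 0 := rfl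
theorem end_act_apply (x : X) (v : V) : DistribMulAction.toAddMonoidEnd X V x v = x • v := rfl

theorem quadOn_of_action (hq : ∀ a ∈ A, ∀ a' ∈ A, ∀ v : V, a' • (a • v - v) = a • v - v) :
    QuadOn (DistribMulAction.toAddMonoidEnd X V) A := by
  intro a ha a' ha'
  ext v
  simp only [end_sub_apply, end_one_apply, end_mul_apply, end_act_apply, end_zero_apply]
  rw [hq a ha a' ha' v, sub_self]

theorem act_eq_one_iff (x : X) : DistribMulAction.toAddMonoidEnd X V x = 1 ↔ ∀ v : V, x • v = v := by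
  constructor
  · intro h v
    have := congrArg (fun f : AddMonoid.End V => f v) h
    exact this
  · intro h
    ext v
    exact h v

end Action

end Cfsg.Agent.H85
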