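import Mathlib
import Cfsg.Prelude
import Cfsg.Agent.H85.RIPieces

/-!
# S5048: root involutions with connected odd graph — radical and simplicity (assembly)
-/

set_option autoImplicit false

namespace Cfsg.Agent.H85.RI

variable {G : Type*} [Group G] {D : Set G}

theorem s5048_main [Finite G] (hD : Cfsg.IsRootInvolutionSet D)
    (hc : Cfsg.IsConnectedSet (Cfsg.OddAdj D) D)
    (hDD : (D ∩ Cfsg.commutingProducts D).Nonempty) :
    Cfsg.solvableRadical G = Cfsg.twoZCore G ∧ IsSimpleGroup (G ⧸ Cfsg.twoZCore G) := by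
  classical
  obtain ⟨x, hxD, a, ha, b, hb, hab, hab1, rfl⟩ := hDD
  have hne : a ≠ b := by
    rintro rfl
    apply hab1
    have h2 : orderOf a = 2 := hD.orderOf_eq a ha
    rw [← pow_two, ← h2, pow_orderOf_eq_one]
  -- an odd pair
  have hoddpair : ∃ c ∈ D, a ≠ c ∧ Odd (orderOf (a * c)) := by
    have h := hc a ha b hb
    rcases Relation.ReflTransGen.cases_head h with h | ⟨c, hac, -⟩
    · exact absurd h hne
    · exact ⟨c, hac.2.1, hac.2.2.1, hac.2.2.2⟩
  obtain ⟨c, hcD, hac, hodd⟩ := hoddpair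
  have hnetop : Cfsg.twoZCore G ≠ ⊤ := twoZCore_ne_top hD ha hcD hac hodd
  have hclass : ∀ a ∈ D, ∀ b ∈ D, ∃ g : G, b = g * a * g⁻¹ := fun a ha b hb =>
    conj_of_connected hD hc ha hb
  have hb1 : ∀ u v x : G, u ∈ D → v ∈ D → u * v = v * u → u ≠ v → u * v ∈ D → x ∈ D →
      x * u = u * x → Odd (orderOf (v * x)) → x = v :=
    fun u v x hu hv huv hne huvD hx hxu hodd => b1 hD hu hv huv hne huvD hx hxu hodd
  have hnsa : ∀ u v x : G, u ∈ D → v ∈ D → u * v = v * u → u ≠ v → u * v ∈ D → x ∈ D →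
      x ≠ u * v → Odd (orderOf (u * v * x)) →
      (x ≠ u ∧ Odd (orderOf (u * x))) ∨ (x ≠ v ∧ Odd (orderOf (v * x))) :=
    fun u v x hu hv huv hne huvD hx hxne hodd => nsa hD hb1 hu hv huv hne huvD hx hxne hodd
  refine radical_eq_of_forall hnetop ?_
  intro N hNn hNtop
  haveI := hNn
  have hDN : ∀ d ∈ D, d ∉ N := by
    intro d hd hdN
    apply hNtop
    rw [eq_top_iff, ← hD.generates, Subgroup.closure_le]
    intro e he
    obtain ⟨g, rfl⟩ := hclass d hd e he
    exact hNn.conj_mem d hdN g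
  have h4 : ∀ n ∈ N, orderOf (a * (n * a * n⁻¹)) ∣ 4 := fun n hn =>
    two_elt_of_normal hD hnsa ha hb hab hne hxD N hDN hn
  have hcore := comm_mem_core (hD.orderOf_eq a ha) N h4
  exact normal_le_twoZCore hD hclass ha N hcore

end Cfsg.Agent.H85.RI
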