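import Mathlib
import Cfsg.Prelude
import Cfsg.Agent.H85.RTDefs

/-!
# S5046: assembly of the pieces (helper85)
-/

set_option autoImplicit false

namespace Cfsg.Agent.H85.RT

universe u

open Cfsg.Agent.H40.RootInv in
/-- CENT from the pieces. -/
theorem cent_of_pieces (hcard : StCard.{u}) (h4 : St4GL.{u}) (hp2 : StP2.{u})
    (hA : StCaseA.{u}) : StCent.{u} := by
  intro G _ _ D hD hc d e x hd he hx htw hxd
  by_contra hne
  have hxx : x * x = 1 := sq_of_mem hD hx
  have hee : e * e = 1 := sq_of_mem hD he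
  have hdd : d * d = 1 := sq_of_mem hD hd
  have hxinv : x⁻¹ = x := inv_eq_of_mul_eq_one_left hxx
  -- x is not an odd partner of e
  have hxA : x ∉ Cfsg.oddPartners D e := by
    rw [← htw]
    rintro ⟨_, hxd', hodd⟩
    have h2 : (d * x) ^ 2 = 1 := by
      rw [pow_two]
      calc d * x * (d * x) = d * (x * d) * x := by group
        _ = d * (d * x) * x := by rw [hxd]
        _ = (d * d) * (x * x) := by group
        _ = 1 := by rw [hdd, hxx, one_mul]
    have h1 : orderOf (d * x) = 1 := odd_dvd_two hodd (orderOf_dvd_of_pow_eq_one h2)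
    rw [orderOf_eq_one_iff] at h1
    apply hxd'
    calc x = d⁻¹ * (d * x) := by group
      _ = d⁻¹ := by rw [h1, mul_one]
      _ = d := inv_eq_of_mul_eq_one_left hdd
  -- so o(x e) = 4
  have h4xe : orderOf (x * e) = 4 ∧ (x * e) ^ 2 ∈ D := by
    rcases hD.pair x hx e he with h | h | h
    · exact absurd h hne
    · exfalso
      apply hxA
      refine ⟨hx, ?_, ?_⟩
      · rintro rfl; exact hne rfl
      · rw [orderOf_mul_comm']; exact h
    · exact h
  obtain ⟨ho4, hzD⟩ := h4xe
  set f := x * e * x⁻¹ with hf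
  have hfD : f ∈ D := hD.conj_mem e he x
  -- f is a twin of e
  have hdx : x * d * x⁻¹ = d := by rw [hxd]; group
  have htwf : Tw D f e := by
    have h1 : Tw D (x * e * x⁻¹) (x * d * x⁻¹) := tw_conj hD x htw.symm
    rw [hdx] at h1
    exact h1.trans htw
  -- z = f * e
  have hz : (x * e) ^ 2 = f * e := by
    rw [hf, hxinv, pow_two]; group
  have hfe_ne : f ≠ e := by
    intro h
    apply hne
    have : x * e * x⁻¹ = e := h
    calc x * e = (x * e * x⁻¹) * x := by group
      _ = e * x := by rw [this]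
  have hpow4 : (x * e) ^ 4 = 1 := by rw [← ho4]; exact pow_orderOf_eq_one _
  have hfe_comm : f * e = e * f := by
    have h := dih8 hxx hee hpow4
    -- f = x e x, f * e = (xe)^2 ; e * f = e x e x = (e x)^2 = ((x e)^2)⁻¹ = (x e)^2
    have e1 : e * f = ((x * e) ^ 2)⁻¹ := by
      rw [hf, hxinv, pow_two, mul_inv_rev, mul_inv_rev,
        inv_eq_of_mul_eq_one_left hee, hxinv]
      group
    have e2 : ((x * e) ^ 2)⁻¹ = (x * e) ^ 2 := by
      rw [inv_eq_iff_mul_eq_one, ← pow_add]
      exact hpow4
    rw [e1, e2, hz]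
  have hzD' : f * e ∈ D := hz ▸ hzD
  have htwz : Tw D (f * e) f := h4 hD hc hfD he htwf hfe_ne hfe_comm hzD'
  have htwze : Tw D (f * e) e := htwz.trans htwf
  -- x commutes with z = f * e, x ≠ z, x * z ∈ D
  have hxz : x * (f * e) = (f * e) * x := by
    rw [← hz, pow_two]
    have h := dih8 hxx hee hpow4
    -- x * (x e x e) = e x e ; (x e x e) * x = e x e
    rw [h.2.2.2.1, h.2.2.2.2]
  have hxz_ne : x ≠ f * e := by
    intro h
    apply hne
    -- x = (xe)^2 commutes with e
    have h' := dih8 hxx hee hpow4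
    have hx' : x = x * e * (x * e) := by rw [← pow_two, hz]; exact h
    calc x * e = (x * e * (x * e)) * e := by rw [← hx']
      _ = x * e * x := h'.2.2.1
      _ = e * (x * e * (x * e)) := h'.2.1.symm
      _ = e * x := by rw [← hx']
  have hxzD : x * (f * e) ∈ D := by
    have h' := dih8 hxx hee hpow4
    have : x * (f * e) = e * x * e⁻¹ := by
      rw [← hz, pow_two, h'.2.2.2.1, inv_eq_of_mul_eq_one_left hee]
    rw [this]
    exact hD.conj_mem x hx e
  -- no odd partner of e commutes with x
  have hF1 : ∀ y ∈ Cfsg.oddPartners D e, y * x ≠ x * y := by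
    intro y hy hcomm
    have hy' : y ∈ Cfsg.oddPartners D (f * e) := by rw [htwze]; exact hy
    obtain ⟨hyD, hyne, hyodd⟩ := hy'
    exact hyne (Cfsg.Agent.H85.RI.b1 hD hx hzD' hxz hxz_ne hxzD hyD hcomm hyodd)
  by_cases hex : ∃ y ∈ Cfsg.oddPartners D e, orderOf (x * y) = 4
  · obtain ⟨y, hy, hxy⟩ := hex
    exact hA hD hc hx he ho4 htwf hy hxy
  · push Not at hex
    -- then every odd partner of e is an odd partner of x: x is a twin of e
    have hsub : Cfsg.oddPartners D e ⊆ Cfsg.oddPartners D x := by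
      intro y hy
      have hyD : y ∈ D := hy.1
      refine ⟨hyD, ?_, ?_⟩
      · rintro rfl; exact hxA hy
      · rcases hD.pair x hx y hyD with h | h | h
        · exact absurd h.symm (hF1 y hy)
        · exact h
        · exact absurd h.1 (hex y hy)
    have htwx : Tw D e x := hcard hD hc he hx hsub
    exact hne (hp2 hD hc hx he htwx.symm)

/-- S5046 from the pieces. -/
theorem s5046_of_pieces (hfwd : StFwd.{u}) (htri : StTri.{u}) (hcent : StCent.{u})
    {G : Type u} [Group G] [Finite G] {D : Set G} (hD : Cfsg.IsRootInvolutionSet D)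
    (hc : Cfsg.IsConnectedSet (Cfsg.OddAdj D) D) {d : G} (hd : d ∈ D) :
    Cfsg.sameCommutingClass D d =
      {e | e ∈ D ∧ Cfsg.commutingMembers D d ∪ Cfsg.fourPartners D d =
        Cfsg.commutingMembers D e ∪ Cfsg.fourPartners D e} := by
  ext e
  constructor
  · rintro ⟨he, hC⟩
    refine ⟨he, ?_⟩
    apply Set.Subset.antisymm
    · apply Set.union_subset
      · rw [hC]; exact Set.subset_union_left
      · intro f hf; exact hfwd hD hd he hC hf
    · apply Set.union_subset
      · rw [← hC]; exact Set.subset_union_left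
      · intro f hf; exact hfwd hD he hd hC.symm hf
  · rintro ⟨he, hU⟩
    refine ⟨he, ?_⟩
    have htw : Tw D d e := htri hD hd he hU
    ext x
    constructor
    · rintro ⟨hx, hxd⟩
      exact ⟨hx, hcent hD hc hd he hx htw hxd⟩
    · rintro ⟨hx, hxe⟩
      exact ⟨hx, hcent hD hc he hd hx htw.symm hxe⟩

end Cfsg.Agent.H85.RT
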