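import Mathlib
import Cfsg.Prelude
import Cfsg.Agent.H85.RTMain
import Cfsg.Agent.H85.RTCaseA
import Cfsg.Agent.H53.RTCard
import Cfsg.Agent.H53.RT4GL
import Cfsg.Agent.H53.RTTri
import Cfsg.Agent.H8.RTCommConj
import Cfsg.Agent.H8.RTVOdd
import Cfsg.Agent.H62.RTC1
import Cfsg.Agent.H62.RTFwd
import Cfsg.Agent.H62.RTTrans
import Cfsg.Agent.H75.RTTwComm
import Cfsg.Agent.H75.RTP2

/-!
# Root involutions with connected odd graph: the proved toolkit, packaged (helper85)
-/

set_option autoImplicit false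

namespace Cfsg.Agent.H85.RT

universe u

/-- the product of two different commuting twins, if in `D`, is a twin. -/
theorem fourGL : St4GL.{u} := Cfsg.Agent.H53.RT.four_gl Cfsg.Agent.H53.RT.card

/-- twins commute. -/
theorem twinsComm : StP2.{u} :=
  Cfsg.Agent.H75.RT.p2 Cfsg.Agent.H62.RT.trans (Cfsg.Agent.H75.RT.tw_comm fourGL)

/-- twins have the same commuting members. -/
theorem cent : StCent.{u} :=
  cent_of_pieces Cfsg.Agent.H53.RT.card fourGL twinsComm
    (caseA Cfsg.Agent.H62.RT.c1 fourGL Cfsg.Agent.H8.RT.v_odd (Cfsg.Agent.H8.RT.comm_conj fourGL))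

end Cfsg.Agent.H85.RT
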