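import Mathlib
import Cfsg.Prelude
import Cfsg.Agent.H85.RXDefs

/-!
# S5047: assembly of the pieces (helper85)
-/

set_option autoImplicit false

namespace Cfsg.Agent.H85.RX

open Cfsg.Agent.H85.RT Cfsg.Agent.H40.RootInv

universe u

theorem orderOf_eq_four_of_sq {G : Type*} [Group G] {y c : G} (h : y ^ 2 = c) (hc1 : c ≠ 1)
    (hcc : c * c = 1) : orderOf y = 4 := by
  have h1 : ¬ y ^ 2 ^ 1 = 1 := by rw [pow_one, h]; exact hc1
  have h2 : y ^ 2 ^ (1 + 1) = 1 := by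
    have h4 : y ^ 4 = 1 := by
      calc y ^ 4 = (y ^ 2) ^ 2 := by rw [← pow_mul]
        _ = c * c := by rw [h, pow_two]
        _ = 1 := hcc
    simpa using h4
  have h3 := orderOf_eq_prime_pow (p := 2) (n := 1) h1 h2
  simpa using h3

/-- S5047 from the pieces. -/
theorem s5047_of_pieces (hcent : StCent.{u}) (hcl : StClaim1.{u}) (hs4 : StS4.{u})
    {G : Type u} [Group G] [Finite G] {D : Set G} (hD : Cfsg.IsRootInvolutionSet D)
    (hc : Cfsg.IsConnectedSet (Cfsg.OddAdj D) D) {a b : G} (ha : a ∈ D)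
    (hb : b ∈ Cfsg.productPartners D a) (hbE : b ∉ Cfsg.sameCommutingClass D a) :
    ∃ x ∈ Cfsg.fourPartners D b, orderOf (a * x) = 3 := by
  obtain ⟨⟨hbD, hba, hbne⟩, hbaD⟩ := hb
  have hntw : ¬ Tw D a b := by
    intro htw
    apply hbE
    refine ⟨hbD, ?_⟩
    ext y
    constructor
    · rintro ⟨hy, hya⟩
      exact ⟨hy, hcent hD hc ha hbD hy htw hya⟩
    · rintro ⟨hy, hyb⟩
      exact ⟨hy, hcent hD hc hbD ha hy htw.symm hyb⟩
  obtain ⟨f, hfD, hfa⟩ := hcl hD hc ha hbD hbne hba hbaD hntw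
  have hbb := sq_of_mem hD hbD
  have hb1 := ne_one_of_mem hD hbD
  have hff := sq_of_mem hD hfD
  have hf1 := ne_one_of_mem hD hfD
  have ho4 : orderOf (f * a) = 4 := orderOf_eq_four_of_sq hfa hb1 hbb
  obtain ⟨c, hc', -, -, hcf, -, -, -, hcnf, -, hfanc, hfcD, -⟩ := d8_pack hD hfD ha ho4
  have hcb : c = b := hc'.trans hfa
  rw [hcb] at hcf hcnf hfcD
  have hntw' : ¬ Tw D b f := by
    intro htw
    exact hfanc (hcent hD hc hbD hfD ha htw hba.symm).symm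
  obtain ⟨x, hxD, hxb⟩ := hcl hD hc hbD hfD hcnf.symm hcf.symm hfcD hntw'
  have ho4' : orderOf (x * b) = 4 := orderOf_eq_four_of_sq hxb hf1 hff
  refine ⟨x, ⟨hxD, ?_⟩, hs4 hD ha hbD hfD hxD hba hbaD hfa hxb⟩
  rw [orderOf_mul_comm']
  exact ho4'

end Cfsg.Agent.H85.RX
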