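import Mathlib
import Cfsg.Prelude.Def_RootSubgroups
import Cfsg.Agent.H85.RootNil

/-!
# Abstract root subgroups: components of the graph of rank one pairs (Timmesfeld II (2.8), (2.9))
-/

set_option autoImplicit false

namespace Cfsg.Agent.H85

open Cfsg
open scoped commutatorElement

variable {G : Type*} [Group G] {S : Set (Subgroup G)}

theorem mem_conjBy_subgroupOf {T H : Subgroup G} {g x : ↥T} :
    x ∈ conjBy (H.subgroupOf T) g ↔ (x : G) ∈ conjBy H (g : G) := by
  rw [mem_conjBy, Subgroup.mem_subgroupOf, mem_conjBy]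
  simp

theorem roc_subgroupOf {A B T : Subgroup G} (hB : B ≤ T) (h : RankOneCondition A B) :
    RankOneCondition (A.subgroupOf T) (B.subgroupOf T) := by
  intro a ha ha1
  rw [Subgroup.mem_subgroupOf] at ha
  have ha1' : (a : G) ≠ 1 := fun h0 => ha1 (Subtype.ext h0)
  obtain ⟨b, hb, hb1, hbe⟩ := h a ha ha1'
  refine ⟨⟨b, hB hb⟩, ?_, ?_, ?_⟩
  · rw [Subgroup.mem_subgroupOf]; exact hb
  · intro h0
    exact hb1 (congrArg Subtype.val h0)
  · ext x
    rw [mem_conjBy_subgroupOf, mem_conjBy_subgroupOf]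
    have e1 : (((⟨b, hB hb⟩ : ↥T)⁻¹ : ↥T) : G) = b⁻¹ := rfl
    have e2 : ((a⁻¹ : ↥T) : G) = (a : G)⁻¹ := rfl
    rw [e1, e2, hbe]

/-- A rank one pair `(A, B)` in `G` makes `A ⊔ B` a rank one group. -/
theorem rop_to_rog {A B : Subgroup G} (h : IsRankOnePair A B) :
    IsRankOneGroup ↥(A ⊔ B) (A.subgroupOf (A ⊔ B)) (B.subgroupOf (A ⊔ B)) := by
  refine ⟨?_, ?_, ?_, ?_, ?_, ?_⟩
  · rw [← Subgroup.subgroupOf_sup le_sup_left le_sup_right]
    exact Subgroup.subgroupOf_self _
  · intro he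
    rw [Subgroup.subgroupOf_inj, inf_eq_left.mpr le_sup_left, inf_eq_left.mpr le_sup_right] at he
    exact h.ne he
  · have := h.nilpotent_left
    exact Group.nilpotent_of_mulEquiv (Subgroup.subgroupOfEquivOfLe (le_sup_left : A ≤ A ⊔ B)).symm
  · have := h.nilpotent_right
    exact Group.nilpotent_of_mulEquiv (Subgroup.subgroupOfEquivOfLe (le_sup_right : B ≤ A ⊔ B)).symm
  · exact roc_subgroupOf le_sup_right h.cond_left
  · exact roc_subgroupOf le_sup_left h.cond_right

/-- No nilpotent subgroup contains a rank one pair. -/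
theorem rop_not_nilpotent_of_le {A B R : Subgroup G} (h : IsRankOnePair A B) (hle : A ⊔ B ≤ R) :
    ¬ Group.IsNilpotent ↥R := by
  intro hnil
  apply rog_not_nilpotent (rop_to_rog h)
  have := hnil
  have h1 : Group.IsNilpotent ↥((A ⊔ B).subgroupOf R) := inferInstance
  have := h1
  exact Group.nilpotent_of_mulEquiv (Subgroup.subgroupOfEquivOfLe hle)

theorem fadj_symm {A B : Subgroup G} (h : FAdj S A B) : FAdj S B A :=
  ⟨h.2.1, h.1, rop_symm h.2.2⟩

theorem component_eq_of_adj {A B : Subgroup G} (h : FAdj S A B) :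
    componentOf (FAdj S) S A = componentOf (FAdj S) S B := by
  ext D
  constructor
  · rintro ⟨hD, hAD⟩
    exact ⟨hD, Relation.ReflTransGen.head (fadj_symm h) hAD⟩
  · rintro ⟨hD, hBD⟩
    exact ⟨hD, Relation.ReflTransGen.head h hBD⟩

theorem component_eq_of_reach {A B : Subgroup G} (h : Relation.ReflTransGen (FAdj S) A B) :
    componentOf (FAdj S) S A = componentOf (FAdj S) S B := by
  induction h with
  | refl => rfl
  | tail _ hbc ih => exact ih.trans (component_eq_of_adj hbc)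

theorem exists_partner_of_component {A : Subgroup G}
    (h : ∃ A' ∈ componentOf (FAdj S) S A, A' ≠ A) : ∃ A' ∈ S, IsRankOnePair A A' := by
  obtain ⟨A', ⟨_, hr⟩, hne⟩ := h
  rcases Relation.ReflTransGen.cases_head hr with h0 | ⟨C, hC, _⟩
  · exact absurd h0.symm hne
  · exact ⟨C, hC.2.1, hC.2.2⟩

/-- Key step of (2.8): a member `E` of the line through commuting `A`, `B` containing a product
`a * b` is a rank one partner of every rank one partner `A'` of `A` not adjacent to `B`. -/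
theorem line_rankOne (hS : IsRootSubgroupSet S) {A B A' E : Subgroup G} (hA : A ∈ S) (hB : B ∈ S)
    (hA' : A' ∈ S) (hAA' : IsRankOnePair A A') (hAB : ∀ a ∈ A, ∀ b ∈ B, a * b = b * a)
    (hBA' : ¬ IsRankOnePair B A') (hE : E ∈ S) (hEle : E ≤ A ⊔ B) {a b : G} (ha : a ∈ A)
    (ha1 : a ≠ 1) (hb : b ∈ B) (hb1 : b ≠ 1) (hab : a * b ∈ E) (hEB : E ≠ B) (hab1 : a * b ≠ 1) :
    IsRankOnePair E A' := by
  -- Step 1: (B, A') is in the commutator case
  have h2 : RootCommutatorCase S B A' := by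
    rcases root_trichotomy hS hB hA' with h0 | h1 | h2
    · exfalso
      have hz : b ∈ Subgroup.centralizer ((A ⊔ A' : Subgroup G) : Set G) := by
        rw [Subgroup.mem_centralizer_iff]
        intro x hx
        exact (comm_sup (fun y hy => (hAB y hy b hb).symm)
          (fun y hy => comm_of_commutator_eq_bot h0 hb hy) x hx).symm
      apply Cfsg.Agent.S5025.result hS hA ⟨hA', hAA'⟩ hz hb1 a ha ha1
      rw [← hAB a ha b hb]
      exact ⟨hab1, E, hE, hab⟩
    · exact absurd h1 hBA'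
    · exact h2
  have h2' := rcc_symm h2
  have hBE : ∀ x ∈ B, ∀ e ∈ E, x * e = e * x := by
    intro x hx e he
    exact comm_sup (fun y hy => (hAB y hy x hx).symm)
      (fun y hy => comm_of_isMulCommutative (hS.commutative B hB) hx hy) e (hEle he)
  rcases root_trichotomy hS hE hA' with k0 | k1 | k2
  · exfalso
    -- a * b centralizes A'
    have hfix : conjBy A' (a * b) = A' :=
      conjBy_eq_of_comm (fun d hd => comm_of_commutator_eq_bot k0 hab hd)
    rw [← conjBy_conjBy, conjBy_eq_iff] at hfix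
    -- conjBy A' b = conjBy A' a⁻¹ commutes with A'
    have hcomm : ∀ x ∈ conjBy A' a⁻¹, ∀ d ∈ A', x * d = d * x := by
      intro x hx d hd
      rw [← hfix] at hx
      exact (rcc_A_comm hS hA' h2' hd x (rcc_conj_le h2' hb hx)).symm
    have hAA'symm := rop_symm hAA'
    have hmem : conjBy A' a⁻¹ ∈ unipotentSubgroups A' A :=
      conjBy_mem_unipotent (left_mem_unipotent A' A) (Subgroup.mem_sup_right (A.inv_mem ha))
    have hne : conjBy A' a⁻¹ ≠ A' := by
      intro he
      exact (inv_ne_one.mpr ha1) (rop_eq_one_of_conjBy_eq hAA' (A.inv_mem ha) he)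
    obtain ⟨a', ha', ha'1⟩ := rop_exists_left hAA'symm
    have hx : a⁻¹ * a' * a⁻¹⁻¹ ∈ conjBy A' a⁻¹ := conj_mem_conjBy ha' a⁻¹
    have hx1 := rop_eq_one_of_commute hAA'symm hmem (left_mem_unipotent A' A) hne hx
      (hcomm _ hx)
    apply ha'1
    have : a' = a⁻¹⁻¹ * (a⁻¹ * a' * a⁻¹⁻¹) * a⁻¹ := by group
    rw [this, hx1]; group
  · exact k1
  · exfalso
    obtain ⟨a', ha', ha'1⟩ := rop_exists_right hAA'
    obtain ⟨-, hnil⟩ := rcc3_nilpotent hS hB hA' hE h2 k2 hBE ha' ha'1
    have hAA'symm := rop_symm hAA'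
    have hmem : conjBy A' a ∈ unipotentSubgroups A' A :=
      conjBy_mem_unipotent (left_mem_unipotent A' A) (Subgroup.mem_sup_right ha)
    have hne : A' ≠ conjBy A' a := by
      intro he
      exact ha1 (rop_eq_one_of_conjBy_eq hAA' ha he.symm)
    have hpair := (rop_pair_of_mem hAA'symm (left_mem_unipotent A' A) hmem hne).1
    apply rop_not_nilpotent_of_le hpair _ hnil
    have hA'le : A' ≤ ((B ⊔ conjBy E a') ⊔ (conjBy B a' ⊔ E)) ⊔ A' := le_sup_right
    have hBle : B ≤ ((B ⊔ conjBy E a') ⊔ (conjBy B a' ⊔ E)) ⊔ A' :=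
      le_sup_left.trans (le_sup_left.trans le_sup_left)
    have hEle' : E ≤ ((B ⊔ conjBy E a') ⊔ (conjBy B a' ⊔ E)) ⊔ A' :=
      le_sup_right.trans (le_sup_right.trans le_sup_left)
    have hamem : a ∈ ((B ⊔ conjBy E a') ⊔ (conjBy B a' ⊔ E)) ⊔ A' := by
      have : a = (a * b) * b⁻¹ := by group
      rw [this]
      exact Subgroup.mul_mem _ (hEle' hab) (Subgroup.inv_mem _ (hBle hb))
    apply sup_le hA'le
    intro x hx
    rw [mem_conjBy] at hx
    have : x = a * (a⁻¹ * x * a) * a⁻¹ := by group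
    rw [this]
    exact Subgroup.mul_mem _ (Subgroup.mul_mem _ hamem (hA'le hx)) (Subgroup.inv_mem _ hamem)

end Cfsg.Agent.H85
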