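import Mathlib
import Cfsg.Prelude.Def_RootSubgroups
import Cfsg.Agent.H85.RootComp
import Cfsg.Agent.S5029
import Cfsg.Agent.S5031

/-!
# Abstract root subgroups: connectedness of the graph of rank one pairs (Timmesfeld II (2.9))
-/

set_option autoImplicit false

namespace Cfsg.Agent.H85

open Cfsg
open scoped commutatorElement

variable {G : Type*} [Group G] {S : Set (Subgroup G)}

theorem not_isolated_of_partner {A A' : Subgroup G} (hA : A ∈ S) (hA' : A' ∈ S)
    (h : IsRankOnePair A A') : ¬ IsIsolatedIn (FAdj S) S A := by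
  intro hiso
  exact (hiso.2 A').1 ⟨hA, hA', h⟩

theorem component_other {A A' : Subgroup G} (hA : A ∈ S) (hA' : A' ∈ S)
    (h : IsRankOnePair A A') : ∃ A'' ∈ componentOf (FAdj S) S A, A'' ≠ A :=
  ⟨A', ⟨hA', Relation.ReflTransGen.single ⟨hA, hA', h⟩⟩, h.ne.symm⟩

theorem mem_component_self {A : Subgroup G} (hA : A ∈ S) : A ∈ componentOf (FAdj S) S A :=
  ⟨hA, Relation.ReflTransGen.refl⟩

/-- Members of different components commute, when every member has a rank one partner. -/
theorem comm_of_component_ne (hS : IsRootSubgroupSet S)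
    (hpart : ∀ A ∈ S, ∃ A' ∈ S, IsRankOnePair A A') {A D : Subgroup G} (hA : A ∈ S) (hD : D ∈ S)
    (hne : componentOf (FAdj S) S A ≠ componentOf (FAdj S) S D) : ⁅A, D⁆ = ⊥ := by
  rcases root_trichotomy hS hA hD with h0 | h1 | h2
  · exact h0
  · exact absurd (component_eq_of_adj ⟨hA, hD, h1⟩) hne
  · exfalso
    obtain ⟨A', hA', hAA'⟩ := hpart A hA
    obtain ⟨D', hD', hDD'⟩ := hpart D hD
    obtain ⟨C', hC', hCC'⟩ := hpart _ h2.1
    have hC2 := component_other h2.1 hC' hCC'
    have h2' : ⁅D, A⁆ ∈ S := by rw [Subgroup.commutator_comm]; exact h2.1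
    have lA := (Cfsg.Agent.S5029.result hS (not_isolated_of_partner hA hA' hAA') hA hD h2.1).2.2.1
    have lD := (Cfsg.Agent.S5029.result hS (not_isolated_of_partner hD hD' hDD') hD hA h2').2.2.1
    rw [Subgroup.commutator_comm D A] at lD
    have e1 : componentOf (FAdj S) S ⁅A, D⁆ = componentOf (FAdj S) S A := by
      by_contra hne'
      exact Cfsg.Agent.S5031.result hS h2.1 hA hne' hC2 (component_other hA hA' hAA') lA
    have e2 : componentOf (FAdj S) S ⁅A, D⁆ = componentOf (FAdj S) S D := by
      by_contra hne'
      exact Cfsg.Agent.S5031.result hS h2.1 hD hne' hC2 (component_other hD hD' hDD') lD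
    exact hne (e1.symm.trans e2)

/-- Conjugation by an element of a member of `S` preserves components. -/
theorem component_conj_elt (hS : IsRootSubgroupSet S)
    (hpart : ∀ A ∈ S, ∃ A' ∈ S, IsRankOnePair A A') {A D : Subgroup G} (hA : A ∈ S) (hD : D ∈ S)
    {d : G} (hd : d ∈ D) :
    componentOf (FAdj S) S (conjBy A d) = componentOf (FAdj S) S A := by
  have hAd : conjBy A d ∈ S := hS.conj_mem A hA d
  by_cases h1 : componentOf (FAdj S) S A = componentOf (FAdj S) S D
  · by_contra hne
    have hne' : componentOf (FAdj S) S (conjBy A d) ≠ componentOf (FAdj S) S D := by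
      rw [← h1]; exact hne
    have h0 := comm_of_component_ne hS hpart hAd hD hne'
    apply hne
    have : conjBy A d = A := by
      apply conjBy_eq_of_comm
      intro x hx
      have hx' : d * x * d⁻¹ ∈ conjBy A d := conj_mem_conjBy hx d
      have := comm_of_commutator_eq_bot h0 hx' hd
      have h3 : x = d * x * d⁻¹ := by
        have h4 := congrArg (fun t => d⁻¹ * t) this
        simpa [mul_assoc] using h4
      calc d * x = (d * x * d⁻¹) * d := by group
        _ = x * d := by rw [← h3]
    rw [this]
  · have h0 := comm_of_component_ne hS hpart hA hD h1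
    have : conjBy A d = A := by
      apply conjBy_eq_of_comm
      intro x hx
      exact (comm_of_commutator_eq_bot h0 hx hd).symm
    rw [this]

/-- Conjugation preserves components, when every member has a rank one partner. -/
theorem component_conj (hS : IsRootSubgroupSet S)
    (hpart : ∀ A ∈ S, ∃ A' ∈ S, IsRankOnePair A A') (g : G) :
    ∀ A ∈ S, componentOf (FAdj S) S (conjBy A g) = componentOf (FAdj S) S A := by
  have hg : g ∈ ⨆ D : S, (D : Subgroup G) := by
    have := hS.generates
    rw [iSup_subtype'] at this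
    rw [this]; exact Subgroup.mem_top g
  refine Subgroup.iSup_induction (fun D : S => (D : Subgroup G))
    (C := fun g => ∀ A ∈ S, componentOf (FAdj S) S (conjBy A g) = componentOf (FAdj S) S A)
    hg ?_ ?_ ?_
  · intro D x hx A hA
    exact component_conj_elt hS hpart hA D.2 hx
  · intro A _
    rw [conjBy_one]
  · intro x y hx hy A hA
    rw [← conjBy_conjBy, hx _ (hS.conj_mem A hA y), hy A hA]

end Cfsg.Agent.H85
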