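import Mathlib
import Cfsg.Prelude.Def_RootSubgroups
import Cfsg.Agent.H85.PlaneSpecial
import Cfsg.Agent.H85.RootConn
import Cfsg.Agent.S5032

/-!
# Connectivity of the line graph and the commuting graph (Timmesfeld II (2.10))
-/

set_option autoImplicit false

namespace Cfsg.Agent.H85

open Cfsg
open scoped commutatorElement

variable {G : Type*} [Group G] {S : Set (Subgroup G)}

theorem linePartners_symm {A B : Subgroup G} (hA : A ∈ S) (hB : B ∈ linePartners S A) :
    A ∈ linePartners S B :=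
  ⟨⟨hA, hB.1.2.1.symm, by rw [Subgroup.commutator_comm]; exact hB.1.2.2⟩,
    by rw [sup_comm]; exact hB.2⟩

/-- In the commutator case `A` is a line partner of `⁅A, B⁆`. -/
theorem rcc_line (hS : IsRootSubgroupSet S) {A A' B : Subgroup G} (hA : A ∈ S) (hA' : A' ∈ S)
    (hAA' : IsRankOnePair A A') (h : RootCommutatorCase S A B) : A ∈ linePartners S ⁅A, B⁆ := by
  refine ⟨⟨hA, rcc_ne hS h, ?_⟩, ?_⟩
  · exact commutator_eq_bot_of_comm (fun c hc a ha => rcc_comm_A h c hc a ha)
  · rw [sup_comm]; exact rcc_partition hS hA hA' hAA' h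

/-- In a class with a rank one pair every member has a rank one partner. -/
theorem class_partner (hS : IsRootSubgroupClass S) (hr : ∃ A ∈ S, ∃ B ∈ S, IsRankOnePair A B)
    {C : Subgroup G} (hC : C ∈ S) : ∃ D ∈ S, IsRankOnePair C D := by
  obtain ⟨A, hA, B, hB, hAB⟩ := hr
  obtain ⟨g, rfl⟩ := hS.2.2 A hA C hC
  exact ⟨conjBy B g, hS.1.conj_mem B hB g, rop_conj hAB g⟩

theorem class_not_isolated (hS : IsRootSubgroupClass S)
    (hr : ∃ A ∈ S, ∃ B ∈ S, IsRankOnePair A B) :
    ∀ A ∈ S, ¬ IsIsolatedIn (FAdj S) S A := by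
  intro A hA
  obtain ⟨D, hD, hAD⟩ := class_partner hS hr hA
  exact not_isolated_of_partner hA hD hAD

/-- A rank one pair is joined by a path of length three in the line graph. -/
theorem epath_of_rankOne (hS : IsRootSubgroupClass S) (hnd : IsNondegenerateRootSet S)
    {A B : Subgroup G} (hA : A ∈ S) (hB : B ∈ S) (hAB : IsRankOnePair A B) :
    Relation.ReflTransGen (EAdj S S) A B := by
  obtain ⟨⟨C, hCl, hCS, hCB⟩, -⟩ := nondeg_special hS hnd hA ⟨hB, hAB⟩
  have hS' := hS.1
  have hrcc := rcc_of_commutator_mem hS' hB hCS hCB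
  have h1 : B ∈ linePartners S ⁅B, C⁆ := rcc_line hS' hB hA (rop_symm hAB) hrcc
  obtain ⟨C', hC', hCC'⟩ := class_partner hS ⟨A, hA, B, hB, hAB⟩ hCS
  have h2 : C ∈ linePartners S ⁅C, B⁆ := rcc_line hS' hCS hC' hCC' (rcc_symm hrcc)
  rw [Subgroup.commutator_comm C B] at h2
  have h3 : ⁅B, C⁆ ∈ linePartners S C := linePartners_symm hCB h2
  exact Relation.ReflTransGen.trans (Relation.ReflTransGen.single ⟨hA, hCS, hCl⟩)
    (Relation.ReflTransGen.trans (Relation.ReflTransGen.single ⟨hCS, hCB, h3⟩)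
      (Relation.ReflTransGen.single ⟨hCB, hB, h1⟩))

theorem fconn (hS : IsRootSubgroupClass S) (hr : ∃ A ∈ S, ∃ B ∈ S, IsRankOnePair A B) :
    IsConnectedFamily (FAdj S) S := by
  obtain ⟨A₀, hA₀, B₀, hB₀, hAB₀⟩ := hr
  exact (Cfsg.Agent.S5032.result hS.1 ⟨A₀, hA₀, B₀, hB₀, hAB₀.ne⟩).mpr
    ⟨hS.2, A₀, hA₀, not_isolated_of_partner hA₀ hB₀ hAB₀⟩

/-- The line graph of a non-degenerate class is connected. -/
theorem econn (hS : IsRootSubgroupClass S) (hnd : IsNondegenerateRootSet S) :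
    IsConnectedFamily (EAdj S S) S := by
  intro A hA B hB
  have h := fconn hS hnd.2.1 A hA B hB
  clear hB
  induction h with
  | refl => exact Relation.ReflTransGen.refl
  | tail _ hbc ih =>
    exact Relation.ReflTransGen.trans ih (epath_of_rankOne hS hnd hbc.1 hbc.2.1 hbc.2.2)

/-- The commuting graph of a non-degenerate class is connected. -/
theorem dconn (hS : IsRootSubgroupClass S) (hnd : IsNondegenerateRootSet S) :
    IsConnectedFamily (DAdj S) S := by
  intro A hA B hB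
  have hmono : ∀ X Y : Subgroup G, EAdj S S X Y → DAdj S X Y :=
    fun X Y h => ⟨h.1, h.2.1, h.2.2.1.2.1.symm, h.2.2.1.2.2⟩
  exact Relation.ReflTransGen.mono hmono A B (econn hS hnd A hA B hB)

end Cfsg.Agent.H85
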