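import Mathlib
import Cfsg.Prelude.Def_RootSubgroups
import Cfsg.Agent.H85.RootGraph

/-!
# Generation by line partners and a rank one partner (Timmesfeld II (2.10)(3))
-/

set_option autoImplicit false

namespace Cfsg.Agent.H85

open Cfsg
open scoped commutatorElement

variable {G : Type*} [Group G] {S : Set (Subgroup G)}

theorem membersIn_partition_conj (hS : IsRootSubgroupSet S) {U : Subgroup G} (g : G)
    (h : IsSubgroupPartition U (membersIn S U)) :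
    IsSubgroupPartition (conjBy U g) (membersIn S (conjBy U g)) := by
  refine ⟨fun C hC => hC.2, ?_, ?_⟩
  · intro x hx hx1
    rw [mem_conjBy] at hx
    have hx1' : g⁻¹ * x * g ≠ 1 := by
      intro h0
      apply hx1
      calc x = g * (g⁻¹ * x * g) * g⁻¹ := by group
        _ = 1 := by rw [h0]; group
    obtain ⟨C, hC, hxC⟩ := h.2.1 _ hx hx1'
    refine ⟨conjBy C g, ⟨hS.conj_mem C hC.1 g, conjBy_mono hC.2 g⟩, ?_⟩
    rw [mem_conjBy]; exact hxC
  · intro C hC D hD hne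
    have hC' : conjBy C g⁻¹ ∈ membersIn S U := ⟨hS.conj_mem C hC.1 g⁻¹, by
      have h1 := conjBy_mono hC.2 g⁻¹
      rwa [conjBy_conjBy, inv_mul_cancel, conjBy_one] at h1⟩
    have hD' : conjBy D g⁻¹ ∈ membersIn S U := ⟨hS.conj_mem D hD.1 g⁻¹, by
      have h1 := conjBy_mono hD.2 g⁻¹
      rwa [conjBy_conjBy, inv_mul_cancel, conjBy_one] at h1⟩
    have hne' : conjBy C g⁻¹ ≠ conjBy D g⁻¹ := fun h0 => hne (conjBy_inj.mp h0)
    have h1 := h.2.2 _ hC' _ hD' hne'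
    rw [← conjBy_inf, conjBy_eq_bot_iff] at h1
    exact h1

theorem linePartners_conj (hS : IsRootSubgroupSet S) {A B : Subgroup G} (g : G)
    (hB : B ∈ linePartners S A) : conjBy B g ∈ linePartners S (conjBy A g) := by
  refine ⟨⟨hS.conj_mem B hB.1.1 g, fun h0 => hB.1.2.1 (conjBy_inj.mp h0), ?_⟩, ?_⟩
  · have e1 : ⁅conjBy A g, conjBy B g⁆ = conjBy ⁅A, B⁆ g :=
      (Subgroup.map_commutator A B _).symm
    rw [e1, hB.1.2.2, conjBy_bot]
  · rw [← conjBy_sup]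
    exact membersIn_partition_conj hS g hB.2

/-- In a non-degenerate class every member has a line partner. -/
theorem exists_linePartner (hS : IsRootSubgroupClass S) (hnd : IsNondegenerateRootSet S)
    {A : Subgroup G} (hA : A ∈ S) : ∃ C, C ∈ linePartners S A := by
  obtain ⟨hS', hcl⟩ := hS
  obtain ⟨-, ⟨A₁, hA₁, B₁, hB₁, hAB₁⟩, A₀, hA₀, B₀, hB₀, h0⟩ := hnd
  obtain ⟨D, hD, hAD⟩ := class_partner ⟨hS', hcl⟩ ⟨A₁, hA₁, B₁, hB₁, hAB₁⟩ hA
  obtain ⟨g, hg⟩ := hcl.2 A₀ hA₀ A hA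
  have hB₁' : conjBy B₀ g ∈ S := hS'.conj_mem B₀ hB₀ g
  have hC₀ : ⁅A, conjBy B₀ g⁆ ∈ S := by
    rw [hg]
    have e1 : ⁅conjBy A₀ g, conjBy B₀ g⁆ = conjBy ⁅A₀, B₀⁆ g :=
      (Subgroup.map_commutator A₀ B₀ _).symm
    rw [e1]
    exact hS'.conj_mem _ h0.1 g
  have hrcc := rcc_of_commutator_mem hS' hA hB₁' hC₀
  exact ⟨_, linePartners_symm hC₀ (rcc_line hS' hA hD hAD hrcc)⟩

/-- The full structure of a line `A B ∩ S` relative to a rank one partner `D` of `A`. -/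
theorem line_point_full (hS : IsRootSubgroupSet S) {A B D : Subgroup G} (hA : A ∈ S)
    (hB : B ∈ linePartners S A) (hD : D ∈ S) (hAD : IsRankOnePair A D) :
    ∃ E : Subgroup G, E ∈ S ∧ E ≠ A ∧ A ⊔ E = A ⊔ B ∧
      (∀ a ∈ A, ∀ e ∈ E, a * e = e * a) ∧
      RootCommutatorCase S E D ∧ RootCommutatorCase S A ⁅E, D⁆ ∧ ⁅A, ⁅E, D⁆⁆ = E ∧
      ⁅E, D⁆ ∈ normalizingMembers S (A ⊔ B) ∧ (∀ f ∈ ⁅E, D⁆, conjBy E f = E) ∧
      (∀ C ∈ membersIn S (A ⊔ B), C ≠ E → ∃ f ∈ ⁅E, D⁆, C = conjBy A f) ∧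
      (∀ f ∈ ⁅E, D⁆, f ≠ 1 → conjBy A f ≠ A) := by
  obtain ⟨E, hE, hED, hAE, hsup, h2, hK⟩ := line_special_point hS hA hB hD hAD
  have hF : ⁅E, D⁆ ∈ S := hED.1
  have hFE : ∀ f ∈ ⁅E, D⁆, ∀ e ∈ E, f * e = e * f := rcc_comm_A hED
  have hEA : E ≠ A := by
    rintro rfl
    exact rop_not_rcc hS hD hAD hED
  have hfix : ∀ f ∈ ⁅E, D⁆, conjBy E f = E := fun f hf => conjBy_eq_of_comm (hFE f hf)
  have hle : ∀ f ∈ ⁅E, D⁆, conjBy (A ⊔ B) f ≤ A ⊔ B := by
    intro f hf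
    rw [← hsup, conjBy_sup, hfix f hf]
    apply sup_le _ le_sup_right
    have h3 := rcc_conj_le h2 hf
    rwa [hK] at h3
  refine ⟨E, hE, hEA, hsup, hAE, hED, h2, hK, ⟨hF, ?_⟩, hfix, ?_, ?_⟩
  · intro f hf
    apply mem_normalizer_of_conj_mem
    · intro m hm
      exact hle f hf (conj_mem_conjBy hm f)
    · intro m hm
      have h3 := hle f⁻¹ (Subgroup.inv_mem _ hf) (conj_mem_conjBy hm f⁻¹)
      simpa using h3
  · intro C hC hCE
    have hmem := rcc_membersIn hS hA hD hAD h2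
    rw [hK, hsup] at hmem
    rw [hmem] at hC
    rcases hC with ⟨f, hf, rfl⟩ | hC
    · exact ⟨f, hf, rfl⟩
    · exact absurd hC hCE
  · intro f hf hf1 hfA
    obtain ⟨a, ha, ha1⟩ := rop_exists_left hAD
    have h3 : f * a * f⁻¹ ∈ A := by
      have h4 := conj_mem_conjBy ha f
      rwa [hfA] at h4
    have h4 : ⁅f, a⁆ ∈ A ⊓ ⁅A, ⁅E, D⁆⁆ := by
      refine ⟨?_, commutator_swap_mem ha hf⟩
      rw [commutatorElement_def]
      exact A.mul_mem h3 (A.inv_mem ha)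
    rw [rcc_inf_eq_bot hS hD hAD h2, Subgroup.mem_bot] at h4
    have h5 : ⁅a, f⁆ = 1 := by rw [← commutatorElement_inv, h4, inv_one]
    exact hf1 (rcc_inj_right hS hA hD hAD h2 ha ha1 hf h5)

/-- Timmesfeld II (2.10)(3): `G = ⟨Λ_A, B⟩` for a rank one partner `B` of `A`. -/
theorem gen_line_partners (hS : IsRootSubgroupClass S) (hnd : IsNondegenerateRootSet S)
    {A B : Subgroup G} (hA : A ∈ S) (hB : B ∈ rankOnePartners S A) :
    (⨆ C ∈ linePartners S A, C) ⊔ B = ⊤ := by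
  obtain ⟨hBS, hAB⟩ := hB
  have hS' := hS.1
  have hr : ∃ A ∈ S, ∃ B ∈ S, IsRankOnePair A B := hnd.2.1
  obtain ⟨R, hR⟩ : ∃ R : Subgroup G, R = (⨆ C ∈ linePartners S A, C) ⊔ B := ⟨_, rfl⟩
  rw [← hR]
  have hΛR : ∀ C ∈ linePartners S A, C ≤ R := by
    intro C hC
    rw [hR]
    exact le_trans (le_biSup (fun C => C) hC) le_sup_left
  have hBR : B ≤ R := by rw [hR]; exact le_sup_right
  obtain ⟨C₀, hC₀⟩ := exists_linePartner hS hnd hA
  have hAR : A ≤ R := by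
    obtain ⟨E, hE, hEA, hsup, hAE, hED, h2, hK, hFn, hFfix, hFtr, hFmove⟩ :=
      line_point_full hS' hA hC₀ hBS hAB
    have hEl : E ∈ linePartners S A :=
      ⟨⟨hE, hEA, commutator_eq_bot_of_comm hAE⟩, by rw [hsup]; exact hC₀.2⟩
    obtain ⟨f, hf, hf1⟩ := exists_ne_one_of_ne_bot (hS'.ne_bot _ hED.1)
    have hAf : conjBy A f ∈ linePartners S A := by
      have hle : conjBy A f ≤ A ⊔ E := by
        have h3 := rcc_conj_le h2 hf
        rwa [hK] at h3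
      have hsup2 : A ⊔ conjBy A f = A ⊔ E := by
        apply le_antisymm (sup_le le_sup_left hle)
        apply sup_le le_sup_left
        intro e he
        rw [← hK] at he
        obtain ⟨a, ha, rfl⟩ := rcc_surj_left h2 hf hf1 he
        have e1 : ⁅a, f⁆ = a * (f * a⁻¹ * f⁻¹) := by rw [commutatorElement_def]; group
        rw [e1]
        exact Subgroup.mul_mem _ (Subgroup.mem_sup_left ha)
          (Subgroup.mem_sup_right (conj_mem_conjBy (A.inv_mem ha) f))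
      refine ⟨⟨hS'.conj_mem A hA f, hFmove f hf hf1, ?_⟩, ?_⟩
      · apply commutator_eq_bot_of_comm
        intro a ha x hx
        exact line_comm hS' hA hEl a (Subgroup.mem_sup_left ha) x (hle hx)
      · rw [hsup2, hsup]; exact hC₀.2
    intro a ha
    have e1 : a = ⁅f, a⁆⁻¹ * (f * a * f⁻¹) := by rw [commutatorElement_def]; group
    rw [e1]
    apply R.mul_mem
    · apply R.inv_mem
      apply hΛR E hEl
      rw [← hK]
      exact commutator_swap_mem ha hf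
    · exact hΛR _ hAf (conj_mem_conjBy ha f)
  have hXR : A ⊔ B ≤ R := sup_le hAR hBR
  have hconjR : ∀ r ∈ R, conjBy R r = R := fun r hr => conjBy_of_mem hr
  have hΔR : ∀ r ∈ R, ∀ C ∈ linePartners S (conjBy A r), C ≤ R := by
    intro r hr C hC
    have h1 := linePartners_conj hS' r⁻¹ hC
    rw [conjBy_conjBy, inv_mul_cancel, conjBy_one] at h1
    have h2 := hΛR _ h1
    have h3 := conjBy_mono h2 r
    rwa [conjBy_conjBy, mul_inv_cancel, conjBy_one, hconjR r hr] at h3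
  have hstepA : ∀ E₀ ∈ linePartners S A, ∃ r ∈ R, E₀ = conjBy A r := by
    intro E₀ hE₀
    obtain ⟨E, hE, hEA, hsup, hAE, hED, h2, hK, hFn, hFfix, hFtr, hFmove⟩ :=
      line_point_full hS' hA hE₀ hBS hAB
    obtain ⟨x, hx, hBx⟩ := rop_right_mem_unipotent hAB
    have hFl : ⁅E, B⁆ ∈ linePartners S B := by
      have h3 : B ∈ linePartners S ⁅B, E⁆ :=
        rcc_line hS' hBS hA (rop_symm hAB) (rcc_symm hED)
      rw [Subgroup.commutator_comm B E] at h3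
      exact linePartners_symm hED.1 h3
    have hFR : ⁅E, B⁆ ≤ R := by
      apply hΔR x (hXR hx)
      rw [← hBx]; exact hFl
    by_cases hE₀E : E₀ = E
    · have hEl : E ∈ linePartners S A := hE₀E ▸ hE₀
      have hAl : A ∈ linePartners S E := linePartners_symm hA hEl
      obtain ⟨W, hW, hEW⟩ := class_partner hS hr hE
      obtain ⟨E', hE', hE'E, hsup', -, hE'W, h2', hK', hF'n, hF'fix, hF'tr, hF'move⟩ :=
        line_point_full hS' hE hAl hW hEW
      have hE'm : E' ∈ membersIn S (A ⊔ E₀) :=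
        ⟨hE', by rw [← hsup, sup_comm, ← hsup']; exact le_sup_right⟩
      obtain ⟨f, hf, hE'f⟩ := hFtr E' hE'm hE'E
      obtain ⟨W', hW', hFW'⟩ := class_partner hS hr hE'W.1
      have hF'l : ⁅E', W⁆ ∈ linePartners S E' := by
        have h3 : ⁅E', W⁆ ∈ linePartners S ⁅⁅E', W⁆, E⁆ :=
          rcc_line hS' hE'W.1 hW' hFW' (rcc_symm h2')
        rw [Subgroup.commutator_comm ⁅E', W⁆ E, hK'] at h3
        exact h3
      have hF'R : ⁅E', W⁆ ≤ R := by
        apply hΔR f (hFR hf)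
        rw [← hE'f]; exact hF'l
      obtain ⟨f', hf', hf'1⟩ := exists_ne_one_of_ne_bot (hS'.ne_bot _ hE'W.1)
      have hCm : conjBy E f' ∈ membersIn S (A ⊔ E₀) := by
        refine ⟨hS'.conj_mem E hE f', ?_⟩
        have h4 : conjBy E f' ≤ conjBy (E ⊔ A) f' := conjBy_mono le_sup_left f'
        rw [conjBy_eq_self_iff.mpr (hF'n.2 hf')] at h4
        rw [← hsup, sup_comm]; exact h4
      obtain ⟨f₂, hf₂, hCf₂⟩ := hFtr _ hCm (hF'move f' hf' hf'1)
      refine ⟨f'⁻¹ * f₂, R.mul_mem (R.inv_mem (hF'R hf')) (hFR hf₂), ?_⟩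
      rw [hE₀E, ← conjBy_conjBy, ← hCf₂, conjBy_conjBy, inv_mul_cancel, conjBy_one]
    · have hE₀m : E₀ ∈ membersIn S (A ⊔ E₀) := ⟨hE₀.1.1, le_sup_right⟩
      obtain ⟨f, hf, hE₀f⟩ := hFtr E₀ hE₀m hE₀E
      exact ⟨f, hFR hf, hE₀f⟩
  have hstep : ∀ r ∈ R, ∀ E₀ ∈ linePartners S (conjBy A r), ∃ r' ∈ R, E₀ = conjBy A r' := by
    intro r hr E₀ hE₀
    have h1 := linePartners_conj hS' r⁻¹ hE₀
    rw [conjBy_conjBy, inv_mul_cancel, conjBy_one] at h1
    obtain ⟨r₁, hr₁, h2⟩ := hstepA _ h1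
    refine ⟨r * r₁, R.mul_mem hr hr₁, ?_⟩
    rw [← conjBy_conjBy, ← h2, conjBy_conjBy, mul_inv_cancel, conjBy_one]
  have hall : ∀ D ∈ S, ∃ r ∈ R, D = conjBy A r := by
    intro D hD
    have h := econn hS hnd A hA D hD
    clear hD
    induction h with
    | refl => exact ⟨1, R.one_mem, (conjBy_one A).symm⟩
    | tail _ hbc ih =>
      obtain ⟨r, hr, rfl⟩ := ih
      exact hstep r hr _ hbc.2.2
  rw [eq_top_iff, ← hS'.generates]
  apply iSup₂_le
  intro D hD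
  obtain ⟨r, hr, rfl⟩ := hall D hD
  have h5 := conjBy_mono hAR r
  rwa [hconjR r hr] at h5

end Cfsg.Agent.H85
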