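import Cfsg.Prelude
import Cfsg.Agent.H5.BaerSuzuki

set_option autoImplicit false

/-!
# Root involutions: isolated vertices of the odd-product graph (helper85)
-/

namespace Cfsg.Agent.H85

section RootInv

variable {G : Type*} [Group G]

theorem ri_sq {d : G} (h : orderOf d = 2) : d * d = 1 := by
  have := pow_orderOf_eq_one d
  rw [h, pow_two] at this; exact this

theorem ri_ne_one {d : G} (h : orderOf d = 2) : d ≠ 1 := by
  rintro rfl; simp at h

theorem ri_inv {d : G} (h : d * d = 1) : d⁻¹ = d := inv_eq_of_mul_eq_one_left h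

theorem ri_orderOf_conj (g x : G) : orderOf (g * x * g⁻¹) = orderOf x := by
  have := orderOf_injective (MulAut.conj g).toMonoidHom (MulAut.conj g).injective x
  simpa using this

theorem ri_orderOf_swap (x y : G) : orderOf (y * x) = orderOf (x * y) := by
  have h : y * x = x⁻¹ * (x * y) * x⁻¹⁻¹ := by group
  rw [h, ri_orderOf_conj]

theorem ri_eq_one_of_odd {x : G} (ho : Odd (orderOf x)) {k : ℕ} (h : x ^ 2 ^ k = 1) : x = 1 := by
  have hd : orderOf x ∣ 2 ^ k := orderOf_dvd_of_pow_eq_one h
  have hc : Nat.Coprime (orderOf x) (2 ^ k) := Nat.Coprime.pow_right k (Nat.coprime_two_right.mpr ho)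
  exact orderOf_eq_one_iff.mp (Nat.Coprime.eq_one_of_dvd hc hd)

theorem ri_pow_odd {d : G} (h : d * d = 1) {n : ℕ} (hn : Odd n) : d ^ n = d := by
  obtain ⟨j, rfl⟩ := hn
  rw [pow_succ, pow_mul, pow_two, h, one_pow, one_mul]

theorem ri_commute_of_sq {x y : G} (hx : x * x = 1) (hy : y * y = 1) (h : (x * y) * (x * y) = 1) :
    Commute x y := by
  have h1 : x * y = (x * y)⁻¹ := (inv_eq_of_mul_eq_one_left h).symm
  rw [mul_inv_rev, ri_inv hx, ri_inv hy] at h1
  exact h1

theorem ri_conj_commute {c x y : G} (hc : c * c = 1) (h : Commute x y) :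
    Commute (c * x * c) (c * y * c) := by
  have e1 : (c * x * c) * (c * y * c) = c * (x * y) * c := by
    calc (c * x * c) * (c * y * c) = c * x * (c * c) * y * c := by group
      _ = c * (x * y) * c := by rw [hc]; group
  have e2 : (c * y * c) * (c * x * c) = c * (y * x) * c := by
    calc (c * y * c) * (c * x * c) = c * y * (c * c) * x * c := by group
      _ = c * (y * x) * c := by rw [hc]; group
  show (c * x * c) * (c * y * c) = (c * y * c) * (c * x * c)
  rw [e1, e2, h.eq]

theorem ri_conj_conj {c x : G} (hc : c * c = 1) : c * (c * x * c) * c = x := by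
  calc c * (c * x * c) * c = (c * c) * x * (c * c) := by group
    _ = x := by rw [hc]; group

theorem ri_conj_sq {c x : G} (hc : c * c = 1) (hx : x * x = 1) : (c * x * c) * (c * x * c) = 1 := by
  calc (c * x * c) * (c * x * c) = c * x * (c * c) * x * c := by group
    _ = c * (x * x) * c := by rw [hc]; group
    _ = 1 := by rw [hx, mul_one, hc]

theorem ri_pow_swap {x y : G} {n : ℕ} (h : (x * y) ^ n = 1) : (y * x) ^ n = 1 := by
  have e : y * x = x⁻¹ * (x * y) * x⁻¹⁻¹ := by group
  rw [e, conj_pow, h]; group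

theorem ri_pow_conj {c z : G} (hc : c * c = 1) {n : ℕ} (h : z ^ n = 1) : (c * z * c) ^ n = 1 := by
  have e : c * z * c = c * z * c⁻¹ := by rw [ri_inv hc]
  rw [e, conj_pow, h]; group

/-- a commuting pair of involutions with a fourth power. -/
theorem ri_pow_four_of_commute {x y : G} (hx : x * x = 1) (hy : y * y = 1) (h : x * y = y * x) :
    (x * y) ^ 4 = 1 := by
  have h2 : (x * y) * (x * y) = 1 := by
    calc (x * y) * (x * y) = x * (y * x) * y := by group
      _ = x * (x * y) * y := by rw [h]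
      _ = (x * x) * (y * y) := by group
      _ = 1 := by rw [hx, hy, one_mul]
  calc (x * y) ^ 4 = ((x * y) ^ 2) ^ 2 := by rw [← pow_mul]
    _ = 1 := by rw [pow_two (x * y), h2, one_pow]

theorem ri_comm_of_pow_four {c a : G} (hc : c * c = 1) (ha : a * a = 1) (h : (c * a) ^ 4 = 1) :
    Commute a (c * a * c) := by
  apply ri_commute_of_sq ha (ri_conj_sq hc ha)
  have e4 : (c * a) ^ 4 = (c * a) * (c * a) * (c * a) * (c * a) := by
    rw [show (4 : ℕ) = 1 + 1 + 1 + 1 from rfl, pow_add, pow_add, pow_add, pow_one]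
  have e : (a * (c * a * c)) * (a * (c * a * c))
      = a * ((c * a) * (c * a) * (c * a) * (c * a)) * a⁻¹ := by group
  rw [e, ← e4, h]; group

/-- the key lemma: a four-group `{1, a, e, a * e}` inside `D` and an odd neighbour `c` of `e`. -/
theorem ri_key {D : Set G} (hD : IsRootInvolutionSet D) {a e c : G} (ha : a ∈ D) (he : e ∈ D)
    (hf : a * e ∈ D) (hae : a * e = e * a) (hc : c ∈ D) (hce : c ≠ e)
    (hodd : Odd (orderOf (c * e))) :
    Odd (orderOf (c * a)) ∨ Odd (orderOf (c * (a * e))) := by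
  by_contra hcon
  push Not at hcon
  obtain ⟨hna, hnf⟩ := hcon
  have a2 := ri_sq (hD.orderOf_eq a ha)
  have e2 := ri_sq (hD.orderOf_eq e he)
  have c2 := ri_sq (hD.orderOf_eq c hc)
  obtain ⟨f, hfdef⟩ : ∃ f, f = a * e := ⟨_, rfl⟩
  rw [← hfdef] at hf hnf
  have f2 := ri_sq (hD.orderOf_eq f hf)
  have fne : f ≠ 1 := ri_ne_one (hD.orderOf_eq f hf)
  have hAF : Commute a f := by
    show a * f = f * a
    calc a * f = a * (a * e) := by rw [hfdef]
      _ = a * (e * a) := by rw [hae]
      _ = (a * e) * a := by group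
      _ = f * a := by rw [hfdef]
  have heaf : e = a * f := by rw [hfdef, ← mul_assoc, a2, one_mul]
  have hefa : e = f * a := by rw [← hAF.eq]; exact heaf
  have h4 : ∀ x ∈ D, ¬ Odd (orderOf (c * x)) → (c * x) ^ 4 = 1 := by
    intro x hx hno
    rcases hD.pair c hc x hx with h | h | ⟨h, -⟩
    · exact ri_pow_four_of_commute c2 (ri_sq (hD.orderOf_eq x hx)) h
    · exact absurd h hno
    · rw [← h]; exact pow_orderOf_eq_one _
  have h4a := h4 a ha hna
  have h4f := h4 f hf hnf
  have A1 : Commute a (c * a * c) := ri_comm_of_pow_four c2 a2 h4a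
  have A2 : Commute f (c * f * c) := ri_comm_of_pow_four c2 f2 h4f
  have A4 : Commute (c * a * c) (c * f * c) := ri_conj_commute c2 hAF
  have ha' : c * a * c ∈ D := by have := hD.conj_mem a ha c; rwa [ri_inv c2] at this
  have hf' : c * f * c ∈ D := by have := hD.conj_mem f hf c; rwa [ri_inv c2] at this
  have a'2 := ri_conj_sq c2 a2
  have f'2 := ri_conj_sq c2 f2
  have he' : c * e * c = (c * a * c) * (c * f * c) := by
    rw [heaf]
    calc c * (a * f) * c = c * a * 1 * f * c := by group
      _ = c * a * (c * c) * f * c := by rw [c2]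
      _ = _ := by group
  have hce2 : (c * e) ^ 2 = (c * e * c) * e := by rw [pow_two]; group
  have hfin : ∀ k : ℕ, ((c * e * c) * e) ^ 2 ^ k = 1 → False := by
    intro k hk
    rw [← hce2, ← pow_mul, ← pow_succ'] at hk
    have h1 := ri_eq_one_of_odd hodd hk
    apply hce
    have h2 : c = e⁻¹ := eq_inv_of_mul_eq_one_left h1
    rw [h2, ri_inv e2]
  obtain ⟨a', ha'def⟩ : ∃ a', a' = c * a * c := ⟨_, rfl⟩
  obtain ⟨f', hf'def⟩ : ∃ f', f' = c * f * c := ⟨_, rfl⟩
  rw [← ha'def] at A1 A4 ha' a'2 he'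
  rw [← hf'def] at A2 A4 hf' f'2 he'
  rw [he'] at hfin
  have hcase : (a * f') ^ 4 = 1 ∨ Odd (orderOf (a * f')) := by
    rcases hD.pair a ha f' hf' with h | h | ⟨h, -⟩
    · left; exact ri_pow_four_of_commute a2 f'2 h
    · right; exact h
    · left; rw [← h]; exact pow_orderOf_eq_one _
  rcases hcase with h | hk
  · have B1 : Commute (a * f') (f * a') :=
      Commute.mul_left (Commute.mul_right hAF A1) (Commute.mul_right A2.symm A4.symm)
    have hee' : e * (a' * f') = (a * f') * (f * a') := by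
      rw [heaf]
      calc a * f * (a' * f') = a * f * (f' * a') := by rw [A4.eq]
        _ = a * (f * f') * a' := by group
        _ = a * (f' * f) * a' := by rw [A2.eq]
        _ = _ := by group
    have hff : f = c * f' * c := by rw [hf'def]; exact (ri_conj_conj c2).symm
    have hfa' : (f * a') ^ 4 = 1 := by
      have e1 : f * a' = c * (f' * a) * c := by
        rw [ha'def]
        calc f * (c * a * c) = c * f' * c * (c * a * c) := by rw [← hff]
          _ = c * f' * (c * c) * a * c := by group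
          _ = c * (f' * a) * c := by rw [c2]; group
      rw [e1]
      exact ri_pow_conj c2 (ri_pow_swap h)
    have h1 : (e * (a' * f')) ^ 4 = 1 := by
      rw [hee', B1.mul_pow, h, hfa', one_mul]
    exact hfin 2 (ri_pow_swap h1)
  · have C1 : Commute f (a * f') := Commute.mul_right hAF.symm A2
    have hef' : e * f' = f * (a * f') := by rw [hefa]; group
    have hf4 : f ^ 4 = 1 := by
      rw [show (4 : ℕ) = 2 * 2 from rfl, pow_mul, pow_two f, f2, one_pow]
    have haf'1 : a * f' = 1 := by
      rcases hD.pair e he f' hf' with h | h | ⟨h, -⟩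
      · have h4' := ri_pow_four_of_commute e2 f'2 h
        rw [hef', C1.mul_pow, hf4, one_mul] at h4'
        exact ri_eq_one_of_odd hk (k := 2) h4'
      · exfalso
        have hn := pow_orderOf_eq_one (e * f')
        rw [hef'] at hn h
        rw [C1.mul_pow, ri_pow_odd f2 h] at hn
        have h2 : (a * f') ^ orderOf (f * (a * f')) = f := by
          have h3 := eq_inv_of_mul_eq_one_right hn
          rw [h3, ri_inv f2]
        have h3 : f ^ orderOf (a * f') = 1 := by
          rw [← h2, ← pow_mul, pow_mul', pow_orderOf_eq_one, one_pow]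
        rw [ri_pow_odd f2 hk] at h3
        exact fne h3
      · have h4' : (e * f') ^ 4 = 1 := by rw [← h]; exact pow_orderOf_eq_one _
        rw [hef', C1.mul_pow, hf4, one_mul] at h4'
        exact ri_eq_one_of_odd hk (k := 2) h4'
    have haf' : a = f' := by
      have h2 : a = f'⁻¹ := eq_inv_of_mul_eq_one_left haf'1
      rw [h2, ri_inv f'2]
    have hfa' : f = a' := by
      rw [ha'def, haf', hf'def]; exact (ri_conj_conj c2).symm
    apply hfin 0
    rw [← haf', heaf, hfa', pow_zero, pow_one]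
    calc a' * a * (a * a') = a' * (a * a) * a' := by group
      _ = 1 := by rw [a2, mul_one, a'2]

theorem ri_oddAdj_symm {D : Set G} {a b : G} (h : OddAdj D a b) : OddAdj D b a :=
  ⟨h.2.1, h.1, h.2.2.1.symm, by rw [ri_orderOf_swap]; exact h.2.2.2⟩

theorem ri_rtg_symm {D : Set G} {a b : G} (h : Relation.ReflTransGen (OddAdj D) a b) :
    Relation.ReflTransGen (OddAdj D) b a := by
  induction h with
  | refl => exact Relation.ReflTransGen.refl
  | tail _ hbc ih => exact (Relation.ReflTransGen.single (ri_oddAdj_symm hbc)).trans ih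

theorem ri_comp_eq {D : Set G} {a b : G} (h : Relation.ReflTransGen (OddAdj D) a b) :
    elemComponentOf (OddAdj D) D a = elemComponentOf (OddAdj D) D b := by
  ext x
  constructor
  · rintro ⟨hx, hax⟩; exact ⟨hx, (ri_rtg_symm h).trans hax⟩
  · rintro ⟨hx, hbx⟩; exact ⟨hx, h.trans hbx⟩

theorem ri_isolated_iff {D : Set G} {w : G} :
    IsIsolatedElem (OddAdj D) D w ↔ w ∈ D ∧ ∀ b ∈ D, b ≠ w → ¬ Odd (orderOf (w * b)) := by
  constructor
  · rintro ⟨hw, h⟩
    exact ⟨hw, fun b hb hne ho => (h b).1 ⟨hw, hb, hne.symm, ho⟩⟩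
  · rintro ⟨hw, h⟩
    refine ⟨hw, fun b => ⟨fun hadj => h b hadj.2.1 hadj.2.2.1.symm hadj.2.2.2, fun hadj => ?_⟩⟩
    have h' := ri_oddAdj_symm hadj
    exact h b h'.2.1 h'.2.2.1.symm h'.2.2.2

/-- the key lemma with adjacency conclusions. -/
theorem ri_key' {D : Set G} (hD : IsRootInvolutionSet D) {a e c : G} (ha : a ∈ D) (he : e ∈ D)
    (hf : a * e ∈ D) (hae : a * e = e * a) (hc : c ∈ D) (hce : c ≠ e)
    (hodd : Odd (orderOf (c * e))) :
    OddAdj D c a ∨ OddAdj D c (a * e) := by
  have e2 := ri_sq (hD.orderOf_eq e he)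
  have hca : c ≠ a := by
    intro h
    rw [h, hD.orderOf_eq _ hf] at hodd
    exact absurd hodd (by decide)
  have hcf : c ≠ a * e := by
    intro h
    have h1 : a * e * e = a := by rw [mul_assoc, e2, mul_one]
    rw [h, h1, hD.orderOf_eq _ ha] at hodd
    exact absurd hodd (by decide)
  rcases ri_key hD ha he hf hae hc hce hodd with h | h
  · left; exact ⟨hc, ha, hca, h⟩
  · right; exact ⟨hc, hf, hcf, h⟩

theorem ri_dihedral {s t : G} (hs : s * s = 1) (ht : t * t = 1) (h4 : (s * t) ^ 4 = 1) :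
    ∀ x ∈ Subgroup.closure ({s, t} : Set G), x ^ 4 = 1 := by
  obtain ⟨r, hr⟩ : ∃ r, r = s * t := ⟨_, rfl⟩
  rw [← hr] at h4
  have hsr : ∀ i : ℤ, s * r ^ i = r ^ (-i) * s := by
    intro i
    have h1 : s * r * s⁻¹ = r⁻¹ := by
      rw [hr, mul_inv_rev, ri_inv hs, ri_inv ht]
      calc s * (s * t) * s = (s * s) * t * s := by group
        _ = t * s := by rw [hs, one_mul]
    have h2 : s * r ^ i * s⁻¹ = r ^ (-i) := by rw [← conj_zpow, h1, inv_zpow']
    calc s * r ^ i = (s * r ^ i * s⁻¹) * s := by group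
      _ = r ^ (-i) * s := by rw [h2]
  have key : ∀ x ∈ Subgroup.closure ({s, t} : Set G),
      (∃ i : ℤ, x = r ^ i) ∨ (∃ i : ℤ, x = r ^ i * s) := by
    intro x hx
    induction hx using Subgroup.closure_induction with
    | mem y hy =>
      rcases hy with h | h
      · right; exact ⟨0, by rw [h, zpow_zero, one_mul]⟩
      · right; refine ⟨-1, ?_⟩
        rw [Set.mem_singleton_iff] at h
        rw [h, zpow_neg_one, hr, mul_inv_rev, ri_inv hs, ri_inv ht, mul_assoc, hs, mul_one]
    | one => left; exact ⟨0, by simp⟩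
    | mul y z _ _ hy hz =>
      rcases hy with ⟨i, rfl⟩ | ⟨i, rfl⟩ <;> rcases hz with ⟨j, rfl⟩ | ⟨j, rfl⟩
      · left; exact ⟨i + j, (zpow_add r i j).symm⟩
      · right; exact ⟨i + j, by rw [zpow_add, mul_assoc]⟩
      · right; refine ⟨i - j, ?_⟩
        rw [mul_assoc, hsr j, ← mul_assoc, ← zpow_add, sub_eq_add_neg]
      · left; refine ⟨i - j, ?_⟩
        calc r ^ i * s * (r ^ j * s) = r ^ i * (s * r ^ j) * s := by group
          _ = r ^ i * (r ^ (-j) * s) * s := by rw [hsr j]
          _ = r ^ i * r ^ (-j) * (s * s) := by group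
          _ = r ^ (i - j) := by rw [hs, mul_one, ← zpow_add, sub_eq_add_neg]
    | inv y _ hy =>
      rcases hy with ⟨i, rfl⟩ | ⟨i, rfl⟩
      · left; exact ⟨-i, (zpow_neg r i).symm⟩
      · right; refine ⟨i, ?_⟩
        rw [mul_inv_rev, ri_inv hs, ← zpow_neg, hsr (-i), neg_neg]
  intro x hx
  rcases key x hx with ⟨i, rfl⟩ | ⟨i, rfl⟩
  · rw [← zpow_natCast, ← zpow_mul, mul_comm, zpow_mul, zpow_natCast, h4, one_zpow]
  · have h2 : (r ^ i * s) * (r ^ i * s) = 1 := by
      calc (r ^ i * s) * (r ^ i * s) = r ^ i * (s * r ^ i) * s := by group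
        _ = r ^ i * (r ^ (-i) * s) * s := by rw [hsr i]
        _ = r ^ i * r ^ (-i) * (s * s) := by group
        _ = 1 := by rw [hs, mul_one, ← zpow_add, add_neg_cancel, zpow_zero]
    rw [show (4 : ℕ) = 2 * 2 from rfl, pow_mul, pow_two (r ^ i * s), h2, one_pow]

theorem ri_isolated_conj {D : Set G} (hD : IsRootInvolutionSet D) {w : G}
    (hw : IsIsolatedElem (OddAdj D) D w) (g : G) :
    IsIsolatedElem (OddAdj D) D (g * w * g⁻¹) := by
  rw [ri_isolated_iff] at hw ⊢
  refine ⟨hD.conj_mem w hw.1 g, fun b hb hne ho => ?_⟩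
  have hb' : g⁻¹ * b * g⁻¹⁻¹ ∈ D := hD.conj_mem b hb g⁻¹
  refine hw.2 _ hb' ?_ ?_
  · intro h; apply hne; rw [← h]; group
  · have e : w * (g⁻¹ * b * g⁻¹⁻¹) = g⁻¹ * (g * w * g⁻¹ * b) * g⁻¹⁻¹ := by group
    rw [e, ri_orderOf_conj]; exact ho

theorem ri_closure_normal {S : Set G} (h : ∀ s ∈ S, ∀ g : G, g * s * g⁻¹ ∈ S) :
    (Subgroup.closure S).Normal := by
  constructor
  intro n hn g
  induction hn using Subgroup.closure_induction with
  | mem x hx => exact Subgroup.subset_closure (h x hx g)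
  | one => simp
  | mul x y _ _ hx hy =>
    have e : g * (x * y) * g⁻¹ = (g * x * g⁻¹) * (g * y * g⁻¹) := by group
    rw [e]; exact mul_mem hx hy
  | inv x _ hx =>
    have e : g * x⁻¹ * g⁻¹ = (g * x * g⁻¹)⁻¹ := by group
    rw [e]; exact inv_mem hx

theorem ri_isolated_pgroup [Finite G] {D : Set G} (hD : IsRootInvolutionSet D) :
    IsPGroup 2 ↥(Subgroup.closure {w | IsIsolatedElem (OddAdj D) D w}) := by
  have : Fact (Nat.Prime 2) := ⟨Nat.prime_two⟩
  obtain ⟨P⟩ : Nonempty (Sylow 2 G) := inferInstance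
  have hle : Subgroup.closure {w | IsIsolatedElem (OddAdj D) D w} ≤ (P : Subgroup G) := by
    rw [Subgroup.closure_le]
    intro w hw
    have hw' := ri_isolated_iff.mp hw
    have w2 := ri_sq (hD.orderOf_eq w hw'.1)
    have hX : IsPGroup 2 ↥(Subgroup.zpowers w) := by
      apply IsPGroup.of_card (n := 1)
      rw [Nat.card_zpowers, hD.orderOf_eq w hw'.1, pow_one]
    have hpair : ∀ g : G, IsPGroup 2
        ↥(Subgroup.zpowers w ⊔ (Subgroup.zpowers w).map (MulAut.conj g).toMonoidHom) := by
      intro g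
      have hw'' : g * w * g⁻¹ ∈ D := hD.conj_mem w hw'.1 g
      have w'2 := ri_sq (hD.orderOf_eq _ hw'')
      have h4 : (w * (g * w * g⁻¹)) ^ 4 = 1 := by
        rcases hD.pair w hw'.1 _ hw'' with h | h | ⟨h, -⟩
        · exact ri_pow_four_of_commute w2 w'2 h
        · by_cases heq : g * w * g⁻¹ = w
          · rw [heq, w2, one_pow]
          · exact absurd h (hw'.2 _ hw'' heq)
        · rw [← h]; exact pow_orderOf_eq_one _
      have hdi := ri_dihedral w2 w'2 h4
      have hsub : Subgroup.zpowers w ⊔ (Subgroup.zpowers w).map (MulAut.conj g).toMonoidHom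
          ≤ Subgroup.closure ({w, g * w * g⁻¹} : Set G) := by
        apply sup_le
        · rw [Subgroup.zpowers_le]; exact Subgroup.subset_closure (by simp)
        · rw [MonoidHom.map_zpowers, Subgroup.zpowers_le]
          exact Subgroup.subset_closure (by simp)
      intro y
      refine ⟨2, ?_⟩
      apply Subtype.ext
      exact hdi y.1 (hsub y.2)
    obtain ⟨N, hNn, hN2, hXN⟩ := Cfsg.Agent.H5.baer_suzuki (p := 2) (Subgroup.zpowers w) hX hpair
    have := hNn
    exact hN2.le_sylow_of_normal P (hXN (Subgroup.mem_zpowers w))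
  exact P.isPGroup'.to_le hle

theorem ri_isolated_inter [Finite G] {D : Set G} (hD : IsRootInvolutionSet D) :
    (Subgroup.closure {w | IsIsolatedElem (OddAdj D) D w} : Set G) ∩ D
      = {w | IsIsolatedElem (OddAdj D) D w} := by
  have hn : (Subgroup.closure {w | IsIsolatedElem (OddAdj D) D w}).Normal :=
    ri_closure_normal (fun w hw g => ri_isolated_conj hD hw g)
  have hp := ri_isolated_pgroup hD
  ext d
  constructor
  · rintro ⟨hdN, hdD⟩
    show IsIsolatedElem (OddAdj D) D d
    rw [ri_isolated_iff]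
    refine ⟨hdD, fun b hb hne ho => ?_⟩
    have b2 := ri_sq (hD.orderOf_eq b hb)
    have d2 := ri_sq (hD.orderOf_eq d hdD)
    have hmem : (d * b) ^ 2 ∈ Subgroup.closure {w | IsIsolatedElem (OddAdj D) D w} := by
      have e : (d * b) ^ 2 = d * (b * d * b⁻¹) := by rw [pow_two, ri_inv b2]; group
      rw [e]
      exact mul_mem hdN (hn.conj_mem d hdN b)
    obtain ⟨k, hk⟩ := hp ⟨_, hmem⟩
    have hk' : ((d * b) ^ 2) ^ 2 ^ k = 1 := congrArg Subtype.val hk
    rw [← pow_mul, ← pow_succ'] at hk'
    have h1 := ri_eq_one_of_odd ho hk'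
    apply hne
    have h2 : b = d⁻¹ := eq_inv_of_mul_eq_one_right h1
    rw [h2, ri_inv d2]
  · intro hd
    exact ⟨Subgroup.subset_closure hd, hd.1⟩

theorem ri_partners {D : Set G} (hD : IsRootInvolutionSet D) {a : G} (ha : a ∈ D)
    (hnt : ∃ a' ∈ elemComponentOf (OddAdj D) D a, a' ≠ a) :
    productPartners D a ⊆
      elemComponentOf (OddAdj D) D a ∪ {w | IsIsolatedElem (OddAdj D) D w} := by
  rintro e ⟨⟨he, hcomm, hne⟩, hf⟩
  by_cases hW : IsIsolatedElem (OddAdj D) D e
  · right; exact hW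
  left
  refine ⟨he, ?_⟩
  have hc : ∃ c, OddAdj D c e := by
    by_contra hcon
    push Not at hcon
    exact hW ⟨he, fun b => ⟨fun h => hcon b (ri_oddAdj_symm h), hcon b⟩⟩
  obtain ⟨c, hcD, -, hce, hco⟩ := hc
  have hc' : ∃ c', OddAdj D c' a := by
    obtain ⟨a', ⟨-, hpath⟩, hne'⟩ := hnt
    rcases Relation.ReflTransGen.cases_head hpath with h | ⟨c', hadj, -⟩
    · exact absurd h.symm hne'
    · exact ⟨c', ri_oddAdj_symm hadj⟩
  obtain ⟨c', hc'D, -, hc'a, hc'o⟩ := hc'
  have hae : a * e = e * a := hcomm.symm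
  have hf' : a * e ∈ D := by rw [hae]; exact hf
  have hac' : Relation.ReflTransGen (OddAdj D) a c' :=
    Relation.ReflTransGen.single (ri_oddAdj_symm ⟨hc'D, ha, hc'a, hc'o⟩)
  have hce' : Relation.ReflTransGen (OddAdj D) c e :=
    Relation.ReflTransGen.single ⟨hcD, he, hce, hco⟩
  rcases ri_key' hD ha he hf' hae hcD hce hco with h1 | h1
  · exact (Relation.ReflTransGen.single (ri_oddAdj_symm h1)).trans hce'
  · rcases ri_key' hD he ha hf hae.symm hc'D hc'a hc'o with h2 | h2
    · exact hac'.trans (Relation.ReflTransGen.single h2)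
    · rw [← hae] at h2
      exact (hac'.trans (Relation.ReflTransGen.single h2)).trans
        ((Relation.ReflTransGen.single (ri_oddAdj_symm h1)).trans hce')

theorem ri_comm_mem {D : Set G} (hD : IsRootInvolutionSet D) {a b : G}
    (ha : a ∈ D) (hb : b ∈ D)
    (hnta : ∃ a' ∈ elemComponentOf (OddAdj D) D a, a' ≠ a)
    (hntb : ∃ b' ∈ elemComponentOf (OddAdj D) D b, b' ≠ b)
    (hne : elemComponentOf (OddAdj D) D a ≠ elemComponentOf (OddAdj D) D b) :
    a * b * a⁻¹ * b⁻¹ ∈ Subgroup.closure {w | IsIsolatedElem (OddAdj D) D w} := by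
  have a2 := ri_sq (hD.orderOf_eq a ha)
  have b2 := ri_sq (hD.orderOf_eq b hb)
  rcases hD.pair a ha b hb with h | h | ⟨h4, hz⟩
  · have e : a * b * a⁻¹ * b⁻¹ = 1 := by rw [h]; group
    rw [e]; exact one_mem _
  · exfalso
    by_cases hab : a = b
    · exact hne (by rw [hab])
    · exact hne (ri_comp_eq (Relation.ReflTransGen.single ⟨ha, hb, hab, h⟩))
  · have e : a * b * a⁻¹ * b⁻¹ = (a * b) ^ 2 := by rw [ri_inv a2, ri_inv b2, pow_two]; group
    rw [e]
    apply Subgroup.subset_closure
    have h44 : (a * b) ^ 4 = 1 := by rw [← h4]; exact pow_orderOf_eq_one _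
    obtain ⟨z, hzdef⟩ : ∃ z, z = (a * b) ^ 2 := ⟨_, rfl⟩
    rw [← hzdef] at hz ⊢
    have hz1 : z = a * b * a * b := by rw [hzdef, pow_two]; group
    have hzz : z * z = 1 := by rw [hzdef, ← pow_two, ← pow_mul]; exact h44
    have hz2 : z = b * a * b * a := by
      have h1 : z⁻¹ = b * a * b * a := by
        rw [hz1]
        simp only [mul_inv_rev, ri_inv a2, ri_inv b2, mul_assoc]
      rw [← h1, ri_inv hzz]
    have hza : z ∈ productPartners D a := by
      refine ⟨⟨hz, ?_, ?_⟩, ?_⟩
      · calc z * a = a * b * a * b * a := by rw [hz1]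
          _ = a * (b * a * b * a) := by group
          _ = a * z := by rw [← hz2]
      · intro hzeq
        rw [hzeq] at hz1
        have h1 : a * (b * a * b) = a * 1 := by
          calc a * (b * a * b) = a * b * a * b := by group
            _ = a := hz1.symm
            _ = a * 1 := (mul_one a).symm
        have h2 : b * a * b = 1 := mul_left_cancel h1
        have h3 : a = 1 := by
          calc a = b⁻¹ * (b * a * b) * b⁻¹ := by group
            _ = 1 := by rw [h2, mul_one, ri_inv b2, b2]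
        exact ri_ne_one (hD.orderOf_eq a ha) h3
      · have e1 : z * a = (a * b) * a * (a * b)⁻¹ := by
          rw [hz1, mul_inv_rev, ri_inv a2, ri_inv b2]; group
        rw [e1]; exact hD.conj_mem a ha (a * b)
    have hzb : z ∈ productPartners D b := by
      refine ⟨⟨hz, ?_, ?_⟩, ?_⟩
      · calc z * b = a * b * a * (b * b) := by rw [hz1]; group
          _ = (b * b) * a * b * a := by rw [b2]; group
          _ = b * z := by rw [hz2]; group
      · intro hzeq
        rw [hzeq] at hz1
        have h1 : (a * b * a) * b = 1 * b := by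
          calc (a * b * a) * b = a * b * a * b := by group
            _ = b := hz1.symm
            _ = 1 * b := (one_mul b).symm
        have h2 : a * b * a = 1 := mul_right_cancel h1
        have h3 : b = 1 := by
          calc b = a⁻¹ * (a * b * a) * a⁻¹ := by group
            _ = 1 := by rw [h2, mul_one, ri_inv a2, a2]
        exact ri_ne_one (hD.orderOf_eq b hb) h3
      · have e1 : z * b = a * b * a⁻¹ := by
          rw [hz1, ri_inv a2, mul_assoc, b2, mul_one]
        rw [e1]; exact hD.conj_mem b hb a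
    rcases ri_partners hD ha hnta hza with h1 | h1
    · rcases ri_partners hD hb hntb hzb with h2 | h2
      · exfalso
        exact hne ((ri_comp_eq h1.2).trans (ri_comp_eq h2.2).symm)
      · exact h2
    · exact h1

end RootInv

end Cfsg.Agent.H85
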