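import Mathlib
import Cfsg.Prelude.Def_RootSubgroups
import Cfsg.Agent.H85.RootNil

/-!
# Special rank one pairs with abelian unipotent subgroups

Main result `special_card_inf_commutator`: if `(A, B)` is a special rank one pair with `A`, `B`
abelian and `A` has more than three elements, then `A ⊓ ⁅A ⊔ B, A ⊔ B⁆` has more than three
elements.
-/

set_option autoImplicit false

namespace Cfsg.Agent.H85

open Cfsg
open scoped commutatorElement

variable {G : Type*} [Group G]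

section Card

theorem finset_card_le_card {H : Subgroup G} (s : Finset G) (hs : ∀ x ∈ s, x ∈ H) :
    (s.card : ℕ∞) ≤ ENat.card ↥H := by
  have h1 : ENat.card ↥H = (H : Set G).encard := ENat.card_coe_set_eq (H : Set G)
  rw [h1, ← Set.encard_coe_eq_coe_finsetCard]
  exact Set.encard_le_encard (fun x hx => hs x (Finset.mem_coe.mp hx))

theorem exists_not_mem_of_card_lt {H : Subgroup G} (s : Finset G)
    (h : (s.card : ℕ∞) < ENat.card ↥H) : ∃ w ∈ H, w ∉ s := by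
  by_contra hcon
  push Not at hcon
  have h1 : ENat.card ↥H = (H : Set G).encard := ENat.card_coe_set_eq (H : Set G)
  have h2 : (H : Set G).encard ≤ ((s : Set G)).encard :=
    Set.encard_le_encard (fun x hx => Finset.mem_coe.mpr (hcon x hx))
  rw [Set.encard_coe_eq_coe_finsetCard] at h2
  rw [h1] at h
  exact absurd h (not_lt.mpr h2)

/-- A subgroup with at most three elements containing three distinct elements consists of them. -/
theorem mem_three_of_card_le {H : Subgroup G} (h : ENat.card ↥H ≤ 3) {x₁ x₂ x₃ : G}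
    (h₁ : x₁ ∈ H) (h₂ : x₂ ∈ H) (h₃ : x₃ ∈ H) (h12 : x₁ ≠ x₂) (h13 : x₁ ≠ x₃) (h23 : x₂ ≠ x₃)
    {x : G} (hx : x ∈ H) : x = x₁ ∨ x = x₂ ∨ x = x₃ := by
  classical
  by_contra hcon
  push Not at hcon
  have hc : (({x, x₁, x₂, x₃} : Finset G).card : ℕ∞) ≤ ENat.card ↥H := by
    apply finset_card_le_card
    intro y hy
    simp only [Finset.mem_insert, Finset.mem_singleton] at hy
    rcases hy with rfl | rfl | rfl | rfl <;> assumption
  have h4 : ({x, x₁, x₂, x₃} : Finset G).card = 4 := by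
    rw [Finset.card_insert_of_notMem, Finset.card_insert_of_notMem, Finset.card_insert_of_notMem,
      Finset.card_singleton]
    · simpa using h23
    · simp only [Finset.mem_insert, Finset.mem_singleton]
      push Not
      exact ⟨h12, h13⟩
    · simp only [Finset.mem_insert, Finset.mem_singleton]
      push Not
      exact hcon
  rw [h4] at hc
  have : (4 : ℕ∞) ≤ 3 := hc.trans h
  exact absurd this (by decide)

theorem mem_two_of_card_le {H : Subgroup G} (h : ENat.card ↥H ≤ 3) {x₁ x₂ : G}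
    (h₁ : x₁ ∈ H) (h₂ : x₂ ∈ H) (h12 : x₁ ≠ x₂)
    (hall : ¬ ∀ x ∈ H, x = x₁ ∨ x = x₂) :
    ∃ x₃ ∈ H, x₃ ≠ x₁ ∧ x₃ ≠ x₂ ∧ ∀ x ∈ H, x = x₁ ∨ x = x₂ ∨ x = x₃ := by
  push Not at hall
  obtain ⟨x₃, h₃, h31, h32⟩ := hall
  exact ⟨x₃, h₃, h31, h32, fun x hx =>
    mem_three_of_card_le h h₁ h₂ h₃ h12 (Ne.symm h31) (Ne.symm h32) hx⟩

end Card

section Special

variable {A B : Subgroup G}

theorem commutator_self_le (X : Subgroup G) : ⁅X, X⁆ ≤ X := by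
  rw [Subgroup.commutator_le]
  intro a ha b hb
  exact commutator_mem_self ha hb

/-- `⁅X, X⁆` is normalized by `X`. -/
theorem conj_mem_commutator_self {X : Subgroup G} {x l : G} (hx : x ∈ X) (hl : l ∈ ⁅X, X⁆) :
    x * l * x⁻¹ ∈ ⁅X, X⁆ := by
  have e : x * l * x⁻¹ = ⁅x, l⁆ * l := by rw [commutatorElement_def]; group
  rw [e]
  exact Subgroup.mul_mem _ (Subgroup.commutator_mem_commutator hx (commutator_self_le X hl)) hl

theorem conjBy_commutator_self {X : Subgroup G} {x : G} (hx : x ∈ X) :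
    conjBy ⁅X, X⁆ x = ⁅X, X⁆ := by
  apply le_antisymm
  · intro y hy
    rw [mem_conjBy] at hy
    have := conj_mem_commutator_self hx hy
    have e : x * (x⁻¹ * y * x) * x⁻¹ = y := by group
    rwa [e] at this
  · intro y hy
    rw [mem_conjBy]
    have := conj_mem_commutator_self (X.inv_mem hx) hy
    rwa [inv_inv] at this

/-- Two conjugates of `A` under `A ⊔ B` sharing a non-identity element are equal. -/
theorem rop_unipotent_eq_of_mem (h : IsRankOnePair A B) {C D : Subgroup G}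
    (hC : C ∈ unipotentSubgroups A B) (hD : D ∈ unipotentSubgroups A B) {u : G} (huC : u ∈ C)
    (huD : u ∈ D) (hu : u ≠ 1) : C = D := by
  by_contra hne
  exact hu (rop_eq_one_of_mem_of_conjBy_eq h hC hD hne huC (conjBy_of_mem huD))

theorem conjBy_left_mem_unipotent {b : G} (hb : b ∈ B) : conjBy A b ∈ unipotentSubgroups A B :=
  conjBy_mem_unipotent (left_mem_unipotent A B) (Subgroup.mem_sup_right hb)

theorem conjBy_right_mem_unipotent (h : IsRankOnePair A B) {a : G} (ha : a ∈ A) :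
    conjBy B a ∈ unipotentSubgroups A B :=
  conjBy_mem_unipotent (rop_right_mem_unipotent h) (Subgroup.mem_sup_left ha)

/-- The special relation in left conjugation form: `ᵇA = ᵃB` implies `b a⁻¹ b⁻¹ = a b a⁻¹`. -/
theorem special_rel (hs : IsSpecialRankOnePair A B) {a b : G} (ha : a ∈ A) (ha1 : a ≠ 1)
    (hb : b ∈ B) (hb1 : b ≠ 1) (hab : conjBy A b = conjBy B a) :
    b * a⁻¹ * b⁻¹ = a * b * a⁻¹ := by
  have := hs.2 a⁻¹ (A.inv_mem ha) (inv_ne_one.mpr ha1) b⁻¹ (B.inv_mem hb) (inv_ne_one.mpr hb1)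
    (by simpa using hab)
  simpa using this

/-- For a matching pair `(a, b)` the product `a * b` is a commutator. -/
theorem special_mul_mem (hs : IsSpecialRankOnePair A B) {a b : G} (ha : a ∈ A) (ha1 : a ≠ 1)
    (hb : b ∈ B) (hb1 : b ≠ 1) (hab : conjBy A b = conjBy B a) :
    a * b ∈ ⁅A ⊔ B, A ⊔ B⁆ := by
  have hrel := special_rel hs ha ha1 hb hb1 hab
  have e : a * b = ⁅b, a⁻¹⁆ := by
    rw [commutatorElement_def, inv_inv, hrel]; group
  rw [e]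
  exact Subgroup.commutator_mem_commutator (Subgroup.mem_sup_right hb)
    (Subgroup.mem_sup_left (A.inv_mem ha))

/-- Matching pairs are closed under inversion. -/
theorem special_match_inv (hs : IsSpecialRankOnePair A B) {a b : G} (ha : a ∈ A) (ha1 : a ≠ 1)
    (hb : b ∈ B) (hb1 : b ≠ 1) (hab : conjBy A b = conjBy B a) :
    conjBy A b⁻¹ = conjBy B a⁻¹ := by
  have hrel := special_rel hs ha ha1 hb hb1 hab
  have h1 : a⁻¹ * b * a⁻¹ = b * a⁻¹ * b := by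
    calc a⁻¹ * b * a⁻¹ = a⁻¹ * (b * a⁻¹ * b⁻¹) * b := by group
      _ = a⁻¹ * (a * b * a⁻¹) * b := by rw [hrel]
      _ = b * a⁻¹ * b := by group
  have e : b⁻¹ * a⁻¹ * b = a⁻¹ * b * a := by
    calc b⁻¹ * a⁻¹ * b = b⁻¹ * (a⁻¹ * b * a⁻¹) * a := by group
      _ = b⁻¹ * (b * a⁻¹ * b) * a := by rw [h1]
      _ = a⁻¹ * b * a := by group
  have hu1 : b⁻¹ * a⁻¹ * b ∈ conjBy A b⁻¹ := by
    have := conj_mem_conjBy (A.inv_mem ha) b⁻¹
    rwa [inv_inv] at this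
  have hu2 : b⁻¹ * a⁻¹ * b ∈ conjBy B a⁻¹ := by
    rw [e]
    have := conj_mem_conjBy hb a⁻¹
    rwa [inv_inv] at this
  have hu : b⁻¹ * a⁻¹ * b ≠ 1 := by
    intro h0
    apply ha1
    have : a⁻¹ = b * (b⁻¹ * a⁻¹ * b) * b⁻¹ := by group
    rw [h0] at this
    simpa using this
  exact rop_unipotent_eq_of_mem hs.1 (conjBy_left_mem_unipotent (B.inv_mem hb))
    (conjBy_right_mem_unipotent hs.1 (A.inv_mem ha)) hu1 hu2 hu

/-- Existence of a partner in `B` for `a ∈ A#`, in left conjugation form. -/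
theorem special_exists_right (h : IsRankOnePair A B) {a : G} (ha : a ∈ A) (ha1 : a ≠ 1) :
    ∃ b ∈ B, b ≠ 1 ∧ conjBy A b = conjBy B a := roc_exists h.cond_left ha ha1

/-- Existence of a partner in `A` for `b ∈ B#`, in left conjugation form. -/
theorem special_exists_left (h : IsRankOnePair A B) {b : G} (hb : b ∈ B) (hb1 : b ≠ 1) :
    ∃ a ∈ A, a ≠ 1 ∧ conjBy A b = conjBy B a := by
  obtain ⟨a, ha, ha1, hab⟩ := roc_exists h.cond_right hb hb1
  exact ⟨a, ha, ha1, hab.symm⟩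

/-- The element `γ = b⁻¹ * c` for a matching pair `(c, b)` permutes `A → ᶜ⁻¹B → B → A`. -/
theorem gamma_A (hs : IsSpecialRankOnePair A B) {c b : G} (hc : c ∈ A) (hc1 : c ≠ 1)
    (hb : b ∈ B) (hb1 : b ≠ 1) (hcb : conjBy A b = conjBy B c) :
    conjBy A (b⁻¹ * c) = conjBy B c⁻¹ := by
  rw [← conjBy_conjBy, conjBy_of_mem hc]
  exact special_match_inv hs hc hc1 hb hb1 hcb

theorem gamma_mid {c b : G} (hb : b ∈ B) : conjBy (conjBy B c⁻¹) (b⁻¹ * c) = B := by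
  rw [conjBy_conjBy]
  have e : b⁻¹ * c * c⁻¹ = b⁻¹ := by group
  rw [e, conjBy_of_mem (B.inv_mem hb)]

theorem gamma_B {c b : G} (hcb : conjBy A b = conjBy B c) : conjBy B (b⁻¹ * c) = A := by
  rw [← conjBy_conjBy, ← hcb, conjBy_conjBy]
  simp [conjBy_one]

/-- The action of `γ = b⁻¹ * c` on the other points `ᵃB`: it moves `ᵃB` to some `ʸB` with
`y ≡ a` modulo the commutator subgroup. -/
theorem gamma_point (hs : IsSpecialRankOnePair A B) (hA : IsMulCommutative A) {c b : G}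
    (hc : c ∈ A) (hc1 : c ≠ 1) (hb : b ∈ B) (hb1 : b ≠ 1) (hcb : conjBy A b = conjBy B c)
    {a : G} (ha : a ∈ A) (ha1 : a ≠ 1) (hca : c * a ≠ 1) :
    ∃ y ∈ A, y ≠ 1 ∧ y * a⁻¹ ∈ ⁅A ⊔ B, A ⊔ B⁆ ∧
      conjBy (conjBy B a) (b⁻¹ * c) = conjBy B y := by
  have h := hs.1
  obtain ⟨b', hb', hb'1, hcab⟩ := special_exists_right h (A.mul_mem hc ha) hca
  -- β = b⁻¹ * b'
  have hβ : b⁻¹ * b' ∈ B := B.mul_mem (B.inv_mem hb) hb'
  have hβ1 : b⁻¹ * b' ≠ 1 := by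
    intro h0
    have hbb : b' = b := by
      have := inv_mul_eq_one.mp h0
      exact this.symm
    rw [hbb, hcb] at hcab
    have := rop_conjBy_right_injOn h hc (A.mul_mem hc ha) hcab
    apply ha1
    have e : a = c⁻¹ * (c * a) := by group
    rw [e, ← this]; group
  obtain ⟨y, hy, hy1, hyβ⟩ := special_exists_left h hβ hβ1
  refine ⟨y, hy, hy1, ?_, ?_⟩
  · have l1 := special_mul_mem hs hc hc1 hb hb1 hcb
    have l2 := special_mul_mem hs (A.mul_mem hc ha) hca hb' hb'1 hcab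
    have l3 := special_mul_mem hs hy hy1 hβ hβ1 hyβ
    have hcomm : c * a = a * c := comm_of_isMulCommutative hA hc ha
    have e : y * a⁻¹ = (y * (b⁻¹ * b')) * ((c * a * b')⁻¹ * (a * (c * b) * a⁻¹)) := by
      have e2 : (c * a * b')⁻¹ * (a * (c * b) * a⁻¹) = b'⁻¹ * (c * a)⁻¹ * (a * c) * b * a⁻¹ := by
        group
      rw [e2, ← hcomm]; group
    rw [e]
    exact Subgroup.mul_mem _ l3 (Subgroup.mul_mem _ (Subgroup.inv_mem _ l2)
      (conj_mem_commutator_self (Subgroup.mem_sup_left ha) l1))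
  · rw [conjBy_conjBy]
    have e : b⁻¹ * c * a = b⁻¹ * (c * a) := by group
    rw [e, ← conjBy_conjBy, ← hcab, conjBy_conjBy, hyβ]

/-- Conjugation by `γ` normalizing `Q`, in coordinates of `P`. -/
theorem conj_via {Q : Subgroup G} {γ : G} (hQ : conjBy Q γ = Q) (p : G) :
    conjBy (conjBy Q p) γ = conjBy Q (γ * p * γ⁻¹) := by
  have e : conjBy Q (γ * p * γ⁻¹) = conjBy (conjBy Q γ) (γ * p * γ⁻¹) := by rw [hQ]
  rw [e, conjBy_conjBy, conjBy_conjBy]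
  congr 1
  group

theorem conj_mem_of_conjBy_eq {P : Subgroup G} {γ p : G} (hP : conjBy P γ = P) (hp : p ∈ P) :
    γ * p * γ⁻¹ ∈ P := by
  have := conj_mem_conjBy hp γ
  rwa [hP] at this

/-- The part of a conjugate `P` of `A` inside the commutator subgroup is the conjugate of the
corresponding part of `A`. -/
theorem unip_inf_comm {P : Subgroup G} (hP : P ∈ unipotentSubgroups A B) :
    ∃ x ∈ A ⊔ B, P = conjBy A x ∧
      ∀ z ∈ P, z ∈ ⁅A ⊔ B, A ⊔ B⁆ → x⁻¹ * z * x ∈ A ⊓ ⁅A ⊔ B, A ⊔ B⁆ := by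
  obtain ⟨x, hx, rfl⟩ := hP
  refine ⟨x, hx, rfl, ?_⟩
  intro z hz hzL
  refine ⟨mem_conjBy.mp hz, ?_⟩
  have := conj_mem_commutator_self (Subgroup.inv_mem _ hx) hzL
  rwa [inv_inv] at this

theorem le_sup_of_unip (h : IsRankOnePair A B) {P : Subgroup G}
    (hP : P ∈ unipotentSubgroups A B) : P ≤ A ⊔ B := le_sup_of_mem_unipotent hP

/-- Case `A ⊓ X' = 1`. -/
theorem special_case_one (hs : IsSpecialRankOnePair A B) (hA : IsMulCommutative A)
    (hA2 : A ⊓ ⁅A ⊔ B, A ⊔ B⁆ = ⊥) (hcard : 3 < ENat.card A) : False := by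
  classical
  have h := hs.1
  obtain ⟨c, hc, hc1⟩ := rop_exists_left h
  obtain ⟨b, hb, hb1, hcb⟩ := special_exists_right h hc hc1
  have hγ : b⁻¹ * c ∈ A ⊔ B :=
    Subgroup.mul_mem _ (Subgroup.mem_sup_right (B.inv_mem hb)) (Subgroup.mem_sup_left hc)
  -- γ normalizes every `ᵃB`, `a ∉ {1, c⁻¹}`
  have hfix : ∀ a ∈ A, a ≠ 1 → a ≠ c⁻¹ → conjBy (conjBy B a) (b⁻¹ * c) = conjBy B a := by
    intro a ha ha1 hac
    have hca : c * a ≠ 1 := by
      intro h0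
      exact hac (eq_inv_of_mul_eq_one_right h0)
    obtain ⟨y, hy, _, hyL, hyP⟩ := gamma_point hs hA hc hc1 hb hb1 hcb ha ha1 hca
    have hmem : y * a⁻¹ ∈ A ⊓ ⁅A ⊔ B, A ⊔ B⁆ := ⟨A.mul_mem hy (A.inv_mem ha), hyL⟩
    rw [hA2, Subgroup.mem_bot] at hmem
    have : y = a := mul_inv_eq_one.mp hmem
    rw [hyP, this]
  -- two such points
  have hc2 : ((({1, c⁻¹} : Finset G)).card : ℕ∞) < ENat.card ↥A := by
    have : (({1, c⁻¹} : Finset G)).card ≤ 2 := Finset.card_le_two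
    have h2 : ((({1, c⁻¹} : Finset G)).card : ℕ∞) ≤ 2 := by exact_mod_cast this
    exact lt_of_le_of_lt h2 (lt_trans (by decide) hcard)
  obtain ⟨a₁, ha₁, hn₁⟩ := exists_not_mem_of_card_lt _ hc2
  have hc3 : ((({1, c⁻¹, a₁} : Finset G)).card : ℕ∞) < ENat.card ↥A := by
    have : (({1, c⁻¹, a₁} : Finset G)).card ≤ 3 := Finset.card_le_three
    have h2 : ((({1, c⁻¹, a₁} : Finset G)).card : ℕ∞) ≤ 3 := by exact_mod_cast this
    exact lt_of_le_of_lt h2 hcard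
  obtain ⟨a₂, ha₂, hn₂⟩ := exists_not_mem_of_card_lt _ hc3
  simp only [Finset.mem_insert, Finset.mem_singleton, not_or] at hn₁ hn₂
  have hP := hfix a₁ ha₁ hn₁.1 hn₁.2
  have hQ := hfix a₂ ha₂ hn₂.1 hn₂.2.1
  have hPu := conjBy_right_mem_unipotent h ha₁
  have hQu := conjBy_right_mem_unipotent h ha₂
  have hPQ : conjBy B a₁ ≠ conjBy B a₂ := by
    intro he
    exact hn₂.2.2 (rop_conjBy_right_injOn h ha₁ ha₂ he).symm
  have pair := rop_pair_of_mem h hPu hQu hPQ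
  -- γ centralizes `P` and `Q`
  have hcent : ∀ {P : Subgroup G}, P ∈ unipotentSubgroups A B → conjBy P (b⁻¹ * c) = P →
      ∀ p ∈ P, (b⁻¹ * c) * p = p * (b⁻¹ * c) := by
    intro P hPu hP p hp
    obtain ⟨x, hx, hPx, hxL⟩ := unip_inf_comm hPu
    have h1 : (b⁻¹ * c) * p * (b⁻¹ * c)⁻¹ * p⁻¹ ∈ P :=
      P.mul_mem (conj_mem_of_conjBy_eq hP hp) (P.inv_mem hp)
    have h2 : (b⁻¹ * c) * p * (b⁻¹ * c)⁻¹ * p⁻¹ ∈ ⁅A ⊔ B, A ⊔ B⁆ :=
      Subgroup.commutator_mem_commutator hγ (le_sup_of_mem_unipotent hPu hp)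
    have h3 := hxL _ h1 h2
    rw [hA2, Subgroup.mem_bot] at h3
    have h4 : (b⁻¹ * c) * p * (b⁻¹ * c)⁻¹ * p⁻¹ = 1 := by
      have e : (b⁻¹ * c) * p * (b⁻¹ * c)⁻¹ * p⁻¹ =
          x * (x⁻¹ * ((b⁻¹ * c) * p * (b⁻¹ * c)⁻¹ * p⁻¹) * x) * x⁻¹ := by group
      rw [e, h3]; group
    have h5 : (b⁻¹ * c) * p = ((b⁻¹ * c) * p * (b⁻¹ * c)⁻¹ * p⁻¹) * (p * (b⁻¹ * c)) := by group
    rw [h5, h4, one_mul]
  have hall : ∀ x ∈ conjBy B a₁ ⊔ conjBy B a₂, (b⁻¹ * c) * x = x * (b⁻¹ * c) :=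
    comm_sup (hcent hPu hP) (hcent hQu hQ)
  rw [pair.2.1] at hall
  have hAfix : conjBy A (b⁻¹ * c) = A :=
    conjBy_eq_of_comm (fun d hd => hall d (Subgroup.mem_sup_left hd))
  rw [gamma_A hs hc hc1 hb hb1 hcb] at hAfix
  exact rop_conjBy_right_ne_left h (A.inv_mem hc) hAfix

/-- Case `|A ⊓ X'| = 2`. -/
theorem special_case_two (hs : IsSpecialRankOnePair A B) (hA : IsMulCommutative A) {t c : G}
    (ht : t ∈ A ⊓ ⁅A ⊔ B, A ⊔ B⁆) (ht1 : t ≠ 1)
    (hall : ∀ x ∈ A ⊓ ⁅A ⊔ B, A ⊔ B⁆, x = 1 ∨ x = t) (hc : c ∈ A)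
    (hcL : c ∉ ⁅A ⊔ B, A ⊔ B⁆) : False := by
  have h := hs.1
  have htA : t ∈ A := ht.1
  have htL : t ∈ ⁅A ⊔ B, A ⊔ B⁆ := ht.2
  have htt : t * t = 1 := by
    rcases hall _ (Subgroup.mul_mem _ ht ht) with h0 | h0
    · exact h0
    · exact absurd (mul_eq_left.mp h0) ht1
  have hc1 : c ≠ 1 := by
    rintro rfl
    exact hcL (Subgroup.one_mem _)
  obtain ⟨b, hb, hb1, hcb⟩ := special_exists_right h hc hc1
  have hγ : b⁻¹ * c ∈ A ⊔ B :=
    Subgroup.mul_mem _ (Subgroup.mem_sup_right (B.inv_mem hb)) (Subgroup.mem_sup_left hc)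
  -- the point `ᵗB` is fixed
  have hct : c * t ≠ 1 := by
    intro h0
    apply hcL
    have : c = t⁻¹ := eq_inv_of_mul_eq_one_left h0
    rw [this]; exact Subgroup.inv_mem _ htL
  have hP : conjBy (conjBy B t) (b⁻¹ * c) = conjBy B t := by
    obtain ⟨y, hy, hy1, hyL, hyP⟩ := gamma_point hs hA hc hc1 hb hb1 hcb htA ht1 hct
    have hyL' : y ∈ ⁅A ⊔ B, A ⊔ B⁆ := by
      have := Subgroup.mul_mem _ hyL htL
      simpa using this
    rcases hall y ⟨hy, hyL'⟩ with h0 | h0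
    · exact absurd h0 hy1
    · rw [hyP, h0]
  -- the point `ᵃB`, `a = c⁻¹ * t`, is fixed
  have ha : c⁻¹ * t ∈ A := A.mul_mem (A.inv_mem hc) htA
  have ha1 : c⁻¹ * t ≠ 1 := by
    intro h0
    apply hcL
    have : t = c := by
      have := inv_mul_eq_one.mp h0
      exact this.symm
    rw [← this]; exact htL
  have hca : c * (c⁻¹ * t) ≠ 1 := by
    rw [mul_inv_cancel_left]; exact ht1
  have hQ : conjBy (conjBy B (c⁻¹ * t)) (b⁻¹ * c) = conjBy B (c⁻¹ * t) := by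
    obtain ⟨y, hy, hy1, hyL, hyP⟩ := gamma_point hs hA hc hc1 hb hb1 hcb ha ha1 hca
    rcases hall _ ⟨A.mul_mem hy (A.inv_mem ha), hyL⟩ with h0 | h0
    · have : y = c⁻¹ * t := mul_inv_eq_one.mp h0
      rw [hyP, this]
    · exfalso
      have hy' : y = c⁻¹ := by
        have e1 : y = t * (c⁻¹ * t) := mul_inv_eq_iff_eq_mul.mp h0
        have e2 : t * (c⁻¹ * t) = c⁻¹ * (t * t) := by
          rw [← mul_assoc, comm_of_isMulCommutative hA htA (A.inv_mem hc), mul_assoc]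
        rw [e1, e2, htt, mul_one]
      rw [hy', ← gamma_A hs hc hc1 hb hb1 hcb, conjBy_inj] at hyP
      exact rop_conjBy_right_ne_left h ha hyP
  have hPu := conjBy_right_mem_unipotent h htA
  have hQu := conjBy_right_mem_unipotent h ha
  have hPQ : conjBy B t ≠ conjBy B (c⁻¹ * t) := by
    intro he
    have := rop_conjBy_right_injOn h htA ha he
    apply hc1
    have e : c = t * (c⁻¹ * t)⁻¹ := by group
    rw [e, ← this]; group
  have pair := rop_pair_of_mem h hPu hQu hPQ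
  -- the element `t_P`
  obtain ⟨bt, hbt, hbt1, htb⟩ := special_exists_right h htA ht1
  have hbtL : bt ∈ ⁅A ⊔ B, A ⊔ B⁆ := by
    have := Subgroup.mul_mem _ (Subgroup.inv_mem _ htL) (special_mul_mem hs htA ht1 hbt hbt1 htb)
    simpa using this
  have htP : t * bt * t⁻¹ ∈ conjBy B t := conj_mem_conjBy hbt t
  have htPL : t * bt * t⁻¹ ∈ ⁅A ⊔ B, A ⊔ B⁆ :=
    conj_mem_commutator_self (Subgroup.mem_sup_left htA) hbtL
  have htP1 : t * bt * t⁻¹ ≠ 1 := by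
    intro h0
    apply hbt1
    have : bt = t⁻¹ * (t * bt * t⁻¹) * t := by group
    rw [this, h0]; group
  have hAtP : conjBy A (t * bt * t⁻¹) = B := by
    rw [← conjBy_conjBy, ← conjBy_conjBy, conjBy_of_mem (A.inv_mem htA), htb, conjBy_conjBy, htt,
      conjBy_one]
  -- `P ⊓ X'` has one non-identity element
  obtain ⟨x, hx, hPx, hxL⟩ := unip_inf_comm hPu
  have key2 : ∀ z ∈ conjBy B t, z ∈ ⁅A ⊔ B, A ⊔ B⁆ → z ≠ 1 → z = x * t * x⁻¹ := by
    intro z hz hzL hz1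
    rcases hall _ (hxL z hz hzL) with h0 | h0
    · exfalso
      apply hz1
      have : z = x * (x⁻¹ * z * x) * x⁻¹ := by group
      rw [this, h0]; group
    · rw [← h0]; group
  have htPinv : (t * bt * t⁻¹)⁻¹ = t * bt * t⁻¹ := by
    rw [key2 _ (Subgroup.inv_mem _ htP) (Subgroup.inv_mem _ htPL) (inv_ne_one.mpr htP1),
      key2 _ htP htPL htP1]
  have hγtP : (b⁻¹ * c) * (t * bt * t⁻¹) * (b⁻¹ * c)⁻¹ = t * bt * t⁻¹ := by
    rw [key2 _ (conj_mem_of_conjBy_eq hP htP) (conj_mem_commutator_self hγ htPL) _,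
      key2 _ htP htPL htP1]
    intro h0
    apply htP1
    have : t * bt * t⁻¹ =
        (b⁻¹ * c)⁻¹ * ((b⁻¹ * c) * (t * bt * t⁻¹) * (b⁻¹ * c)⁻¹) * (b⁻¹ * c) := by group
    rw [this, h0]; group
  -- coordinates
  have hAu : A ∈ unipotentSubgroups (conjBy B t) (conjBy B (c⁻¹ * t)) := by
    rw [pair.2.2]; exact left_mem_unipotent A B
  rcases rop_unipotent_cases pair.1 hAu with hAP | ⟨p, hp, hAp⟩
  · exact rop_conjBy_right_ne_left h htA hAP.symm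
  · have hB' : B = conjBy (conjBy B (c⁻¹ * t)) (t * bt * t⁻¹ * p) := by
      rw [← conjBy_conjBy, ← hAp, hAtP]
    have h1 := conj_via hQ (t * bt * t⁻¹ * p)
    rw [← hB', gamma_B hcb] at h1
    have hmem : (b⁻¹ * c) * (t * bt * t⁻¹ * p) * (b⁻¹ * c)⁻¹ ∈ conjBy B t :=
      conj_mem_of_conjBy_eq hP (Subgroup.mul_mem _ htP hp)
    have h2 : (b⁻¹ * c) * (t * bt * t⁻¹ * p) * (b⁻¹ * c)⁻¹ = p :=
      rop_conjBy_right_injOn pair.1 hmem hp (h1.symm.trans hAp)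
    have h3 : (b⁻¹ * c) * p * (b⁻¹ * c)⁻¹ = t * bt * t⁻¹ * p := by
      have e : (b⁻¹ * c) * (t * bt * t⁻¹ * p) * (b⁻¹ * c)⁻¹ =
          ((b⁻¹ * c) * (t * bt * t⁻¹) * (b⁻¹ * c)⁻¹) * ((b⁻¹ * c) * p * (b⁻¹ * c)⁻¹) := by group
      rw [e, hγtP] at h2
      have : (b⁻¹ * c) * p * (b⁻¹ * c)⁻¹ = (t * bt * t⁻¹)⁻¹ * p := eq_inv_mul_of_mul_eq h2
      rw [this, htPinv]
    have h4 := conj_via hQ p
    rw [← hAp, gamma_A hs hc hc1 hb hb1 hcb, h3, ← hB'] at h4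
    exact (inv_ne_one.mpr hc1) (rop_eq_one_of_conjBy_eq h (A.inv_mem hc) h4)

/-- Case `|A ⊓ X'| = 3`. -/
theorem special_case_three (hs : IsSpecialRankOnePair A B) (hA : IsMulCommutative A) {s c : G}
    (hsm : s ∈ A ⊓ ⁅A ⊔ B, A ⊔ B⁆) (hs1 : s ≠ 1) (hsi : s⁻¹ ≠ s)
    (hall : ∀ x ∈ A ⊓ ⁅A ⊔ B, A ⊔ B⁆, x = 1 ∨ x = s ∨ x = s⁻¹) (hc : c ∈ A)
    (hcL : c ∉ ⁅A ⊔ B, A ⊔ B⁆) : False := by
  have h := hs.1
  have hsA : s ∈ A := hsm.1
  have hsL : s ∈ ⁅A ⊔ B, A ⊔ B⁆ := hsm.2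
  have hsiA : s⁻¹ ∈ A := A.inv_mem hsA
  have hsi1 : s⁻¹ ≠ 1 := inv_ne_one.mpr hs1
  have hss : s * s = s⁻¹ := by
    rcases hall _ (Subgroup.mul_mem _ hsm hsm) with h0 | h0 | h0
    · exact absurd (inv_eq_of_mul_eq_one_left h0) hsi
    · exact absurd (mul_eq_left.mp h0) hs1
    · exact h0
  have hc1 : c ≠ 1 := by
    rintro rfl
    exact hcL (Subgroup.one_mem _)
  obtain ⟨b, hb, hb1, hcb⟩ := special_exists_right h hc hc1
  have hγ : b⁻¹ * c ∈ A ⊔ B :=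
    Subgroup.mul_mem _ (Subgroup.mem_sup_right (B.inv_mem hb)) (Subgroup.mem_sup_left hc)
  -- images of the two points
  have himg : ∀ a ∈ A ⊓ ⁅A ⊔ B, A ⊔ B⁆, a ≠ 1 →
      conjBy (conjBy B a) (b⁻¹ * c) = conjBy B s ∨
      conjBy (conjBy B a) (b⁻¹ * c) = conjBy B s⁻¹ := by
    intro a ha ha1
    have hca : c * a ≠ 1 := by
      intro h0
      apply hcL
      have : c = a⁻¹ := eq_inv_of_mul_eq_one_left h0
      rw [this]; exact Subgroup.inv_mem _ ha.2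
    obtain ⟨y, hy, hy1, hyL, hyP⟩ := gamma_point hs hA hc hc1 hb hb1 hcb ha.1 ha1 hca
    have hyL' : y ∈ ⁅A ⊔ B, A ⊔ B⁆ := by
      have := Subgroup.mul_mem _ hyL ha.2
      simpa using this
    rcases hall y ⟨hy, hyL'⟩ with h0 | h0 | h0
    · exact absurd h0 hy1
    · left; rw [hyP, h0]
    · right; rw [hyP, h0]
  have hPQ : conjBy B s ≠ conjBy B s⁻¹ := by
    intro he
    exact hsi (rop_conjBy_right_injOn h hsA hsiA he).symm
  have hsqP : conjBy (conjBy B s) ((b⁻¹ * c) * (b⁻¹ * c)) = conjBy B s ∧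
      conjBy (conjBy B s⁻¹) ((b⁻¹ * c) * (b⁻¹ * c)) = conjBy B s⁻¹ := by
    have e1 : ∀ P : Subgroup G, conjBy P ((b⁻¹ * c) * (b⁻¹ * c)) =
        conjBy (conjBy P (b⁻¹ * c)) (b⁻¹ * c) := fun P => (conjBy_conjBy P _ _).symm
    rw [e1, e1]
    rcases himg s hsm hs1 with h1 | h1
    · rcases himg s⁻¹ (Subgroup.inv_mem _ hsm) hsi1 with h2 | h2
      · exfalso
        exact hPQ (conjBy_inj.mp (h2.trans h1.symm)).symm
      · rw [h1, h1, h2, h2]; exact ⟨rfl, rfl⟩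
    · rcases himg s⁻¹ (Subgroup.inv_mem _ hsm) hsi1 with h2 | h2
      · rw [h1, h2, h1]; exact ⟨rfl, rfl⟩
      · exfalso
        exact hPQ (conjBy_inj.mp (h2.trans h1.symm)).symm
  obtain ⟨hP, hQ⟩ := hsqP
  have hPu := conjBy_right_mem_unipotent h hsA
  have hQu := conjBy_right_mem_unipotent h hsiA
  have pair := rop_pair_of_mem h hPu hQu hPQ
  have hΨA : conjBy A ((b⁻¹ * c) * (b⁻¹ * c)) = B := by
    rw [← conjBy_conjBy, gamma_A hs hc hc1 hb hb1 hcb, gamma_mid hb]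
  have hΨB : conjBy B ((b⁻¹ * c) * (b⁻¹ * c)) = conjBy B c⁻¹ := by
    rw [← conjBy_conjBy, gamma_B hcb, gamma_A hs hc hc1 hb hb1 hcb]
  -- the element `u`
  obtain ⟨bs, hbs, hbs1, hsb⟩ := special_exists_right h hsA hs1
  have hbsL : bs ∈ ⁅A ⊔ B, A ⊔ B⁆ := by
    have := Subgroup.mul_mem _ (Subgroup.inv_mem _ hsL) (special_mul_mem hs hsA hs1 hbs hbs1 hsb)
    simpa using this
  have hu : s * bs * s⁻¹ ∈ conjBy B s := conj_mem_conjBy hbs s
  have hAu : conjBy A (s * bs * s⁻¹) = conjBy B s⁻¹ := by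
    rw [← conjBy_conjBy, ← conjBy_conjBy, conjBy_of_mem hsiA, hsb, conjBy_conjBy, hss]
  have hAui : conjBy A (s * bs * s⁻¹)⁻¹ = B := by
    have e : (s * bs * s⁻¹)⁻¹ = s * bs⁻¹ * s⁻¹ := by group
    rw [e, ← conjBy_conjBy, ← conjBy_conjBy, conjBy_of_mem hsiA,
      special_match_inv hs hsA hs1 hbs hbs1 hsb, conjBy_conjBy, mul_inv_cancel, conjBy_one]
  have hA' : A = conjBy (conjBy B s⁻¹) (s * bs * s⁻¹)⁻¹ := by
    rw [← hAu, conjBy_conjBy, inv_mul_cancel, conjBy_one]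
  have hB' : B = conjBy (conjBy B s⁻¹) ((s * bs * s⁻¹)⁻¹ * (s * bs * s⁻¹)⁻¹) := by
    rw [← conjBy_conjBy, ← hA', hAui]
  -- `bs ^ 3 = 1`
  have hbs3 : bs * bs * bs = 1 := by
    obtain ⟨x, hx, hBx, hxL⟩ := unip_inf_comm (rop_right_mem_unipotent h)
    have hw := hxL bs hbs hbsL
    have hw3 : (x⁻¹ * bs * x) * (x⁻¹ * bs * x) * (x⁻¹ * bs * x) = 1 := by
      rcases hall _ hw with h0 | h0 | h0
      · rw [h0]; simp
      · rw [h0, hss]; simp
      · rw [h0]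
        have : s⁻¹ * s⁻¹ * s⁻¹ = (s * s * s)⁻¹ := by group
        rw [this, hss]; simp
    have e : bs * bs * bs = x * ((x⁻¹ * bs * x) * (x⁻¹ * bs * x) * (x⁻¹ * bs * x)) * x⁻¹ := by
      group
    rw [e, hw3]; group
  have hu4 : (s * bs * s⁻¹)⁻¹ * (s * bs * s⁻¹)⁻¹ * ((s * bs * s⁻¹)⁻¹ * (s * bs * s⁻¹)⁻¹) =
      (s * bs * s⁻¹)⁻¹ := by
    have e : (s * bs * s⁻¹)⁻¹ * (s * bs * s⁻¹)⁻¹ * ((s * bs * s⁻¹)⁻¹ * (s * bs * s⁻¹)⁻¹) =
        s * (bs * bs * bs)⁻¹ * s⁻¹ * (s * bs * s⁻¹)⁻¹ := by group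
    rw [e, hbs3]; group
  -- the contradiction
  have hui : (s * bs * s⁻¹)⁻¹ ∈ conjBy B s := Subgroup.inv_mem _ hu
  have h1 := conj_via hQ (s * bs * s⁻¹)⁻¹
  rw [← hA', hΨA] at h1
  have h2 : ((b⁻¹ * c) * (b⁻¹ * c)) * (s * bs * s⁻¹)⁻¹ * ((b⁻¹ * c) * (b⁻¹ * c))⁻¹ =
      (s * bs * s⁻¹)⁻¹ * (s * bs * s⁻¹)⁻¹ :=
    rop_conjBy_right_injOn pair.1 (conj_mem_of_conjBy_eq hP hui) (Subgroup.mul_mem _ hui hui)
      (h1.symm.trans hB')
  have h3 := conj_via hQ ((s * bs * s⁻¹)⁻¹ * (s * bs * s⁻¹)⁻¹)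
  have e3 : ((b⁻¹ * c) * (b⁻¹ * c)) * ((s * bs * s⁻¹)⁻¹ * (s * bs * s⁻¹)⁻¹) *
      ((b⁻¹ * c) * (b⁻¹ * c))⁻¹ =
      (((b⁻¹ * c) * (b⁻¹ * c)) * (s * bs * s⁻¹)⁻¹ * ((b⁻¹ * c) * (b⁻¹ * c))⁻¹) *
      (((b⁻¹ * c) * (b⁻¹ * c)) * (s * bs * s⁻¹)⁻¹ * ((b⁻¹ * c) * (b⁻¹ * c))⁻¹) := by group
  rw [← hB', hΨB, e3, h2, hu4, ← hA'] at h3
  exact rop_conjBy_right_ne_left h (A.inv_mem hc) h3

/-- **Main result on special rank one pairs with abelian unipotent subgroups.** If `A` has more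
than three elements then so has `A ⊓ ⁅A ⊔ B, A ⊔ B⁆`. -/
theorem special_card_inf_commutator (hs : IsSpecialRankOnePair A B) (hA : IsMulCommutative A)
    (hcard : 3 < ENat.card A) : 3 < ENat.card ↥(A ⊓ ⁅A ⊔ B, A ⊔ B⁆) := by
  by_contra hle
  have hle' : ENat.card ↥(A ⊓ ⁅A ⊔ B, A ⊔ B⁆) ≤ 3 := not_lt.mp hle
  have hex : ∃ c ∈ A, c ∉ ⁅A ⊔ B, A ⊔ B⁆ := by
    by_contra hcon
    push Not at hcon
    have : A ⊓ ⁅A ⊔ B, A ⊔ B⁆ = A := inf_eq_left.mpr hcon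
    rw [this] at hle'
    exact absurd hcard (not_lt.mpr hle')
  obtain ⟨c, hc, hcL⟩ := hex
  by_cases h1 : A ⊓ ⁅A ⊔ B, A ⊔ B⁆ = ⊥
  · exact special_case_one hs hA h1 hcard
  · obtain ⟨t, ht1⟩ := (Subgroup.ne_bot_iff_exists_ne_one).mp h1
    have ht1' : (t : G) ≠ 1 := by
      intro h0
      exact ht1 (Subtype.ext h0)
    by_cases h2 : ∀ x ∈ A ⊓ ⁅A ⊔ B, A ⊔ B⁆, x = 1 ∨ x = (t : G)
    · exact special_case_two hs hA t.2 ht1' h2 hc hcL
    · obtain ⟨x₃, hx₃, h31, h3t, hall⟩ :=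
        mem_two_of_card_le hle' (Subgroup.one_mem _) t.2 (Ne.symm ht1') h2
      have hinv : (t : G)⁻¹ = x₃ := by
        rcases hall _ (Subgroup.inv_mem _ t.2) with h0 | h0 | h0
        · exact absurd (inv_eq_one.mp h0) ht1'
        · exfalso
          have htt : (t : G) * t = 1 := by
            have := mul_inv_cancel (t : G)
            rw [h0] at this
            exact this
          rcases hall _ (Subgroup.mul_mem _ t.2 hx₃) with k0 | k0 | k0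
          · apply h3t
            have e1 : x₃ = (t : G)⁻¹ := eq_inv_of_mul_eq_one_right k0
            rw [e1, h0]
          · exact h31 (mul_eq_left.mp k0)
          · exact ht1' (mul_eq_right.mp k0)
        · exact h0
      refine special_case_three hs hA t.2 ht1' ?_ ?_ hc hcL
      · rw [hinv]; exact h3t
      · intro x hx
        rw [hinv]; exact hall x hx

end Special

end Cfsg.Agent.H85
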