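import Mathlib
import Cfsg.Prelude.Def_RootSubgroups
import Cfsg.Agent.H85.Special
import Cfsg.Agent.H85.SL2
import Cfsg.Agent.H85.RootComp

/-!
# Abstract root subgroups: normal subgroups (towards Timmesfeld II (2.14))

Relative dichotomy: for a normal subgroup `K ⊇ G'` and a subgroup `M ≤ K` normalized by `K`,
either `M` centralizes `K` or `⁅K, K⁆ ≤ M`.
-/

set_option autoImplicit false

namespace Cfsg.Agent.H85

open Cfsg
open scoped commutatorElement

variable {G : Type*} [Group G] {S : Set (Subgroup G)}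

theorem conjBy_normal {K : Subgroup G} (hK : K.Normal) (g : G) : conjBy K g = K := by
  rw [conjBy_eq_self_iff, Subgroup.normalizer_eq_top]
  exact Subgroup.mem_top g

theorem rop_inf_eq_bot {A B : Subgroup G} (h : IsRankOnePair A B) : A ⊓ B = ⊥ := by
  rw [eq_bot_iff]
  rintro u ⟨huA, huB⟩
  by_contra hu
  exact h.ne (rop_unipotent_eq_of_mem h (left_mem_unipotent A B) (rop_right_mem_unipotent h)
    huA huB hu)

theorem isMulCommutative_inf {A : Subgroup G} (hA : IsMulCommutative A) (K : Subgroup G) :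
    IsMulCommutative ↥(A ⊓ K) :=
  isMulCommutative_of_comm fun _ hx _ hy => comm_of_isMulCommutative hA hx.1 hy.1

/-- The parts inside a normal subgroup `K ⊇ G'` of a special rank one pair form a special rank
one pair. -/
theorem special_inf_pair {K : Subgroup G} (hKn : K.Normal) (hKc : commutator G ≤ K)
    {A B : Subgroup G} (hs : IsSpecialRankOnePair A B) (hA : IsMulCommutative A)
    (hB : IsMulCommutative B) (hA0 : A ⊓ K ≠ ⊥) : IsSpecialRankOnePair (A ⊓ K) (B ⊓ K) := by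
  have h := hs.1
  have hLK : ⁅A ⊔ B, A ⊔ B⁆ ≤ K := by
    refine le_trans ?_ hKc
    rw [commutator_def]
    exact Subgroup.commutator_mono le_top le_top
  have hK : ∀ g : G, conjBy K g = K := conjBy_normal hKn
  have key : ∀ a ∈ A, a ≠ 1 → ∀ b ∈ B, b ≠ 1 → conjBy A b⁻¹ = conjBy B a⁻¹ →
      (a ∈ K ↔ b ∈ K) := by
    intro a ha ha1 b hb hb1 hab
    have hmem : a⁻¹ * b⁻¹ ∈ K := hLK (special_mul_mem hs (A.inv_mem ha) (inv_ne_one.mpr ha1)
      (B.inv_mem hb) (inv_ne_one.mpr hb1) hab)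
    constructor
    · intro haK
      have e : b⁻¹ = a * (a⁻¹ * b⁻¹) := by group
      have h2 : b⁻¹ ∈ K := by rw [e]; exact K.mul_mem haK hmem
      simpa using K.inv_mem h2
    · intro hbK
      have e : a⁻¹ = (a⁻¹ * b⁻¹) * b := by group
      have h2 : a⁻¹ ∈ K := by rw [e]; exact K.mul_mem hmem hbK
      simpa using K.inv_mem h2
  refine ⟨⟨?_, ?_, ?_, ?_, ?_⟩, ?_⟩
  · intro he
    apply hA0
    rw [eq_bot_iff, ← rop_inf_eq_bot h]
    intro x hx
    exact ⟨hx.1, (he ▸ hx : x ∈ B ⊓ K).1⟩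
  · exact nilpotent_of_comm (isMulCommutative_inf hA K)
  · exact nilpotent_of_comm (isMulCommutative_inf hB K)
  · intro a ha ha1
    obtain ⟨b, hb, hb1, hab⟩ := h.cond_left a ha.1 ha1
    refine ⟨b, ⟨hb, (key a ha.1 ha1 b hb hb1 hab).mp ha.2⟩, hb1, ?_⟩
    rw [conjBy_inf, conjBy_inf, hK, hK, hab]
  · intro b hb hb1
    obtain ⟨a, ha, ha1, hab⟩ := h.cond_right b hb.1 hb1
    refine ⟨a, ⟨ha, (key a ha ha1 b hb.1 hb1 hab.symm).mpr hb.2⟩, ha1, ?_⟩
    rw [conjBy_inf, conjBy_inf, hK, hK, hab]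
  · intro a ha ha1 b hb hb1 hab
    apply hs.2 a ha.1 ha1 b hb.1 hb1
    have hu1 : b⁻¹ * a * b ∈ conjBy A b⁻¹ := by
      have := conj_mem_conjBy ha.1 b⁻¹
      rwa [inv_inv] at this
    have hu2 : b⁻¹ * a * b ∈ conjBy B a⁻¹ := by
      have h1 : b⁻¹ * a * b ∈ conjBy (A ⊓ K) b⁻¹ := by
        have := conj_mem_conjBy ha b⁻¹
        rwa [inv_inv] at this
      rw [hab] at h1
      exact conjBy_mono inf_le_left a⁻¹ h1
    have hu : b⁻¹ * a * b ≠ 1 := by
      intro h0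
      apply ha1
      have : a = b * (b⁻¹ * a * b) * b⁻¹ := by group
      rw [this, h0]; group
    exact rop_unipotent_eq_of_mem h (conjBy_left_mem_unipotent (B.inv_mem hb.1))
      (conjBy_right_mem_unipotent h (A.inv_mem ha.1)) hu1 hu2 hu

/-- Commutator subgroup of a join, inside a subgroup normalized by both. -/
theorem commutator_sup_le_of_normalizes {H₁ H₂ M : Subgroup G}
    (n1 : H₁ ≤ Subgroup.normalizer (M : Set G)) (n2 : H₂ ≤ Subgroup.normalizer (M : Set G))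
    (h11 : ⁅H₁, H₁⁆ ≤ M) (h22 : ⁅H₂, H₂⁆ ≤ M) (h12 : ⁅H₁, H₂⁆ ≤ M) :
    ⁅H₁ ⊔ H₂, H₁ ⊔ H₂⁆ ≤ M := by
  have h21 : ⁅H₂, H₁⁆ ≤ M := by rw [Subgroup.commutator_comm]; exact h12
  apply commutator_sup_right_le n1 n2
  · exact commutator_sup_left_le n1 n2 h11 h21
  · exact commutator_sup_left_le n1 n2 h12 h22

theorem commutator_bot_of_comm_sub {H : Subgroup G} (h : IsMulCommutative ↥H) : ⁅H, H⁆ = ⊥ :=
  commutator_eq_bot_of_comm fun _ hx _ hy => comm_of_isMulCommutative h hx hy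

theorem conj_mem_of_le_normalizer {K M : Subgroup G} (hMn : K ≤ Subgroup.normalizer (M : Set G))
    {k m : G} (hk : k ∈ K) (hm : m ∈ M) : k * m * k⁻¹ ∈ M :=
  conj_mem_of_mem_normalizer (hMn hk) hm

/-- `⁅a, μ⁆ ∈ M` for `a` normalizing `M` and `μ ∈ M`. -/
theorem commutator_mem_of_normalizes {K M : Subgroup G}
    (hMn : K ≤ Subgroup.normalizer (M : Set G)) {k m : G} (hk : k ∈ K) (hm : m ∈ M) :
    ⁅k, m⁆ ∈ M := by
  have e : ⁅k, m⁆ = (k * m * k⁻¹) * m⁻¹ := by rw [commutatorElement_def]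
  rw [e]
  exact M.mul_mem (conj_mem_of_le_normalizer hMn hk hm) (M.inv_mem hm)

theorem commutator_mem_of_normalizes' {K M : Subgroup G}
    (hMn : K ≤ Subgroup.normalizer (M : Set G)) {k m : G} (hk : k ∈ K) (hm : m ∈ M) :
    ⁅m, k⁆ ∈ M := by
  rw [← commutatorElement_inv]
  exact M.inv_mem (commutator_mem_of_normalizes hMn hk hm)

/-- Hypotheses for the relative normal subgroup dichotomy. -/
structure NormalSetup (S : Set (Subgroup G)) (K : Subgroup G) : Prop where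
  hS : IsRootSubgroupSet S
  hpart : ∀ A ∈ S, ∃ A' ∈ S, IsRankOnePair A A'
  hconj : ∀ A ∈ S, ∀ B ∈ S, ∃ g : G, B = conjBy A g
  hconn : IsConnectedFamily (FAdj S) S
  hH1 : ∀ A ∈ S, ∀ C ∈ S, A ≠ C → centralizingMembers S A ≠ centralizingMembers S C
  hspec : ∀ A ∈ S, ∀ B ∈ S, IsRankOnePair A B → IsSpecialRankOnePair A B
  hKn : K.Normal
  hKc : commutator G ≤ K
  hK0 : ∀ A ∈ S, A ⊓ K ≠ ⊥
  hgen : K ≤ ⨆ A ∈ S, A ⊓ K
  hKt : ∀ A ∈ S, K ⊔ A = ⊤
  hdeg : IsDegenerateRootSet S → ∀ A ∈ S, 3 < ENat.card ↥(A ⊓ K)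
  hnd : ¬ IsDegenerateRootSet S → K = ⊤

section Setup

variable {K M : Subgroup G}

theorem setup_pair (hN : NormalSetup S K) {A B : Subgroup G} (hA : A ∈ S) (hB : B ∈ S)
    (h : IsRankOnePair A B) : IsSpecialRankOnePair (A ⊓ K) (B ⊓ K) :=
  special_inf_pair hN.hKn hN.hKc (hN.hspec A hA B hB h) (hN.hS.commutative A hA)
    (hN.hS.commutative B hB) (hN.hK0 A hA)

/-- If `M` normalizes every `A ⊓ K`, then `M` centralizes `K`. -/
theorem central_of_normalizes (hN : NormalSetup S K)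
    (hMn : K ≤ Subgroup.normalizer (M : Set G))
    (hnorm : ∀ A ∈ S, ∀ m ∈ M, conjBy (A ⊓ K) m = A ⊓ K) :
    ∀ m ∈ M, ∀ k ∈ K, m * k = k * m := by
  intro m hm
  have hle : K ≤ Subgroup.centralizer ({m} : Set G) := by
    refine le_trans hN.hgen ?_
    refine iSup₂_le ?_
    intro A hA a ha
    rw [Subgroup.mem_centralizer_iff]
    intro x hx
    rw [Set.mem_singleton_iff] at hx
    subst hx
    obtain ⟨B, hB, hAB⟩ := hN.hpart A hA
    have hpair := (setup_pair hN hA hB hAB).1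
    have hcM : ⁅a, x⁆ ∈ M := commutator_mem_of_normalizes hMn ha.2 hm
    have hcA : ⁅a, x⁆ ∈ A ⊓ K := by
      have h1 : x * a⁻¹ * x⁻¹ ∈ conjBy (A ⊓ K) x := conj_mem_conjBy ((A ⊓ K).inv_mem ha) x
      rw [hnorm A hA x hm] at h1
      have e : ⁅a, x⁆ = a * (x * a⁻¹ * x⁻¹) := by rw [commutatorElement_def]; group
      rw [e]
      exact (A ⊓ K).mul_mem ha h1
    have h1 := rop_eq_one_of_conjBy_eq hpair hcA (hnorm B hB _ hcM)
    rw [commutatorElement_eq_one_iff_mul_comm] at h1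
    exact h1.symm
  intro k hk
  have := Subgroup.mem_centralizer_iff.mp (hle hk) m (Set.mem_singleton m)
  exact this

/-- `⁅A₀, m A₀ m⁻¹⁆ ≤ M` for abelian `A₀ ≤ K` and `m ∈ M`. -/
theorem comm_conj_le (hMn : K ≤ Subgroup.normalizer (M : Set G)) {A₀ : Subgroup G}
    (hA₀ : A₀ ≤ K) (hAc : IsMulCommutative A₀) {m : G} (hm : m ∈ M) :
    ⁅A₀, conjBy A₀ m⁆ ≤ M := by
  rw [Subgroup.commutator_le]
  intro a ha c hc
  rw [mem_conjBy] at hc
  have e : c = m * (m⁻¹ * c * m) * m⁻¹ := by group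
  rw [e, comm_conj_eq (comm_of_isMulCommutative hAc ha hc)]
  exact commutator_mem_of_normalizes hMn (hA₀ ha)
    (commutator_mem_of_normalizes' hMn (hA₀ hc) hm)

/-- If `D` commutes with `C = m A m⁻¹`, then `⁅A ⊓ K, D ⊓ K⁆ ≤ M`. -/
theorem comm_via_le (hMn : K ≤ Subgroup.normalizer (M : Set G)) {A C D : Subgroup G} {m : G}
    (hm : m ∈ M) (hC : C = conjBy A m)
    (hDC : ∀ d ∈ D, ∀ c ∈ C, d * c = c * d) : ⁅A ⊓ K, D ⊓ K⁆ ≤ M := by
  rw [Subgroup.commutator_le]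
  intro a ha d hd
  have hc : m * a⁻¹ * m⁻¹ ∈ C := by
    rw [hC]; exact conj_mem_conjBy (A.inv_mem ha.1) m
  have hμ : ⁅a, m⁆ ∈ M := commutator_mem_of_normalizes hMn ha.2 hm
  have e : ⁅a, d⁆ = ⁅⁅a, m⁆, d⁆ := by
    have h1 := hDC d hd.1 _ hc
    have e1 : ⁅a, m⁆ = a * (m * a⁻¹ * m⁻¹) := by rw [commutatorElement_def]; group
    rw [e1, commutatorElement_def, commutatorElement_def]
    have e2 : a * (m * a⁻¹ * m⁻¹) * d * (a * (m * a⁻¹ * m⁻¹))⁻¹ * d⁻¹
        = a * ((m * a⁻¹ * m⁻¹) * d) * (m * a⁻¹ * m⁻¹)⁻¹ * a⁻¹ * d⁻¹ := by group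
    rw [e2, ← h1]
    group
  rw [e]
  exact commutator_mem_of_normalizes' hMn hd.2 hμ

/-- Good pair: the commutator subgroup of `P₀ ⊔ Q₀` lies in `M`. -/
theorem good_comm_le (hN : NormalSetup S K) (hMn : K ≤ Subgroup.normalizer (M : Set G))
    {P Q : Subgroup G} (hP : P ∈ S) (hQ : Q ∈ S) (hc : ⁅P ⊓ K, Q ⊓ K⁆ ≤ M) :
    ⁅(P ⊓ K) ⊔ (Q ⊓ K), (P ⊓ K) ⊔ (Q ⊓ K)⁆ ≤ M := by
  apply commutator_sup_le_of_normalizes (le_trans inf_le_right hMn) (le_trans inf_le_right hMn)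
  · rw [commutator_bot_of_comm_sub (isMulCommutative_inf (hN.hS.commutative P hP) K)]
    exact bot_le
  · rw [commutator_bot_of_comm_sub (isMulCommutative_inf (hN.hS.commutative Q hQ) K)]
    exact bot_le
  · exact hc

/-- Good pair: every element of `Q₀` lies in `M P₀`. -/
theorem good_mem (hN : NormalSetup S K) (hMn : K ≤ Subgroup.normalizer (M : Set G))
    {P Q : Subgroup G} (hP : P ∈ S) (hQ : Q ∈ S) (hPQ : IsRankOnePair P Q)
    (hc : ⁅P ⊓ K, Q ⊓ K⁆ ≤ M) : ∀ q ∈ Q ⊓ K, ∃ μ ∈ M, ∃ p ∈ P ⊓ K, q = μ * p := by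
  intro q hq
  by_cases hq1 : q = 1
  · exact ⟨1, M.one_mem, 1, (P ⊓ K).one_mem, by rw [hq1, mul_one]⟩
  · have hs := setup_pair hN hP hQ hPQ
    obtain ⟨p, hp, hp1, hpq⟩ := special_exists_left hs.1 hq hq1
    have hmem : p * q ∈ M := good_comm_le hN hMn hP hQ hc (special_mul_mem hs hp hp1 hq hq1 hpq)
    have h2 := conj_mem_of_le_normalizer hMn (K.inv_mem hp.2) hmem
    refine ⟨_, h2, p⁻¹, (P ⊓ K).inv_mem hp, ?_⟩
    group

/-- Degenerate case: a good pair gives a member meeting `M`. -/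
theorem good_deg (hN : NormalSetup S K) (hMn : K ≤ Subgroup.normalizer (M : Set G))
    (hd : IsDegenerateRootSet S)
    {P Q : Subgroup G} (hP : P ∈ S) (hQ : Q ∈ S) (hPQ : IsRankOnePair P Q)
    (hc : ⁅P ⊓ K, Q ⊓ K⁆ ≤ M) : (P ⊓ K) ⊓ M ≠ ⊥ := by
  have hs := setup_pair hN hP hQ hPQ
  have hcard := special_card_inf_commutator hs (isMulCommutative_inf (hN.hS.commutative P hP) K)
    (hN.hdeg hd P hP)
  have h1 : ((({1} : Finset G).card : ℕ) : ℕ∞) < ENat.card ↥((P ⊓ K) ⊓ ⁅(P ⊓ K) ⊔ (Q ⊓ K), (P ⊓ K) ⊔ (Q ⊓ K)⁆) := by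
    refine lt_of_le_of_lt ?_ hcard
    rw [Finset.card_singleton]
    norm_num
  obtain ⟨w, hw, hw1⟩ := exists_not_mem_of_card_lt _ h1
  rw [Finset.mem_singleton] at hw1
  intro hbot
  apply hw1
  have : w ∈ (P ⊓ K) ⊓ M := ⟨hw.1, good_comm_le hN hMn hP hQ hc hw.2⟩
  rw [hbot] at this
  exact Subgroup.mem_bot.mp this

end Setup

section Nondegenerate

variable {M : Subgroup G}

/-- Non-degenerate step, with a root subgroup `T` commuting with `P` but not with `Q`. -/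
theorem nondeg_step_aux (hS : IsRootSubgroupSet S)
    (hspec : ∀ A ∈ S, ∀ B ∈ S, IsRankOnePair A B → IsSpecialRankOnePair A B)
    (hMn : ∀ g : G, ∀ μ ∈ M, g * μ * g⁻¹ ∈ M) {P Q T T' : Subgroup G}
    (hQ : Q ∈ S) (hQM : ∀ q ∈ Q, ∃ μ ∈ M, ∃ p ∈ P, q = μ * p)
    (hT : T ∈ S) (hTT' : RootCommutatorCase S T T') (hP' : ⁅T, T'⁆ = P)
    (hTQ : ⁅T, Q⁆ ≠ ⊥) : ∃ E ∈ S, E ⊓ M ≠ ⊥ := by
  have hTP : ∀ p ∈ P, ∀ t ∈ T, p * t = t * p := by
    intro p hp t ht
    exact rcc_comm_A hTT' p (hP' ▸ hp) t ht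
  have hnorm : ∀ H : Subgroup G, H ≤ Subgroup.normalizer (M : Set G) := by
    intro H g _
    exact mem_normalizer_of_conj_mem (fun m hm => hMn g m hm)
      (fun m hm => by simpa using hMn g⁻¹ m hm)
  have hcTQ : ⁅T, Q⁆ ≤ M := by
    rw [Subgroup.commutator_le]
    intro t ht q hq
    obtain ⟨μ, hμ, p, hp, rfl⟩ := hQM q hq
    have h1 := hTP p hp t ht
    have e : ⁅t, μ * p⁆ = t * μ * t⁻¹ * μ⁻¹ := by
      rw [commutatorElement_def]
      have h1' : p * t⁻¹ * p⁻¹ = t⁻¹ := by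
        have : p * t⁻¹ * p⁻¹ = (p * t * p⁻¹)⁻¹ := by group
        rw [this, h1]; group
      have e2 : t * (μ * p) * t⁻¹ * (μ * p)⁻¹ = t * μ * (p * t⁻¹ * p⁻¹) * μ⁻¹ := by group
      rw [e2, h1']
    rw [e]
    exact M.mul_mem (hMn t μ hμ) (M.inv_mem hμ)
  rcases root_trichotomy hS hT hQ with h0 | h1 | h2
  · exact absurd h0 hTQ
  · have hs := hspec T hT Q hQ h1
    obtain ⟨t, ht, ht1⟩ := rop_exists_left h1
    obtain ⟨q, hq, hq1, htq⟩ := special_exists_right h1 ht ht1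
    have hY : ⁅T ⊔ Q, T ⊔ Q⁆ ≤ M := by
      apply commutator_sup_le_of_normalizes (hnorm T) (hnorm Q)
      · rw [commutator_bot_of_comm_sub (hS.commutative T hT)]; exact bot_le
      · rw [commutator_bot_of_comm_sub (hS.commutative Q hQ)]; exact bot_le
      · exact hcTQ
    have hmem : t * q ∈ M := hY (special_mul_mem hs ht ht1 hq hq1 htq)
    obtain ⟨μ, hμ, p, hp, hqe⟩ := hQM q hq
    -- `t * p ∈ M`
    have h3 : t * p ∈ M := by
      have e : t * p = (t * q) * (p⁻¹ * μ⁻¹ * p⁻¹⁻¹) := by rw [hqe]; group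
      rw [e]
      exact M.mul_mem hmem (hMn p⁻¹ μ⁻¹ (M.inv_mem hμ))
    have h4 : t * p ∈ T ⊔ ⁅T, T'⁆ :=
      Subgroup.mul_mem _ (Subgroup.mem_sup_left ht) (Subgroup.mem_sup_right (hP' ▸ hp))
    have h5 : t * p ≠ 1 := by
      intro h
      have : t ∈ T ⊓ ⁅T, T'⁆ := by
        refine ⟨ht, ?_⟩
        have e : t = p⁻¹ := eq_inv_of_mul_eq_one_left h
        rw [e, hP']
        exact P.inv_mem hp
      rw [rcc_inf_eq_bot hS hQ h1 hTT'] at this
      exact ht1 (Subgroup.mem_bot.mp this)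
    obtain ⟨E, hE, hmemE⟩ := (rcc_partition hS hT hQ h1 hTT').2.1 _ h4 h5
    refine ⟨E, hE.1, ?_⟩
    intro hbot
    have : t * p ∈ E ⊓ M := ⟨hmemE, h3⟩
    rw [hbot] at this
    exact h5 (Subgroup.mem_bot.mp this)
  · refine ⟨⁅T, Q⁆, h2.1, ?_⟩
    rw [inf_eq_left.mpr hcTQ]
    exact hS.ne_bot _ h2.1

/-- Non-degenerate step: from a good pair, a member of `S` meeting `M`. -/
theorem nondeg_step (hS : IsRootSubgroupSet S)
    (hspec : ∀ A ∈ S, ∀ B ∈ S, IsRankOnePair A B → IsSpecialRankOnePair A B)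
    (hMn : ∀ g : G, ∀ μ ∈ M, g * μ * g⁻¹ ∈ M) {P Q U V : Subgroup G}
    (hQ : Q ∈ S) (hPQ : IsRankOnePair P Q)
    (hQM : ∀ q ∈ Q, ∃ μ ∈ M, ∃ p ∈ P, q = μ * p)
    (hU : U ∈ S) (hV : V ∈ S) (hUV : RootCommutatorCase S U V) (hP' : ⁅U, V⁆ = P) :
    ∃ E ∈ S, E ⊓ M ≠ ⊥ := by
  by_cases hUQ : ⁅U, Q⁆ = ⊥
  · by_cases hVQ : ⁅V, Q⁆ = ⊥
    · exfalso
      obtain ⟨p, hp, hp1⟩ := rop_exists_left hPQ
      obtain ⟨q, hq, hq1⟩ := rop_exists_right hPQ
      apply rop_not_commute hPQ hp hp1 hq hq1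
      -- `Q` centralizes `U` and `V`, hence `⁅U, V⁆ = P`
      have hle : ⁅U, V⁆ ≤ Subgroup.centralizer ({q} : Set G) := by
        rw [Subgroup.commutator_le]
        intro u hu v hv
        rw [Subgroup.mem_centralizer_iff]
        intro x hx
        rw [Set.mem_singleton_iff] at hx
        subst hx
        have h1 := comm_of_commutator_eq_bot hUQ hu hq
        have h2 := comm_of_commutator_eq_bot hVQ hv hq
        have h1' : u⁻¹ * x = x * u⁻¹ := by
          have : u⁻¹ * x = u⁻¹ * (x * u) * u⁻¹ := by group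
          rw [this, ← h1]; group
        have h2' : v⁻¹ * x = x * v⁻¹ := by
          have : v⁻¹ * x = v⁻¹ * (x * v) * v⁻¹ := by group
          rw [this, ← h2]; group
        rw [commutatorElement_def]
        calc x * (u * v * u⁻¹ * v⁻¹) = (x * u) * v * u⁻¹ * v⁻¹ := by group
          _ = u * (x * v) * u⁻¹ * v⁻¹ := by rw [← h1]; group
          _ = u * v * (x * u⁻¹) * v⁻¹ := by rw [← h2]; group
          _ = u * v * u⁻¹ * (x * v⁻¹) := by rw [← h1']; group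
          _ = u * v * u⁻¹ * v⁻¹ * x := by rw [← h2']; group
      have := Subgroup.mem_centralizer_iff.mp (hle (hP' ▸ hp)) q (Set.mem_singleton q)
      exact this.symm
    · have hP'' : ⁅V, U⁆ = P := by rw [Subgroup.commutator_comm]; exact hP'
      exact nondeg_step_aux hS hspec hMn hQ hQM hV (rcc_symm hUV) hP'' hVQ
  · exact nondeg_step_aux hS hspec hMn hQ hQM hU hUV hP' hUQ

end Nondegenerate

section Dichotomy

variable {K M : Subgroup G}

/-- If some member of `S` meets `M` inside `K`, then `⁅K, K⁆ ≤ M`. -/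
theorem comm_le_of_member (hN : NormalSetup S K) (hMn : K ≤ Subgroup.normalizer (M : Set G))
    {E : Subgroup G} (hE : E ∈ S) (hEM : (E ⊓ K) ⊓ M ≠ ⊥) : ⁅K, K⁆ ≤ M := by
  haveI := hN.hKn
  have ha : ∀ D ∈ S, (D ⊓ K) ⊓ M ≠ ⊥ := by
    intro D hD
    obtain ⟨g, rfl⟩ := hN.hconj E hE D hD
    have hg : g ∈ K ⊔ E := by rw [hN.hKt E hE]; exact Subgroup.mem_top g
    rw [Subgroup.mem_sup_of_normal_left] at hg
    obtain ⟨k, hk, e, he, rfl⟩ := hg
    have e1 : conjBy E (k * e) = conjBy E k := by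
      rw [← conjBy_conjBy, conjBy_of_mem he]
    have e2 : (conjBy E k ⊓ K) ⊓ M = conjBy ((E ⊓ K) ⊓ M) k := by
      rw [conjBy_inf, conjBy_inf, conjBy_normal hN.hKn k, conjBy_eq_self_iff.mpr (hMn hk)]
    rw [e1, e2]
    intro h0
    exact hEM (conjBy_eq_bot_iff.mp h0)
  have hb : ∀ D F : Subgroup G, FAdj S D F → F ⊓ K ≤ M ⊔ (D ⊓ K) := by
    intro D F hDF
    have hpair := (setup_pair hN hDF.1 hDF.2.1 hDF.2.2).1
    have hN' : M ⊓ ((D ⊓ K) ⊔ (F ⊓ K)) ≤ (D ⊓ K) ⊔ (F ⊓ K) := inf_le_right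
    have hXK : (D ⊓ K) ⊔ (F ⊓ K) ≤ K := sup_le inf_le_right inf_le_right
    have hnorm : ∀ x ∈ (D ⊓ K) ⊔ (F ⊓ K),
        conjBy (M ⊓ ((D ⊓ K) ⊔ (F ⊓ K))) x = M ⊓ ((D ⊓ K) ⊔ (F ⊓ K)) := by
      intro x hx
      rw [conjBy_inf, conjBy_eq_self_iff.mpr (hMn (hXK hx)), conjBy_of_mem hx]
    rcases rop_normal_dichotomy hpair hN' hnorm with h1 | h1
    · calc F ⊓ K ≤ (D ⊓ K) ⊔ (F ⊓ K) := le_sup_right
        _ = M ⊓ ((D ⊓ K) ⊔ (F ⊓ K)) ⊔ (D ⊓ K) := h1.symm
        _ ≤ M ⊔ (D ⊓ K) := sup_le_sup_right inf_le_left _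
    · exfalso
      apply ha D hDF.1
      rw [eq_bot_iff]
      intro x hx
      rw [Subgroup.mem_bot]
      have hxN : x ∈ M ⊓ ((D ⊓ K) ⊔ (F ⊓ K)) := ⟨hx.2, Subgroup.mem_sup_left hx.1⟩
      exact rop_eq_one_of_commute hpair (left_mem_unipotent _ _) (rop_right_mem_unipotent hpair)
        hpair.ne hx.1 (fun d hd => h1 x hxN d (Subgroup.mem_sup_right hd))
  have hc : ∀ D : Subgroup G, Relation.ReflTransGen (FAdj S) E D →
      M ⊔ (D ⊓ K) = M ⊔ (E ⊓ K) := by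
    intro D hr
    induction hr with
    | refl => rfl
    | tail _ hbc ih =>
      rw [← ih]
      exact le_antisymm (sup_le le_sup_left (hb _ _ hbc))
        (sup_le le_sup_left (hb _ _ (fadj_symm hbc)))
  have hd : K ≤ M ⊔ (E ⊓ K) := by
    refine le_trans hN.hgen (iSup₂_le ?_)
    intro D hD
    rw [← hc D (hN.hconn E hE D hD)]
    exact le_sup_right
  refine le_trans (Subgroup.commutator_mono hd hd) ?_
  apply commutator_sup_le_of_normalizes Subgroup.le_normalizer (le_trans inf_le_right hMn)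
    (commutator_self_le M)
  · rw [commutator_bot_of_comm_sub (isMulCommutative_inf (hN.hS.commutative E hE) K)]
    exact bot_le
  · rw [Subgroup.commutator_le]
    intro m hm e he
    exact commutator_mem_of_normalizes' hMn he.2 hm

/-- From a good pair, a member of `S` meeting `M` inside `K`. -/
theorem member_of_good (hN : NormalSetup S K) (hMn : K ≤ Subgroup.normalizer (M : Set G))
    {P Q : Subgroup G} (hP : P ∈ S) (hQ : Q ∈ S) (hPQ : IsRankOnePair P Q)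
    (hc : ⁅P ⊓ K, Q ⊓ K⁆ ≤ M) : ∃ E ∈ S, (E ⊓ K) ⊓ M ≠ ⊥ := by
  by_cases hd : IsDegenerateRootSet S
  · exact ⟨P, hP, good_deg hN hMn hd hP hQ hPQ hc⟩
  · have hK : K = ⊤ := hN.hnd hd
    unfold IsDegenerateRootSet at hd
    push Not at hd
    obtain ⟨E, hE, F, hF, hEF⟩ := hd
    obtain ⟨g, hg⟩ := hN.hconj ⁅E, F⁆ hEF.1 P hP
    have hUV : ⁅conjBy E g, conjBy F g⁆ = P := by
      rw [hg]
      exact (Subgroup.map_commutator E F (MulAut.conj g).toMonoidHom).symm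
    have hU := hN.hS.conj_mem E hE g
    have hV := hN.hS.conj_mem F hF g
    have hrcc : RootCommutatorCase S (conjBy E g) (conjBy F g) :=
      rcc_of_commutator_mem hN.hS hU hV (by rw [hUV]; exact hP)
    have hMn' : ∀ g : G, ∀ μ ∈ M, g * μ * g⁻¹ ∈ M := by
      intro g μ hμ
      exact conj_mem_of_le_normalizer hMn (by rw [hK]; exact Subgroup.mem_top g) hμ
    have hQM : ∀ q ∈ Q, ∃ μ ∈ M, ∃ p ∈ P, q = μ * p := by
      intro q hq
      obtain ⟨μ, hμ, p, hp, e⟩ := good_mem hN hMn hP hQ hPQ hc q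
        ⟨hq, by rw [hK]; exact Subgroup.mem_top q⟩
      exact ⟨μ, hμ, p, hp.1, e⟩
    obtain ⟨E', hE', hne⟩ := nondeg_step hN.hS hN.hspec hMn' hQ hPQ hQM hU hV hrcc hUV
    refine ⟨E', hE', ?_⟩
    rw [hK, inf_top_eq]
    exact hne

/-- From a non-commuting pair whose parts in `K` have commutator inside `M`, a member of `S`
meeting `M` inside `K`. -/
theorem member_of_noncomm (hN : NormalSetup S K) (hMn : K ≤ Subgroup.normalizer (M : Set G))
    {A D : Subgroup G} (hA : A ∈ S) (hD : D ∈ S) (hne : ⁅A, D⁆ ≠ ⊥)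
    (hc : ⁅A ⊓ K, D ⊓ K⁆ ≤ M) : ∃ E ∈ S, (E ⊓ K) ⊓ M ≠ ⊥ := by
  rcases root_trichotomy hN.hS hA hD with h0 | h1 | h2
  · exact absurd h0 hne
  · exact member_of_good hN hMn hA hD h1 hc
  · have hK : K = ⊤ := hN.hnd (fun hd => hd A hA D hD h2)
    rw [hK, inf_top_eq, inf_top_eq] at hc
    refine ⟨⁅A, D⁆, h2.1, ?_⟩
    rw [hK, inf_top_eq, inf_eq_left.mpr hc]
    exact hN.hS.ne_bot _ h2.1

/-- The relative dichotomy: a subgroup `M ≤ K` normalized by `K` either centralizes `K` or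
contains `⁅K, K⁆`. -/
theorem normal_dichotomy (hN : NormalSetup S K) (hMn : K ≤ Subgroup.normalizer (M : Set G)) :
    (∀ m ∈ M, ∀ k ∈ K, m * k = k * m) ∨ ⁅K, K⁆ ≤ M := by
  by_cases hnorm : ∀ A ∈ S, ∀ m ∈ M, conjBy (A ⊓ K) m = A ⊓ K
  · left
    exact central_of_normalizes hN hMn hnorm
  · right
    push Not at hnorm
    obtain ⟨A, hA, m, hm, hne⟩ := hnorm
    have hCK : conjBy (A ⊓ K) m = conjBy A m ⊓ K := by
      rw [conjBy_inf, conjBy_normal hN.hKn]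
    have hC : conjBy A m ∈ S := hN.hS.conj_mem A hA m
    have hAC : A ≠ conjBy A m := by
      intro h
      apply hne
      rw [hCK, ← h]
    have hc0 : ⁅A ⊓ K, conjBy A m ⊓ K⁆ ≤ M := by
      rw [← hCK]
      exact comm_conj_le hMn inf_le_right (isMulCommutative_inf (hN.hS.commutative A hA) K) hm
    have key : ∃ E ∈ S, (E ⊓ K) ⊓ M ≠ ⊥ := by
      by_cases hcomm : ⁅A, conjBy A m⁆ = ⊥
      · have hex : ∃ D ∈ S,
            (D ≤ Subgroup.centralizer ((conjBy A m : Subgroup G) : Set G) ∧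
              ¬ D ≤ Subgroup.centralizer (A : Set G)) ∨
            (D ≤ Subgroup.centralizer (A : Set G) ∧
              ¬ D ≤ Subgroup.centralizer ((conjBy A m : Subgroup G) : Set G)) := by
          by_contra hno
          apply hN.hH1 A hA _ hC hAC
          ext D
          constructor
          · rintro ⟨hDS, hDA⟩
            refine ⟨hDS, ?_⟩
            by_contra hDC
            exact hno ⟨D, hDS, Or.inr ⟨hDA, hDC⟩⟩
          · rintro ⟨hDS, hDC⟩
            refine ⟨hDS, ?_⟩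
            by_contra hDA
            exact hno ⟨D, hDS, Or.inl ⟨hDC, hDA⟩⟩
        obtain ⟨D, hD, ⟨hDC, hDA⟩ | ⟨hDA, hDC⟩⟩ := hex
        · have h1 : ⁅A ⊓ K, D ⊓ K⁆ ≤ M :=
            comm_via_le hMn hm rfl
              (fun d hd c hc => (Subgroup.mem_centralizer_iff.mp (hDC hd) c hc).symm)
          apply member_of_noncomm hN hMn hA hD ?_ h1
          intro h0
          apply hDA
          rw [Subgroup.commutator_comm] at h0
          exact Subgroup.commutator_eq_bot_iff_le_centralizer.mp h0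
        · have h1 : ⁅conjBy A m ⊓ K, D ⊓ K⁆ ≤ M :=
            comm_via_le hMn (M.inv_mem hm) (conjBy_eq_iff.mp rfl)
              (fun d hd c hc => (Subgroup.mem_centralizer_iff.mp (hDA hd) c hc).symm)
          apply member_of_noncomm hN hMn hC hD ?_ h1
          intro h0
          apply hDC
          rw [Subgroup.commutator_comm] at h0
          exact Subgroup.commutator_eq_bot_iff_le_centralizer.mp h0
      · exact member_of_noncomm hN hMn hA hC hcomm hc0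
    obtain ⟨E, hE, hEM⟩ := key
    exact comm_le_of_member hN hMn hE hEM

end Dichotomy

end Cfsg.Agent.H85
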