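import Mathlib
import Cfsg.Prelude.Def_RootSubgroups
import Cfsg.Agent.H85.RootNormal

/-!
# Abstract root subgroups: the quasisimplicity criterion (Timmesfeld II (2.14))
-/

set_option autoImplicit false

namespace Cfsg.Agent.H85

open Cfsg
open scoped commutatorElement

variable {G : Type*} [Group G] {S : Set (Subgroup G)}

theorem conn_conj (h1 : IsConnectedFamily (FAdj S) S) :
    ∀ C ∈ S, ∀ D ∈ S, ∃ g : G, D = conjBy C g := by
  intro C hC D hD
  have key : ∀ D, Relation.ReflTransGen (FAdj S) C D → ∃ g : G, D = conjBy C g := by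
    intro D hr
    induction hr with
    | refl => exact ⟨1, (conjBy_one C).symm⟩
    | tail _ hbc ih =>
      obtain ⟨g, rfl⟩ := ih
      obtain ⟨x, _, hx⟩ := rop_right_mem_unipotent hbc.2.2
      exact ⟨x * g, by rw [hx, conjBy_conjBy]⟩
  exact key D (h1 C hC D hD)

theorem conn_part (h2 : ∃ A ∈ S, ∃ B ∈ S, A ≠ B) (h1 : IsConnectedFamily (FAdj S) S) :
    ∀ A ∈ S, ∃ A' ∈ S, IsRankOnePair A A' := by
  intro A hA
  obtain ⟨A₁, hA₁, B₁, hB₁, hne⟩ := h2
  have : ∃ B ∈ S, A ≠ B := by
    by_cases h : A = A₁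
    · exact ⟨B₁, hB₁, h ▸ hne⟩
    · exact ⟨A₁, hA₁, h⟩
  obtain ⟨B, hB, hAB⟩ := this
  rcases Relation.ReflTransGen.cases_head (h1 A hA B hB) with h0 | ⟨C, hC, _⟩
  · exact absurd h0 hAB
  · exact ⟨C, hC.2.1, hC.2.2⟩

theorem commutator_sup_eq_top (hS : IsRootSubgroupSet S)
    (hconj : ∀ C ∈ S, ∀ D ∈ S, ∃ g : G, D = conjBy C g) {A : Subgroup G} (hA : A ∈ S) :
    commutator G ⊔ A = ⊤ := by
  rw [eq_top_iff, ← hS.generates]
  refine iSup₂_le ?_
  intro B hB
  obtain ⟨g, rfl⟩ := hconj A hA B hB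
  intro x hx
  rw [mem_conjBy] at hx
  have e : x = ⁅g, g⁻¹ * x * g⁆ * (g⁻¹ * x * g) := by rw [commutatorElement_def]; group
  rw [e]
  refine Subgroup.mul_mem _ (Subgroup.mem_sup_left ?_) (Subgroup.mem_sup_right hx)
  rw [commutator_def]
  exact Subgroup.commutator_mem_commutator (Subgroup.mem_top _) (Subgroup.mem_top _)

theorem eq_top_of_member_le (hS : IsRootSubgroupSet S)
    (hconj : ∀ C ∈ S, ∀ D ∈ S, ∃ g : G, D = conjBy C g) {K : Subgroup G} (hK : K.Normal)
    {E : Subgroup G} (hE : E ∈ S) (hle : E ≤ K) : K = ⊤ := by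
  rw [eq_top_iff, ← hS.generates]
  refine iSup₂_le ?_
  intro B hB
  obtain ⟨g, rfl⟩ := hconj E hE B hB
  have := conjBy_mono hle g
  rwa [conjBy_normal hK] at this

theorem ne_bot_of_three_lt_card {H : Subgroup G} (h : 3 < ENat.card ↥H) : H ≠ ⊥ := by
  have h1 : ((({1} : Finset G).card : ℕ) : ℕ∞) < ENat.card ↥H := by
    refine lt_of_le_of_lt ?_ h
    rw [Finset.card_singleton]
    norm_num
  obtain ⟨w, hw, hw1⟩ := exists_not_mem_of_card_lt _ h1
  rw [Finset.mem_singleton] at hw1
  intro hbot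
  rw [hbot] at hw
  exact hw1 (Subgroup.mem_bot.mp hw)

theorem enat_card_mono {H H' : Subgroup G} (h : H ≤ H') : ENat.card ↥H ≤ ENat.card ↥H' :=
  ENat.card_le_card_of_injective (Subgroup.inclusion_injective h)

theorem setup_top (hS : IsRootSubgroupSet S) (h2 : ∃ A ∈ S, ∃ B ∈ S, A ≠ B)
    (h1 : IsConnectedFamily (FAdj S) S)
    (h2' : ∀ A ∈ S, ∀ C ∈ S, A ≠ C → centralizingMembers S A ≠ centralizingMembers S C)
    (h3 : IsDegenerateRootSet S → ∀ A ∈ S, 3 < ENat.card A)
    (h4 : ∀ A ∈ S, ∀ B ∈ S, IsRankOnePair A B → IsSpecialRankOnePair A B) :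
    NormalSetup S (⊤ : Subgroup G) where
  hS := hS
  hpart := conn_part h2 h1
  hconj := conn_conj h1
  hconn := h1
  hH1 := h2'
  hspec := h4
  hKn := Subgroup.normal_top
  hKc := le_top
  hK0 := fun A hA => by rw [inf_top_eq]; exact hS.ne_bot A hA
  hgen := by
    have e : (⨆ A ∈ S, A ⊓ (⊤ : Subgroup G)) = ⨆ A ∈ S, A := by simp only [inf_top_eq]
    rw [e, hS.generates]
  hKt := fun A _ => top_sup_eq _
  hdeg := fun hd A hA => by rw [inf_top_eq]; exact h3 hd A hA
  hnd := fun _ => rfl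

/-- Every normal subgroup is central or contains the commutator subgroup. -/
theorem normal_central_or (hS : IsRootSubgroupSet S) (h2 : ∃ A ∈ S, ∃ B ∈ S, A ≠ B)
    (h1 : IsConnectedFamily (FAdj S) S)
    (h2' : ∀ A ∈ S, ∀ C ∈ S, A ≠ C → centralizingMembers S A ≠ centralizingMembers S C)
    (h3 : IsDegenerateRootSet S → ∀ A ∈ S, 3 < ENat.card A)
    (h4 : ∀ A ∈ S, ∀ B ∈ S, IsRankOnePair A B → IsSpecialRankOnePair A B)
    {M : Subgroup G} (hM : M.Normal) : M ≤ Subgroup.center G ∨ commutator G ≤ M := by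
  have hMn : (⊤ : Subgroup G) ≤ Subgroup.normalizer (M : Set G) := by
    rw [Subgroup.normalizer_eq_top]
  rcases normal_dichotomy (setup_top hS h2 h1 h2' h3 h4) hMn with h | h
  · left
    intro m hm
    rw [Subgroup.mem_center_iff]
    intro g
    exact (h m hm g (Subgroup.mem_top g)).symm
  · right
    rw [commutator_def]
    exact h

theorem setup_commutator (hS : IsRootSubgroupSet S) (h2 : ∃ A ∈ S, ∃ B ∈ S, A ≠ B)
    (h1 : IsConnectedFamily (FAdj S) S)
    (h2' : ∀ A ∈ S, ∀ C ∈ S, A ≠ C → centralizingMembers S A ≠ centralizingMembers S C)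
    (h3 : IsDegenerateRootSet S → ∀ A ∈ S, 3 < ENat.card A)
    (h4 : ∀ A ∈ S, ∀ B ∈ S, IsRankOnePair A B → IsSpecialRankOnePair A B) :
    NormalSetup S (commutator G) := by
  have hpart := conn_part h2 h1
  have hconj := conn_conj h1
  have hKn : (commutator G).Normal := inferInstance
  have hnd : ¬ IsDegenerateRootSet S → commutator G = ⊤ := by
    intro hd
    unfold IsDegenerateRootSet at hd
    push Not at hd
    obtain ⟨E, hE, F, hF, hEF⟩ := hd
    apply eq_top_of_member_le hS hconj hKn hEF.1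
    rw [commutator_def]
    exact Subgroup.commutator_mono le_top le_top
  have hdeg : IsDegenerateRootSet S → ∀ A ∈ S, 3 < ENat.card ↥(A ⊓ commutator G) := by
    intro hd A hA
    obtain ⟨B, hB, hAB⟩ := hpart A hA
    have hc := special_card_inf_commutator (h4 A hA B hB hAB) (hS.commutative A hA) (h3 hd A hA)
    refine lt_of_lt_of_le hc (enat_card_mono (inf_le_inf_left A ?_))
    rw [commutator_def]
    exact Subgroup.commutator_mono le_top le_top
  have hK0 : ∀ A ∈ S, A ⊓ commutator G ≠ ⊥ := by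
    intro A hA
    by_cases hd : IsDegenerateRootSet S
    · exact ne_bot_of_three_lt_card (hdeg hd A hA)
    · rw [hnd hd, inf_top_eq]
      exact hS.ne_bot A hA
  have hpair : ∀ A ∈ S, ∀ B ∈ S, IsRankOnePair A B →
      IsSpecialRankOnePair (A ⊓ commutator G) (B ⊓ commutator G) := by
    intro A hA B hB hAB
    exact special_inf_pair hKn le_rfl (h4 A hA B hB hAB) (hS.commutative A hA)
      (hS.commutative B hB) (hK0 A hA)
  have hgen : commutator G ≤ ⨆ A ∈ S, A ⊓ commutator G := by
    have hLn : (⨆ A ∈ S, A ⊓ commutator G).Normal := by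
      constructor
      intro x hx g
      have h5 : conjBy (⨆ A ∈ S, A ⊓ commutator G) g ≤ ⨆ A ∈ S, A ⊓ commutator G := by
        unfold conjBy
        rw [Subgroup.map_iSup]
        refine iSup_le ?_
        intro A
        rw [Subgroup.map_iSup]
        refine iSup_le ?_
        intro hA
        have h6 : Subgroup.map (MulAut.conj g).toMonoidHom (A ⊓ commutator G)
            = conjBy A g ⊓ commutator G := by
          have := conjBy_inf A (commutator G) g
          rw [conjBy_normal hKn] at this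
          exact this
        rw [h6]
        exact le_iSup₂_of_le (conjBy A g) (hS.conj_mem A hA g) le_rfl
      exact h5 (conj_mem_conjBy hx g)
    rcases normal_central_or hS h2 h1 h2' h3 h4 hLn with h | h
    · exfalso
      obtain ⟨A, hA, _⟩ := h2
      obtain ⟨B, hB, hAB⟩ := hpart A hA
      have hp := (hpair A hA B hB hAB).1
      obtain ⟨a, ha, ha1⟩ := rop_exists_left hp
      obtain ⟨b, hb, hb1⟩ := rop_exists_right hp
      apply rop_not_commute hp ha ha1 hb hb1
      have hle : A ⊓ commutator G ≤ ⨆ A ∈ S, A ⊓ commutator G := le_iSup₂_of_le A hA le_rfl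
      have hc : a ∈ Subgroup.center G := h (hle ha)
      exact (Subgroup.mem_center_iff.mp hc b).symm
    · exact h
  exact
    { hS := hS
      hpart := hpart
      hconj := hconj
      hconn := h1
      hH1 := h2'
      hspec := h4
      hKn := hKn
      hKc := le_rfl
      hK0 := hK0
      hgen := hgen
      hKt := fun A hA => commutator_sup_eq_top hS hconj hA
      hdeg := hdeg
      hnd := hnd }

/-- The commutator subgroup is perfect. -/
theorem commutator_perfect (hS : IsRootSubgroupSet S) (h2 : ∃ A ∈ S, ∃ B ∈ S, A ≠ B)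
    (h1 : IsConnectedFamily (FAdj S) S)
    (h2' : ∀ A ∈ S, ∀ C ∈ S, A ≠ C → centralizingMembers S A ≠ centralizingMembers S C)
    (h3 : IsDegenerateRootSet S → ∀ A ∈ S, 3 < ENat.card A)
    (h4 : ∀ A ∈ S, ∀ B ∈ S, IsRankOnePair A B → IsSpecialRankOnePair A B) :
    ⁅commutator G, commutator G⁆ = commutator G := by
  have hN := setup_commutator hS h2 h1 h2' h3 h4
  have hMn : (⁅commutator G, commutator G⁆ : Subgroup G).Normal := inferInstance
  rcases normal_central_or hS h2 h1 h2' h3 h4 hMn with h | h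
  · exfalso
    obtain ⟨A, hA, _⟩ := h2
    obtain ⟨B, hB, hAB⟩ := hN.hpart A hA
    have hs := setup_pair hN hA hB hAB
    obtain ⟨a, ha, ha1⟩ := rop_exists_left hs.1
    obtain ⟨b, hb, hb1, hab⟩ := special_exists_right hs.1 ha ha1
    apply rop_not_commute hs.1 ha ha1 hb hb1
    have hmem : a * b ∈ ⁅commutator G, commutator G⁆ :=
      Subgroup.commutator_mono (sup_le inf_le_right inf_le_right)
        (sup_le inf_le_right inf_le_right) (special_mul_mem hs ha ha1 hb hb1 hab)
    have hc := Subgroup.mem_center_iff.mp (h hmem) a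
    -- `a * (a * b) = a * b * a`
    have : a * (a * b) = a * (b * a) := by rw [hc]; group
    exact mul_left_cancel this
  · exact le_antisymm (commutator_self_le _) h

/-- The commutator subgroup is quasisimple. -/
theorem commutator_quasisimple (hS : IsRootSubgroupSet S) (h2 : ∃ A ∈ S, ∃ B ∈ S, A ≠ B)
    (h1 : IsConnectedFamily (FAdj S) S)
    (h2' : ∀ A ∈ S, ∀ C ∈ S, A ≠ C → centralizingMembers S A ≠ centralizingMembers S C)
    (h3 : IsDegenerateRootSet S → ∀ A ∈ S, 3 < ENat.card A)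
    (h4 : ∀ A ∈ S, ∀ B ∈ S, IsRankOnePair A B → IsSpecialRankOnePair A B) :
    IsQuasisimple ↥(commutator G) := by
  have hN := setup_commutator hS h2 h1 h2' h3 h4
  have hperf := commutator_perfect hS h2 h1 h2' h3 h4
  have hp : Group.IsPerfect ↥(commutator G) := Subgroup.isPerfect_iff.mpr hperf
  refine ⟨hp, ?_⟩
  have hnt : Nontrivial (↥(commutator G) ⧸ Subgroup.center ↥(commutator G)) := by
    rw [QuotientGroup.nontrivial_iff]
    intro htop
    obtain ⟨A, hA, _⟩ := h2
    apply hN.hK0 A hA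
    have hKbot : commutator G = ⊥ := by
      rw [← hperf]
      apply commutator_eq_bot_of_comm
      intro x hx y hy
      have hxc : (⟨x, hx⟩ : ↥(commutator G)) ∈ Subgroup.center ↥(commutator G) := by
        rw [htop]; exact Subgroup.mem_top _
      have h5 := Subgroup.mem_center_iff.mp hxc ⟨y, hy⟩
      exact (congrArg Subtype.val h5).symm
    rw [hKbot, inf_bot_eq]
  refine { exists_pair_ne := hnt.exists_pair_ne, eq_bot_or_eq_top_of_normal := ?_ }
  intro H hH
  have hNn : (H.comap (QuotientGroup.mk' (Subgroup.center ↥(commutator G)))).Normal := hH.comap _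
  have hHN : H = (H.comap (QuotientGroup.mk' (Subgroup.center ↥(commutator G)))).map
      (QuotientGroup.mk' (Subgroup.center ↥(commutator G))) := by
    rw [Subgroup.map_comap_eq_self_of_surjective (QuotientGroup.mk'_surjective _)]
  have hMn : commutator G ≤ Subgroup.normalizer
      ((((H.comap (QuotientGroup.mk' (Subgroup.center ↥(commutator G)))).map
        (commutator G).subtype : Subgroup G)) : Set G) := by
    intro k hk
    apply mem_normalizer_of_conj_mem
    · rintro _ ⟨n, hn, rfl⟩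
      exact ⟨⟨k, hk⟩ * n * ⟨k, hk⟩⁻¹, hNn.conj_mem n hn ⟨k, hk⟩, rfl⟩
    · rintro _ ⟨n, hn, rfl⟩
      refine ⟨⟨k, hk⟩⁻¹ * n * ⟨k, hk⟩, ?_, rfl⟩
      have := hNn.conj_mem n hn (⟨k, hk⟩⁻¹)
      simpa using this
  rcases normal_dichotomy hN hMn with h | h
  · left
    rw [hHN, eq_bot_iff]
    rintro _ ⟨x, hx, rfl⟩
    rw [Subgroup.mem_bot, QuotientGroup.mk'_apply, QuotientGroup.eq_one_iff,
      Subgroup.mem_center_iff]
    intro y
    apply Subtype.ext
    have := h (x : G) ⟨x, hx, rfl⟩ (y : G) y.2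
    exact this.symm
  · right
    have hNtop : H.comap (QuotientGroup.mk' (Subgroup.center ↥(commutator G))) = ⊤ := by
      rw [eq_top_iff]
      intro x _
      have hx : (x : G) ∈ (H.comap (QuotientGroup.mk' (Subgroup.center ↥(commutator G)))).map
          (commutator G).subtype := h (by rw [hperf]; exact x.2)
      obtain ⟨n, hn, hnx⟩ := hx
      have : n = x := Subtype.ext hnx
      rw [← this]; exact hn
    rw [hHN, hNtop, ← MonoidHom.range_eq_map, MonoidHom.range_eq_top]
    exact QuotientGroup.mk'_surjective _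

/-- The quasisimplicity criterion. -/
theorem quasisimplicity_criterion (hS : IsRootSubgroupSet S) (h2 : ∃ A ∈ S, ∃ B ∈ S, A ≠ B)
    (h1 : IsConnectedFamily (FAdj S) S)
    (h2' : ∀ A ∈ S, ∀ C ∈ S, A ≠ C → centralizingMembers S A ≠ centralizingMembers S C)
    (h3 : IsDegenerateRootSet S → ∀ A ∈ S, 3 < ENat.card A)
    (h4 : ∀ A ∈ S, ∀ B ∈ rankOnePartners S A, IsSpecialRankOnePair A B) :
    (∀ A ∈ S, commutator G ⊔ A = ⊤ ∧ A ⊓ commutator G ≠ ⊥) ∧ IsQuasisimple ↥(commutator G) ∧
    (IsNondegenerateRootSet S → commutator G = ⊤) ∧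
    ((∃ A ∈ S, ∃ B ∈ rankOnePartners S A, Group.IsPerfect ↥(A ⊔ B)) → commutator G = ⊤) := by
  have h4' : ∀ A ∈ S, ∀ B ∈ S, IsRankOnePair A B → IsSpecialRankOnePair A B :=
    fun A hA B hB hAB => h4 A hA B ⟨hB, hAB⟩
  have hN := setup_commutator hS h2 h1 h2' h3 h4'
  refine ⟨fun A hA => ⟨hN.hKt A hA, hN.hK0 A hA⟩, commutator_quasisimple hS h2 h1 h2' h3 h4', ?_, ?_⟩
  · rintro ⟨_, _, E, hE, F, hF, hEF⟩
    exact hN.hnd (fun hd => hd E hE F hF hEF)
  · rintro ⟨A, hA, B, _, hp⟩
    apply eq_top_of_member_le hS hN.hconj hN.hKn hA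
    have h5 : ⁅A ⊔ B, A ⊔ B⁆ = A ⊔ B := Subgroup.isPerfect_iff.mp hp
    calc A ≤ A ⊔ B := le_sup_left
      _ = ⁅A ⊔ B, A ⊔ B⁆ := h5.symm
      _ ≤ commutator G := by
        rw [commutator_def]
        exact Subgroup.commutator_mono le_top le_top

end Cfsg.Agent.H85
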