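import Mathlib
import Cfsg.Prelude.Def_RootSubgroups
import Cfsg.Agent.H85.Transv
import Cfsg.Agent.H85.RootConn

/-!
# Restricting a family of subgroups to the subgroup it generates (helper85)

Generic lemmas: a family `S` of subgroups of `G` satisfying the local root subgroup axioms
(including the commutator case) restricts to a set of abstract root subgroups of its join, and
connectivity of the rank one graph can be checked through non-commuting pairs.
(The first lemmas follow helper17's `H17/SURoot` restriction lemmas, restated here to keep the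
import closure small.)
-/

set_option autoImplicit false

namespace Cfsg.Agent.H85

open Cfsg
open scoped commutatorElement

section Pull

variable {H G : Type*} [Group H] [Group G]

theorem roc_comap {f : H →* G} (hf : Function.Injective f) {A B : Subgroup H}
    (h : RankOneCondition (A.map f) (B.map f)) : RankOneCondition A B := by
  intro a ha ha1
  obtain ⟨b', hb', hb1, hab⟩ := h (f a) (Subgroup.mem_map_of_mem f ha)
    (fun he => ha1 (hf (he.trans (map_one f).symm)))
  obtain ⟨b, hb, rfl⟩ := hb'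
  refine ⟨b, hb, fun he => hb1 (by rw [he, map_one]), ?_⟩
  rw [← map_inv, ← map_inv, conjBy_map, conjBy_map] at hab
  exact Subgroup.map_injective hf hab

theorem rop_comap {f : H →* G} (hf : Function.Injective f) {A B : Subgroup H}
    (h : IsRankOnePair (A.map f) (B.map f)) : IsRankOnePair A B := by
  have := h.nilpotent_left
  have := h.nilpotent_right
  exact ⟨fun he => h.ne (by rw [he]),
    Group.nilpotent_of_mulEquiv (A.equivMapOfInjective f hf).symm,
    Group.nilpotent_of_mulEquiv (B.equivMapOfInjective f hf).symm,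
    roc_comap hf h.cond_left, roc_comap hf h.cond_right⟩

theorem psl2_comap {k : Type*} [Field k] {f : H →* G} (hf : Function.Injective f)
    {A B : Subgroup H} (h : IsPSL2PairOver k (A.map f) (B.map f)) : IsPSL2PairOver k A B := by
  obtain ⟨φ, hr, hk, hU, hL⟩ := h
  have hmem : ∀ x, φ x ∈ f.range := by
    intro x
    have hx : φ x ∈ φ.range := ⟨x, rfl⟩
    rw [hr, ← Subgroup.map_sup] at hx
    obtain ⟨y, -, hy⟩ := hx
    exact ⟨y, hy⟩
  obtain ⟨ψ, hψ⟩ : ∃ ψ : Matrix.SpecialLinearGroup (Fin 2) k →* H, ∀ x, f (ψ x) = φ x :=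
    ⟨(MonoidHom.ofInjective hf).symm.toMonoidHom.comp (φ.codRestrict f.range hmem),
      fun x => MonoidHom.apply_ofInjective_symm hf ⟨φ x, hmem x⟩⟩
  have hcomp : f.comp ψ = φ := MonoidHom.ext hψ
  refine ⟨ψ, ?_, ?_, ?_, ?_⟩
  · apply Subgroup.map_injective hf
    rw [Subgroup.map_sup, ← hr, MonoidHom.map_range, hcomp]
  · intro x hx
    apply hk
    rw [MonoidHom.mem_ker] at hx ⊢
    rw [← hψ, hx, map_one]
  · apply Subgroup.map_injective hf
    rw [Subgroup.map_map, hcomp, hU]
  · apply Subgroup.map_injective hf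
    rw [Subgroup.map_map, hcomp, hL]

end Pull

section Restrict

variable {G : Type*} [Group G]

/-- The family `S` restricted to its join. -/
def restrictSet (S : Set (Subgroup G)) : Set (Subgroup ↥(⨆ B ∈ S, B)) :=
  (fun A : Subgroup G => A.subgroupOf (⨆ B ∈ S, B)) '' S

theorem subgroupOf_map_of_le {A K : Subgroup G} (h : A ≤ K) :
    (A.subgroupOf K).map K.subtype = A := by
  rw [Subgroup.subgroupOf_map_subtype, inf_eq_left.mpr h]

theorem conjBy_subgroupOf_eq (A K : Subgroup G) (g : K) :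
    conjBy (A.subgroupOf K) g = (conjBy A (g : G)).subgroupOf K := by
  ext x
  rw [mem_conjBy, Subgroup.mem_subgroupOf, Subgroup.mem_subgroupOf, mem_conjBy]
  rfl

theorem le_join_mem {S : Set (Subgroup G)} {A : Subgroup G} (hA : A ∈ S) :
    A ≤ ⨆ B ∈ S, B :=
  le_iSup₂ (f := fun (A : Subgroup G) (_ : A ∈ S) => A) A hA

theorem restrictSet_iSup (S : Set (Subgroup G)) :
    (⨆ A' ∈ restrictSet S, A') = ⊤ := by
  unfold restrictSet
  apply Subgroup.map_injective (Subgroup.subtype_injective (⨆ B ∈ S, B))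
  rw [iSup_image, Subgroup.map_iSup, ← MonoidHom.range_eq_map, Subgroup.range_subtype]
  apply le_antisymm
  · apply iSup_le
    intro A
    rw [Subgroup.map_iSup]
    apply iSup_le
    intro hA
    rw [subgroupOf_map_of_le (le_join_mem hA)]
    exact le_join_mem hA
  · apply iSup₂_le
    intro A hA
    refine le_trans ?_ (le_iSup _ A)
    rw [Subgroup.map_iSup]
    refine le_trans ?_ (le_iSup _ hA)
    rw [subgroupOf_map_of_le (le_join_mem hA)]

theorem restrict_comm {S : Set (Subgroup G)} {A B : Subgroup G}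
    (h : ∀ a ∈ A, ∀ b ∈ B, a * b = b * a) :
    ⁅A.subgroupOf (⨆ B ∈ S, B), B.subgroupOf (⨆ B ∈ S, B)⁆ = ⊥ := by
  rw [Subgroup.commutator_eq_bot_iff_le_centralizer]
  intro a ha
  rw [Subgroup.mem_centralizer_iff]
  intro b hb
  apply Subtype.ext
  exact (h a ha b hb).symm

theorem restrict_rop {S : Set (Subgroup G)} {A B : Subgroup G} (hA : A ∈ S) (hB : B ∈ S)
    (h : IsRankOnePair A B) :
    IsRankOnePair (A.subgroupOf (⨆ B ∈ S, B)) (B.subgroupOf (⨆ B ∈ S, B)) := by
  apply rop_comap (Subgroup.subtype_injective (⨆ B ∈ S, B))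
  rw [subgroupOf_map_of_le (le_join_mem hA), subgroupOf_map_of_le (le_join_mem hB)]
  exact h

theorem restrict_commutator {S : Set (Subgroup G)} {A B : Subgroup G} (hA : A ∈ S) (hB : B ∈ S)
    (hC : ⁅A, B⁆ ∈ S) :
    ⁅A.subgroupOf (⨆ B ∈ S, B), B.subgroupOf (⨆ B ∈ S, B)⁆ = ⁅A, B⁆.subgroupOf (⨆ B ∈ S, B) := by
  apply Subgroup.map_injective (Subgroup.subtype_injective (⨆ B ∈ S, B))
  rw [Subgroup.map_commutator, subgroupOf_map_of_le (le_join_mem hA),
    subgroupOf_map_of_le (le_join_mem hB), subgroupOf_map_of_le (le_join_mem hC)]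

theorem restrict_rcc {S : Set (Subgroup G)} {A B : Subgroup G} (hA : A ∈ S) (hB : B ∈ S)
    (h : RootCommutatorCase S A B) :
    RootCommutatorCase (restrictSet S) (A.subgroupOf (⨆ B ∈ S, B))
      (B.subgroupOf (⨆ B ∈ S, B)) := by
  have hc := restrict_commutator hA hB h.1
  have hinj := Subgroup.subtype_injective (⨆ B ∈ S, B)
  refine ⟨?_, ?_, ?_, ?_⟩
  · rw [hc]
    exact ⟨_, h.1, rfl⟩
  · intro c hcm x hx
    rw [hc, Subgroup.mem_subgroupOf] at hcm
    have hx' : (x : G) ∈ A ⊔ B := by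
      have := Subgroup.mem_map_of_mem (⨆ B ∈ S, B).subtype hx
      rw [Subgroup.map_sup, subgroupOf_map_of_le (le_join_mem hA),
        subgroupOf_map_of_le (le_join_mem hB)] at this
      exact this
    apply Subtype.ext
    exact h.2.1 _ hcm _ hx'
  · intro a ha ha1
    have ha' : (a : G) ∈ A := Subgroup.mem_subgroupOf.mp ha
    have ha1' : (a : G) ≠ 1 := fun he => ha1 (Subtype.ext he)
    apply Subgroup.map_injective hinj
    rw [hc, subgroupOf_map_of_le (le_join_mem h.1), MonoidHom.map_closure,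
      ← h.2.2.1 _ ha' ha1']
    congr 1
    ext y
    constructor
    · rintro ⟨_, ⟨b, hb, rfl⟩, rfl⟩
      exact ⟨(b : G), Subgroup.mem_subgroupOf.mp hb, rfl⟩
    · rintro ⟨b, hb, rfl⟩
      exact ⟨_, ⟨⟨b, le_join_mem hB hb⟩, Subgroup.mem_subgroupOf.mpr hb, rfl⟩, rfl⟩
  · intro b hb hb1
    have hb' : (b : G) ∈ B := Subgroup.mem_subgroupOf.mp hb
    have hb1' : (b : G) ≠ 1 := fun he => hb1 (Subtype.ext he)
    apply Subgroup.map_injective hinj
    rw [hc, subgroupOf_map_of_le (le_join_mem h.1), MonoidHom.map_closure,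
      ← h.2.2.2 _ hb' hb1']
    congr 1
    ext y
    constructor
    · rintro ⟨_, ⟨a, ha, rfl⟩, rfl⟩
      exact ⟨(a : G), Subgroup.mem_subgroupOf.mp ha, rfl⟩
    · rintro ⟨a, ha, rfl⟩
      exact ⟨_, ⟨⟨a, le_join_mem hA ha⟩, Subgroup.mem_subgroupOf.mpr ha, rfl⟩, rfl⟩

/-- A family satisfying the local axioms restricts to a set of abstract root subgroups of its
join. -/
theorem restrictSet_rootSet (S : Set (Subgroup G))
    (hcomm : ∀ A ∈ S, IsMulCommutative A) (hne : ∀ A ∈ S, A ≠ ⊥)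
    (hconj : ∀ A ∈ S, ∀ g : G, conjBy A g ∈ S)
    (hpair : ∀ A ∈ S, ∀ B ∈ S, (∀ a ∈ A, ∀ b ∈ B, a * b = b * a) ∨ IsRankOnePair A B ∨
      RootCommutatorCase S A B) :
    IsRootSubgroupSet (restrictSet S) := by
  refine ⟨?_, ?_, restrictSet_iSup S, ?_, ?_⟩
  · rintro _ ⟨A, hA, rfl⟩
    refine ⟨⟨fun a b => ?_⟩⟩
    apply Subtype.ext
    apply Subtype.ext
    have h0 := (hcomm A hA).1.1 ⟨a.1.1, a.2⟩ ⟨b.1.1, b.2⟩
    have h1 : (a.1.1 : G) * b.1.1 = b.1.1 * a.1.1 := congrArg Subtype.val h0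
    exact h1
  · rintro _ ⟨A, hA, rfl⟩ hbot
    apply hne A hA
    rw [Subgroup.eq_bot_iff_forall] at hbot ⊢
    intro a ha
    have := hbot ⟨a, le_join_mem hA ha⟩ (Subgroup.mem_subgroupOf.mpr ha)
    exact congrArg Subtype.val this
  · rintro _ ⟨A, hA, rfl⟩ g
    exact ⟨conjBy A (g : G), hconj A hA g, (conjBy_subgroupOf_eq A _ g).symm⟩
  · rintro _ ⟨A, hA, rfl⟩ _ ⟨B, hB, rfl⟩
    rcases hpair A hA B hB with h | h | h
    · exact Or.inl (restrict_comm h)
    · exact Or.inr (Or.inl (restrict_rop hA hB h))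
    · exact Or.inr (Or.inr (restrict_rcc hA hB h))

/-- The restricted family is a set of `k`-root subgroups when the rank one pairs of the original
family are images of `SL₂(k)`. -/
theorem restrictSet_kroot {k : Type*} [Field k] (S : Set (Subgroup G))
    (hS : IsRootSubgroupSet (restrictSet S))
    (hpair : ∀ A ∈ S, ∀ B ∈ S, (∀ a ∈ A, ∀ b ∈ B, a * b = b * a) ∨
      IsPSL2PairOver k A B ∨ RootCommutatorCase S A B) :
    IsKRootSubgroupSet k (restrictSet S) := by
  refine ⟨hS, ?_⟩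
  rintro _ ⟨A, hA, rfl⟩ _ ⟨B, hB, rfl⟩ hrop
  obtain ⟨a, ha, ha1⟩ := rop_exists_left hrop
  obtain ⟨b, hb, hb1⟩ := rop_exists_right hrop
  rcases hpair A hA B hB with h | h | h
  · exfalso
    apply rop_not_commute hrop ha ha1 hb hb1
    apply Subtype.ext
    exact h _ (Subgroup.mem_subgroupOf.mp ha) _ (Subgroup.mem_subgroupOf.mp hb)
  · apply psl2_comap (Subgroup.subtype_injective (⨆ B ∈ S, B))
    rw [subgroupOf_map_of_le (le_join_mem hA), subgroupOf_map_of_le (le_join_mem hB)]
    exact h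
  · exfalso
    exact rop_not_conj_comm hrop ha ha1
      (rcc_conj_comm hS ⟨B, hB, rfl⟩ (restrict_rcc hA hB h) ha)

/-- Two non-commuting members of the family are joined in the rank one graph of the family,
provided the restricted family is a set of abstract root subgroups and every member has a rank
one partner. -/
theorem restrict_path_of_noncomm (S : Set (Subgroup G))
    (hS : IsRootSubgroupSet (restrictSet S))
    (hpart : ∀ A ∈ S, ∃ B ∈ S, IsRankOnePair A B) {A D : Subgroup G} (hA : A ∈ S) (hD : D ∈ S)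
    (hnc : ¬ ∀ a ∈ A, ∀ d ∈ D, a * d = d * a) :
    Relation.ReflTransGen (FAdj S) A D := by
  have hpart' : ∀ A' ∈ restrictSet S, ∃ B' ∈ restrictSet S, IsRankOnePair A' B' := by
    rintro _ ⟨A, hA, rfl⟩
    obtain ⟨B, hB, hAB⟩ := hpart A hA
    exact ⟨_, ⟨B, hB, rfl⟩, restrict_rop hA hB hAB⟩
  have hA' : A.subgroupOf (⨆ B ∈ S, B) ∈ restrictSet S := ⟨A, hA, rfl⟩
  have hD' : D.subgroupOf (⨆ B ∈ S, B) ∈ restrictSet S := ⟨D, hD, rfl⟩
  have hpath : Relation.ReflTransGen (FAdj (restrictSet S)) (A.subgroupOf (⨆ B ∈ S, B))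
      (D.subgroupOf (⨆ B ∈ S, B)) := by
    by_contra hno
    have hne : componentOf (FAdj (restrictSet S)) (restrictSet S) (A.subgroupOf (⨆ B ∈ S, B)) ≠
        componentOf (FAdj (restrictSet S)) (restrictSet S) (D.subgroupOf (⨆ B ∈ S, B)) := by
      intro he
      have hmem : D.subgroupOf (⨆ B ∈ S, B) ∈
          componentOf (FAdj (restrictSet S)) (restrictSet S) (D.subgroupOf (⨆ B ∈ S, B)) :=
        ⟨hD', Relation.ReflTransGen.refl⟩
      rw [← he] at hmem
      exact hno hmem.2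
    have hbot := comm_of_component_ne hS hpart' hA' hD' hne
    apply hnc
    intro a ha d hd
    have := comm_of_commutator_eq_bot hbot
      (e := ⟨a, le_join_mem hA ha⟩) (f := ⟨d, le_join_mem hD hd⟩)
      (Subgroup.mem_subgroupOf.mpr ha) (Subgroup.mem_subgroupOf.mpr hd)
    exact congrArg Subtype.val this
  have key : ∀ X Y : Subgroup ↥(⨆ B ∈ S, B), FAdj (restrictSet S) X Y →
      FAdj S (X.map (⨆ B ∈ S, B).subtype) (Y.map (⨆ B ∈ S, B).subtype) := by
    rintro X Y ⟨⟨X₀, hX₀, rfl⟩, ⟨Y₀, hY₀, rfl⟩, hXY⟩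
    rw [subgroupOf_map_of_le (le_join_mem hX₀), subgroupOf_map_of_le (le_join_mem hY₀)]
    refine ⟨hX₀, hY₀, ?_⟩
    have := rop_map (Subgroup.subtype_injective (⨆ B ∈ S, B)) hXY
    rw [subgroupOf_map_of_le (le_join_mem hX₀), subgroupOf_map_of_le (le_join_mem hY₀)] at this
    exact this
  have hlift : Relation.ReflTransGen (FAdj S)
      ((A.subgroupOf (⨆ B ∈ S, B)).map (⨆ B ∈ S, B).subtype)
      ((D.subgroupOf (⨆ B ∈ S, B)).map (⨆ B ∈ S, B).subtype) :=
    Relation.ReflTransGen.lift (p := FAdj S)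
      (fun X : Subgroup ↥(⨆ B ∈ S, B) => X.map (⨆ B ∈ S, B).subtype) key _ _ hpath
  rw [subgroupOf_map_of_le (le_join_mem hA), subgroupOf_map_of_le (le_join_mem hD)] at hlift
  exact hlift

end Restrict

end Cfsg.Agent.H85
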