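import Mathlib
import Cfsg.Prelude.Def_RootSubgroups
import Cfsg.Agent.H85.RootGen

/-!
# Swapping two commuting root subgroups with a common rank one partner (Timmesfeld II (2.12))
-/

set_option autoImplicit false

namespace Cfsg.Agent.H85

open Cfsg
open scoped commutatorElement

variable {G : Type*} [Group G] {S : Set (Subgroup G)}

/-- Elementwise commutation is preserved by conjugation. -/
theorem comm_conjBy {A C : Subgroup G} (h : ∀ a ∈ A, ∀ c ∈ C, a * c = c * a) (g : G) :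
    ∀ x ∈ conjBy A g, ∀ y ∈ conjBy C g, x * y = y * x := by
  intro x hx y hy
  rw [mem_conjBy] at hx hy
  exact conj_comm_cancel (h _ hx _ hy)

theorem comm_of_comm_conjBy {A C : Subgroup G} {g : G}
    (h : ∀ x ∈ conjBy A g, ∀ y ∈ conjBy C g, x * y = y * x) :
    ∀ a ∈ A, ∀ c ∈ C, a * c = c * a := by
  have := comm_conjBy h g⁻¹
  rw [conjBy_conjBy, conjBy_conjBy, inv_mul_cancel, conjBy_one, conjBy_one] at this
  exact this

/-- Two elementwise commuting subgroups with a common rank one partner are swapped by some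
element of the group. -/
theorem rop_swap {A C E : Subgroup G} (hAC : ∀ a ∈ A, ∀ c ∈ C, a * c = c * a)
    (hAE : IsRankOnePair A E) (hCE : IsRankOnePair C E) :
    ∃ g : G, conjBy A g = C ∧ conjBy C g = A := by
  obtain ⟨c, hc, hc1⟩ := rop_exists_left hCE
  have hci : c⁻¹ ∈ C := C.inv_mem hc
  have hci1 : c⁻¹ ≠ 1 := fun h => hc1 (inv_eq_one.mp h)
  obtain ⟨e, he, he1, hCe⟩ := roc_exists hCE.cond_left hc hc1
  obtain ⟨a, ha, ha1, hEa⟩ := roc_exists hAE.cond_right he he1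
  obtain ⟨e', he', he'1, hCe'⟩ := roc_exists hCE.cond_left hci hci1
  obtain ⟨a', ha', ha'1, hEa'⟩ := roc_exists hAE.cond_right he' he'1
  have hac : a * c = c * a := hAC a ha c hc
  have h1 : ∀ x ∈ conjBy E a, ∀ y ∈ conjBy E c, x * y = y * x := by
    rw [hEa, ← hCe]; exact comm_conjBy hAC e
  have e1 : a⁻¹ * c⁻¹ * a = c⁻¹ := by
    have : c⁻¹ * a = a * c⁻¹ := by
      calc c⁻¹ * a = c⁻¹ * (a * c) * c⁻¹ := by group
        _ = c⁻¹ * (c * a) * c⁻¹ := by rw [hac]
        _ = a * c⁻¹ := by group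
    rw [mul_assoc, this]; group
  have h2 : ∀ x ∈ conjBy E c⁻¹, ∀ y ∈ conjBy E a⁻¹, x * y = y * x := by
    have := comm_conjBy h1 (a⁻¹ * c⁻¹)
    rw [conjBy_conjBy, conjBy_conjBy] at this
    have e2 : a⁻¹ * c⁻¹ * c = a⁻¹ := by group
    rw [e1, e2] at this
    exact this
  have h3 : ∀ x ∈ conjBy E c⁻¹, ∀ y ∈ conjBy E a', x * y = y * x := by
    rw [hEa', ← hCe']
    intro x hx y hy
    exact (comm_conjBy hAC e' y hy x hx).symm
  have haa : a' = a⁻¹ := by
    by_contra hne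
    have hne' : conjBy E a' ≠ conjBy E a⁻¹ :=
      fun h => hne (rop_conjBy_right_injOn hAE ha' (A.inv_mem ha) h)
    have hm1 : conjBy E a' ∈ unipotentSubgroups A E :=
      conjBy_mem_unipotent (rop_right_mem_unipotent hAE) (Subgroup.mem_sup_left ha')
    have hm2 : conjBy E a⁻¹ ∈ unipotentSubgroups A E :=
      conjBy_mem_unipotent (rop_right_mem_unipotent hAE) (Subgroup.mem_sup_left (A.inv_mem ha))
    obtain ⟨-, hsup, -⟩ := rop_pair_of_mem hAE hm1 hm2 hne'
    apply rop_not_conj_comm hCE hci hci1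
    intro x hx b hb
    have hb' : b ∈ conjBy E a' ⊔ conjBy E a⁻¹ := by rw [hsup]; exact Subgroup.mem_sup_right hb
    exact comm_sup (fun y hy => h3 x hx y hy) (fun y hy => h2 x hx y hy) b hb'
  subst haa
  refine ⟨e'⁻¹ * a⁻¹ * c⁻¹ * e, ?_, ?_⟩
  · have e3 : conjBy A (e'⁻¹ * a⁻¹ * c⁻¹ * e) = conjBy (conjBy A e) (e'⁻¹ * a⁻¹ * c⁻¹) := by
      rw [conjBy_conjBy]
    rw [e3, ← hEa, conjBy_conjBy]
    have e4 : e'⁻¹ * a⁻¹ * c⁻¹ * a = e'⁻¹ * c⁻¹ := by
      rw [mul_assoc, mul_assoc, ← mul_assoc a⁻¹, e1]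
    rw [e4, ← conjBy_conjBy, ← hCe', conjBy_conjBy, inv_mul_cancel, conjBy_one]
  · have e3 : conjBy C (e'⁻¹ * a⁻¹ * c⁻¹ * e) = conjBy (conjBy C e) (e'⁻¹ * a⁻¹ * c⁻¹) := by
      rw [conjBy_conjBy]
    rw [e3, hCe, conjBy_conjBy]
    have e4 : e'⁻¹ * a⁻¹ * c⁻¹ * c = e'⁻¹ * a⁻¹ := by group
    rw [e4, ← conjBy_conjBy, hEa', conjBy_conjBy, inv_mul_cancel, conjBy_one]

/-- If `A` commutes with `C`, `(C, E)` is a rank one pair and `(A, E)` is in the commutator
case, then `⁅A, E⁆` does not commute with `C`. -/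
theorem rcc_not_comm_of_partner (hS : IsRootSubgroupSet S) {A C E : Subgroup G}
    (hAC : ∀ a ∈ A, ∀ c ∈ C, a * c = c * a) (hCE : IsRankOnePair C E)
    (hrcc : RootCommutatorCase S A E) : ¬ ∀ p ∈ ⁅A, E⁆, ∀ c ∈ C, p * c = c * p := by
  intro hP
  apply hS.ne_bot _ hrcc.1
  apply commutator_eq_bot_of_comm
  obtain ⟨c, hc, hc1⟩ := rop_exists_left hCE
  obtain ⟨e, he, he1, hCe⟩ := roc_exists hCE.cond_left hc hc1
  intro a ha e' he'
  have hp : ⁅a⁻¹, e⁆ ∈ ⁅A, E⁆ := Subgroup.commutator_mem_commutator (A.inv_mem ha) he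
  have hx : e * a * e⁻¹ ∈ conjBy A e := conj_mem_conjBy ha e
  have hy : c * e' * c⁻¹ ∈ conjBy C e := by rw [hCe]; exact conj_mem_conjBy he' c
  have h1 := comm_conjBy hAC e _ hx _ hy
  have hpc : ⁅a⁻¹, e⁆ * c = c * ⁅a⁻¹, e⁆ := hP _ hp c hc
  have hpe : ⁅a⁻¹, e⁆ * e' = e' * ⁅a⁻¹, e⁆ := rcc_comm_B hrcc _ hp e' he'
  have hac : a * c = c * a := hAC a ha c hc
  have e1 : e * a * e⁻¹ = a * ⁅a⁻¹, e⁆ := by rw [commutatorElement_def]; group
  rw [e1] at h1
  generalize ⁅a⁻¹, e⁆ = p at h1 hpc hpe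
  have hpc' : p * c⁻¹ = c⁻¹ * p := by
    calc p * c⁻¹ = c⁻¹ * (c * p) * c⁻¹ := by group
      _ = c⁻¹ * (p * c) * c⁻¹ := by rw [hpc]
      _ = c⁻¹ * p := by group
  have k1 : a * p * (c * e' * c⁻¹) = a * (c * e' * c⁻¹) * p := by
    calc a * p * (c * e' * c⁻¹) = a * (p * c) * e' * c⁻¹ := by group
      _ = a * (c * p) * e' * c⁻¹ := by rw [hpc]
      _ = a * c * (p * e') * c⁻¹ := by group
      _ = a * c * (e' * p) * c⁻¹ := by rw [hpe]
      _ = a * c * e' * (p * c⁻¹) := by group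
      _ = a * c * e' * (c⁻¹ * p) := by rw [hpc']
      _ = a * (c * e' * c⁻¹) * p := by group
  have k2 : a * (c * e' * c⁻¹) = c * e' * c⁻¹ * a := by
    have : a * (c * e' * c⁻¹) * p = c * e' * c⁻¹ * a * p := by
      rw [← k1, h1]; group
    exact mul_right_cancel this
  calc a * e' = c⁻¹ * (c * a) * e' * c⁻¹ * c := by group
    _ = c⁻¹ * (a * c) * e' * c⁻¹ * c := by rw [hac]
    _ = c⁻¹ * (a * (c * e' * c⁻¹)) * c := by group
    _ = c⁻¹ * (c * e' * c⁻¹ * a) * c := by rw [k2]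
    _ = e' * c⁻¹ * (a * c) := by group
    _ = e' * c⁻¹ * (c * a) := by rw [hac]
    _ = e' * a := by group

/-- In the commutator case a non-identity element of `B` moves `A`, when `A` has a rank one
partner. -/
theorem rcc_conjBy_ne (hS : IsRootSubgroupSet S) {A A' B : Subgroup G} (hA : A ∈ S)
    (hA' : A' ∈ S) (hAA' : IsRankOnePair A A') (h : RootCommutatorCase S A B) {b : G}
    (hb : b ∈ B) (hb1 : b ≠ 1) : conjBy A b ≠ A := by
  intro heq
  obtain ⟨a, ha, ha1⟩ := rop_exists_left hAA'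
  apply hb1
  apply rcc_inj_right hS hA hA' hAA' h ha ha1 hb
  have h1 : ⁅a, b⁆ ∈ A := by
    have : b * a⁻¹ * b⁻¹ ∈ conjBy A b := conj_mem_conjBy (A.inv_mem ha) b
    rw [heq] at this
    have e : ⁅a, b⁆ = a * (b * a⁻¹ * b⁻¹) := by rw [commutatorElement_def]; group
    rw [e]; exact A.mul_mem ha this
  have h2 : ⁅a, b⁆ ∈ A ⊓ ⁅A, B⁆ := ⟨h1, Subgroup.commutator_mem_commutator ha hb⟩
  rw [rcc_inf_eq_bot hS hA' hAA' h] at h2
  exact h2

theorem mem_centralizingMembers_iff {Λ : Set (Subgroup G)} {U B : Subgroup G} :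
    B ∈ centralizingMembers Λ U ↔ B ∈ Λ ∧ ∀ b ∈ B, ∀ u ∈ U, b * u = u * b := by
  constructor
  · rintro ⟨h1, h2⟩
    exact ⟨h1, fun b hb u hu => (Subgroup.mem_centralizer_iff.mp (h2 hb) u hu).symm⟩
  · rintro ⟨h1, h2⟩
    exact ⟨h1, fun b hb => Subgroup.mem_centralizer_iff.mpr (fun u hu => (h2 b hb u hu).symm)⟩

/-- Timmesfeld II (2.12)(1): the sets `C_Σ(A)` are pairwise incomparable or equal. -/
theorem centralizing_eq_of_subset (hS : IsRootSubgroupClass S)
    (hr : ∃ A ∈ S, ∃ B ∈ S, IsRankOnePair A B) {A C : Subgroup G} (hA : A ∈ S) (hC : C ∈ S)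
    (hsub : centralizingMembers S A ⊆ centralizingMembers S C) :
    centralizingMembers S A = centralizingMembers S C := by
  have hAA : A ∈ centralizingMembers S A :=
    mem_centralizingMembers_iff.mpr
      ⟨hA, fun b hb u hu => comm_of_isMulCommutative (hS.1.commutative A hA) hb hu⟩
  have hAC : ∀ a ∈ A, ∀ c ∈ C, a * c = c * a := (mem_centralizingMembers_iff.mp (hsub hAA)).2
  obtain ⟨E, hE, hCE⟩ := class_partner hS hr hC
  have hAE : IsRankOnePair A E := by
    rcases hS.1.pair A hA E hE with h0 | h1 | h2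
    · exfalso
      have hEA : E ∈ centralizingMembers S A :=
        mem_centralizingMembers_iff.mpr
          ⟨hE, fun b hb u hu => (comm_of_commutator_eq_bot h0 hu hb).symm⟩
      have hEC := (mem_centralizingMembers_iff.mp (hsub hEA)).2
      obtain ⟨c, hc, hc1⟩ := rop_exists_left hCE
      obtain ⟨e, he, he1⟩ := rop_exists_right hCE
      exact rop_not_commute hCE hc hc1 he he1 (hEC e he c hc).symm
    · exact h1
    · exfalso
      have hPA : ⁅A, E⁆ ∈ centralizingMembers S A :=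
        mem_centralizingMembers_iff.mpr ⟨h2.1, fun b hb u hu => rcc_comm_A h2 b hb u hu⟩
      have hPC := (mem_centralizingMembers_iff.mp (hsub hPA)).2
      exact rcc_not_comm_of_partner hS.1 hAC hCE h2 hPC
  obtain ⟨g, hg1, hg2⟩ := rop_swap hAC hAE hCE
  apply Set.Subset.antisymm hsub
  intro D hD
  rw [mem_centralizingMembers_iff] at hD ⊢
  refine ⟨hD.1, ?_⟩
  have h1 : conjBy D g ∈ centralizingMembers S A := by
    rw [mem_centralizingMembers_iff]
    refine ⟨hS.1.conj_mem D hD.1 g, ?_⟩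
    have := comm_conjBy hD.2 g
    rw [hg2] at this
    exact this
  have h2 := (mem_centralizingMembers_iff.mp (hsub h1)).2
  rw [← hg1] at h2
  exact comm_of_comm_conjBy h2

/-- Timmesfeld II (2.12)(2), first half: `Ω_A ⊆ Ω_C` forces `A` and `C` to commute. -/
theorem comm_of_rankOnePartners_subset (hS : IsRootSubgroupClass S)
    (hr : ∃ A ∈ S, ∃ B ∈ S, IsRankOnePair A B) {A C : Subgroup G} (hA : A ∈ S) (hC : C ∈ S)
    (hsub : rankOnePartners S A ⊆ rankOnePartners S C) : ⁅A, C⁆ = ⊥ := by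
  rcases hS.1.pair A hA C hC with h0 | h1 | hrcc
  · exact h0
  · exfalso
    exact (hsub ⟨hC, h1⟩).2.ne rfl
  · exfalso
    obtain ⟨A', hA', hAA'⟩ := class_partner hS hr hA
    obtain ⟨C', hC', hCC'⟩ := class_partner hS hr hC
    have hE₀ : ⁅A, C⁆ ∈ S := hrcc.1
    have hcomm : ⁅C, A⁆ = ⁅A, C⁆ := Subgroup.commutator_comm C A
    have hAl : A ∈ linePartners S ⁅A, C⁆ := rcc_line hS.1 hA hA' hAA' hrcc
    have hCl : C ∈ linePartners S ⁅A, C⁆ := by
      have := rcc_line hS.1 hC hC' hCC' (rcc_symm hrcc)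
      rwa [hcomm] at this
    have hE₀C : ⁅A, C⁆ ∈ linePartners S C := linePartners_symm hE₀ hCl
    have h3 : ∀ D ∈ S, IsRankOnePair A D → RootCommutatorCase S ⁅A, C⁆ D := by
      intro D hD hAD
      have hCD : IsRankOnePair C D := (hsub ⟨hD, hAD⟩).2
      obtain ⟨E, hE, hEC, hsup, -, hED, -⟩ := line_point_full hS.1 hC hE₀C hD hCD
      have hEm : E ∈ membersIn S (C ⊔ ⁅C, A⁆) := by
        refine ⟨hE, ?_⟩
        rw [hcomm, ← hsup]; exact le_sup_right
      rw [rcc_membersIn hS.1 hC hC' hCC' (rcc_symm hrcc)] at hEm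
      rcases hEm with ⟨a, ha, rfl⟩ | hEm
      · exfalso
        have h4 : IsRankOnePair A (conjBy D a⁻¹) := by
          have := rop_conj hAD a⁻¹
          rwa [conjBy_of_mem (A.inv_mem ha)] at this
        have h5 : IsRankOnePair C (conjBy D a⁻¹) :=
          (hsub ⟨hS.1.conj_mem D hD a⁻¹, h4⟩).2
        have h6 : IsRankOnePair (conjBy C a) D := by
          have := rop_conj h5 a
          rwa [conjBy_conjBy, mul_inv_cancel, conjBy_one] at this
        exact rop_not_rcc hS.1 hD h6 hED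
      · have : E = ⁅A, C⁆ := by rw [← hcomm]; exact hEm
        rw [← this]; exact hED
    obtain ⟨D', hD', hED'⟩ := class_partner hS hr hE₀
    obtain ⟨E'', hE'', -, -, -, hrcc'', -, -, -, -, hmem, -⟩ :=
      line_point_full hS.1 hE₀ hAl hD' hED'
    have hpt : ∀ P ∈ membersIn S (⁅A, C⁆ ⊔ A), P ≠ E'' → IsRankOnePair P D' := by
      intro P hP hne
      obtain ⟨f, hf, rfl⟩ := hmem P hP hne
      have := rop_conj hED' f
      rwa [conjBy_eq_of_comm (fun d hd => rcc_comm_B hrcc'' f hf d hd)] at this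
    have key : ∃ c' ∈ C, IsRankOnePair (conjBy A c') D' := by
      by_cases hAE : A = E''
      · obtain ⟨c, hc, hc1⟩ := rop_exists_left hCC'
        refine ⟨c, hc, hpt _ ⟨hS.1.conj_mem A hA c, ?_⟩ ?_⟩
        · rw [sup_comm]; exact rcc_conj_le hrcc hc
        · rw [← hAE]; exact rcc_conjBy_ne hS.1 hA hA' hAA' hrcc hc hc1
      · refine ⟨1, C.one_mem, ?_⟩
        rw [conjBy_one]
        exact hpt A ⟨hA, le_sup_right⟩ hAE
    obtain ⟨c', hc', hP⟩ := key
    have hAD₂ : IsRankOnePair A (conjBy D' c'⁻¹) := by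
      have := rop_conj hP c'⁻¹
      rwa [conjBy_conjBy, inv_mul_cancel, conjBy_one] at this
    have hED₂ : IsRankOnePair ⁅A, C⁆ (conjBy D' c'⁻¹) := by
      have := rop_conj hED' c'⁻¹
      rwa [conjBy_eq_of_comm
        (fun d hd => (rcc_comm_B hrcc d hd c'⁻¹ (C.inv_mem hc')).symm)] at this
    have hD₂ : conjBy D' c'⁻¹ ∈ S := hS.1.conj_mem D' hD' c'⁻¹
    exact rop_not_rcc hS.1 hD₂ hED₂ (h3 _ hD₂ hAD₂)

/-- Timmesfeld II (2.12)(2), second half. -/
theorem rankOnePartners_eq_of_subset (hS : IsRootSubgroupClass S)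
    (hr : ∃ A ∈ S, ∃ B ∈ S, IsRankOnePair A B) {A C : Subgroup G} (hA : A ∈ S) (hC : C ∈ S)
    (hsub : rankOnePartners S A ⊆ rankOnePartners S C) :
    rankOnePartners S A = rankOnePartners S C := by
  have h0 := comm_of_rankOnePartners_subset hS hr hA hC hsub
  have hAC : ∀ a ∈ A, ∀ c ∈ C, a * c = c * a :=
    fun a ha c hc => comm_of_commutator_eq_bot h0 ha hc
  obtain ⟨E, hE, hAE⟩ := class_partner hS hr hA
  have hCE : IsRankOnePair C E := (hsub ⟨hE, hAE⟩).2
  obtain ⟨g, hg1, hg2⟩ := rop_swap hAC hAE hCE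
  apply Set.Subset.antisymm hsub
  rintro B ⟨hB, hCB⟩
  refine ⟨hB, ?_⟩
  have h1 : IsRankOnePair A (conjBy B g) := by
    have := rop_conj hCB g
    rwa [hg2] at this
  have h2 : IsRankOnePair C (conjBy B g) := (hsub ⟨hS.1.conj_mem B hB g, h1⟩).2
  rw [← hg1] at h2
  have := rop_conj h2 g⁻¹
  rwa [conjBy_conjBy, conjBy_conjBy, inv_mul_cancel, conjBy_one, conjBy_one] at this

/-- Timmesfeld II (2.12). -/
theorem centralizer_sets_incomparable (hS : IsRootSubgroupClass S)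
    (hdn : IsDegenerateRootSet S ∨ IsNondegenerateRootSet S)
    {A C : Subgroup G} (hA : A ∈ S) (hC : C ∈ S) :
    (centralizingMembers S A ⊆ centralizingMembers S C →
      centralizingMembers S A = centralizingMembers S C) ∧
    (rankOnePartners S A ⊆ rankOnePartners S C →
      ⁅A, C⁆ = ⊥ ∧ rankOnePartners S A = rankOnePartners S C) := by
  by_cases hr : ∃ A ∈ S, ∃ B ∈ S, IsRankOnePair A B
  · exact ⟨centralizing_eq_of_subset hS hr hA hC, fun h =>
      ⟨comm_of_rankOnePartners_subset hS hr hA hC h,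
        rankOnePartners_eq_of_subset hS hr hA hC h⟩⟩
  · have hdeg : IsDegenerateRootSet S := by
      rcases hdn with h | h
      · exact h
      · exact absurd h.2.1 hr
    have hall : ∀ X ∈ S, ∀ Y ∈ S, ⁅X, Y⁆ = ⊥ := by
      intro X hX Y hY
      rcases hS.1.pair X hX Y hY with h0 | h1 | h2
      · exact h0
      · exact absurd ⟨X, hX, Y, hY, h1⟩ hr
      · exact absurd h2 (hdeg X hX Y hY)
    have hcent : ∀ X ∈ S, centralizingMembers S X = S := by
      intro X hX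
      ext Y
      rw [mem_centralizingMembers_iff]
      constructor
      · exact fun h => h.1
      · intro hY
        exact ⟨hY, fun b hb u hu => comm_of_commutator_eq_bot (hall Y hY X hX) hb hu⟩
    have hrk : ∀ X ∈ S, rankOnePartners S X = ∅ := by
      intro X hX
      ext Y
      simp only [Set.mem_empty_iff_false, iff_false]
      rintro ⟨hY, hXY⟩
      exact hr ⟨X, hX, Y, hY, hXY⟩
    exact ⟨fun _ => by rw [hcent A hA, hcent C hC],
      fun _ => ⟨hall A hA C hC, by rw [hrk A hA, hrk C hC]⟩⟩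

end Cfsg.Agent.H85
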