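import Mathlib
import Cfsg.Prelude.Def_RootSubgroups
import Cfsg.Prelude.Def_Classical
import Cfsg.Agent.H85.Transv
import Cfsg.Agent.H85.NilChain

/-!
# Siegel transvections of the hyperbolic quadratic space (helper85)

The polar form of `quadFormPlus`, the Siegel operators `x ↦ x + c (f(x, r) p - f(x, p) r)` attached
to a totally singular pair `(p, r)`, and the subgroup of isometries fixing `⟨p, r⟩^⊥` pointwise.
-/

set_option autoImplicit false

namespace Cfsg.Agent.H85

open Matrix Cfsg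
open scoped commutatorElement

section SiegelLin

variable {F : Type*} [Field F] {n : ℕ}

/-- The coordinate swap on `F^(n ⊕ n)`. -/
def sw (v : Fin n ⊕ Fin n → F) : Fin n ⊕ Fin n → F := fun k => v k.swap

/-- The polar form of the hyperbolic quadratic form. -/
def pf (u v : Fin n ⊕ Fin n → F) : F := u ⬝ᵥ sw v

theorem sw_add (u v : Fin n ⊕ Fin n → F) : sw (u + v) = sw u + sw v := rfl
theorem sw_sub (u v : Fin n ⊕ Fin n → F) : sw (u - v) = sw u - sw v := rfl
theorem sw_smul (c : F) (u : Fin n ⊕ Fin n → F) : sw (c • u) = c • sw u := rfl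
theorem sw_zero : sw (0 : Fin n ⊕ Fin n → F) = 0 := rfl

theorem pf_eq_sum (u v : Fin n ⊕ Fin n → F) :
    pf u v = ∑ i : Fin n, (u (.inl i) * v (.inr i) + u (.inr i) * v (.inl i)) := by
  unfold pf sw dotProduct
  rw [Fintype.sum_sum_type, Finset.sum_add_distrib]
  rfl

theorem qf_add (u v : Fin n ⊕ Fin n → F) :
    quadFormPlus n F (u + v) = quadFormPlus n F u + quadFormPlus n F v + pf u v := by
  rw [pf_eq_sum]
  unfold quadFormPlus
  rw [← Finset.sum_add_distrib, ← Finset.sum_add_distrib]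
  apply Finset.sum_congr rfl
  intro i _
  simp only [Pi.add_apply]
  ring

theorem polar_eq (u v : Fin n ⊕ Fin n → F) :
    quadFormPlus n F (u + v) - quadFormPlus n F u - quadFormPlus n F v = pf u v := by
  rw [qf_add]; ring

theorem pf_comm (u v : Fin n ⊕ Fin n → F) : pf u v = pf v u := by
  rw [pf_eq_sum, pf_eq_sum]
  apply Finset.sum_congr rfl
  intro i _
  ring

theorem pf_add_left (u v w : Fin n ⊕ Fin n → F) : pf (u + v) w = pf u w + pf v w := by
  unfold pf; rw [add_dotProduct]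

theorem pf_sub_left (u v w : Fin n ⊕ Fin n → F) : pf (u - v) w = pf u w - pf v w := by
  unfold pf; rw [sub_dotProduct]

theorem pf_smul_left (c : F) (u w : Fin n ⊕ Fin n → F) : pf (c • u) w = c * pf u w := by
  unfold pf; rw [smul_dotProduct, smul_eq_mul]

theorem pf_add_right (u v w : Fin n ⊕ Fin n → F) : pf u (v + w) = pf u v + pf u w := by
  unfold pf; rw [sw_add, dotProduct_add]

theorem pf_sub_right (u v w : Fin n ⊕ Fin n → F) : pf u (v - w) = pf u v - pf u w := by
  unfold pf; rw [sw_sub, dotProduct_sub]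

theorem pf_smul_right (c : F) (u w : Fin n ⊕ Fin n → F) : pf u (c • w) = c * pf u w := by
  unfold pf; rw [sw_smul, dotProduct_smul, smul_eq_mul]

theorem pf_zero_left (w : Fin n ⊕ Fin n → F) : pf 0 w = 0 := by
  unfold pf; rw [zero_dotProduct]

theorem pf_zero_right (w : Fin n ⊕ Fin n → F) : pf w 0 = 0 := by
  unfold pf; rw [sw_zero, dotProduct_zero]

theorem qf_smul (c : F) (u : Fin n ⊕ Fin n → F) :
    quadFormPlus n F (c • u) = c * c * quadFormPlus n F u := by
  unfold quadFormPlus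
  rw [Finset.mul_sum]
  apply Finset.sum_congr rfl
  intro i _
  simp only [Pi.smul_apply, smul_eq_mul]
  ring

theorem pf_self (u : Fin n ⊕ Fin n → F) : pf u u = 2 * quadFormPlus n F u := by
  rw [pf_eq_sum]
  unfold quadFormPlus
  rw [Finset.mul_sum]
  apply Finset.sum_congr rfl
  intro i _
  ring

theorem pf_self_of_qf {u : Fin n ⊕ Fin n → F} (h : quadFormPlus n F u = 0) : pf u u = 0 := by
  rw [pf_self, h, mul_zero]

theorem pf_single_left (k : Fin n ⊕ Fin n) (v : Fin n ⊕ Fin n → F) :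
    pf (Pi.single k 1) v = v k.swap := by
  unfold pf sw
  rw [single_dotProduct, one_mul]

theorem pf_single_right (k : Fin n ⊕ Fin n) (v : Fin n ⊕ Fin n → F) :
    pf v (Pi.single k 1) = v k.swap := by
  rw [pf_comm, pf_single_left]

theorem pf_nondeg {u : Fin n ⊕ Fin n → F} (h : ∀ v, pf v u = 0) : u = 0 := by
  funext k
  have := h (Pi.single k.swap 1)
  rw [pf_single_left, Sum.swap_swap] at this
  exact this

/-- The Siegel nilpotent matrix attached to `(p, r)`. -/
def sN (p r : Fin n ⊕ Fin n → F) : Matrix (Fin n ⊕ Fin n) (Fin n ⊕ Fin n) F :=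
  vecMulVec p (sw r) - vecMulVec r (sw p)

theorem sN_mulVec (p r x : Fin n ⊕ Fin n → F) : sN p r *ᵥ x = pf x r • p - pf x p • r := by
  unfold sN pf
  rw [sub_mulVec, vecMulVec_mulVec, vecMulVec_mulVec, dotProduct_comm (sw r),
    dotProduct_comm (sw p)]
  simp

theorem mat_ext_mulVec {A B : Matrix (Fin n ⊕ Fin n) (Fin n ⊕ Fin n) F}
    (h : ∀ v, A *ᵥ v = B *ᵥ v) : A = B :=
  Matrix.mulVec_injective (funext h)

/-- `sN` is bilinear and alternating in `(p, r)`. -/
theorem sN_comb (p r : Fin n ⊕ Fin n → F) (α β γ δ : F) :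
    sN (α • p + β • r) (γ • p + δ • r) = (α * δ - β * γ) • sN p r := by
  apply mat_ext_mulVec
  intro v
  rw [sN_mulVec, smul_mulVec, sN_mulVec]
  simp only [pf_add_right, pf_smul_right]
  module

theorem sN_sN_mulVec (p r p' r' v : Fin n ⊕ Fin n → F) :
    sN p r *ᵥ (sN p' r' *ᵥ v) =
      pf v r' • (pf p' r • p - pf p' p • r) - pf v p' • (pf r' r • p - pf r' p • r) := by
  rw [sN_mulVec p' r', mulVec_sub, mulVec_smul, mulVec_smul, sN_mulVec, sN_mulVec]

/-- The Siegel matrix `1 + c N(p, r)`. -/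
def sM (p r : Fin n ⊕ Fin n → F) (c : F) : Matrix (Fin n ⊕ Fin n) (Fin n ⊕ Fin n) F :=
  1 + c • sN p r

theorem sM_mulVec (p r : Fin n ⊕ Fin n → F) (c : F) (x : Fin n ⊕ Fin n → F) :
    sM p r c *ᵥ x = x + c • (pf x r • p - pf x p • r) := by
  unfold sM
  rw [add_mulVec, one_mulVec, smul_mulVec, sN_mulVec]

theorem sM_zero (p r : Fin n ⊕ Fin n → F) : sM p r 0 = 1 := by
  unfold sM; rw [zero_smul, add_zero]

/-- A totally singular pair spanning a line. -/
structure SData (p r : Fin n ⊕ Fin n → F) : Prop where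
  li : LinearIndependent F ![p, r]
  qp : quadFormPlus n F p = 0
  qr : quadFormPlus n F r = 0
  pr : pf p r = 0

variable {p r : Fin n ⊕ Fin n → F}

theorem SData.pp (h : SData p r) : pf p p = 0 := pf_self_of_qf h.qp
theorem SData.rr (h : SData p r) : pf r r = 0 := pf_self_of_qf h.qr
theorem SData.rp (h : SData p r) : pf r p = 0 := by rw [pf_comm]; exact h.pr

theorem sdata_of (hli : LinearIndependent F ![p, r]) (hp : quadFormPlus n F p = 0)
    (hr : quadFormPlus n F r = 0) (hpr : quadFormPlus n F (p + r) = 0) : SData p r := by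
  refine ⟨hli, hp, hr, ?_⟩
  rw [qf_add, hp, hr] at hpr
  simpa using hpr

theorem SData.r_ne (h : SData p r) : r ≠ 0 := by
  intro hr
  have := (LinearIndependent.pair_iff.mp h.li 0 1 (by rw [hr]; simp)).2
  exact one_ne_zero this

theorem SData.p_ne (h : SData p r) : p ≠ 0 := by
  intro hp
  have := (LinearIndependent.pair_iff.mp h.li 1 0 (by rw [hp]; simp)).1
  exact one_ne_zero this

theorem sM_mul (h : SData p r) (c d : F) : sM p r c * sM p r d = sM p r (c + d) := by
  apply mat_ext_mulVec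
  intro x
  rw [← mulVec_mulVec, sM_mulVec, sM_mulVec, sM_mulVec]
  have e1 : pf (x + d • (pf x r • p - pf x p • r)) r = pf x r := by
    rw [pf_add_left, pf_smul_left, pf_sub_left, pf_smul_left, pf_smul_left, h.pr, h.rr]; ring
  have e2 : pf (x + d • (pf x r • p - pf x p • r)) p = pf x p := by
    rw [pf_add_left, pf_smul_left, pf_sub_left, pf_smul_left, pf_smul_left, h.pp, h.rp]; ring
  rw [e1, e2]
  module

theorem sM_qf (h : SData p r) (c : F) (x : Fin n ⊕ Fin n → F) :
    quadFormPlus n F (sM p r c *ᵥ x) = quadFormPlus n F x := by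
  rw [sM_mulVec, qf_add, qf_smul]
  have e1 : quadFormPlus n F (pf x r • p - pf x p • r) = 0 := by
    rw [sub_eq_add_neg, ← neg_smul, qf_add, qf_smul, qf_smul, h.qp, h.qr, pf_smul_left,
      pf_smul_right, h.pr]
    ring
  have e2 : pf x (c • (pf x r • p - pf x p • r)) = 0 := by
    rw [pf_smul_right, pf_sub_right, pf_smul_right, pf_smul_right]; ring
  rw [e1, e2]; ring

/-- The Siegel transvection as an element of `GL`. -/
def sGL (h : SData p r) (c : F) : Matrix.GeneralLinearGroup (Fin n ⊕ Fin n) F :=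
  ⟨sM p r c, sM p r (-c), by rw [sM_mul h, add_neg_cancel, sM_zero],
    by rw [sM_mul h, neg_add_cancel, sM_zero]⟩

theorem sGL_mem (h : SData p r) (c : F) : sGL h c ∈ isometryGroup F (quadFormPlus n F) := by
  intro u _
  exact sM_qf h c u

/-- The Siegel transvection as an isometry. -/
def sg (h : SData p r) (c : F) : ↥(isometryGroup F (quadFormPlus n F)) := ⟨sGL h c, sGL_mem h c⟩

/-- The matrix of an isometry. -/
def omat (σ : ↥(isometryGroup F (quadFormPlus n F))) :
    Matrix (Fin n ⊕ Fin n) (Fin n ⊕ Fin n) F :=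
  ((σ : Matrix.GeneralLinearGroup (Fin n ⊕ Fin n) F) : Matrix (Fin n ⊕ Fin n) (Fin n ⊕ Fin n) F)

theorem omat_mul (σ τ : ↥(isometryGroup F (quadFormPlus n F))) :
    omat (σ * τ) = omat σ * omat τ := rfl

theorem omat_one : omat (1 : ↥(isometryGroup F (quadFormPlus n F))) = 1 := rfl

theorem omat_inj {σ τ : ↥(isometryGroup F (quadFormPlus n F))} (h : omat σ = omat τ) : σ = τ :=
  Subtype.ext (Units.ext h)

theorem omat_sg (h : SData p r) (c : F) : omat (sg h c) = sM p r c := rfl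

theorem omat_qf (σ : ↥(isometryGroup F (quadFormPlus n F))) (x : Fin n ⊕ Fin n → F) :
    quadFormPlus n F (omat σ *ᵥ x) = quadFormPlus n F x := σ.2 x x

theorem omat_inv_mulVec (σ : ↥(isometryGroup F (quadFormPlus n F))) (x : Fin n ⊕ Fin n → F) :
    omat σ⁻¹ *ᵥ (omat σ *ᵥ x) = x := by
  rw [mulVec_mulVec, ← omat_mul, inv_mul_cancel, omat_one, one_mulVec]

theorem omat_mulVec_inv (σ : ↥(isometryGroup F (quadFormPlus n F))) (x : Fin n ⊕ Fin n → F) :
    omat σ *ᵥ (omat σ⁻¹ *ᵥ x) = x := by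
  rw [mulVec_mulVec, ← omat_mul, mul_inv_cancel, omat_one, one_mulVec]

theorem omat_pf (σ : ↥(isometryGroup F (quadFormPlus n F))) (x y : Fin n ⊕ Fin n → F) :
    pf (omat σ *ᵥ x) (omat σ *ᵥ y) = pf x y := by
  have h1 := omat_qf σ (x + y)
  rw [mulVec_add, qf_add, qf_add, omat_qf, omat_qf] at h1
  linear_combination h1

theorem sg_mul (h : SData p r) (c d : F) : sg h c * sg h d = sg h (c + d) :=
  omat_inj (by rw [omat_mul, omat_sg, omat_sg, omat_sg, sM_mul h])

theorem sg_zero (h : SData p r) : sg h 0 = 1 :=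
  omat_inj (by rw [omat_sg, omat_one, sM_zero])

theorem sg_inv (h : SData p r) (c : F) : (sg h c)⁻¹ = sg h (-c) := by
  rw [inv_eq_iff_mul_eq_one, sg_mul, add_neg_cancel, sg_zero]

/-- The subgroup of isometries fixing `⟨p, r⟩^⊥` pointwise. -/
def sFix (p r : Fin n ⊕ Fin n → F) : Subgroup ↥(isometryGroup F (quadFormPlus n F)) where
  carrier := {σ | ∀ v : Fin n ⊕ Fin n → F,
      quadFormPlus n F (v + p) - quadFormPlus n F v - quadFormPlus n F p = 0 →
      quadFormPlus n F (v + r) - quadFormPlus n F v - quadFormPlus n F r = 0 →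
      ((σ : Matrix.GeneralLinearGroup (Fin n ⊕ Fin n) F) :
        Matrix (Fin n ⊕ Fin n) (Fin n ⊕ Fin n) F) *ᵥ v = v}
  mul_mem' := by
    intro a b ha hb v h1 h2
    have e1 : omat b *ᵥ v = v := hb v h1 h2
    have e2 : omat a *ᵥ v = v := ha v h1 h2
    show omat (a * b) *ᵥ v = v
    rw [omat_mul, ← mulVec_mulVec, e1, e2]
  one_mem' := by
    intro v _ _
    exact one_mulVec v
  inv_mem' := by
    intro a ha v h1 h2
    have e2 : omat a *ᵥ v = v := ha v h1 h2
    have := omat_inv_mulVec a v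
    rw [e2] at this
    exact this

theorem mem_sFix_iff {σ : ↥(isometryGroup F (quadFormPlus n F))} :
    σ ∈ sFix p r ↔ ∀ v, pf v p = 0 → pf v r = 0 → omat σ *ᵥ v = v := by
  constructor
  · intro h v h1 h2
    exact h v (by rw [polar_eq]; exact h1) (by rw [polar_eq]; exact h2)
  · intro h v h1 h2
    rw [polar_eq] at h1 h2
    exact h v h1 h2

theorem sg_mem_sFix (h : SData p r) (c : F) : sg h c ∈ sFix p r := by
  rw [mem_sFix_iff]
  intro v h1 h2
  rw [omat_sg, sM_mulVec, h1, h2]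
  simp

theorem exists_minor (h : LinearIndependent F ![p, r]) : ∃ i j, p i * r j - p j * r i ≠ 0 := by
  by_contra hno
  push Not at hno
  rw [LinearIndependent.pair_iff] at h
  by_cases hr : r = 0
  · have := (h 0 1 (by rw [hr]; simp)).2
    exact one_ne_zero this
  · obtain ⟨j₀, hj₀⟩ : ∃ j, r j ≠ 0 := by
      by_contra hall
      push Not at hall
      exact hr (funext hall)
    have := (h (r j₀) (-(p j₀)) (by
      funext i
      have := hno i j₀
      simp only [Pi.add_apply, Pi.smul_apply, smul_eq_mul, Pi.zero_apply]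
      linear_combination this)).1
    exact hj₀ this

theorem exists_dual (h : LinearIndependent F ![p, r]) :
    ∃ x₁ x₂ : Fin n ⊕ Fin n → F, pf x₁ p = 1 ∧ pf x₁ r = 0 ∧ pf x₂ p = 0 ∧ pf x₂ r = 1 := by
  obtain ⟨i, j, hD⟩ := exists_minor h
  refine ⟨(r j / (p i * r j - p j * r i)) • Pi.single i.swap 1 +
      (-(r i) / (p i * r j - p j * r i)) • Pi.single j.swap 1,
    (-(p j) / (p i * r j - p j * r i)) • Pi.single i.swap 1 +
      (p i / (p i * r j - p j * r i)) • Pi.single j.swap 1, ?_, ?_, ?_, ?_⟩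
  all_goals
    rw [pf_add_left, pf_smul_left, pf_smul_left, pf_single_left, pf_single_left,
      Sum.swap_swap, Sum.swap_swap, div_mul_eq_mul_div, div_mul_eq_mul_div, ← add_div]
  · rw [div_eq_one_iff_eq hD]; ring
  · rw [div_eq_zero_iff]; left; ring
  · rw [div_eq_zero_iff]; left; ring
  · rw [div_eq_one_iff_eq hD]; ring

/-- Every isometry fixing `⟨p, r⟩^⊥` pointwise is a Siegel transvection. -/
theorem sFix_le (h : SData p r) {σ : ↥(isometryGroup F (quadFormPlus n F))}
    (hσ : σ ∈ sFix p r) : ∃ c, σ = sg h c := by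
  obtain ⟨x₁, x₂, h11, h12, h21, h22⟩ := exists_dual h.li
  rw [mem_sFix_iff] at hσ
  obtain ⟨A, hA⟩ : ∃ A, A = omat σ := ⟨_, rfl⟩
  rw [← hA] at hσ
  have hQ : ∀ v, quadFormPlus n F (A *ᵥ v) = quadFormPlus n F v := by
    intro v; rw [hA]; exact omat_qf σ v
  obtain ⟨u₁, hu₁⟩ : ∃ u₁, u₁ = A *ᵥ x₁ - x₁ := ⟨_, rfl⟩
  obtain ⟨u₂, hu₂⟩ : ∃ u₂, u₂ = A *ᵥ x₂ - x₂ := ⟨_, rfl⟩
  have hdec : ∀ v, A *ᵥ v = v + pf v p • u₁ + pf v r • u₂ := by
    intro v
    have h0 := hσ (v - pf v p • x₁ - pf v r • x₂)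
      (by rw [pf_sub_left, pf_sub_left, pf_smul_left, pf_smul_left, h11, h21]; ring)
      (by rw [pf_sub_left, pf_sub_left, pf_smul_left, pf_smul_left, h12, h22]; ring)
    rw [mulVec_sub, mulVec_sub, mulVec_smul, mulVec_smul] at h0
    rw [hu₁, hu₂]
    funext k
    have := congrFun h0 k
    simp only [Pi.sub_apply, Pi.add_apply, Pi.smul_apply, smul_eq_mul] at this ⊢
    linear_combination this
  have hstar : ∀ v, pf v p * pf v p * quadFormPlus n F u₁ + pf v r * pf v r * quadFormPlus n F u₂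
      + pf v p * pf v r * pf u₁ u₂ + pf v p * pf v u₁ + pf v r * pf v u₂ = 0 := by
    intro v
    have h1 := hQ v
    rw [hdec v, add_assoc, qf_add, qf_add, qf_smul, qf_smul, pf_smul_left, pf_smul_right,
      pf_add_right, pf_smul_right, pf_smul_right] at h1
    linear_combination h1
  have hperp₁ : ∀ y, pf y p = 0 → pf y r = 0 → pf y u₁ = 0 := by
    intro y hy1 hy2
    have ha := hstar (x₁ + y)
    have hb := hstar x₁
    simp only [pf_add_left, h11, h12, hy1, hy2] at ha
    rw [h11, h12] at hb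
    linear_combination ha - hb
  have hperp₂ : ∀ y, pf y p = 0 → pf y r = 0 → pf y u₂ = 0 := by
    intro y hy1 hy2
    have ha := hstar (x₂ + y)
    have hb := hstar x₂
    simp only [pf_add_left, h21, h22, hy1, hy2] at ha
    rw [h21, h22] at hb
    linear_combination ha - hb
  have hspan : ∀ u, (∀ y, pf y p = 0 → pf y r = 0 → pf y u = 0) →
      u = pf x₁ u • p + pf x₂ u • r := by
    intro u hu
    have h0 : u - pf x₁ u • p - pf x₂ u • r = 0 := by
      apply pf_nondeg
      intro v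
      have h0 := hu (v - pf v p • x₁ - pf v r • x₂)
        (by rw [pf_sub_left, pf_sub_left, pf_smul_left, pf_smul_left, h11, h21]; ring)
        (by rw [pf_sub_left, pf_sub_left, pf_smul_left, pf_smul_left, h12, h22]; ring)
      rw [pf_sub_left, pf_sub_left, pf_smul_left, pf_smul_left] at h0
      rw [pf_sub_right, pf_sub_right, pf_smul_right, pf_smul_right]
      linear_combination h0
    funext k
    have := congrFun h0 k
    simp only [Pi.sub_apply, Pi.add_apply, Pi.smul_apply, smul_eq_mul, Pi.zero_apply] at this ⊢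
    linear_combination this
  have e₁ := hspan u₁ hperp₁
  have e₂ := hspan u₂ hperp₂
  obtain ⟨α₁, hα₁⟩ : ∃ α₁, α₁ = pf x₁ u₁ := ⟨_, rfl⟩
  obtain ⟨β₁, hβ₁⟩ : ∃ β₁, β₁ = pf x₂ u₁ := ⟨_, rfl⟩
  obtain ⟨α₂, hα₂⟩ : ∃ α₂, α₂ = pf x₁ u₂ := ⟨_, rfl⟩
  obtain ⟨β₂, hβ₂⟩ : ∃ β₂, β₂ = pf x₂ u₂ := ⟨_, rfl⟩
  rw [← hα₁, ← hβ₁] at e₁
  rw [← hα₂, ← hβ₂] at e₂
  have q₁ : quadFormPlus n F u₁ = 0 := by
    rw [e₁, qf_add, qf_smul, qf_smul, h.qp, h.qr, pf_smul_left, pf_smul_right, h.pr]; ring
  have q₂ : quadFormPlus n F u₂ = 0 := by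
    rw [e₂, qf_add, qf_smul, qf_smul, h.qp, h.qr, pf_smul_left, pf_smul_right, h.pr]; ring
  have q₁₂ : pf u₁ u₂ = 0 := by
    rw [e₁, e₂]
    simp only [pf_add_left, pf_add_right, pf_smul_left, pf_smul_right, h.pr, h.rp, h.pp, h.rr]
    ring
  have hv₁ : ∀ v, pf v u₁ = α₁ * pf v p + β₁ * pf v r := by
    intro v; rw [e₁, pf_add_right, pf_smul_right, pf_smul_right]
  have hv₂ : ∀ v, pf v u₂ = α₂ * pf v p + β₂ * pf v r := by
    intro v; rw [e₂, pf_add_right, pf_smul_right, pf_smul_right]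
  have s1 := hstar x₁
  have s2 := hstar x₂
  have s3 := hstar (x₁ + x₂)
  rw [q₁, q₂, q₁₂] at s1 s2 s3
  simp only [pf_add_left, hv₁, hv₂, h11, h12, h21, h22] at s1 s2 s3
  have hα₁0 : α₁ = 0 := by linear_combination s1
  have hβ₂0 : β₂ = 0 := by linear_combination s2
  have hα₂ : α₂ = -β₁ := by linear_combination s3 - s1 - s2
  refine ⟨-β₁, omat_inj ?_⟩
  rw [omat_sg, ← hA]
  apply mat_ext_mulVec
  intro v
  rw [hdec, sM_mulVec, e₁, e₂, hα₁0, hβ₂0, hα₂]
  module

theorem mem_sFix (h : SData p r) {σ : ↥(isometryGroup F (quadFormPlus n F))} :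
    σ ∈ sFix p r ↔ ∃ c, σ = sg h c :=
  ⟨sFix_le h, by rintro ⟨c, rfl⟩; exact sg_mem_sFix h c⟩

theorem sg_eq_one_iff (h : SData p r) {c : F} : sg h c = 1 ↔ c = 0 := by
  constructor
  · intro he
    obtain ⟨x₁, x₂, h11, h12, h21, h22⟩ := exists_dual h.li
    have h1 : omat (sg h c) *ᵥ x₁ = x₁ := by rw [he, omat_one, one_mulVec]
    rw [omat_sg, sM_mulVec, h11, h12] at h1
    have h2 : c • r = 0 := by
      funext k
      have := congrFun h1 k
      simp only [Pi.sub_apply, Pi.add_apply, Pi.smul_apply, smul_eq_mul, Pi.zero_apply] at this ⊢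
      linear_combination -this
    rcases smul_eq_zero.mp h2 with h3 | h3
    · exact h3
    · exact absurd h3 h.r_ne
  · rintro rfl
    exact sg_zero h

theorem sFix_ne_bot (h : SData p r) : sFix p r ≠ ⊥ := by
  intro hbot
  have h1 : sg h 1 ∈ sFix p r := sg_mem_sFix h 1
  rw [hbot, Subgroup.mem_bot, sg_eq_one_iff] at h1
  exact one_ne_zero h1

theorem sFix_comm (h : SData p r) : IsMulCommutative ↥(sFix p r) := by
  refine ⟨⟨fun a b => ?_⟩⟩
  obtain ⟨c, hc⟩ := sFix_le h a.2
  obtain ⟨d, hd⟩ := sFix_le h b.2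
  apply Subtype.ext
  show (a : ↥(isometryGroup F (quadFormPlus n F))) * b = b * a
  rw [hc, hd, sg_mul, sg_mul, add_comm]

theorem SData.conj (h : SData p r) (g : ↥(isometryGroup F (quadFormPlus n F))) :
    SData (omat g *ᵥ p) (omat g *ᵥ r) := by
  refine ⟨?_, ?_, ?_, ?_⟩
  · rw [LinearIndependent.pair_iff]
    intro s t hst
    apply LinearIndependent.pair_iff.mp h.li s t
    have := congrArg (fun v => omat g⁻¹ *ᵥ v) hst
    simp only [mulVec_add, mulVec_smul, omat_inv_mulVec, mulVec_zero] at this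
    exact this
  · rw [omat_qf]; exact h.qp
  · rw [omat_qf]; exact h.qr
  · rw [omat_pf]; exact h.pr

theorem sFix_conj (g : ↥(isometryGroup F (quadFormPlus n F))) (p r : Fin n ⊕ Fin n → F) :
    conjBy (sFix p r) g = sFix (omat g *ᵥ p) (omat g *ᵥ r) := by
  ext x
  rw [mem_conjBy, mem_sFix_iff, mem_sFix_iff]
  constructor
  · intro hx w hw1 hw2
    have h1 := hx (omat g⁻¹ *ᵥ w)
      (by rw [← omat_pf g, omat_mulVec_inv]; exact hw1)
      (by rw [← omat_pf g, omat_mulVec_inv]; exact hw2)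
    rw [omat_mul, omat_mul, ← mulVec_mulVec, ← mulVec_mulVec, omat_mulVec_inv] at h1
    have h2 := congrArg (fun v => omat g *ᵥ v) h1
    simp only [omat_mulVec_inv] at h2
    exact h2
  · intro hx v hv1 hv2
    have h1 := hx (omat g *ᵥ v) (by rw [omat_pf]; exact hv1) (by rw [omat_pf]; exact hv2)
    rw [omat_mul, omat_mul, ← mulVec_mulVec, ← mulVec_mulVec, h1, omat_inv_mulVec]

/-! ### Relations between two Siegel groups with degenerate Gram matrix -/

theorem rank_one_factor (a b c d : F) (h : a * d = b * c) :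
    ∃ α β γ δ : F, a = α * γ ∧ b = α * δ ∧ c = β * γ ∧ d = β * δ := by
  by_cases ha : a = 0
  · by_cases hb : b = 0
    · exact ⟨0, 1, c, d, by rw [ha]; ring, by rw [hb]; ring, by ring, by ring⟩
    · have hc : c = 0 := by
        rw [ha, zero_mul] at h
        rcases mul_eq_zero.mp h.symm with h1 | h1
        · exact absurd h1 hb
        · exact h1
      refine ⟨1, d / b, 0, b, by rw [ha]; ring, by ring, by rw [hc]; ring, ?_⟩
      field_simp
  · refine ⟨1, c / a, a, b, by ring, by ring, ?_, ?_⟩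
    · field_simp
    · field_simp
      linear_combination h

variable {p' r' : Fin n ⊕ Fin n → F}

theorem sN_sN_rank1 {α β γ δ : F} (ha : pf p p' = α * γ) (hb : pf p r' = α * δ)
    (hc : pf r p' = β * γ) (hd : pf r r' = β * δ) (v : Fin n ⊕ Fin n → F) :
    sN p r *ᵥ (sN p' r' *ᵥ v) = pf v (γ • r' - δ • p') • (β • p - α • r) := by
  rw [sN_sN_mulVec, pf_comm p' r, pf_comm p' p, pf_comm r' r, pf_comm r' p, ha, hb, hc, hd,
    pf_sub_right, pf_smul_right, pf_smul_right]
  module

theorem sN_sN_rank1' {α β γ δ : F} (ha : pf p p' = α * γ) (hb : pf p r' = α * δ)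
    (hc : pf r p' = β * γ) (hd : pf r r' = β * δ) (v : Fin n ⊕ Fin n → F) :
    sN p' r' *ᵥ (sN p r *ᵥ v) = pf v (β • p - α • r) • (γ • r' - δ • p') := by
  rw [sN_sN_mulVec, ha, hb, hc, hd, pf_sub_right, pf_smul_right, pf_smul_right]
  module

theorem sN_bracket {α β γ δ : F} (ha : pf p p' = α * γ) (hb : pf p r' = α * δ)
    (hc : pf r p' = β * γ) (hd : pf r r' = β * δ) :
    sN p r * sN p' r' - sN p' r' * sN p r = sN (β • p - α • r) (γ • r' - δ • p') := by
  apply mat_ext_mulVec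
  intro v
  rw [sub_mulVec, ← mulVec_mulVec, ← mulVec_mulVec, sN_sN_rank1 ha hb hc hd,
    sN_sN_rank1' ha hb hc hd, sN_mulVec]

theorem sN_mul_zero {u u' : Fin n ⊕ Fin n → F} (h1 : pf p u = 0) (h2 : pf r u = 0)
    (h3 : pf p u' = 0) (h4 : pf r u' = 0) : sN u u' * sN p r = 0 := by
  apply mat_ext_mulVec
  intro v
  rw [← mulVec_mulVec, sN_mulVec p r, sN_mulVec u u']
  simp only [pf_sub_left, pf_smul_left, h1, h2, h3, h4]
  simp

theorem sN_mul_zero' {u u' : Fin n ⊕ Fin n → F} (h1 : pf p u = 0) (h2 : pf r u = 0)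
    (h3 : pf p u' = 0) (h4 : pf r u' = 0) : sN p r * sN u u' = 0 := by
  apply mat_ext_mulVec
  intro v
  rw [← mulVec_mulVec, sN_mulVec u u', mulVec_sub, mulVec_smul, mulVec_smul, sN_mulVec,
    sN_mulVec, pf_comm u r, pf_comm u p, pf_comm u' r, pf_comm u' p, h1, h2, h3, h4]
  simp

theorem sN_dep {u u' : Fin n ⊕ Fin n → F} (h : ¬ LinearIndependent F ![u, u']) :
    sN u u' = 0 := by
  rw [LinearIndependent.pair_iff] at h
  push Not at h
  obtain ⟨s, t, hst, hne⟩ := h
  apply mat_ext_mulVec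
  intro v
  rw [sN_mulVec, zero_mulVec]
  have hs : s • (pf v u' • u - pf v u • u') = 0 := by
    have e : s • u = -(t • u') := eq_neg_of_add_eq_zero_left hst
    have e2 : s * pf v u = -(t * pf v u') := by
      rw [← pf_smul_right, e, ← neg_smul, pf_smul_right]; ring
    calc s • (pf v u' • u - pf v u • u') = pf v u' • (s • u) - (s * pf v u) • u' := by module
      _ = 0 := by rw [e, e2]; module
  have ht : t • (pf v u' • u - pf v u • u') = 0 := by
    have e : t • u' = -(s • u) := eq_neg_of_add_eq_zero_right hst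
    have e2 : t * pf v u' = -(s * pf v u) := by
      rw [← pf_smul_right, e, ← neg_smul, pf_smul_right]; ring
    calc t • (pf v u' • u - pf v u • u') = (t * pf v u') • u - pf v u • (t • u') := by module
      _ = 0 := by rw [e, e2]; module
  by_cases hs0 : s = 0
  · have ht0 : t ≠ 0 := fun h0 => hne hs0 h0
    exact (smul_eq_zero.mp ht).resolve_left ht0
  · exact (smul_eq_zero.mp hs).resolve_left hs0

/-- The commutator relation at matrix level. -/
theorem sM_comm_rel {X Y Z : Matrix (Fin n ⊕ Fin n) (Fin n ⊕ Fin n) F}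
    (h1 : X * Y - Y * X = Z) (hZX : Z * X = 0) (hZY : Z * Y = 0) (s t : F) :
    (1 + s • X) * (1 + t • Y) = (1 + (s * t) • Z) * ((1 + t • Y) * (1 + s • X)) := by
  have hXY : X * Y = Z + Y * X := by rw [← h1]; abel
  have e1 : (1 + s • X) * (1 + t • Y) = 1 + s • X + t • Y + (s * t) • (X * Y) := by
    rw [Matrix.add_mul, Matrix.mul_add, Matrix.mul_add, Matrix.one_mul, Matrix.one_mul,
      Matrix.mul_one, Matrix.smul_mul, Matrix.mul_smul, smul_smul]
    abel
  have e2 : (1 + t • Y) * (1 + s • X) = 1 + t • Y + s • X + (t * s) • (Y * X) := by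
    rw [Matrix.add_mul, Matrix.mul_add, Matrix.mul_add, Matrix.one_mul, Matrix.one_mul,
      Matrix.mul_one, Matrix.smul_mul, Matrix.mul_smul, smul_smul]
    abel
  have e3 : Z * (1 + t • Y + s • X + (t * s) • (Y * X)) = Z := by
    rw [Matrix.mul_add, Matrix.mul_add, Matrix.mul_add, Matrix.mul_one, Matrix.mul_smul,
      Matrix.mul_smul, Matrix.mul_smul, ← Matrix.mul_assoc, hZY, hZX, Matrix.zero_mul]
    simp
  rw [e1, e2, Matrix.add_mul, Matrix.one_mul, Matrix.smul_mul, e3, hXY]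
  module

theorem sM_comm_of {X Y : Matrix (Fin n ⊕ Fin n) (Fin n ⊕ Fin n) F}
    (h1 : X * Y = Y * X) (s t : F) :
    (1 + s • X) * (1 + t • Y) = (1 + t • Y) * (1 + s • X) := by
  rw [Matrix.add_mul, Matrix.mul_add, Matrix.mul_add, Matrix.one_mul, Matrix.one_mul,
    Matrix.mul_one, Matrix.smul_mul, Matrix.mul_smul, smul_smul, h1,
    Matrix.add_mul, Matrix.mul_add, Matrix.mul_add, Matrix.one_mul, Matrix.one_mul,
    Matrix.mul_one, Matrix.smul_mul, Matrix.mul_smul, smul_smul, mul_comm t s]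
  abel

end SiegelLin

end Cfsg.Agent.H85
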