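import Mathlib
import Cfsg.Prelude.Def_RootSubgroups
import Cfsg.Prelude.Def_Classical
import Cfsg.Agent.H85.Siegel
import Cfsg.Agent.H85.SL2

/-!
# Pairs of Siegel transvection groups (helper85)

Two Siegel transvection groups commute, form a rank one pair generating a copy of `SL₂(F)`, or
are in the commutator case, according to the Gram matrix of the two singular lines.
-/

set_option autoImplicit false

namespace Cfsg.Agent.H85

open Matrix Cfsg
open scoped commutatorElement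

section Emb4

variable {ι : Type*} [Fintype ι] [DecidableEq ι] {k : Type*} [Field k]

omit [DecidableEq ι] in
theorem rowPair_mul_colPair_zero {p q ρ σ : ι → k} (h1 : ρ ⬝ᵥ p = 0) (h2 : ρ ⬝ᵥ q = 0)
    (h3 : σ ⬝ᵥ p = 0) (h4 : σ ⬝ᵥ q = 0) : rowPair ρ σ * colPair p q = 0 := by
  ext a b
  fin_cases a <;> fin_cases b
  · simpa [Matrix.mul_apply, rowPair, colPair, dotProduct] using h1
  · simpa [Matrix.mul_apply, rowPair, colPair, dotProduct] using h2
  · simpa [Matrix.mul_apply, rowPair, colPair, dotProduct] using h3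
  · simpa [Matrix.mul_apply, rowPair, colPair, dotProduct] using h4

theorem emb4_mul_aux (P₁ P₂ : Matrix ι (Fin 2) k) (Q₁ Q₂ : Matrix (Fin 2) ι k)
    (h11 : Q₁ * P₁ = 1) (h22 : Q₂ * P₂ = 1) (h12 : Q₁ * P₂ = 0) (h21 : Q₂ * P₁ = 0)
    (A B : Matrix (Fin 2) (Fin 2) k) :
    (1 + P₁ * A * Q₁ + P₂ * A * Q₂) * (1 + P₁ * B * Q₁ + P₂ * B * Q₂) =
      1 + P₁ * (A + B + A * B) * Q₁ + P₂ * (A + B + A * B) * Q₂ := by
  have e11 : P₁ * A * Q₁ * (P₁ * B * Q₁) = P₁ * (A * B) * Q₁ := by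
    calc P₁ * A * Q₁ * (P₁ * B * Q₁) = P₁ * A * (Q₁ * P₁) * B * Q₁ := by
          simp only [Matrix.mul_assoc]
      _ = P₁ * (A * B) * Q₁ := by rw [h11, Matrix.mul_one]; simp only [Matrix.mul_assoc]
  have e22 : P₂ * A * Q₂ * (P₂ * B * Q₂) = P₂ * (A * B) * Q₂ := by
    calc P₂ * A * Q₂ * (P₂ * B * Q₂) = P₂ * A * (Q₂ * P₂) * B * Q₂ := by
          simp only [Matrix.mul_assoc]
      _ = P₂ * (A * B) * Q₂ := by rw [h22, Matrix.mul_one]; simp only [Matrix.mul_assoc]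
  have e12 : P₁ * A * Q₁ * (P₂ * B * Q₂) = 0 := by
    calc P₁ * A * Q₁ * (P₂ * B * Q₂) = P₁ * A * (Q₁ * P₂) * B * Q₂ := by
          simp only [Matrix.mul_assoc]
      _ = 0 := by rw [h12, Matrix.mul_zero, Matrix.zero_mul, Matrix.zero_mul]
  have e21 : P₂ * A * Q₂ * (P₁ * B * Q₁) = 0 := by
    calc P₂ * A * Q₂ * (P₁ * B * Q₁) = P₂ * A * (Q₂ * P₁) * B * Q₁ := by
          simp only [Matrix.mul_assoc]
      _ = 0 := by rw [h21, Matrix.mul_zero, Matrix.zero_mul, Matrix.zero_mul]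
  rw [Matrix.add_mul, Matrix.add_mul, Matrix.one_mul, Matrix.mul_add, Matrix.mul_add,
    Matrix.mul_add, Matrix.mul_add, Matrix.mul_one, Matrix.mul_one, e11, e12, e21, e22]
  simp only [Matrix.mul_add, Matrix.add_mul]
  abel

/-- The multiplicative map `X ↦ 1 + P₁ (X - 1) Q₁ + P₂ (X - 1) Q₂`. -/
def emb4 (P₁ P₂ : Matrix ι (Fin 2) k) (Q₁ Q₂ : Matrix (Fin 2) ι k)
    (h11 : Q₁ * P₁ = 1) (h22 : Q₂ * P₂ = 1) (h12 : Q₁ * P₂ = 0) (h21 : Q₂ * P₁ = 0) :
    Matrix (Fin 2) (Fin 2) k →* Matrix ι ι k where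
  toFun X := 1 + P₁ * (X - 1) * Q₁ + P₂ * (X - 1) * Q₂
  map_one' := by
    rw [sub_self, Matrix.mul_zero, Matrix.zero_mul, Matrix.mul_zero, Matrix.zero_mul, add_zero,
      add_zero]
  map_mul' X Y := by
    have e : X * Y - 1 = (X - 1) + (Y - 1) + (X - 1) * (Y - 1) := by noncomm_ring
    rw [e, emb4_mul_aux P₁ P₂ Q₁ Q₂ h11 h22 h12 h21]

/-- The homomorphism `SL₂(k) → GL(ι, k)` obtained from `emb4`. -/
def emb4SL (P₁ P₂ : Matrix ι (Fin 2) k) (Q₁ Q₂ : Matrix (Fin 2) ι k)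
    (h11 : Q₁ * P₁ = 1) (h22 : Q₂ * P₂ = 1) (h12 : Q₁ * P₂ = 0) (h21 : Q₂ * P₁ = 0) :
    SpecialLinearGroup (Fin 2) k →* Matrix.GeneralLinearGroup ι k :=
  (Units.map (emb4 P₁ P₂ Q₁ Q₂ h11 h22 h12 h21)).comp Matrix.SpecialLinearGroup.toGL

theorem emb4SL_coe (P₁ P₂ : Matrix ι (Fin 2) k) (Q₁ Q₂ : Matrix (Fin 2) ι k)
    (h11 : Q₁ * P₁ = 1) (h22 : Q₂ * P₂ = 1) (h12 : Q₁ * P₂ = 0) (h21 : Q₂ * P₁ = 0)
    (g : SpecialLinearGroup (Fin 2) k) :
    ((emb4SL P₁ P₂ Q₁ Q₂ h11 h22 h12 h21 g : Matrix.GeneralLinearGroup ι k) : Matrix ι ι k) =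
      1 + P₁ * ((g : Matrix (Fin 2) (Fin 2) k) - 1) * Q₁ +
        P₂ * ((g : Matrix (Fin 2) (Fin 2) k) - 1) * Q₂ := rfl

theorem emb4SL_injective (P₁ P₂ : Matrix ι (Fin 2) k) (Q₁ Q₂ : Matrix (Fin 2) ι k)
    (h11 : Q₁ * P₁ = 1) (h22 : Q₂ * P₂ = 1) (h12 : Q₁ * P₂ = 0) (h21 : Q₂ * P₁ = 0) :
    Function.Injective (emb4SL P₁ P₂ Q₁ Q₂ h11 h22 h12 h21) := by
  rw [injective_iff_map_eq_one]
  intro g hg
  have h1 : (1 : Matrix ι ι k) + P₁ * ((g : Matrix (Fin 2) (Fin 2) k) - 1) * Q₁ +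
      P₂ * ((g : Matrix (Fin 2) (Fin 2) k) - 1) * Q₂ = 1 := by
    rw [← emb4SL_coe P₁ P₂ Q₁ Q₂ h11 h22 h12 h21, hg]; rfl
  have h2 : P₁ * ((g : Matrix (Fin 2) (Fin 2) k) - 1) * Q₁ +
      P₂ * ((g : Matrix (Fin 2) (Fin 2) k) - 1) * Q₂ = 0 := by
    have := congrArg (fun M => M - 1) h1
    simp only [sub_self] at this
    rw [← this]; abel
  have h3 : Q₁ * (P₁ * ((g : Matrix (Fin 2) (Fin 2) k) - 1) * Q₁ +
      P₂ * ((g : Matrix (Fin 2) (Fin 2) k) - 1) * Q₂) * P₁ = 0 := by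
    rw [h2, Matrix.mul_zero, Matrix.zero_mul]
  have h4 : Q₁ * (P₁ * ((g : Matrix (Fin 2) (Fin 2) k) - 1) * Q₁ +
      P₂ * ((g : Matrix (Fin 2) (Fin 2) k) - 1) * Q₂) * P₁ =
      (g : Matrix (Fin 2) (Fin 2) k) - 1 := by
    calc Q₁ * (P₁ * ((g : Matrix (Fin 2) (Fin 2) k) - 1) * Q₁ +
          P₂ * ((g : Matrix (Fin 2) (Fin 2) k) - 1) * Q₂) * P₁
        = (Q₁ * P₁) * ((g : Matrix (Fin 2) (Fin 2) k) - 1) * (Q₁ * P₁) +
          (Q₁ * P₂) * ((g : Matrix (Fin 2) (Fin 2) k) - 1) * (Q₂ * P₁) := by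
          simp only [Matrix.mul_add, Matrix.add_mul, Matrix.mul_assoc]
      _ = _ := by rw [h11, h12, Matrix.one_mul, Matrix.mul_one, Matrix.zero_mul,
            Matrix.zero_mul, add_zero]
  rw [h4] at h3
  exact Subtype.ext (sub_eq_zero.mp h3)

end Emb4

section SiegelPair

variable {F : Type*} [Field F] {n : ℕ} {p r p' r' : Fin n ⊕ Fin n → F}

theorem sg_comm_of (h : SData p r) (h' : SData p' r')
    (hrel : sN p r * sN p' r' = sN p' r' * sN p r) (s t : F) :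
    sg h s * sg h' t = sg h' t * sg h s :=
  omat_inj (sM_comm_of hrel s t)

theorem sg_rel (h : SData p r) (h' : SData p' r') {u u' : Fin n ⊕ Fin n → F} (h'' : SData u u')
    (h1 : sN p r * sN p' r' - sN p' r' * sN p r = sN u u') (hZX : sN u u' * sN p r = 0)
    (hZY : sN u u' * sN p' r' = 0) (s t : F) :
    sg h s * sg h' t = sg h'' (s * t) * (sg h' t * sg h s) :=
  omat_inj (sM_comm_rel h1 hZX hZY s t)

theorem sg_commutator (h : SData p r) (h' : SData p' r') {u u' : Fin n ⊕ Fin n → F}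
    (h'' : SData u u')
    (h1 : sN p r * sN p' r' - sN p' r' * sN p r = sN u u') (hZX : sN u u' * sN p r = 0)
    (hZY : sN u u' * sN p' r' = 0) (s t : F) :
    sg h s * sg h' t * (sg h s)⁻¹ * (sg h' t)⁻¹ = sg h'' (s * t) := by
  rw [sg_rel h h' h'' h1 hZX hZY]; group

theorem sFix_commute_of (h : SData p r) (h' : SData p' r')
    (hrel : sN p r * sN p' r' = sN p' r' * sN p r) :
    ∀ a ∈ sFix p r, ∀ b ∈ sFix p' r', a * b = b * a := by
  intro a ha b hb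
  obtain ⟨s, rfl⟩ := sFix_le h ha
  obtain ⟨t, rfl⟩ := sFix_le h' hb
  exact sg_comm_of h h' hrel s t

/-- The commutator case. -/
theorem sFix_rcc (h : SData p r) (h' : SData p' r') {u u' : Fin n ⊕ Fin n → F}
    (h'' : SData u u')
    (h1 : sN p r * sN p' r' - sN p' r' * sN p r = sN u u')
    (hZX : sN u u' * sN p r = 0) (hZY : sN u u' * sN p' r' = 0)
    (hXZ : sN p r * sN u u' = 0) (hYZ : sN p' r' * sN u u' = 0)
    {S : Set (Subgroup ↥(isometryGroup F (quadFormPlus n F)))} (hS : sFix u u' ∈ S) :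
    RootCommutatorCase S (sFix p r) (sFix p' r') := by
  have hcomm : ⁅sFix p r, sFix p' r'⁆ = sFix u u' := by
    apply le_antisymm
    · rw [Subgroup.commutator_le]
      intro a ha b hb
      obtain ⟨s, rfl⟩ := sFix_le h ha
      obtain ⟨t, rfl⟩ := sFix_le h' hb
      rw [commutatorElement_def, sg_commutator h h' h'' h1 hZX hZY]
      exact sg_mem_sFix h'' _
    · intro x hx
      obtain ⟨c, rfl⟩ := sFix_le h'' hx
      have := Subgroup.commutator_mem_commutator (sg_mem_sFix h 1) (sg_mem_sFix h' c)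
      rw [commutatorElement_def, sg_commutator h h' h'' h1 hZX hZY, one_mul] at this
      exact this
  refine ⟨by rw [hcomm]; exact hS, ?_, ?_, ?_⟩
  · intro c hc x hx
    rw [hcomm] at hc
    obtain ⟨e, rfl⟩ := sFix_le h'' hc
    refine comm_sup (z := sg h'' e) ?_ ?_ x hx
    · intro a ha
      obtain ⟨s, rfl⟩ := sFix_le h ha
      exact sg_comm_of h'' h (by rw [hZX, hXZ]) e s
    · intro b hb
      obtain ⟨t, rfl⟩ := sFix_le h' hb
      exact sg_comm_of h'' h' (by rw [hZY, hYZ]) e t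
  · intro a ha ha1
    obtain ⟨s, rfl⟩ := sFix_le h ha
    have hs : s ≠ 0 := fun h0 => ha1 (by rw [h0, sg_zero])
    rw [hcomm]
    have himg : (fun b => sg h s * b * (sg h s)⁻¹ * b⁻¹) ''
        (sFix p' r' : Set ↥(isometryGroup F (quadFormPlus n F))) =
        (sFix u u' : Set ↥(isometryGroup F (quadFormPlus n F))) := by
      ext y
      constructor
      · rintro ⟨b, hb, rfl⟩
        obtain ⟨t, rfl⟩ := sFix_le h' hb
        show sg h s * sg h' t * (sg h s)⁻¹ * (sg h' t)⁻¹ ∈ sFix u u'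
        rw [sg_commutator h h' h'' h1 hZX hZY]
        exact sg_mem_sFix h'' _
      · intro hy
        obtain ⟨e, rfl⟩ := sFix_le h'' hy
        refine ⟨sg h' (e / s), sg_mem_sFix h' _, ?_⟩
        show sg h s * sg h' (e / s) * (sg h s)⁻¹ * (sg h' (e / s))⁻¹ = sg h'' e
        rw [sg_commutator h h' h'' h1 hZX hZY, mul_div_cancel₀ _ hs]
    rw [himg, Subgroup.closure_eq]
  · intro b hb hb1
    obtain ⟨t, rfl⟩ := sFix_le h' hb
    have ht : t ≠ 0 := fun h0 => hb1 (by rw [h0, sg_zero])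
    rw [hcomm]
    have himg : (fun a => a * sg h' t * a⁻¹ * (sg h' t)⁻¹) ''
        (sFix p r : Set ↥(isometryGroup F (quadFormPlus n F))) =
        (sFix u u' : Set ↥(isometryGroup F (quadFormPlus n F))) := by
      ext y
      constructor
      · rintro ⟨a, ha, rfl⟩
        obtain ⟨s, rfl⟩ := sFix_le h ha
        show sg h s * sg h' t * (sg h s)⁻¹ * (sg h' t)⁻¹ ∈ sFix u u'
        rw [sg_commutator h h' h'' h1 hZX hZY]
        exact sg_mem_sFix h'' _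
      · intro hy
        obtain ⟨e, rfl⟩ := sFix_le h'' hy
        refine ⟨sg h (e / t), sg_mem_sFix h _, ?_⟩
        show sg h (e / t) * sg h' t * (sg h (e / t))⁻¹ * (sg h' t)⁻¹ = sg h'' e
        rw [sg_commutator h h' h'' h1 hZX hZY, div_mul_cancel₀ _ ht]
    rw [himg, Subgroup.closure_eq]

theorem sw_dot (w x : Fin n ⊕ Fin n → F) : sw w ⬝ᵥ x = pf x w := dotProduct_comm _ _

/-- The rank one case: two opposite singular lines. -/
theorem sFix_psl2 (h : SData p r) (h' : SData p' r')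
    (hΔ : pf p p' * pf r r' - pf p r' * pf r p' ≠ 0) :
    IsRankOnePair (sFix p r) (sFix p' r') ∧ IsPSL2PairOver F (sFix p r) (sFix p' r') := by
  obtain ⟨a, ha⟩ : ∃ a, a = pf p p' := ⟨_, rfl⟩
  obtain ⟨b, hb⟩ : ∃ b, b = pf p r' := ⟨_, rfl⟩
  obtain ⟨c, hc⟩ : ∃ c, c = pf r p' := ⟨_, rfl⟩
  obtain ⟨d, hd⟩ : ∃ d, d = pf r r' := ⟨_, rfl⟩
  rw [← ha, ← hb, ← hc, ← hd] at hΔ
  obtain ⟨Δ, hΔdef⟩ : ∃ Δ, Δ = a * d - b * c := ⟨_, rfl⟩
  rw [← hΔdef] at hΔ
  obtain ⟨q₁, hq₁⟩ : ∃ q₁, q₁ = b • p' + (-a) • r' := ⟨_, rfl⟩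
  obtain ⟨q₂, hq₂⟩ : ∃ q₂, q₂ = d • p' + (-c) • r' := ⟨_, rfl⟩
  have e_pq₁ : pf p q₁ = 0 := by
    rw [hq₁, pf_add_right, pf_smul_right, pf_smul_right, ← ha, ← hb]; ring
  have e_pq₂ : pf p q₂ = Δ := by
    rw [hq₂, pf_add_right, pf_smul_right, pf_smul_right, ← ha, ← hb, hΔdef]; ring
  have e_rq₁ : pf r q₁ = -Δ := by
    rw [hq₁, pf_add_right, pf_smul_right, pf_smul_right, ← hc, ← hd, hΔdef]; ring
  have e_rq₂ : pf r q₂ = 0 := by
    rw [hq₂, pf_add_right, pf_smul_right, pf_smul_right, ← hc, ← hd]; ring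
  have e_q₁q₂ : pf q₁ q₂ = 0 := by
    rw [hq₁, hq₂]
    simp only [pf_add_left, pf_add_right, pf_smul_left, pf_smul_right, h'.pp, h'.rr, h'.pr, h'.rp]
    ring
  have e_q₁q₁ : pf q₁ q₁ = 0 := by
    rw [hq₁]
    simp only [pf_add_left, pf_add_right, pf_smul_left, pf_smul_right, h'.pp, h'.rr, h'.pr, h'.rp]
    ring
  have e_q₂q₂ : pf q₂ q₂ = 0 := by
    rw [hq₂]
    simp only [pf_add_left, pf_add_right, pf_smul_left, pf_smul_right, h'.pp, h'.rr, h'.pr, h'.rp]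
    ring
  have h11 : rowPair (Δ⁻¹ • sw q₂) ((-Δ⁻¹) • sw r) * colPair p q₁ = 1 := by
    apply rowPair_mul_colPair
    · rw [smul_dotProduct, sw_dot, e_pq₂, smul_eq_mul, inv_mul_cancel₀ hΔ]
    · rw [smul_dotProduct, sw_dot, e_q₁q₂, smul_zero]
    · rw [smul_dotProduct, sw_dot, h.pr, smul_zero]
    · rw [smul_dotProduct, sw_dot, pf_comm, e_rq₁, smul_eq_mul, neg_mul_neg, inv_mul_cancel₀ hΔ]
  have h22 : rowPair ((-Δ⁻¹) • sw q₁) (Δ⁻¹ • sw p) * colPair r q₂ = 1 := by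
    apply rowPair_mul_colPair
    · rw [smul_dotProduct, sw_dot, e_rq₁, smul_eq_mul, neg_mul_neg, inv_mul_cancel₀ hΔ]
    · rw [smul_dotProduct, sw_dot, pf_comm, e_q₁q₂, smul_zero]
    · rw [smul_dotProduct, sw_dot, h.rp, smul_zero]
    · rw [smul_dotProduct, sw_dot, pf_comm, e_pq₂, smul_eq_mul, inv_mul_cancel₀ hΔ]
  have h12 : rowPair (Δ⁻¹ • sw q₂) ((-Δ⁻¹) • sw r) * colPair r q₂ = 0 := by
    apply rowPair_mul_colPair_zero
    · rw [smul_dotProduct, sw_dot, e_rq₂, smul_zero]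
    · rw [smul_dotProduct, sw_dot, e_q₂q₂, smul_zero]
    · rw [smul_dotProduct, sw_dot, h.rr, smul_zero]
    · rw [smul_dotProduct, sw_dot, pf_comm, e_rq₂, smul_zero]
  have h21 : rowPair ((-Δ⁻¹) • sw q₁) (Δ⁻¹ • sw p) * colPair p q₁ = 0 := by
    apply rowPair_mul_colPair_zero
    · rw [smul_dotProduct, sw_dot, e_pq₁, smul_zero]
    · rw [smul_dotProduct, sw_dot, e_q₁q₁, smul_zero]
    · rw [smul_dotProduct, sw_dot, h.pp, smul_zero]
    · rw [smul_dotProduct, sw_dot, pf_comm, e_pq₁, smul_zero]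
  obtain ⟨f₀, hf₀⟩ : ∃ f₀, f₀ = emb4SL (colPair p q₁) (colPair r q₂)
      (rowPair (Δ⁻¹ • sw q₂) ((-Δ⁻¹) • sw r)) (rowPair ((-Δ⁻¹) • sw q₁) (Δ⁻¹ • sw p))
      h11 h22 h12 h21 := ⟨_, rfl⟩
  have hinj₀ : Function.Injective f₀ := by rw [hf₀]; exact emb4SL_injective _ _ _ _ _ _ _ _
  have hU₀ : ∀ t : F, f₀ (sl2U t) = sGL h (-(t * Δ⁻¹)) := by
    intro t
    apply Units.ext
    rw [hf₀, emb4SL_coe]
    show _ = sM p r (-(t * Δ⁻¹))
    ext i j
    unfold sM sN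
    rw [Matrix.add_apply, Matrix.add_apply, colPair_mul_rowPair_apply,
      colPair_mul_rowPair_apply]
    simp [vecMulVec_apply, sl2U]
    ring
  have hL₀ : ∀ t : F, f₀ (sl2L t) = sGL h' t := by
    intro t
    apply Units.ext
    rw [hf₀, emb4SL_coe]
    show _ = sM p' r' t
    have e : sM p' r' t = 1 + (t * Δ⁻¹) • sN q₁ q₂ := by
      unfold sM
      rw [hq₁, hq₂, sN_comb, smul_smul]
      congr 2
      rw [hΔdef] at hΔ ⊢
      field_simp
      ring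
    rw [e]
    ext i j
    unfold sN
    rw [Matrix.add_apply, Matrix.add_apply, colPair_mul_rowPair_apply,
      colPair_mul_rowPair_apply]
    simp [vecMulVec_apply, sl2L]
    ring
  have hmem : ∀ g, f₀ g ∈ isometryGroup F (quadFormPlus n F) := by
    intro g
    have hle : (⊤ : Subgroup (SpecialLinearGroup (Fin 2) F)) ≤
        (isometryGroup F (quadFormPlus n F)).comap f₀ := by
      rw [← sl2_sup_eq_top, sup_le_iff]
      constructor
      · intro x hx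
        obtain ⟨t, rfl⟩ := mem_lowerUnipotentSL2.mp hx
        rw [Subgroup.mem_comap, hL₀]
        exact sGL_mem h' t
      · intro x hx
        obtain ⟨t, rfl⟩ := mem_upperUnipotentSL2.mp hx
        rw [Subgroup.mem_comap, hU₀]
        exact sGL_mem h _
    exact hle (Subgroup.mem_top g)
  obtain ⟨f, hf⟩ : ∃ f, f = f₀.codRestrict (isometryGroup F (quadFormPlus n F)) hmem :=
    ⟨_, rfl⟩
  have hinj : Function.Injective f := by
    intro x y hxy
    apply hinj₀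
    have := congrArg Subtype.val hxy
    rw [hf] at this
    exact this
  have hU' : ∀ t : F, f (sl2U t) = sg h (-(t * Δ⁻¹)) := by
    intro t
    apply Subtype.ext
    rw [hf]
    exact hU₀ t
  have hL' : ∀ t : F, f (sl2L t) = sg h' t := by
    intro t
    apply Subtype.ext
    rw [hf]
    exact hL₀ t
  have hU : (upperUnipotentSL2 F).map f = sFix p r := by
    ext x
    rw [Subgroup.mem_map, mem_sFix h]
    constructor
    · rintro ⟨u, hu, rfl⟩
      obtain ⟨t, rfl⟩ := mem_upperUnipotentSL2.mp hu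
      exact ⟨_, hU' t⟩
    · rintro ⟨e, rfl⟩
      refine ⟨sl2U (-(e * Δ)), sl2U_mem _, ?_⟩
      rw [hU']
      congr 1
      field_simp
  have hL : (lowerUnipotentSL2 F).map f = sFix p' r' := by
    ext x
    rw [Subgroup.mem_map, mem_sFix h']
    constructor
    · rintro ⟨u, hu, rfl⟩
      obtain ⟨t, rfl⟩ := mem_lowerUnipotentSL2.mp hu
      exact ⟨_, hL' t⟩
    · rintro ⟨e, rfl⟩
      exact ⟨sl2L e, sl2L_mem _, hL' e⟩
  constructor
  · have := rop_map hinj (sl2_rankOnePair (k := F))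
    rw [hL, hU] at this
    exact rop_symm this
  · refine ⟨f, ?_, ?_, hU, hL⟩
    · rw [MonoidHom.range_eq_map, ← sl2_sup_eq_top, Subgroup.map_sup, hL, hU, sup_comm]
    · rw [(MonoidHom.ker_eq_bot_iff f).mpr hinj]
      exact bot_le

end SiegelPair

end Cfsg.Agent.H85
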