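import Mathlib
import Cfsg.Prelude.Def_RootSubgroups
import Cfsg.Prelude.Def_Classical
import Cfsg.Agent.H85.SiegelPair
import Cfsg.Agent.H85.RootRestrict

/-!
# The Siegel transvection groups as abstract root subgroups (helper85)

The Siegel transvection groups of the hyperbolic quadratic space form, inside the subgroup they
generate, a set of abstract `F`-root subgroups, and their rank one graph is connected when the
Witt index is at least 3.
-/

set_option autoImplicit false

namespace Cfsg.Agent.H85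

open Matrix Cfsg
open scoped commutatorElement

section SiegelRoot

variable {F : Type*} [Field F] {n : ℕ}

/-- The set of Siegel transvection groups. -/
def sSet (F : Type*) [Field F] (n : ℕ) :
    Set (Subgroup ↥(isometryGroup F (quadFormPlus n F))) :=
  {A | ∃ p r : Fin n ⊕ Fin n → F, LinearIndependent F ![p, r] ∧
      quadFormPlus n F p = 0 ∧ quadFormPlus n F r = 0 ∧ quadFormPlus n F (p + r) = 0 ∧
      A = Subgroup.closure {σ : ↥(isometryGroup F (quadFormPlus n F)) |
        ∀ v : Fin n ⊕ Fin n → F,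
          quadFormPlus n F (v + p) - quadFormPlus n F v - quadFormPlus n F p = 0 →
          quadFormPlus n F (v + r) - quadFormPlus n F v - quadFormPlus n F r = 0 →
            ((σ : Matrix.GeneralLinearGroup (Fin n ⊕ Fin n) F) :
              Matrix (Fin n ⊕ Fin n) (Fin n ⊕ Fin n) F) *ᵥ v = v}}

theorem closure_sFix (p r : Fin n ⊕ Fin n → F) :
    Subgroup.closure {σ : ↥(isometryGroup F (quadFormPlus n F)) |
        ∀ v : Fin n ⊕ Fin n → F,
          quadFormPlus n F (v + p) - quadFormPlus n F v - quadFormPlus n F p = 0 →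
          quadFormPlus n F (v + r) - quadFormPlus n F v - quadFormPlus n F r = 0 →
            ((σ : Matrix.GeneralLinearGroup (Fin n ⊕ Fin n) F) :
              Matrix (Fin n ⊕ Fin n) (Fin n ⊕ Fin n) F) *ᵥ v = v} = sFix p r :=
  Subgroup.closure_eq (sFix p r)

theorem mem_sSet {A : Subgroup ↥(isometryGroup F (quadFormPlus n F))} :
    A ∈ sSet F n ↔ ∃ p r : Fin n ⊕ Fin n → F, SData p r ∧ A = sFix p r := by
  constructor
  · rintro ⟨p, r, hli, hp, hr, hpr, rfl⟩
    exact ⟨p, r, sdata_of hli hp hr hpr, closure_sFix p r⟩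
  · rintro ⟨p, r, h, rfl⟩
    refine ⟨p, r, h.li, h.qp, h.qr, ?_, (closure_sFix p r).symm⟩
    rw [qf_add, h.qp, h.qr, h.pr]; ring

theorem sFix_mem_sSet {p r : Fin n ⊕ Fin n → F} (h : SData p r) : sFix p r ∈ sSet F n :=
  mem_sSet.mpr ⟨p, r, h, rfl⟩

/-- The trichotomy for two Siegel transvection groups. -/
theorem sSet_pair : ∀ A ∈ sSet F n, ∀ B ∈ sSet F n,
    (∀ a ∈ A, ∀ b ∈ B, a * b = b * a) ∨ (IsRankOnePair A B ∧ IsPSL2PairOver F A B) ∨
      RootCommutatorCase (sSet F n) A B := by
  intro A hA B hB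
  obtain ⟨p, r, h, rfl⟩ := mem_sSet.mp hA
  obtain ⟨p', r', h', rfl⟩ := mem_sSet.mp hB
  by_cases hΔ : pf p p' * pf r r' - pf p r' * pf r p' = 0
  · obtain ⟨α, β, γ, δ, ha, hb, hc, hd⟩ :=
      rank_one_factor (pf p p') (pf p r') (pf r p') (pf r r') (by linear_combination hΔ)
    have hbr := sN_bracket ha hb hc hd
    obtain ⟨u, hu⟩ : ∃ u, u = β • p - α • r := ⟨_, rfl⟩
    obtain ⟨u', hu'⟩ : ∃ u', u' = γ • r' - δ • p' := ⟨_, rfl⟩
    rw [← hu, ← hu'] at hbr
    have pu : pf p u = 0 := by
      rw [hu, pf_sub_right, pf_smul_right, pf_smul_right, h.pp, h.pr]; ring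
    have ru : pf r u = 0 := by
      rw [hu, pf_sub_right, pf_smul_right, pf_smul_right, h.rp, h.rr]; ring
    have pu' : pf p u' = 0 := by
      rw [hu', pf_sub_right, pf_smul_right, pf_smul_right, ha, hb]; ring
    have ru' : pf r u' = 0 := by
      rw [hu', pf_sub_right, pf_smul_right, pf_smul_right, hc, hd]; ring
    have p'u : pf p' u = 0 := by
      rw [hu, pf_sub_right, pf_smul_right, pf_smul_right, pf_comm p' p, pf_comm p' r, ha, hc]
      ring
    have r'u : pf r' u = 0 := by
      rw [hu, pf_sub_right, pf_smul_right, pf_smul_right, pf_comm r' p, pf_comm r' r, hb, hd]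
      ring
    have p'u' : pf p' u' = 0 := by
      rw [hu', pf_sub_right, pf_smul_right, pf_smul_right, h'.pr, h'.pp]; ring
    have r'u' : pf r' u' = 0 := by
      rw [hu', pf_sub_right, pf_smul_right, pf_smul_right, h'.rr, h'.rp]; ring
    by_cases hli : LinearIndependent F ![u, u']
    · right; right
      have h'' : SData u u' := by
        refine ⟨hli, ?_, ?_, ?_⟩
        · rw [hu, sub_eq_add_neg, ← neg_smul, qf_add, qf_smul, qf_smul, h.qp, h.qr,
            pf_smul_left, pf_smul_right, h.pr]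
          ring
        · rw [hu', sub_eq_add_neg, ← neg_smul, qf_add, qf_smul, qf_smul, h'.qp, h'.qr,
            pf_smul_left, pf_smul_right, h'.rp]
          ring
        · rw [hu, pf_sub_left, pf_smul_left, pf_smul_left, pu', ru']; ring
      exact sFix_rcc h h' h'' hbr (sN_mul_zero pu ru pu' ru') (sN_mul_zero p'u r'u p'u' r'u')
        (sN_mul_zero' pu ru pu' ru') (sN_mul_zero' p'u r'u p'u' r'u') (sFix_mem_sSet h'')
    · left
      rw [sN_dep hli] at hbr
      exact sFix_commute_of h h' (sub_eq_zero.mp hbr)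
  · right; left
    exact sFix_psl2 h h' hΔ

theorem sSet_comm : ∀ A ∈ sSet F n, IsMulCommutative A := by
  intro A hA
  obtain ⟨p, r, h, rfl⟩ := mem_sSet.mp hA
  exact sFix_comm h

theorem sSet_ne_bot : ∀ A ∈ sSet F n, A ≠ ⊥ := by
  intro A hA
  obtain ⟨p, r, h, rfl⟩ := mem_sSet.mp hA
  exact sFix_ne_bot h

theorem sSet_conj : ∀ A ∈ sSet F n, ∀ g : ↥(isometryGroup F (quadFormPlus n F)),
    conjBy A g ∈ sSet F n := by
  intro A hA g
  obtain ⟨p, r, h, rfl⟩ := mem_sSet.mp hA
  rw [sFix_conj]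
  exact sFix_mem_sSet (h.conj g)

theorem sSet_restrict_rootSet : IsRootSubgroupSet (restrictSet (sSet F n)) :=
  restrictSet_rootSet _ sSet_comm sSet_ne_bot sSet_conj (fun A hA B hB => by
    rcases sSet_pair A hA B hB with h | h | h
    · exact Or.inl h
    · exact Or.inr (Or.inl h.1)
    · exact Or.inr (Or.inr h))

theorem sSet_restrict_kroot : IsKRootSubgroupSet F (restrictSet (sSet F n)) :=
  restrictSet_kroot _ sSet_restrict_rootSet (fun A hA B hB => by
    rcases sSet_pair A hA B hB with h | h | h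
    · exact Or.inl h
    · exact Or.inr (Or.inl h.2)
    · exact Or.inr (Or.inr h))

/-! ### Standard lines and connectivity -/

theorem qf_single (k : Fin n ⊕ Fin n) : quadFormPlus n F (Pi.single k (1 : F)) = 0 := by
  unfold quadFormPlus
  apply Finset.sum_eq_zero
  intro i _
  rcases k with k | k
  · simp
  · simp

theorem pf_single_single (k l : Fin n ⊕ Fin n) :
    pf (Pi.single k (1 : F)) (Pi.single l 1) = if k.swap = l then 1 else 0 := by
  rw [pf_single_left, Pi.single_apply]

theorem sdata_single {k l : Fin n ⊕ Fin n} (h1 : l ≠ k) (h2 : l ≠ k.swap) :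
    SData (Pi.single k (1 : F)) (Pi.single l 1) := by
  refine ⟨?_, qf_single k, qf_single l, ?_⟩
  · rw [LinearIndependent.pair_iff]
    intro s t hst
    have e1 := congrFun hst k
    have e2 := congrFun hst l
    simp only [Pi.add_apply, Pi.smul_apply, Pi.single_apply, smul_eq_mul, Pi.zero_apply,
      if_true, if_neg h1, if_neg h1.symm] at e1 e2
    constructor
    · linear_combination e1
    · linear_combination e2
  · rw [pf_single_single, if_neg (fun h => h2 h.symm)]

theorem swap_inj {a b : Fin n ⊕ Fin n} (h : a.swap = b.swap) : a = b := by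
  have := congrArg Sum.swap h
  rwa [Sum.swap_swap, Sum.swap_swap] at this

theorem sFix_swap (p r : Fin n ⊕ Fin n → F) : sFix p r = sFix r p := by
  ext σ
  rw [mem_sFix_iff, mem_sFix_iff]
  exact ⟨fun h v h1 h2 => h v h2 h1, fun h v h1 h2 => h v h2 h1⟩

theorem qf_supp {p : Fin n ⊕ Fin n → F} (m₀ : Fin n)
    (hp : ∀ m, m ≠ m₀ → p (.inl m) = 0) :
    quadFormPlus n F p = p (.inl m₀) * p (.inr m₀) := by
  unfold quadFormPlus
  exact Finset.sum_eq_single m₀ (fun m _ hm => by rw [hp m hm, zero_mul])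
    (fun h => absurd (Finset.mem_univ m₀) h)

theorem pf_supp {p r : Fin n ⊕ Fin n → F} (m₀ : Fin n)
    (hp : ∀ m, m ≠ m₀ → p (.inl m) = 0 ∧ p (.inr m) = 0) :
    pf p r = p (.inl m₀) * r (.inr m₀) + p (.inr m₀) * r (.inl m₀) := by
  rw [pf_eq_sum]
  exact Finset.sum_eq_single m₀ (fun m _ hm => by rw [(hp m hm).1, (hp m hm).2]; ring)
    (fun h => absurd (Finset.mem_univ m₀) h)

theorem exists_good_minor {p r : Fin n ⊕ Fin n → F} (h : SData p r) :
    ∃ i j : Fin n ⊕ Fin n, j ≠ i ∧ j ≠ i.swap ∧ p i * r j - p j * r i ≠ 0 := by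
  obtain ⟨i, j, hD⟩ := exists_minor h.li
  have hji : j ≠ i := by
    rintro rfl
    apply hD; ring
  by_cases hj : j = i.swap
  · subst hj
    by_contra hno
    push Not at hno
    have hzero : ∀ m : Fin n ⊕ Fin n, m ≠ i → m ≠ i.swap → p m = 0 ∧ r m = 0 := by
      intro m hm1 hm2
      have e1 := hno i m hm1 hm2
      have e2 := hno i.swap m hm2 (by rw [Sum.swap_swap]; exact hm1)
      constructor
      · have : p m * (p i * r i.swap - p i.swap * r i) = 0 := by
          linear_combination (p i.swap) * e1 - (p i) * e2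
        exact (mul_eq_zero.mp this).resolve_right hD
      · have : r m * (p i * r i.swap - p i.swap * r i) = 0 := by
          linear_combination (r i.swap) * e1 - (r i) * e2
        exact (mul_eq_zero.mp this).resolve_right hD
    rcases i with m₀ | m₀
    · have hsupp : ∀ m, m ≠ m₀ → p (.inl m) = 0 ∧ p (.inr m) = 0 := by
        intro m hm
        exact ⟨(hzero (.inl m) (by simpa using hm) (by simp)).1,
          (hzero (.inr m) (by simp) (by simpa using hm)).1⟩
      have e1 := qf_supp m₀ (fun m hm => (hsupp m hm).1)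
      have e2 := pf_supp (r := r) m₀ hsupp
      rw [h.qp] at e1
      rw [h.pr] at e2
      simp only [Sum.swap_inl] at hD
      rcases mul_eq_zero.mp e1.symm with h0 | h0
      · apply hD
        rw [h0] at e2 ⊢
        linear_combination e2
      · apply hD
        rw [h0] at e2 ⊢
        linear_combination -e2
    · have hsupp : ∀ m, m ≠ m₀ → p (.inl m) = 0 ∧ p (.inr m) = 0 := by
        intro m hm
        exact ⟨(hzero (.inl m) (by simp) (by simpa using hm)).1,
          (hzero (.inr m) (by simpa using hm) (by simp)).1⟩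
      have e1 := qf_supp m₀ (fun m hm => (hsupp m hm).1)
      have e2 := pf_supp (r := r) m₀ hsupp
      rw [h.qp] at e1
      rw [h.pr] at e2
      simp only [Sum.swap_inr] at hD
      rcases mul_eq_zero.mp e1.symm with h0 | h0
      · apply hD
        rw [h0] at e2 ⊢
        linear_combination -e2
      · apply hD
        rw [h0] at e2 ⊢
        linear_combination e2
  · exact ⟨i, j, hji, hj, hD⟩

/-- Every Siegel transvection group forms a rank one pair with one attached to a standard
line. -/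
theorem exists_std_opposite {p r : Fin n ⊕ Fin n → F} (h : SData p r) :
    ∃ k l : Fin n ⊕ Fin n, l ≠ k ∧ l ≠ k.swap ∧
      IsRankOnePair (sFix p r) (sFix (Pi.single k (1 : F)) (Pi.single l 1)) := by
  obtain ⟨i, j, hji, hjs, hD⟩ := exists_good_minor h
  have h1 : j.swap ≠ i.swap := fun he => hji (swap_inj he)
  have h2 : j.swap ≠ i.swap.swap := by
    rw [Sum.swap_swap]
    intro he
    apply hjs
    rw [← he, Sum.swap_swap]
  refine ⟨i.swap, j.swap, h1, h2, (sFix_psl2 h (sdata_single h1 h2) ?_).1⟩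
  rw [pf_single_right, pf_single_right, pf_single_right, pf_single_right, Sum.swap_swap,
    Sum.swap_swap]
  exact hD

theorem sSet_partner : ∀ A ∈ sSet F n, ∃ B ∈ sSet F n, IsRankOnePair A B := by
  intro A hA
  obtain ⟨p, r, h, rfl⟩ := mem_sSet.mp hA
  obtain ⟨k, l, h1, h2, hrop⟩ := exists_std_opposite h
  exact ⟨_, sFix_mem_sSet (sdata_single h1 h2), hrop⟩

theorem sFix_noncomm {p r p' r' : Fin n ⊕ Fin n → F} (h : SData p r) (h' : SData p' r')
    {v : Fin n ⊕ Fin n → F}
    (hv : sN p r *ᵥ (sN p' r' *ᵥ v) ≠ sN p' r' *ᵥ (sN p r *ᵥ v)) :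
    ¬ ∀ a ∈ sFix p r, ∀ b ∈ sFix p' r', a * b = b * a := by
  intro hcomm
  have hab := hcomm _ (sg_mem_sFix h 1) _ (sg_mem_sFix h' 1)
  have h1 : omat (sg h 1 * sg h' 1) *ᵥ v = omat (sg h' 1 * sg h 1) *ᵥ v := by rw [hab]
  rw [omat_mul, omat_mul, omat_sg, omat_sg] at h1
  unfold sM at h1
  simp only [one_smul, Matrix.add_mul, Matrix.mul_add, Matrix.one_mul, Matrix.mul_one,
    add_mulVec, one_mulVec, ← mulVec_mulVec] at h1
  apply hv
  funext x
  have := congrFun h1 x
  simp only [Pi.add_apply] at this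
  linear_combination this

theorem std_noncomm {k l c : Fin n ⊕ Fin n} (h1 : l ≠ k) (h2 : l ≠ k.swap) (hc1 : c ≠ k)
    (hc2 : c ≠ k.swap) (hc3 : c ≠ l) :
    ¬ ∀ a ∈ sFix (Pi.single k (1 : F)) (Pi.single l 1),
      ∀ b ∈ sFix (Pi.single k.swap (1 : F)) (Pi.single c 1), a * b = b * a := by
  have hd : SData (Pi.single k.swap (1 : F)) (Pi.single c 1) :=
    sdata_single hc2 (by rw [Sum.swap_swap]; exact hc1)
  apply sFix_noncomm (sdata_single h1 h2) hd (v := Pi.single c.swap 1)
  rw [sN_sN_mulVec, sN_sN_mulVec]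
  simp only [pf_single_single, Sum.swap_swap]
  have e1 : ¬ k = l := fun h => h1 h.symm
  have e2 : ¬ c = k.swap := hc2
  have e3 : ¬ c = l := hc3
  have e4 : ¬ c = k := hc1
  simp only [if_true, if_neg e1, if_neg e2, if_neg e3, if_neg e4]
  intro he
  have := congrFun he l
  simp at this

theorem exists_ne4 (hn : 3 ≤ n) (a b c d : Fin n ⊕ Fin n) :
    ∃ x, x ≠ a ∧ x ≠ b ∧ x ≠ c ∧ x ≠ d := by
  by_contra hno
  push Not at hno
  have hsub : (Finset.univ : Finset (Fin n ⊕ Fin n)) ⊆ {a, b, c, d} := by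
    intro x _
    simp only [Finset.mem_insert, Finset.mem_singleton]
    by_contra hx
    push Not at hx
    exact hx.2.2.2 (hno x hx.1 hx.2.1 hx.2.2.1)
  have h1 := Finset.card_le_card hsub
  have h2 : ({a, b, c, d} : Finset (Fin n ⊕ Fin n)).card ≤ 4 := Finset.card_le_four
  rw [Finset.card_univ, Fintype.card_sum, Fintype.card_fin] at h1
  omega

theorem std_step {k l c : Fin n ⊕ Fin n} (h1 : l ≠ k) (h2 : l ≠ k.swap) (hc1 : c ≠ k)
    (hc2 : c ≠ k.swap) (hc3 : c ≠ l) :
    Relation.ReflTransGen (FAdj (sSet F n)) (sFix (Pi.single k (1 : F)) (Pi.single l 1))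
      (sFix (Pi.single k.swap (1 : F)) (Pi.single c 1)) :=
  restrict_path_of_noncomm _ sSet_restrict_rootSet sSet_partner
    (sFix_mem_sSet (sdata_single h1 h2))
    (sFix_mem_sSet (sdata_single hc2 (by rw [Sum.swap_swap]; exact hc1)))
    (std_noncomm h1 h2 hc1 hc2 hc3)

theorem std_share (hn : 3 ≤ n) {k l d : Fin n ⊕ Fin n} (h1 : l ≠ k) (h2 : l ≠ k.swap)
    (hd1 : d ≠ k) (hd2 : d ≠ k.swap) :
    Relation.ReflTransGen (FAdj (sSet F n)) (sFix (Pi.single k (1 : F)) (Pi.single l 1))
      (sFix (Pi.single k (1 : F)) (Pi.single d 1)) := by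
  obtain ⟨c, hc1, hc2, hc3, hc4⟩ := exists_ne4 hn k k.swap l d
  have s1 := std_step (F := F) h1 h2 hc1 hc2 hc3
  have s2 := std_step (F := F) (k := k.swap) (l := c) (c := d) hc2
    (by rw [Sum.swap_swap]; exact hc1) hd2 (by rw [Sum.swap_swap]; exact hd1) (Ne.symm hc4)
  rw [Sum.swap_swap] at s2
  exact s1.trans s2

theorem std_conn (hn : 3 ≤ n) {k l k' l' : Fin n ⊕ Fin n} (h1 : l ≠ k) (h2 : l ≠ k.swap)
    (h1' : l' ≠ k') (h2' : l' ≠ k'.swap) :
    Relation.ReflTransGen (FAdj (sSet F n)) (sFix (Pi.single k (1 : F)) (Pi.single l 1))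
      (sFix (Pi.single k' (1 : F)) (Pi.single l' 1)) := by
  by_cases e1 : k' = k
  · subst e1
    exact std_share hn h1 h2 h1' h2'
  by_cases e2 : k' = k.swap
  · subst e2
    rw [Sum.swap_swap] at h2'
    have s1 := std_share (F := F) hn h1 h2 h2' h1'
    rw [sFix_swap (Pi.single k 1) (Pi.single l' 1)] at s1
    have hk1 : k ≠ l' := Ne.symm h2'
    have hk2 : k ≠ l'.swap := by
      intro he
      apply h1'
      rw [he, Sum.swap_swap]
    have hk3 : k.swap ≠ l' := Ne.symm h1'
    have hk4 : k.swap ≠ l'.swap := fun he => hk1 (swap_inj he)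
    have s2 := std_share (F := F) hn hk1 hk2 hk3 hk4
    rw [sFix_swap (Pi.single l' 1) (Pi.single k.swap 1)] at s2
    exact s1.trans s2
  · have s1 := std_share (F := F) hn h1 h2 e1 e2
    rw [sFix_swap (Pi.single k 1) (Pi.single k' 1)] at s1
    have hk1 : k ≠ k' := Ne.symm e1
    have hk2 : k ≠ k'.swap := by
      intro he
      apply e2
      rw [he, Sum.swap_swap]
    have s2 := std_share (F := F) hn hk1 hk2 h1' h2'
    exact s1.trans s2

/-- The rank one graph of the Siegel transvection groups is connected (Witt index `≥ 3`). -/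
theorem sSet_conn (hn : 3 ≤ n) : IsConnectedFamily (FAdj (sSet F n)) (sSet F n) := by
  intro A hA B hB
  obtain ⟨p, r, h, rfl⟩ := mem_sSet.mp hA
  obtain ⟨p', r', h', rfl⟩ := mem_sSet.mp hB
  obtain ⟨k, l, hk1, hk2, hrop⟩ := exists_std_opposite h
  obtain ⟨k', l', hk1', hk2', hrop'⟩ := exists_std_opposite h'
  have s1 : Relation.ReflTransGen (FAdj (sSet F n)) (sFix p r)
      (sFix (Pi.single k (1 : F)) (Pi.single l 1)) :=
    Relation.ReflTransGen.single ⟨hA, sFix_mem_sSet (sdata_single hk1 hk2), hrop⟩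
  have s2 := std_conn (F := F) hn hk1 hk2 hk1' hk2'
  have s3 : Relation.ReflTransGen (FAdj (sSet F n))
      (sFix (Pi.single k' (1 : F)) (Pi.single l' 1)) (sFix p' r') :=
    Relation.ReflTransGen.single ⟨sFix_mem_sSet (sdata_single hk1' hk2'), hB, rop_symm hrop'⟩
  exact s1.trans (s2.trans s3)

end SiegelRoot

end Cfsg.Agent.H85
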