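import Mathlib
import Cfsg.Prelude.Def_RootSubgroups
import Cfsg.Prelude.Def_Transfer
import Cfsg.Agent.H85.Special

/-!
# Special rank one groups: the unipotent subgroups are elementary abelian or torsion-free divisible

For a special rank one pair `(A, B)` write `b(a)` for the unique `b ∈ B#` with
`b A b⁻¹ = a B a⁻¹`.  We prove the product formula `b(a c) = b(a) b(w)` and deduce
`b(a ^ k) ^ k = b(a)` whenever `a ^ k ≠ 1` (Timmesfeld I (5.2)).
-/

set_option autoImplicit false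

namespace Cfsg.Agent.H85

open Cfsg

variable {G : Type*} [Group G] {A B : Subgroup G}

/-- Matched pair: `a ∈ A#`, `b ∈ B#` with `b A b⁻¹ = a B a⁻¹`. -/
def Matched (A B : Subgroup G) (a b : G) : Prop :=
  a ∈ A ∧ a ≠ 1 ∧ b ∈ B ∧ b ≠ 1 ∧ conjBy A b = conjBy B a

theorem matched_exists (h : IsRankOnePair A B) {a : G} (ha : a ∈ A) (ha1 : a ≠ 1) :
    ∃ b, Matched A B a b := by
  obtain ⟨b, hb, hb1, hab⟩ := special_exists_right h ha ha1
  exact ⟨b, ha, ha1, hb, hb1, hab⟩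

theorem matched_unique_right (h : IsRankOnePair A B) {a b b' : G} (h1 : Matched A B a b)
    (h2 : Matched A B a b') : b = b' :=
  rop_conjBy_left_injOn h h1.2.2.1 h2.2.2.1 (h1.2.2.2.2.trans h2.2.2.2.2.symm)

theorem matched_unique_left (h : IsRankOnePair A B) {a a' b : G} (h1 : Matched A B a b)
    (h2 : Matched A B a' b) : a = a' :=
  rop_conjBy_right_injOn h h1.1 h2.1 (h1.2.2.2.2.symm.trans h2.2.2.2.2)

theorem matched_inv (hs : IsSpecialRankOnePair A B) {a b : G} (h : Matched A B a b) :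
    Matched A B a⁻¹ b⁻¹ :=
  ⟨A.inv_mem h.1, inv_ne_one.mpr h.2.1, B.inv_mem h.2.2.1, inv_ne_one.mpr h.2.2.2.1,
    special_match_inv hs h.1 h.2.1 h.2.2.1 h.2.2.2.1 h.2.2.2.2⟩

/-- The braid relation. -/
theorem matched_braid (hs : IsSpecialRankOnePair A B) {a b : G} (h : Matched A B a b) :
    a * b⁻¹ * a = b⁻¹ * a * b⁻¹ := by
  have hi := matched_inv hs h
  have hrel := special_rel hs hi.1 hi.2.1 hi.2.2.1 hi.2.2.2.1 hi.2.2.2.2
  rw [inv_inv, inv_inv] at hrel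
  calc a * b⁻¹ * a = a * (b⁻¹ * a * b) * b⁻¹ := by group
    _ = a * (a⁻¹ * b⁻¹ * a) * b⁻¹ := by rw [hrel]
    _ = b⁻¹ * a * b⁻¹ := by group

/-- `n = a b⁻¹ a` conjugates `A` to `B`. -/
theorem matched_n_conj_A (hs : IsSpecialRankOnePair A B) {a b : G} (h : Matched A B a b) :
    conjBy A (a * b⁻¹ * a) = B := by
  have hi := matched_inv hs h
  have e : a * b⁻¹ * a = a * (b⁻¹ * a) := by group
  rw [e, ← conjBy_conjBy, ← conjBy_conjBy, conjBy_of_mem h.1, hi.2.2.2.2, conjBy_conjBy,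
    mul_inv_cancel, conjBy_one]

/-- `n = a b⁻¹ a` conjugates `B` to `A`. -/
theorem matched_n_conj_B (hs : IsSpecialRankOnePair A B) {a b : G} (h : Matched A B a b) :
    conjBy B (a * b⁻¹ * a) = A := by
  have e : a * b⁻¹ * a = b⁻¹ * (a * b⁻¹) := by rw [matched_braid hs h]; group
  rw [e, ← conjBy_conjBy, ← conjBy_conjBy, conjBy_of_mem (B.inv_mem h.2.2.1), ← h.2.2.2.2,
    conjBy_conjBy, inv_mul_cancel, conjBy_one]

/-- `n b n⁻¹ = a⁻¹` for `n = a b⁻¹ a`. -/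
theorem matched_n_b (hs : IsSpecialRankOnePair A B) {a b : G} (h : Matched A B a b) :
    (a * b⁻¹ * a) * b * (a * b⁻¹ * a)⁻¹ = a⁻¹ := by
  have hb := matched_braid hs h
  -- `n b⁻¹ = a n`
  have h1 : (a * b⁻¹ * a) * b⁻¹ = a * (a * b⁻¹ * a) := by
    calc (a * b⁻¹ * a) * b⁻¹ = a * (b⁻¹ * a * b⁻¹) := by group
      _ = a * (a * b⁻¹ * a) := by rw [hb]
  have h2 : (a * b⁻¹ * a) * b⁻¹ * (a * b⁻¹ * a)⁻¹ = a := by rw [h1]; group
  have h3 : (a * b⁻¹ * a) * b * (a * b⁻¹ * a)⁻¹ = ((a * b⁻¹ * a) * b⁻¹ * (a * b⁻¹ * a)⁻¹)⁻¹ := by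
    group
  rw [h3, h2]

/-- `n a n⁻¹ = b⁻¹` for `n = a b⁻¹ a`. -/
theorem matched_n_a (hs : IsSpecialRankOnePair A B) {a b : G} (h : Matched A B a b) :
    (a * b⁻¹ * a) * a * (a * b⁻¹ * a)⁻¹ = b⁻¹ := by
  have hb := matched_braid hs h
  have h1 : (a * b⁻¹ * a) * a = b⁻¹ * (a * b⁻¹ * a) := by
    calc (a * b⁻¹ * a) * a = (b⁻¹ * a * b⁻¹) * a := by rw [hb]
      _ = b⁻¹ * (a * b⁻¹ * a) := by group
  rw [h1]; group

/-- The product formula: `b(a c) = b(a) b(w)` with `w = n(a) (b(a) b(c)) n(a)⁻¹`. -/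
theorem matched_mul (hs : IsSpecialRankOnePair A B) {a β c γ : G} (h1 : Matched A B a β)
    (h2 : Matched A B c γ) (hac : a * c ≠ 1) :
    ∃ δ, Matched A B ((a * β⁻¹ * a) * (β * γ) * (a * β⁻¹ * a)⁻¹) δ ∧
      Matched A B (a * c) (β * δ) := by
  have hr := hs.1
  -- `β γ ≠ 1`
  have hβγ : β * γ ≠ 1 := by
    intro h0
    have e : γ = β⁻¹ := eq_inv_of_mul_eq_one_right h0
    have h3 := matched_inv hs h1
    rw [e] at h2
    have := matched_unique_left hr h2 h3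
    apply hac
    rw [this, mul_inv_cancel]
  have hwA : (a * β⁻¹ * a) * (β * γ) * (a * β⁻¹ * a)⁻¹ ∈ A := by
    have := conj_mem_conjBy (B.mul_mem h1.2.2.1 h2.2.2.1) (a * β⁻¹ * a)
    rwa [matched_n_conj_B hs h1] at this
  have hw1 : (a * β⁻¹ * a) * (β * γ) * (a * β⁻¹ * a)⁻¹ ≠ 1 := by
    intro h0
    apply hβγ
    have : β * γ = (a * β⁻¹ * a)⁻¹ * ((a * β⁻¹ * a) * (β * γ) * (a * β⁻¹ * a)⁻¹) * (a * β⁻¹ * a) := by
      group
    rw [this, h0]; group
  obtain ⟨δ, hδ⟩ := matched_exists hr hwA hw1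
  refine ⟨δ, hδ, ?_⟩
  have hnA := matched_n_conj_A hs h1
  have hmB := matched_n_conj_B hs h2
  have hwB := matched_n_conj_B hs hδ
  have hbr1 := matched_braid hs h1
  have hbr2 := matched_braid hs h2
  have hbr3 := matched_braid hs hδ
  obtain ⟨n, hn⟩ : ∃ n, n = a * β⁻¹ * a := ⟨_, rfl⟩
  rw [← hn] at hδ hnA hbr1 hwB hbr3
  obtain ⟨w, hw⟩ : ∃ w, w = n * (β * γ) * n⁻¹ := ⟨_, rfl⟩
  rw [← hw] at hδ hwB hbr3
  obtain ⟨m, hm⟩ : ∃ m, m = c * γ⁻¹ * c := ⟨_, rfl⟩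
  rw [← hm] at hmB hbr2
  obtain ⟨k, hk⟩ : ∃ k, k = w * δ⁻¹ * w := ⟨_, rfl⟩
  rw [← hk] at hwB hbr3
  have ea : a = β * n * β := by rw [hbr1]; group
  have ec : c = γ * m * γ := by rw [hbr2]; group
  have ew : w = δ * k * δ := by rw [hbr3]; group
  have eg : (β * δ)⁻¹ * (a * c) = k * (δ * (n * (m * γ))) := by
    have e1 : a * c = β * w * n * m * γ := by
      calc a * c = (β * n * β) * (γ * m * γ) := by rw [← ea, ← ec]
        _ = β * (n * (β * γ) * n⁻¹) * n * m * γ := by group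
        _ = β * w * n * m * γ := by rw [← hw]
    rw [e1]
    calc (β * δ)⁻¹ * (β * w * n * m * γ)
        = δ⁻¹ * w * n * m * γ := by group
      _ = δ⁻¹ * (δ * k * δ) * n * m * γ := by rw [← ew]
      _ = k * (δ * (n * (m * γ))) := by group
  have e1 : conjBy B (m * γ) = A := by
    rw [← conjBy_conjBy B γ m, conjBy_of_mem h2.2.2.1, hmB]
  have e2 : conjBy B (n * (m * γ)) = B := by
    rw [← conjBy_conjBy B (m * γ) n, e1, hnA]
  have e3 : conjBy B (δ * (n * (m * γ))) = B := by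
    rw [← conjBy_conjBy B (n * (m * γ)) δ, e2, conjBy_of_mem hδ.2.2.1]
  have hconj : conjBy B ((β * δ)⁻¹ * (a * c)) = A := by
    rw [eg, ← conjBy_conjBy B (δ * (n * (m * γ))) k, e3, hwB]
  rw [← conjBy_conjBy] at hconj
  have hconj2 : conjBy B (a * c) = conjBy A (β * δ) := by
    have := conjBy_eq_iff.mp hconj
    rw [inv_inv] at this
    exact this
  have hβδ : β * δ ≠ 1 := by
    intro h0
    rw [h0, conjBy_one] at hconj2
    exact rop_conjBy_right_ne_left hr (A.mul_mem h1.1 h2.1) hconj2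
  exact ⟨A.mul_mem h1.1 h2.1, hac, B.mul_mem h1.2.2.1 hδ.2.2.1, hβδ, hconj2.symm⟩

/-- `b(e ^ k) ^ k = b(e)` whenever `e ^ k ≠ 1`. -/
theorem matched_pow (hs : IsSpecialRankOnePair A B) : ∀ k : ℕ, 1 ≤ k → ∀ e β₁ βk : G,
    Matched A B e β₁ → e ^ k ≠ 1 → Matched A B (e ^ k) βk → βk ^ k = β₁ := by
  intro k hk
  induction k, hk using Nat.le_induction with
  | base =>
    intro e β₁ βk h1 _ hk
    rw [pow_one] at hk ⊢
    exact matched_unique_right hs.1 hk h1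
  | succ k hk ih =>
    intro e β₁ β' h1 hne h'
    by_cases hek : e ^ k = 1
    · have e1 : e ^ (k + 1) = e := by rw [pow_succ, hek, one_mul]
      rw [e1] at h'
      have hβ := matched_unique_right hs.1 h' h1
      have hn := matched_n_b hs h1
      obtain ⟨n, hnn⟩ : ∃ n, n = e * β₁⁻¹ * e := ⟨_, rfl⟩
      rw [← hnn] at hn
      have h3 : n * β₁ ^ k * n⁻¹ = 1 := by rw [← conj_pow, hn, inv_pow, hek, inv_one]
      have h2 : β₁ ^ k = 1 := by
        have : β₁ ^ k = n⁻¹ * (n * β₁ ^ k * n⁻¹) * n := by group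
        rw [this, h3]; group
      rw [hβ, pow_succ, h2, one_mul]
    · obtain ⟨βk, hβk⟩ := matched_exists hs.1 (A.pow_mem h1.1 k) hek
      have ihk := ih e β₁ βk h1 hek hβk
      have hac : e ^ k * e ≠ 1 := by rw [← pow_succ]; exact hne
      obtain ⟨δ, hδ, hmul⟩ := matched_mul hs hβk h1 hac
      have hn := matched_n_b hs hβk
      have hw : (e ^ k * βk⁻¹ * e ^ k) * (βk * β₁) * (e ^ k * βk⁻¹ * e ^ k)⁻¹
          = ((e ^ (k + 1)) ^ k)⁻¹ := by
        obtain ⟨n, hnn⟩ : ∃ n, n = e ^ k * βk⁻¹ * e ^ k := ⟨_, rfl⟩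
        rw [← hnn] at hn ⊢
        have e1 : n * (βk * β₁) * n⁻¹ = (n * βk * n⁻¹) * (n * βk * n⁻¹) ^ k := by
          rw [conj_pow, ihk]; group
        rw [e1, hn, ← pow_succ', inv_pow, ← pow_mul, ← pow_mul, mul_comm]
      rw [hw] at hδ
      have hδi := matched_inv hs hδ
      rw [inv_inv] at hδi
      rw [← pow_succ] at hmul
      have hβ' : β' = βk * δ := matched_unique_right hs.1 h' hmul
      have ih2 := ih (e ^ (k + 1)) (βk * δ) δ⁻¹ hmul hδi.2.1 hδi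
      have e3 : βk = (δ⁻¹) ^ (k + 1) := by rw [pow_succ, ih2]; group
      rw [hβ', ← ih2, ← pow_mul, ← ihk, e3, ← pow_mul, mul_comm]

/-- Timmesfeld I (5.2)(a): `A` is an elementary abelian `p`-group or torsion-free and divisible. -/
theorem special_elementary_or_divisible (hs : IsSpecialRankOnePair A B)
    (hA : IsMulCommutative A) :
    (∃ p : ℕ, p.Prime ∧ IsElementaryAbelian p A) ∨
    ((∀ a ∈ A, a ≠ 1 → ¬ IsOfFinOrder a) ∧ ∀ a ∈ A, ∀ n : ℕ, 0 < n → ∃ c ∈ A, c ^ n = a) := by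
  by_cases htor : ∃ t ∈ A, t ≠ 1 ∧ IsOfFinOrder t
  · left
    obtain ⟨t, ht, ht1, htf⟩ := htor
    have hr : orderOf t ≠ 1 := by rwa [Ne, orderOf_eq_one_iff]
    have hpp : (orderOf t).minFac.Prime := Nat.minFac_prime hr
    have hdvd : (orderOf t).minFac ∣ orderOf t := Nat.minFac_dvd _
    obtain ⟨p, hp⟩ : ∃ p, p = (orderOf t).minFac := ⟨_, rfl⟩
    rw [← hp] at hpp hdvd
    have hso : orderOf (t ^ (orderOf t / p)) = p :=
      orderOf_pow_orderOf_div (htf.orderOf_pos.ne') hdvd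
    obtain ⟨s, hsdef⟩ : ∃ s, s = t ^ (orderOf t / p) := ⟨_, rfl⟩
    rw [← hsdef] at hso
    have hsA : s ∈ A := by rw [hsdef]; exact A.pow_mem ht _
    have hs1 : s ≠ 1 := by
      intro h0
      rw [h0, orderOf_one] at hso
      exact hpp.one_lt.ne hso
    have hsp : s ^ p = 1 := by rw [← hso]; exact pow_orderOf_eq_one s
    refine ⟨p, hpp, hA, ?_⟩
    intro x hx
    by_contra hxp
    have hx1 : x ≠ 1 := by rintro rfl; exact hxp (one_pow p)
    have hcomm : Commute x s := comm_of_isMulCommutative hA hx hsA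
    have hxsp : (x * s) ^ p = x ^ p := by rw [hcomm.mul_pow, hsp, mul_one]
    have hxs1 : x * s ≠ 1 := by
      intro h0
      rw [h0, one_pow] at hxsp
      exact hxp hxsp.symm
    obtain ⟨β, hβ⟩ := matched_exists hs.1 hx hx1
    obtain ⟨β', hβ'⟩ := matched_exists hs.1 (A.mul_mem hx hsA) hxs1
    obtain ⟨βp, hβp⟩ := matched_exists hs.1 (A.pow_mem hx p) hxp
    have e1 := matched_pow hs p hpp.one_le x β βp hβ hxp hβp
    have hβp' : Matched A B ((x * s) ^ p) βp := by rw [hxsp]; exact hβp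
    have e2 := matched_pow hs p hpp.one_le (x * s) β' βp hβ' (by rw [hxsp]; exact hxp) hβp'
    have e3 : β = β' := e1.symm.trans e2
    rw [← e3] at hβ'
    have e4 := matched_unique_left hs.1 hβ hβ'
    apply hs1
    have : x * s = x * 1 := by rw [mul_one]; exact e4.symm
    exact mul_left_cancel this
  · right
    push Not at htor
    refine ⟨fun a ha ha1 => htor a ha ha1, ?_⟩
    intro a ha n hn
    by_cases ha1 : a = 1
    · exact ⟨1, A.one_mem, by rw [ha1, one_pow]⟩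
    · have hne : a ^ n ≠ 1 := by
        intro h0
        exact htor a ha ha1 (isOfFinOrder_iff_pow_eq_one.mpr ⟨n, hn, h0⟩)
      obtain ⟨β, hβ⟩ := matched_exists hs.1 ha ha1
      obtain ⟨βn, hβn⟩ := matched_exists hs.1 (A.pow_mem ha n) hne
      have e1 := matched_pow hs n hn a β βn hβ hne hβn
      have hnb := matched_n_b hs hβ
      refine ⟨((a * β⁻¹ * a) * βn * (a * β⁻¹ * a)⁻¹)⁻¹, A.inv_mem ?_, ?_⟩
      · have := conj_mem_conjBy hβn.2.2.1 (a * β⁻¹ * a)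
        rwa [matched_n_conj_B hs hβ] at this
      · rw [inv_pow, conj_pow, e1, hnb, inv_inv]

end Cfsg.Agent.H85
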