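import Mathlib
import Cfsg.Prelude.Def_RootSubgroups
import Cfsg.Agent.H85.SpecialDiv
import Cfsg.Agent.H85.RootQuasi

/-!
# Special rank one groups with abelian unipotent subgroups of more than three elements

The commutator subgroup is quasisimple and `⁅A, H⁆ = A` for the diagonal subgroup `H`.
-/

set_option autoImplicit false

namespace Cfsg.Agent.H85

open Cfsg
open scoped commutatorElement

section Hua

variable {G : Type*} [Group G] {A B : Subgroup G}

/-- Conjugating a special rank one pair gives a special rank one pair. -/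
theorem special_conj (hs : IsSpecialRankOnePair A B) (x : G) :
    IsSpecialRankOnePair (conjBy A x) (conjBy B x) := by
  refine ⟨rop_conj hs.1 x, ?_⟩
  intro a' ha' ha1 b' hb' hb1 hab
  rw [mem_conjBy] at ha' hb'
  have ha1' : x⁻¹ * a' * x ≠ 1 := by
    intro he
    apply ha1
    have : a' = x * (x⁻¹ * a' * x) * x⁻¹ := by group
    rw [this, he]; group
  have hb1' : x⁻¹ * b' * x ≠ 1 := by
    intro he
    apply hb1
    have : b' = x * (x⁻¹ * b' * x) * x⁻¹ := by group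
    rw [this, he]; group
  have hab' : conjBy A (x⁻¹ * b' * x)⁻¹ = conjBy B (x⁻¹ * a' * x)⁻¹ := by
    rw [conjBy_conjBy, conjBy_conjBy] at hab
    have e1 : b'⁻¹ * x = x * (x⁻¹ * b' * x)⁻¹ := by group
    have e2 : a'⁻¹ * x = x * (x⁻¹ * a' * x)⁻¹ := by group
    rw [e1, e2, ← conjBy_conjBy, ← conjBy_conjBy] at hab
    exact conjBy_inj.mp hab
  have hrel := hs.2 _ ha' ha1' _ hb' hb1' hab'
  calc b'⁻¹ * a' * b' = x * ((x⁻¹ * b' * x)⁻¹ * (x⁻¹ * a' * x) * (x⁻¹ * b' * x)) * x⁻¹ := by group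
    _ = x * ((x⁻¹ * a' * x)⁻¹ * (x⁻¹ * b' * x)⁻¹ * (x⁻¹ * a' * x)) * x⁻¹ := by rw [hrel]
    _ = a'⁻¹ * b'⁻¹ * a' := by group

/-- One step: for `x, a ∈ A#` different, with `b(x) = ξ`, `b(a) = β`, there is `e ∈ A#` with
`b(e) = β⁻¹ ξ` and `x e ∈ ⁅A, H⁆`. -/
theorem hua_step (hs : IsSpecialRankOnePair A B) (hA : IsMulCommutative A) {x ξ a β : G}
    (hx : Matched A B x ξ) (ha : Matched A B a β) (hne : a ≠ x) :
    ∃ e δ, Matched A B e δ ∧ β * δ = ξ ∧ x * e ∈ ⁅A, rankOneDiagonal A B⁆ := by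
  have hr := hs.1
  have hcA : a⁻¹ * x ∈ A := A.mul_mem (A.inv_mem ha.1) hx.1
  have hc1 : a⁻¹ * x ≠ 1 := by
    intro h0
    apply hne
    exact inv_mul_eq_one.mp h0
  obtain ⟨γ, hc⟩ := matched_exists hr hcA hc1
  have hac : a * (a⁻¹ * x) ≠ 1 := by rw [mul_inv_cancel_left]; exact hx.2.1
  obtain ⟨δ, hδ, hmul⟩ := matched_mul hs ha hc hac
  rw [mul_inv_cancel_left] at hmul
  have hβδ : β * δ = ξ := matched_unique_right hr hmul hx
  refine ⟨_, δ, hδ, hβδ, ?_⟩
  obtain ⟨c, hcdef⟩ : ∃ c, c = a⁻¹ * x := ⟨_, rfl⟩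
  rw [← hcdef] at hc hcA
  have hnA : conjBy A (a * β⁻¹ * a) = B := matched_n_conj_A hs ha
  have hnB : conjBy B (a * β⁻¹ * a) = A := matched_n_conj_B hs ha
  have hmA : conjBy A (c * γ⁻¹ * c) = B := matched_n_conj_A hs hc
  have hmB : conjBy B (c * γ⁻¹ * c) = A := matched_n_conj_B hs hc
  have hnβ : (a * β⁻¹ * a) * β * (a * β⁻¹ * a)⁻¹ = a⁻¹ := matched_n_b hs ha
  have hmγ : (c * γ⁻¹ * c) * γ * (c * γ⁻¹ * c)⁻¹ = c⁻¹ := matched_n_b hs hc
  have hnm : a * β⁻¹ * a ∈ A ⊔ B :=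
    Subgroup.mul_mem _ (Subgroup.mul_mem _ (Subgroup.mem_sup_left ha.1)
      (Subgroup.inv_mem _ (Subgroup.mem_sup_right ha.2.2.1))) (Subgroup.mem_sup_left ha.1)
  have hmm : c * γ⁻¹ * c ∈ A ⊔ B :=
    Subgroup.mul_mem _ (Subgroup.mul_mem _ (Subgroup.mem_sup_left hc.1)
      (Subgroup.inv_mem _ (Subgroup.mem_sup_right hc.2.2.1))) (Subgroup.mem_sup_left hc.1)
  obtain ⟨n, hn⟩ : ∃ n, n = a * β⁻¹ * a := ⟨_, rfl⟩
  obtain ⟨m, hm⟩ : ∃ m, m = c * γ⁻¹ * c := ⟨_, rfl⟩
  rw [← hn] at hnA hnB hnβ hnm ⊢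
  rw [← hm] at hmA hmB hmγ hmm
  have hmA' : conjBy A m⁻¹ = B := (conjBy_eq_iff.mp hmB).symm
  have hmB' : conjBy B m⁻¹ = A := (conjBy_eq_iff.mp hmA).symm
  have hh : n * m⁻¹ ∈ rankOneDiagonal A B := by
    refine Subgroup.mem_inf.mpr ⟨Subgroup.mem_inf.mpr ⟨?_, ?_⟩, ?_⟩
    · exact Subgroup.mul_mem _ hnm (Subgroup.inv_mem _ hmm)
    · rw [← conjBy_eq_self_iff, ← conjBy_conjBy, hmA', hnB]
    · rw [← conjBy_eq_self_iff, ← conjBy_conjBy, hmB', hnA]
  have hcomm := Subgroup.commutator_mem_commutator hcA hh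
  have e1 : ⁅c, n * m⁻¹⁆ = x * (n * (β * γ) * n⁻¹) := by
    rw [commutatorElement_def]
    have h1 : m⁻¹ * c⁻¹ * m = γ := by rw [← hmγ]; group
    have h2 : n * β⁻¹ * n⁻¹ = a := by
      have : n * β⁻¹ * n⁻¹ = (n * β * n⁻¹)⁻¹ := by group
      rw [this, hnβ, inv_inv]
    have h3 : a⁻¹ * x * a = x := by
      have hc' : x * a = a * x := comm_of_isMulCommutative hA hx.1 ha.1
      rw [mul_assoc, hc', ← mul_assoc, inv_mul_cancel, one_mul]
    calc c * (n * m⁻¹) * c⁻¹ * (n * m⁻¹)⁻¹ = c * (n * (m⁻¹ * c⁻¹ * m) * n⁻¹) := by group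
      _ = c * (n * γ * n⁻¹) := by rw [h1]
      _ = c * ((n * β⁻¹ * n⁻¹) * (n * (β * γ) * n⁻¹)) := by group
      _ = c * (a * (n * (β * γ) * n⁻¹)) := by rw [h2]
      _ = (a⁻¹ * x * a) * (n * (β * γ) * n⁻¹) := by rw [hcdef]; group
      _ = x * (n * (β * γ) * n⁻¹) := by rw [h3]
  rw [e1] at hcomm
  exact hcomm

/-- For different `x, a ∈ A#` the product `x a` lies in `⁅A, H⁆`. -/
theorem hua_mul_mem (hs : IsSpecialRankOnePair A B) (hA : IsMulCommutative A)
    (hB : IsMulCommutative B) {x a : G} (hx : x ∈ A) (hx1 : x ≠ 1) (ha : a ∈ A) (ha1 : a ≠ 1)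
    (hne : a ≠ x) : x * a ∈ ⁅A, rankOneDiagonal A B⁆ := by
  have hr := hs.1
  obtain ⟨ξ, hmx⟩ := matched_exists hr hx hx1
  obtain ⟨β, hma⟩ := matched_exists hr ha ha1
  obtain ⟨e, δ, hme, hβδ, -⟩ := hua_step hs hA hmx hma hne
  have hex : e ≠ x := by
    intro h0
    rw [h0] at hme
    have := matched_unique_right hr hme hmx
    rw [this] at hβδ
    exact hma.2.2.2.1 (mul_eq_right.mp hβδ)
  obtain ⟨e₂, δ₂, hme₂, hδδ₂, hmem⟩ := hua_step hs hA hmx hme hex
  have hδ₂ : δ₂ = β := by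
    have hc : β * δ = δ * β := comm_of_isMulCommutative hB hma.2.2.1 hme.2.2.1
    have : δ * δ₂ = δ * β := by rw [hδδ₂, ← hβδ, hc]
    exact mul_left_cancel this
  rw [hδ₂] at hme₂
  have : e₂ = a := matched_unique_left hr hme₂ hma
  rw [this] at hmem
  exact hmem

/-- If `A` has more than three elements then `A ≤ ⁅A, H⁆`. -/
theorem hua_le_commutator (hs : IsSpecialRankOnePair A B) (hA : IsMulCommutative A)
    (hB : IsMulCommutative B) (hcard : 3 < ENat.card A) : A ≤ ⁅A, rankOneDiagonal A B⁆ := by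
  classical
  intro t ht
  by_cases ht1 : t = 1
  · rw [ht1]; exact Subgroup.one_mem _
  have hc2 : ((({1, t} : Finset G).card : ℕ) : ℕ∞) < ENat.card ↥A := by
    refine lt_of_le_of_lt ?_ hcard
    have : ({1, t} : Finset G).card ≤ 3 := Finset.card_le_two.trans (by norm_num)
    exact_mod_cast this
  obtain ⟨x, hx, hxs⟩ := exists_not_mem_of_card_lt _ hc2
  have hc3 : ((({1, t, x} : Finset G).card : ℕ) : ℕ∞) < ENat.card ↥A := by
    refine lt_of_le_of_lt ?_ hcard
    have : ({1, t, x} : Finset G).card ≤ 3 := Finset.card_le_three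
    exact_mod_cast this
  obtain ⟨a, ha, has⟩ := exists_not_mem_of_card_lt _ hc3
  simp only [Finset.mem_insert, Finset.mem_singleton, not_or] at hxs has
  obtain ⟨hx1, hxt⟩ := hxs
  obtain ⟨ha1, hat, hax⟩ := has
  have key : ∀ w ∈ A, w ∈ ⁅A, rankOneDiagonal A B⁆ → w ≠ 1 → w ≠ t →
      t ∈ ⁅A, rankOneDiagonal A B⁆ := by
    intro w hwA hw hw1 hwt
    have h1 := hua_mul_mem hs hA hB hwA hw1 ht ht1 (Ne.symm hwt)
    have : t = w⁻¹ * (w * t) := by group
    rw [this]
    exact Subgroup.mul_mem _ (Subgroup.inv_mem _ hw) h1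
  have hxa := hua_mul_mem hs hA hB hx hx1 ha ha1 hax
  by_cases hw : x * a = t
  · rw [← hw]; exact hxa
  by_cases hw1 : x * a = 1
  · have hxt' := hua_mul_mem hs hA hB hx hx1 ht ht1 (Ne.symm hxt)
    apply key (x * t) (A.mul_mem hx ht) hxt'
    · intro h0
      apply hat
      exact mul_left_cancel (hw1.trans h0.symm)
    · intro h0
      exact hx1 (mul_eq_right.mp h0)
  · exact key (x * a) (A.mul_mem hx ha) hxa hw1 hw

end Hua

section Quasi

variable {X : Type*} [Group X] {A B : Subgroup X}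

/-- A special rank one group with abelian unipotent subgroups of more than three elements has a
quasisimple commutator subgroup, which together with `A` generates the group. -/
theorem special_rank_one_quasisimple (h : IsRankOneGroup X A B) (hs : IsSpecialRankOnePair A B)
    (hab : HasAbelianUnipotents A B) (hcard : 3 < ENat.card A) :
    commutator X ⊔ A = ⊤ ∧ IsQuasisimple ↥(commutator X) := by
  have hr := h.2
  have htop : ∀ g : X, g ∈ A ⊔ B := fun g => by rw [h.1]; trivial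
  obtain ⟨S, hSdef⟩ : ∃ S, S = unipotentSubgroups A B := ⟨_, rfl⟩
  have hAS : A ∈ S := by rw [hSdef]; exact left_mem_unipotent A B
  have hBS : B ∈ S := by rw [hSdef]; exact rop_right_mem_unipotent hr
  have hform : ∀ C ∈ S, ∃ x, C = conjBy A x := by
    intro C hC
    rw [hSdef] at hC
    obtain ⟨x, _, rfl⟩ := hC
    exact ⟨x, rfl⟩
  have hcomm : ∀ C ∈ S, IsMulCommutative C := by
    intro C hC
    obtain ⟨x, rfl⟩ := hform C hC
    have := hab.1
    exact Subgroup.map_isMulCommutative _ _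
  have hne_bot : ∀ C ∈ S, C ≠ ⊥ := by
    intro C hC
    obtain ⟨x, rfl⟩ := hform C hC
    rw [Ne, conjBy_eq_bot_iff]
    exact rop_left_ne_bot hr
  have hpair : ∀ C ∈ S, ∀ D ∈ S, C ≠ D → IsRankOnePair C D := by
    intro C hC D hD hne
    rw [hSdef] at hC hD
    exact (rop_pair_of_mem hr hC hD hne).1
  have hS : IsRootSubgroupSet S := by
    refine ⟨hcomm, hne_bot, ?_, ?_, ?_⟩
    · rw [eq_top_iff, ← h.1, sup_le_iff]
      exact ⟨le_iSup₂_of_le A hAS le_rfl, le_iSup₂_of_le B hBS le_rfl⟩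
    · intro C hC g
      rw [hSdef] at hC ⊢
      exact conjBy_mem_unipotent hC (htop g)
    · intro C hC D hD
      by_cases hne : C = D
      · left
        rw [← hne, Subgroup.commutator_eq_bot_iff_le_centralizer]
        intro c hc
        rw [Subgroup.mem_centralizer_iff]
        intro d hd
        exact comm_of_isMulCommutative (hcomm C hC) hd hc
      · right; left
        exact hpair C hC D hD hne
  have h2 : ∃ C ∈ S, ∃ D ∈ S, C ≠ D := ⟨A, hAS, B, hBS, hr.ne⟩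
  have h1 : IsConnectedFamily (FAdj S) S := by
    intro C hC D hD
    by_cases hne : C = D
    · rw [hne]
    · exact Relation.ReflTransGen.single ⟨hC, hD, hpair C hC D hD hne⟩
  have h2' : ∀ C ∈ S, ∀ D ∈ S, C ≠ D → centralizingMembers S C ≠ centralizingMembers S D := by
    intro C hC D hD hne heq
    have hCC : C ∈ centralizingMembers S C := by
      refine ⟨hC, ?_⟩
      intro c hc
      rw [Subgroup.mem_centralizer_iff]
      intro d hd
      exact comm_of_isMulCommutative (hcomm C hC) hd hc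
    rw [heq] at hCC
    obtain ⟨_, hle⟩ := hCC
    apply hne_bot C hC
    rw [eq_bot_iff]
    intro c hc
    rw [Subgroup.mem_bot]
    rw [hSdef] at hC hD
    apply rop_eq_one_of_commute hr hC hD hne hc
    intro d hd
    exact (Subgroup.mem_centralizer_iff.mp (hle hc) d hd).symm
  have h3 : IsDegenerateRootSet S → ∀ C ∈ S, 3 < ENat.card C := by
    intro _ C hC
    obtain ⟨x, rfl⟩ := hform C hC
    have e : A ≃ ↥(conjBy A x) := (A.equivMapOfInjective _ (MulAut.conj x).injective).toEquiv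
    rw [← ENat.card_congr e]
    exact hcard
  have h4 : ∀ C ∈ S, ∀ D ∈ rankOnePartners S C, IsSpecialRankOnePair C D := by
    intro C hC D hD
    obtain ⟨hDS, hCD⟩ := hD
    rw [hSdef] at hC hDS
    obtain ⟨x, _, rfl, rfl⟩ := rop_exists_conj_pair hr hC hDS hCD.ne
    exact special_conj hs x
  have hq := quasisimplicity_criterion hS h2 h1 h2' h3 h4
  exact ⟨(hq.1 A hAS).1, hq.2.1⟩

end Quasi

end Cfsg.Agent.H85
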