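import Mathlib
import Cfsg.Prelude.Def_RootSubgroups
import Cfsg.Agent.H85.SpecialDiv
import Cfsg.Agent.H85.SL2
import Cfsg.Agent.H85.Braid

/-!
# Special rank one groups whose unipotent subgroups have two or three elements

Such a group is a central quotient of `SL₂(2)` resp. `SL₂(3)`.
-/

set_option autoImplicit false

namespace Cfsg.Agent.H85

open Cfsg

section Core

variable {X : Type*} [Group X] {A B : Subgroup X}

/-- A power of a non-identity element of prime order of `A` that is central is trivial. -/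
theorem rog_zpow_central (h : IsRankOneGroup X A B) {a : X} (ha : a ∈ A) (ha1 : a ≠ 1) {p : ℕ}
    (hp : p.Prime) (hap : a ^ p = 1) {i : ℤ} (hc : a ^ i ∈ Subgroup.center X) : (p : ℤ) ∣ i := by
  have h1 : a ^ i = 1 := rog_eq_one_of_mem_center h (A.zpow_mem ha i) hc
  have : Fact p.Prime := ⟨hp⟩
  have h2 : orderOf a = p := orderOf_eq_prime hap ha1
  rw [← h2]
  exact orderOf_dvd_iff_zpow_eq_one.mpr h1

theorem zpow_eq_one_of_dvd {G : Type*} [Group G] {a : G} {p : ℕ} (hap : a ^ p = 1) {i : ℤ}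
    (hi : (p : ℤ) ∣ i) : a ^ i = 1 := by
  obtain ⟨m, rfl⟩ := hi
  rw [zpow_mul, zpow_natCast, hap, one_zpow]

theorem conjBy_of_mem_center {c : X} (hc : c ∈ Subgroup.center X) : conjBy A c = A := by
  ext t
  rw [mem_conjBy]
  have : c⁻¹ * t * c = t := by
    rw [mul_assoc, (Subgroup.mem_center_iff.mp hc t), ← mul_assoc, inv_mul_cancel, one_mul]
  rw [this]

/-- No element of the big cell is central. -/
theorem matched_cell_not_central (h : IsRankOneGroup X A B) (hs : IsSpecialRankOnePair A B)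
    {a b : X} (hm : Matched A B a b) (i j : ℤ) {c : X} (hc : c ∈ Subgroup.center X) :
    a ^ i * (a * b⁻¹ * a) * a ^ j * c ∉ Subgroup.center X := by
  intro hw
  obtain ⟨n, hn⟩ : ∃ n, n = a * b⁻¹ * a := ⟨_, rfl⟩
  have hnB : conjBy A n = B := by rw [hn]; exact matched_n_conj_A hs hm
  rw [← hn] at hw
  obtain ⟨w, hw'⟩ : ∃ w, w = a ^ i * n * a ^ j * c := ⟨_, rfl⟩
  rw [← hw'] at hw
  have hd : w * c⁻¹ ∈ Subgroup.center X := Subgroup.mul_mem _ hw (Subgroup.inv_mem _ hc)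
  have e : n = a ^ (-i) * ((w * c⁻¹) * a ^ (-j)) := by
    rw [hw']; group
  have : conjBy A n = A := by
    rw [e, ← conjBy_conjBy, ← conjBy_conjBy, conjBy_of_mem (A.zpow_mem hm.1 _),
      conjBy_of_mem_center hd, conjBy_of_mem (A.zpow_mem hm.1 _)]
  exact h.2.ne (this.symm.trans hnB)

variable {a b : X}

/-- The element `z = n²` is central. -/
theorem matched_z_central (hs : IsSpecialRankOnePair A B) (hm : Matched A B a b)
    (hgen : Subgroup.closure ({a, b⁻¹} : Set X) = ⊤) :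
    (a * b⁻¹ * a) ^ 2 ∈ Subgroup.center X := by
  have hb := matched_braid hs hm
  rw [Subgroup.mem_center_iff]
  intro g
  have hg : g ∈ Subgroup.closure ({a, b⁻¹} : Set X) := by rw [hgen]; trivial
  have : Commute ((a * b⁻¹ * a) ^ 2) g := by
    induction hg using Subgroup.closure_induction with
    | mem g hg =>
      rcases hg with rfl | rfl
      · exact braid_z_comm_x hb
      · exact braid_z_comm_y hb
    | one => exact Commute.one_right _
    | mul g h _ _ ihg ihh => exact ihg.mul_right ihh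
    | inv g _ ihg => exact ihg.inv_right
  exact this.eq.symm

/-- The normal form in a special rank one group generated by a matched pair of elements of
order `2` or `3`. -/
theorem matched_form (hs : IsSpecialRankOnePair A B) (hm : Matched A B a b) {p : ℕ}
    (hp23 : p = 2 ∨ p = 3) (hbp : b ^ p = 1)
    (hgen : Subgroup.closure ({a, b⁻¹} : Set X) = ⊤) (g : X) : BraidForm a b⁻¹ g := by
  have hb := matched_braid hs hm
  have hbp' : (b⁻¹) ^ p = 1 := by rw [inv_pow, hbp, inv_one]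
  exact braid_closure hb (zpow_cases_of_pow hp23 hbp') (by rw [hgen]; trivial)

/-- The centre is generated by `z`. -/
theorem matched_center (h : IsRankOneGroup X A B) (hs : IsSpecialRankOnePair A B)
    (hm : Matched A B a b) {p : ℕ} (hp : p.Prime) (hp23 : p = 2 ∨ p = 3) (hap : a ^ p = 1)
    (hbp : b ^ p = 1) (hgen : Subgroup.closure ({a, b⁻¹} : Set X) = ⊤) :
    Subgroup.center X = Subgroup.zpowers ((a * b⁻¹ * a) ^ 2) := by
  have hz := matched_z_central hs hm hgen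
  apply le_antisymm
  · intro g hg
    rcases matched_form hs hm hp23 hbp hgen g with ⟨i, e, rfl⟩ | ⟨i, j, e, rfl⟩
    · have hze : ((a * b⁻¹ * a) ^ 2) ^ e ∈ Subgroup.center X := Subgroup.zpow_mem _ hz e
      have hai : a ^ i ∈ Subgroup.center X := by
        have := Subgroup.mul_mem _ hg (Subgroup.inv_mem _ hze)
        rwa [mul_inv_cancel_right] at this
      have hi := rog_zpow_central h hm.1 hm.2.1 hp hap hai
      rw [zpow_eq_one_of_dvd hap hi, one_mul]
      exact Subgroup.zpow_mem_zpowers _ e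
    · exact absurd hg (matched_cell_not_central h hs hm i j (Subgroup.zpow_mem _ hz e))
  · rw [Subgroup.zpowers_le]
    exact hz

end Core

section Pullback

variable {X₁ X₂ : Type*} [Group X₁] [Group X₂]

/-- The pullback construction of a homomorphism with prescribed values on two generators. -/
theorem pullback_hom {x₁ y₁ : X₁} {x₂ y₂ : X₂}
    (hgen₁ : Subgroup.closure ({x₁, y₁} : Set X₁) = ⊤)
    (hinj : ∀ g ∈ Subgroup.closure ({(x₁, x₂), (y₁, y₂)} : Set (X₁ × X₂)), g.1 = 1 → g.2 = 1) :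
    ∃ φ : X₁ →* X₂, φ x₁ = x₂ ∧ φ y₁ = y₂ := by
  obtain ⟨K, hK⟩ : ∃ K, K = Subgroup.closure ({(x₁, x₂), (y₁, y₂)} : Set (X₁ × X₂)) := ⟨_, rfl⟩
  rw [← hK] at hinj
  have hxK : (x₁, x₂) ∈ K := by rw [hK]; exact Subgroup.subset_closure (by simp)
  have hyK : (y₁, y₂) ∈ K := by rw [hK]; exact Subgroup.subset_closure (by simp)
  have hmap : K.map (MonoidHom.fst X₁ X₂) = ⊤ := by
    rw [hK, MonoidHom.map_closure, Set.image_pair]
    exact hgen₁
  let π₁ : K →* X₁ := (MonoidHom.fst X₁ X₂).comp K.subtype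
  have hinj₁ : Function.Injective π₁ := by
    rw [injective_iff_map_eq_one]
    intro g hg
    have h1 : (g : X₁ × X₂).1 = 1 := hg
    have h2 : (g : X₁ × X₂).2 = 1 := hinj _ g.2 h1
    exact Subtype.ext (Prod.ext h1 h2)
  have hsurj₁ : Function.Surjective π₁ := by
    intro g₁
    have : g₁ ∈ K.map (MonoidHom.fst X₁ X₂) := by rw [hmap]; trivial
    obtain ⟨g, hg, rfl⟩ := this
    exact ⟨⟨g, hg⟩, rfl⟩
  let e : K ≃* X₁ := MulEquiv.ofBijective π₁ ⟨hinj₁, hsurj₁⟩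
  refine ⟨((MonoidHom.snd X₁ X₂).comp K.subtype).comp e.symm.toMonoidHom, ?_, ?_⟩
  · have h1 : e.symm x₁ = ⟨(x₁, x₂), hxK⟩ := by
      rw [MulEquiv.symm_apply_eq]; rfl
    show (e.symm x₁ : X₁ × X₂).2 = x₂
    rw [h1]
  · have h1 : e.symm y₁ = ⟨(y₁, y₂), hyK⟩ := by
      rw [MulEquiv.symm_apply_eq]; rfl
    show (e.symm y₁ : X₁ × X₂).2 = y₂
    rw [h1]

variable {A₁ B₁ : Subgroup X₁} {A₂ B₂ : Subgroup X₂}

/-- Two special rank one groups generated by matched pairs of elements of order `p ∈ {2, 3}`: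
the first maps onto the second with central kernel, provided the central element `z` of the
second has order dividing that of the first. -/
theorem special_small_hom
    (h₁ : IsRankOneGroup X₁ A₁ B₁) (hs₁ : IsSpecialRankOnePair A₁ B₁)
    (h₂ : IsRankOneGroup X₂ A₂ B₂) (hs₂ : IsSpecialRankOnePair A₂ B₂)
    {a₁ b₁ : X₁} {a₂ b₂ : X₂} (hm₁ : Matched A₁ B₁ a₁ b₁) (hm₂ : Matched A₂ B₂ a₂ b₂)
    {p : ℕ} (hp : p.Prime) (hp23 : p = 2 ∨ p = 3)
    (ha₁ : a₁ ^ p = 1) (hb₁ : b₁ ^ p = 1) (ha₂ : a₂ ^ p = 1) (hb₂ : b₂ ^ p = 1)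
    (hgen₁ : Subgroup.closure ({a₁, b₁⁻¹} : Set X₁) = ⊤)
    (hgen₂ : Subgroup.closure ({a₂, b₂⁻¹} : Set X₂) = ⊤)
    (hz : ∀ e : ℤ, ((a₁ * b₁⁻¹ * a₁) ^ 2) ^ e = 1 → ((a₂ * b₂⁻¹ * a₂) ^ 2) ^ e = 1) :
    ∃ φ : X₁ →* X₂, Function.Surjective φ ∧ φ.ker ≤ Subgroup.center X₁ := by
  have hbr₁ := matched_braid hs₁ hm₁
  have hbr₂ := matched_braid hs₂ hm₂
  have hz₁ := matched_z_central hs₁ hm₁ hgen₁
  have hz₂ := matched_z_central hs₂ hm₂ hgen₂
  have hbp₁ : (b₁⁻¹) ^ p = 1 := by rw [inv_pow, hb₁, inv_one]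
  have hbp₂ : (b₂⁻¹) ^ p = 1 := by rw [inv_pow, hb₂, inv_one]
  -- the product group
  have hbr : ((a₁, a₂) : X₁ × X₂) * (b₁⁻¹, b₂⁻¹) * (a₁, a₂) =
      (b₁⁻¹, b₂⁻¹) * (a₁, a₂) * (b₁⁻¹, b₂⁻¹) := Prod.ext hbr₁ hbr₂
  have hyp : ((b₁⁻¹, b₂⁻¹) : X₁ × X₂) ^ p = 1 := Prod.ext hbp₁ hbp₂
  have hinj : ∀ g ∈ Subgroup.closure ({(a₁, a₂), (b₁⁻¹, b₂⁻¹)} : Set (X₁ × X₂)),
      g.1 = 1 → g.2 = 1 := by
    intro g hg hg1
    have hform := braid_closure hbr (zpow_cases_of_pow hp23 hyp) hg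
    rcases hform with ⟨i, e, rfl⟩ | ⟨i, j, e, rfl⟩
    · have h1 : a₁ ^ i * ((a₁ * b₁⁻¹ * a₁) ^ 2) ^ e = 1 := hg1
      show a₂ ^ i * ((a₂ * b₂⁻¹ * a₂) ^ 2) ^ e = 1
      have hze : ((a₁ * b₁⁻¹ * a₁) ^ 2) ^ e ∈ Subgroup.center X₁ := Subgroup.zpow_mem _ hz₁ e
      have hai : a₁ ^ i ∈ Subgroup.center X₁ := by
        have : a₁ ^ i = (((a₁ * b₁⁻¹ * a₁) ^ 2) ^ e)⁻¹ := eq_inv_of_mul_eq_one_left h1
        rw [this]
        exact Subgroup.inv_mem _ hze
      have hi := rog_zpow_central h₁ hm₁.1 hm₁.2.1 hp ha₁ hai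
      rw [zpow_eq_one_of_dvd ha₁ hi, one_mul] at h1
      rw [zpow_eq_one_of_dvd ha₂ hi, one_mul]
      exact hz e h1
    · exfalso
      have h1 : a₁ ^ i * (a₁ * b₁⁻¹ * a₁) * a₁ ^ j * ((a₁ * b₁⁻¹ * a₁) ^ 2) ^ e = 1 := hg1
      have := matched_cell_not_central h₁ hs₁ hm₁ i j (Subgroup.zpow_mem _ hz₁ e)
      rw [h1] at this
      exact this (Subgroup.one_mem _)
  obtain ⟨φ, hφa, hφb⟩ := pullback_hom hgen₁ hinj
  have hsurj : Function.Surjective φ := by
    rw [← MonoidHom.range_eq_top, eq_top_iff, ← hgen₂, Subgroup.closure_le]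
    rintro t (rfl | rfl)
    · exact ⟨a₁, hφa⟩
    · exact ⟨b₁⁻¹, hφb⟩
  refine ⟨φ, hsurj, ?_⟩
  intro g hg
  rw [MonoidHom.mem_ker] at hg
  have hφn : φ (a₁ * b₁⁻¹ * a₁) = a₂ * b₂⁻¹ * a₂ := by rw [map_mul, map_mul, hφa, hφb]
  rcases matched_form hs₁ hm₁ hp23 hb₁ hgen₁ g with ⟨i, e, rfl⟩ | ⟨i, j, e, rfl⟩
  · have hze : ((a₁ * b₁⁻¹ * a₁) ^ 2) ^ e ∈ Subgroup.center X₁ := Subgroup.zpow_mem _ hz₁ e
    rw [map_mul, map_zpow, map_zpow, map_pow, hφn, hφa] at hg
    have hze₂ : ((a₂ * b₂⁻¹ * a₂) ^ 2) ^ e ∈ Subgroup.center X₂ := Subgroup.zpow_mem _ hz₂ e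
    have hai : a₂ ^ i ∈ Subgroup.center X₂ := by
      have : a₂ ^ i = (((a₂ * b₂⁻¹ * a₂) ^ 2) ^ e)⁻¹ := eq_inv_of_mul_eq_one_left hg
      rw [this]
      exact Subgroup.inv_mem _ hze₂
    have hi := rog_zpow_central h₂ hm₂.1 hm₂.2.1 hp ha₂ hai
    rw [zpow_eq_one_of_dvd ha₁ hi, one_mul]
    exact hze
  · exfalso
    rw [map_mul, map_mul, map_mul, map_zpow, map_zpow, map_zpow, map_pow, hφn, hφa] at hg
    have := matched_cell_not_central h₂ hs₂ hm₂ i j (Subgroup.zpow_mem _ hz₂ e)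
    rw [hg] at this
    exact this (Subgroup.one_mem _)

end Pullback

section Data

variable {X : Type*} [Group X] {A B : Subgroup X}

/-- Generators for a special rank one group whose unipotent subgroup `A` has prime order. -/
theorem small_data (h : IsRankOneGroup X A B) (hs : IsSpecialRankOnePair A B) {p : ℕ}
    [Fact p.Prime] (hcard : Nat.card A = p) :
    ∃ a b, Matched A B a b ∧ a ^ p = 1 ∧ b ^ p = 1 ∧
      Subgroup.closure ({a, b⁻¹} : Set X) = ⊤ := by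
  obtain ⟨a, ha, ha1⟩ := rop_exists_left h.2
  obtain ⟨b, hm⟩ := matched_exists h.2 ha ha1
  have hA : ∀ t ∈ A, t ^ p = 1 := by
    intro t ht
    have h1 : (⟨t, ht⟩ : A) ^ Nat.card A = 1 := pow_card_eq_one'
    rw [hcard] at h1
    have h2 := congrArg Subtype.val h1
    simpa using h2
  have hap := hA a ha
  have hn := matched_n_a hs hm
  have hbp : b ^ p = 1 := by
    have h1 : (b⁻¹) ^ p = 1 := by
      rw [← hn, conj_pow, hap]; group
    rwa [inv_pow, inv_eq_one] at h1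
  have hAz : ∀ t ∈ A, ∃ k : ℤ, a ^ k = t := by
    intro t ht
    have h1 : (⟨t, ht⟩ : A) ∈ Subgroup.zpowers (⟨a, ha⟩ : A) :=
      mem_zpowers_of_prime_card hcard (by intro h0; exact ha1 (congrArg Subtype.val h0))
    obtain ⟨k, hk⟩ := Subgroup.mem_zpowers_iff.mp h1
    refine ⟨k, ?_⟩
    have h2 := congrArg Subtype.val hk
    simpa using h2
  refine ⟨a, b, hm, hap, hbp, ?_⟩
  have haK : a ∈ Subgroup.closure ({a, b⁻¹} : Set X) := Subgroup.subset_closure (by simp)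
  have hbK : b⁻¹ ∈ Subgroup.closure ({a, b⁻¹} : Set X) := Subgroup.subset_closure (by simp)
  rw [eq_top_iff, ← h.1, sup_le_iff]
  constructor
  · intro t ht
    obtain ⟨k, rfl⟩ := hAz t ht
    exact Subgroup.zpow_mem _ haK k
  · intro t ht
    have hB := matched_n_conj_A hs hm
    rw [← hB, mem_conjBy] at ht
    obtain ⟨k, hk⟩ := hAz _ ht
    have h1 : t = (b⁻¹) ^ k := by
      rw [← hn, conj_zpow, hk]; group
    rw [h1]
    exact Subgroup.zpow_mem _ hbK k

end Data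

section SL2Small

open Matrix

variable {k : Type*} [Field k]

theorem sl2L_pow (t : k) (n : ℕ) : sl2L t ^ n = sl2L (n * t) := by
  induction n with
  | zero => simp [sl2L_zero]
  | succ n ih =>
    rw [pow_succ, ih, sl2L_mul]
    congr 1
    push_cast
    ring

theorem sl2U_pow (t : k) (n : ℕ) : sl2U t ^ n = sl2U (n * t) := by
  induction n with
  | zero => simp [sl2U_zero]
  | succ n ih =>
    rw [pow_succ, ih, sl2U_mul]
    congr 1
    push_cast
    ring

theorem sl2_matched_one :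
    Matched (lowerUnipotentSL2 k) (upperUnipotentSL2 k) (sl2L 1) (sl2U 1) := by
  refine ⟨sl2L_mem 1, ?_, sl2U_mem 1, ?_, ?_⟩
  · intro h
    exact one_ne_zero (sl2L_injective (h.trans sl2L_zero.symm))
  · intro h
    exact one_ne_zero (sl2U_injective (h.trans sl2U_zero.symm))
  · have := sl2_conjBy_key (-1 : k) (-1) (by ring)
    rwa [sl2U_inv, sl2L_inv, neg_neg] at this

variable {p : ℕ} [Fact p.Prime]

theorem sl2L_one_pow_p : (sl2L (1 : ZMod p)) ^ p = 1 := by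
  rw [sl2L_pow, ZMod.natCast_self, zero_mul, sl2L_zero]

theorem sl2U_one_pow_p : (sl2U (1 : ZMod p)) ^ p = 1 := by
  rw [sl2U_pow, ZMod.natCast_self, zero_mul, sl2U_zero]

theorem sl2_small_gen :
    Subgroup.closure ({sl2L (1 : ZMod p), (sl2U (1 : ZMod p))⁻¹} :
      Set (SpecialLinearGroup (Fin 2) (ZMod p))) = ⊤ := by
  have : NeZero p := ⟨(Fact.out : p.Prime).ne_zero⟩
  rw [eq_top_iff, ← sl2_sup_eq_top, sup_le_iff]
  constructor
  · intro g hg
    obtain ⟨t, rfl⟩ := mem_lowerUnipotentSL2.mp hg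
    have h1 : sl2L t = (sl2L 1) ^ t.val := by rw [sl2L_pow, mul_one, ZMod.natCast_zmod_val]
    rw [h1]
    exact Subgroup.pow_mem _ (Subgroup.subset_closure (by simp)) _
  · intro g hg
    obtain ⟨t, rfl⟩ := mem_upperUnipotentSL2.mp hg
    have h1 : sl2U t = (sl2U 1) ^ t.val := by rw [sl2U_pow, mul_one, ZMod.natCast_zmod_val]
    rw [h1]
    apply Subgroup.pow_mem
    have h2 := Subgroup.inv_mem _ (Subgroup.subset_closure
      (show (sl2U (1 : ZMod p))⁻¹ ∈ ({sl2L (1 : ZMod p), (sl2U (1 : ZMod p))⁻¹} : Set _) by simp))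
    rwa [inv_inv] at h2

theorem sl2_z_ne_one_three :
    (sl2L (1 : ZMod 3) * (sl2U (1 : ZMod 3))⁻¹ * sl2L (1 : ZMod 3)) ^ 2 ≠ 1 := by
  intro h
  have h1 := congrArg
    (fun g : SpecialLinearGroup (Fin 2) (ZMod 3) => (g : Matrix (Fin 2) (Fin 2) (ZMod 3)) 0 0) h
  rw [pow_two, sl2U_inv] at h1
  simp only [sl2_mul_apply, sl2L_00, sl2L_01, sl2L_10, sl2L_11, sl2U_00, sl2U_01, sl2U_10,
    sl2U_11] at h1
  revert h1
  decide

theorem zpow_even_of_sq {G : Type*} [Group G] {z : G} (hz2 : z ^ 2 = 1) (hz1 : z ≠ 1) {e : ℤ}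
    (he : z ^ e = 1) : ((2 : ℕ) : ℤ) ∣ e := by
  have : Fact (Nat.Prime 2) := ⟨Nat.prime_two⟩
  have h2 : orderOf z = 2 := orderOf_eq_prime hz2 hz1
  rw [← h2]
  exact orderOf_dvd_iff_zpow_eq_one.mpr he

/-- A special rank one group whose unipotent subgroup `A` has `p ∈ {2, 3}` elements is a
quotient of `SL₂(p)` by a central subgroup; the kernel is trivial or (for `p = 3`) the centre. -/
theorem special_small_sl2 {X : Type*} [Group X] {A B : Subgroup X} (h : IsRankOneGroup X A B)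
    (hs : IsSpecialRankOnePair A B) (hp23 : p = 2 ∨ p = 3) (hcard : Nat.card A = p) :
    ∃ φ : SpecialLinearGroup (Fin 2) (ZMod p) →* X, Function.Surjective φ ∧
      (φ.ker = ⊥ ∨ (p = 3 ∧ φ.ker = Subgroup.center (SpecialLinearGroup (Fin 2) (ZMod p)))) := by
  have hp : p.Prime := Fact.out
  obtain ⟨a, b, hm, hap, hbp, hgen⟩ := small_data h hs hcard
  have h₁ : IsRankOneGroup (SpecialLinearGroup (Fin 2) (ZMod p)) (lowerUnipotentSL2 (ZMod p))
      (upperUnipotentSL2 (ZMod p)) := ⟨sl2_sup_eq_top, sl2_rankOnePair⟩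
  have hs₁ := sl2_special (k := ZMod p)
  have hm₁ := sl2_matched_one (k := ZMod p)
  have ha₁ := sl2L_one_pow_p (p := p)
  have hb₁ := sl2U_one_pow_p (p := p)
  have hgen₁ := sl2_small_gen (p := p)
  have hcen := matched_center h₁ hs₁ hm₁ hp hp23 ha₁ hb₁ hgen₁
  have hbi₁ : ((sl2U (1 : ZMod p))⁻¹) ^ p = 1 := by rw [inv_pow, hb₁, inv_one]
  have hbi : (b⁻¹) ^ p = 1 := by rw [inv_pow, hbp, inv_one]
  rcases hp23 with rfl | rfl
  · have hz1 := braid_z_one ha₁ hbi₁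
    have hz2 := braid_z_one hap hbi
    obtain ⟨φ, hφ, hker⟩ := special_small_hom h₁ hs₁ h hs hm₁ hm hp (Or.inl rfl) ha₁ hb₁ hap hbp
      hgen₁ hgen (by intro e _; rw [hz2, _root_.one_zpow])
    refine ⟨φ, hφ, Or.inl ?_⟩
    rw [hcen, hz1, Subgroup.zpowers_one_eq_bot] at hker
    exact le_bot_iff.mp hker
  · have hbr₁ := matched_braid hs₁ hm₁
    have hbr₂ := matched_braid hs hm
    have hz1 := braid_z_sq hbr₁ ha₁ hbi₁
    have hz2 := braid_z_sq hbr₂ hap hbi
    have hne := sl2_z_ne_one_three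
    obtain ⟨φ, hφ, hker⟩ := special_small_hom h₁ hs₁ h hs hm₁ hm hp (Or.inr rfl) ha₁ hb₁ hap hbp
      hgen₁ hgen (by
        intro e he
        exact zpow_eq_one_of_dvd hz2 (zpow_even_of_sq hz1 hne he))
    refine ⟨φ, hφ, ?_⟩
    by_cases hk : φ.ker = ⊥
    · exact Or.inl hk
    · right
      refine ⟨rfl, le_antisymm hker ?_⟩
      rw [hcen, Subgroup.zpowers_le]
      have hex : ∃ g ∈ φ.ker, g ≠ 1 := by
        by_contra hcon
        push Not at hcon
        exact hk ((Subgroup.eq_bot_iff_forall _).mpr hcon)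
      obtain ⟨g, hg, hg1⟩ := hex
      have hgz : g ∈ Subgroup.zpowers
          ((sl2L (1 : ZMod 3) * (sl2U (1 : ZMod 3))⁻¹ * sl2L (1 : ZMod 3)) ^ 2) := by
        rw [← hcen]; exact hker hg
      obtain ⟨e, rfl⟩ := Subgroup.mem_zpowers_iff.mp hgz
      rcases zpow_cases_of_pow (Or.inl rfl) hz1 e with h0 | h0 | h0
      · exact absurd h0 hg1
      · rw [h0] at hg; exact hg
      · rw [h0] at hg
        have := Subgroup.inv_mem _ hg
        rwa [inv_inv] at this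

end SL2Small

end Cfsg.Agent.H85
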