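import Mathlib
import Cfsg.Agent.H23.StbDecDefs2

/-!
# SD-DECOMP (helper85, for helper23's S2156 project)

An automorphism with a normal form is inner ∘ diagonal ∘ graph ∘ field: with `θ₁ = δ ∘ (conj x) ∘ θ` in
normal form with respect to `π`, `φ`, the algebra piece gives a field automorphism `σ` with
`φ_i t = σ t ^ e_i`; `f = Φ_σ` is the field automorphism, `g = θ₁ ∘ Φ_σ⁻¹` the graph automorphism and
`d = δ⁻¹` the diagonal automorphism.
-/

set_option autoImplicit false

namespace Cfsg.Agent.H85.StbD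

open Cfsg.Lie Cfsg.Agent.H23 Cfsg.Agent.H23.Stb Cfsg.Agent.H23.StbD

universe u

/-- a group element whose matrix is `x_r(t)` is `xG r t` -/
theorem eq_xG_of_val {D : ChevalleyDatum} {F : Type u} [Field F] {z : ℕ → ℕ → ℤ} (hS : Sem D F z)
    (g : ↥(D.group F)) (r : ℕ) (t : F)
    (h : ((g : GL D.Idx F) : Matrix D.Idx D.Idx F) = D.x F r t) : g = xG hS r t := by
  apply Subtype.ext
  apply Units.ext
  exact h

/-- SD-DECOMP -/
theorem decomp (h1 : StAlg.{u}) (h2 : StRootChar.{u}) (h3 : Cfsg.Agent.H23.Stb.StField.{u}) :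
    StDecomp.{u} := by
  intro D F _ _ z η rT w0 hC c bL bS hcz hc23 hA hbL hbS hconn hcase hex hπlen hchain θ hnf
  obtain ⟨x, δ, π, φ, ⟨k, hk, hδ⟩, hπ, hinj, hadj, hNF⟩ := hnf
  obtain ⟨hpos, hneg, hφ1, hφinv, hR⟩ := hNF
  -- the algebra piece
  obtain ⟨σ, hσ⟩ := h1 F D.rank (fun j i => z (D.simple j) (D.simple i))
    (fun i => D.isLong (D.simple i)) c bL bS π φ hc23 hA hbL hbS hconn hcase hex hπ hinj hadj
    (hπlen π hπ hinj hadj) hφ1 hφinv hR
  have he : ∀ i < D.rank, ∀ s : F, φ i s = σ s ^ D.graphExp (ringChar F) i (π i) :=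
    fun i hi s => hσ i hi s
  -- the field automorphism
  obtain ⟨Φ, hΦ⟩ := h3 D F z hC.hP.sem σ
  have hΦx : ∀ (r : ℕ) (t : F), Φ (xG hC.hP.sem r t) = xG hC.hP.sem r (σ t) := by
    intro r t
    apply Subtype.ext
    rw [hΦ]
    exact glMap_xU hC.hP.sem hC.hP.sem (σ : F →+* F) r t
  have hΦs : ∀ (r : ℕ) (t : F), Φ.symm (xG hC.hP.sem r t) = xG hC.hP.sem r (σ.symm t) := by
    intro r t
    rw [MulEquiv.symm_apply_eq, hΦx, RingEquiv.apply_symm_apply]
  refine ⟨x⁻¹, δ.symm, Φ.symm.trans ((conjL x θ).trans δ), Φ, ?_, ?_, ?_, ?_⟩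
  · -- diagonal
    obtain ⟨χ, hχ, hk1, hk2⟩ := h2 D F z η hC.hP hchain k⁻¹ (inv_mem hk)
    refine ⟨χ, hχ, fun g => ?_⟩
    have e1 : ((δ.symm g : ↥(D.group F)) : GL D.Idx F) = k⁻¹ * (g : GL D.Idx F) * k := by
      have e0 := hδ (δ.symm g)
      rw [MulEquiv.apply_symm_apply] at e0
      rw [e0]
      group
    rw [inv_inv] at hk2
    rw [e1, Units.val_mul, Units.val_mul, hk1, hk2]
  · -- graph
    have hπf : Function.Injective (fun i : Fin D.rank => (⟨π i, hπ i i.2⟩ : Fin D.rank)) :=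
      fun i j hij => Fin.ext (hinj i i.2 j j.2 (congrArg Fin.val hij))
    refine ⟨Equiv.ofBijective _ (Finite.injective_iff_bijective.mp hπf), ?_, ?_⟩
    · intro i j hij
      have hij' : (i : ℕ) ≠ j := fun h => hij (Fin.ext h)
      show D.bonds (π i) (π j) = D.bonds i j
      unfold ChevalleyDatum.bonds
      rw [hcz (π i) (hπ i i.2) (π j) (hπ j j.2), hcz (π j) (hπ j j.2) (π i) (hπ i i.2),
        hcz i i.2 j j.2, hcz j j.2 i i.2]
      by_cases hz1 : z (D.simple j) (D.simple i) = 0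
      · have e : z (D.simple (π j)) (D.simple (π i)) = 0 := by
          by_contra hne
          exact ((hadj i i.2 j j.2 hij').1 hne) hz1
        rw [hz1, e, mul_zero, mul_zero]
      by_cases hz2 : z (D.simple i) (D.simple j) = 0
      · have e : z (D.simple (π i)) (D.simple (π j)) = 0 := by
          by_contra hne
          exact ((hadj j j.2 i i.2 (Ne.symm hij')).1 hne) hz2
        rw [hz2, e, zero_mul, zero_mul]
      have hz1' := (hadj i i.2 j j.2 hij').2 hz1
      have hz2' := (hadj j j.2 i i.2 (Ne.symm hij')).2 hz2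
      have hπij : π i ≠ π j := fun h => hij' (hinj i i.2 j j.2 h)
      rw [hA i i.2 j j.2 hij' hz1, hA j j.2 i i.2 (Ne.symm hij') hz2,
        hA (π i) (hπ i i.2) (π j) (hπ j j.2) hπij hz1',
        hA (π j) (hπ j j.2) (π i) (hπ i i.2) (Ne.symm hπij) hz2']
      rcases hπlen π hπ hinj hadj with hl | hl
      · rw [hl i i.2, hl j j.2]
      · rw [hl i i.2, hl j j.2]
        cases D.isLong (D.simple (i : ℕ)) <;> cases D.isLong (D.simple (j : ℕ)) <;> simp
    · intro g i t
      constructor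
      · intro hg
        have hg' : g = xG hC.hP.sem (D.simple i) t := eq_xG_of_val hC.hP.sem g _ t hg
        have e : (Φ.symm.trans ((conjL x θ).trans δ)) (xG hC.hP.sem (D.simple i) t) =
            xG hC.hP.sem (D.simple (π i)) (t ^ D.graphExp (ringChar F) i (π i)) := by
          rw [MulEquiv.trans_apply, hΦs, hpos i i.2, he i i.2, RingEquiv.apply_symm_apply]
        rw [hg', e]
        rfl
      · intro hg
        have hg' : g = xG hC.hP.sem (D.neg (D.simple i)) t := eq_xG_of_val hC.hP.sem g _ t hg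
        have e : (Φ.symm.trans ((conjL x θ).trans δ)) (xG hC.hP.sem (D.neg (D.simple i)) t) =
            xG hC.hP.sem (D.neg (D.simple (π i))) (t ^ D.graphExp (ringChar F) i (π i)) := by
          rw [MulEquiv.trans_apply, hΦs, hneg i i.2, he i i.2, RingEquiv.apply_symm_apply]
        rw [hg', e]
        rfl
  · -- field
    refine ⟨σ, fun g r t _ hg => ?_⟩
    rw [eq_xG_of_val hC.hP.sem g r t hg, hΦx]
    rfl
  · -- the formula
    intro y
    rw [MulEquiv.trans_apply, MulEquiv.symm_apply_apply, MulEquiv.trans_apply,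
      MulEquiv.symm_apply_apply, conjL_apply, inv_inv]
    group

example (h1 : StAlg.{u}) (h2 : StRootChar.{u}) (h3 : Cfsg.Agent.H23.Stb.StField.{u}) :
    StDecomp.{u} := decomp h1 h2 h3

end Cfsg.Agent.H85.StbD
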