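import Mathlib
import Cfsg.Prelude.Def_RootSubgroups
import Cfsg.Agent.H85.SpecialSmall
import Cfsg.Agent.H85.Steinberg

/-!
# Matched pairs of elements of prime order generate `SL₂(p)` or `PSL₂(p)`
-/

set_option autoImplicit false

namespace Cfsg.Agent.H85

open Cfsg

section Exponent

variable {G : Type*} [Group G] {p : ℕ} [NeZero p]

theorem zpw_add {g : G} (hg : g ^ p = 1) (s t : ZMod p) :
    g ^ (s + t).val = g ^ s.val * g ^ t.val := by
  rw [ZMod.val_add, ← pow_eq_pow_mod _ hg, pow_add]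

omit [NeZero p] in
theorem zpw_mul {g : G} (hg : g ^ p = 1) (s t : ZMod p) :
    g ^ (s * t).val = (g ^ t.val) ^ s.val := by
  rw [ZMod.val_mul, ← pow_eq_pow_mod _ hg, mul_comm, pow_mul]

theorem zpw_neg {g : G} (hg : g ^ p = 1) (t : ZMod p) : g ^ (-t).val = (g ^ t.val)⁻¹ := by
  apply eq_inv_of_mul_eq_one_left
  rw [← zpw_add hg, neg_add_cancel, ZMod.val_zero, pow_zero]

end Exponent

section Pull

variable {G₁ G₂ : Type*} [Group G₁] [Group G₂] {p : ℕ} [Fact p.Prime]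

/-- Two pairs of families satisfying the Steinberg relations over `ZMod p`, the first one having
unique normal forms: there is a homomorphism between the groups matching the families. -/
theorem steinberg_hom {xa₁ xb₁ : ZMod p → G₁} {xa₂ xb₂ : ZMod p → G₂}
    (h₁ : IsSteinberg xa₁ xb₁) (h₂ : IsSteinberg xa₂ xb₂)
    (hgen : Subgroup.closure ({xa₁ 1, xb₁ 1} : Set G₁) = ⊤)
    (hinj1 : ∀ x t, t ≠ 0 → xa₁ x * stH xa₁ xb₁ t = 1 → x = 0 ∧ t = 1)
    (hinj2 : ∀ x t y, t ≠ 0 → xa₁ x * stH xa₁ xb₁ t * stN xa₁ xb₁ 1 * xa₁ y ≠ 1) :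
    ∃ φ : G₁ →* G₂, φ (xa₁ 1) = xa₂ 1 ∧ φ (xb₁ 1) = xb₂ 1 := by
  apply pullback_hom hgen
  intro g hg hg1
  have hP := h₁.prod h₂
  have hmem : g ∈ Subgroup.closure (Set.range (fun t => (xa₁ t, xa₂ t)) ∪
      Set.range (fun t => (xb₁ t, xb₂ t))) := by
    refine Subgroup.closure_mono ?_ hg
    rintro _ (rfl | rfl)
    · exact Or.inl ⟨1, rfl⟩
    · exact Or.inr ⟨1, rfl⟩
  rcases hP.nf_of_mem hmem with ⟨x, t, ht, rfl⟩ | ⟨x, t, y, ht, rfl⟩
  · have e1 : xa₁ x * stH xa₁ xb₁ t = 1 := hg1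
    obtain ⟨rfl, rfl⟩ := hinj1 x t ht e1
    show xa₂ 0 * stH xa₂ xb₂ 1 = 1
    rw [h₂.a_zero, IsSteinberg.h_one, mul_one]
  · exact absurd hg1 (hinj2 x t y ht)

end Pull

section Matched

variable {X : Type*} [Group X] {A B : Subgroup X} {p : ℕ} [Fact p.Prime]

/-- A matched pair `(a, b)` with `a` of order `p` satisfies the Steinberg relations. -/
theorem steinberg_of_matched (hs : IsSpecialRankOnePair A B) {a b : X} (hm : Matched A B a b)
    (hap : a ^ p = 1) :
    IsSteinberg (fun t : ZMod p => a ^ t.val) (fun t : ZMod p => b ^ t.val) := by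
  have hp : p.Prime := Fact.out
  have : NeZero p := ⟨hp.ne_zero⟩
  have hr := hs.1
  -- exponent of `b`
  have hbp : b ^ p = 1 := by
    have hn := matched_n_a hs hm
    have h1 : (b⁻¹) ^ p = 1 := by
      rw [← hn, conj_pow, hap]; group
    rwa [inv_pow, inv_eq_one] at h1
  have hord : orderOf a = p := orderOf_eq_prime hap hm.2.1
  -- matched powers
  have hmt : ∀ t : ZMod p, t ≠ 0 → Matched A B (a ^ t.val) (b ^ (t⁻¹).val) := by
    intro t ht
    have hk1 : 1 ≤ t.val := Nat.one_le_iff_ne_zero.mpr (by rwa [Ne, ZMod.val_eq_zero])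
    have hkp : t.val < p := ZMod.val_lt t
    have hak : a ^ t.val ≠ 1 := by
      intro h0
      have := orderOf_dvd_of_pow_eq_one h0
      rw [hord] at this
      exact absurd (Nat.le_of_dvd hk1 this) (not_le.mpr hkp)
    obtain ⟨β, hβ⟩ := matched_exists hr (A.pow_mem hm.1 _) hak
    have hpow := matched_pow hs t.val hk1 a b β hm hak hβ
    have hβp : β ^ p = 1 := by
      have hn := matched_n_a hs hβ
      have h1 : (β⁻¹) ^ p = 1 := by
        rw [← hn, conj_pow, ← pow_mul, mul_comm, pow_mul, hap, one_pow]; group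
      rwa [inv_pow, inv_eq_one] at h1
    have e : b ^ (t⁻¹).val = β := by
      rw [← hpow, ← pow_mul, pow_eq_pow_mod _ hβp, ← ZMod.val_mul, mul_inv_cancel₀ ht,
        ZMod.val_one, pow_one]
    rw [e]
    exact hβ
  have hneg_b : ∀ t : ZMod p, b ^ (-t).val = (b ^ t.val)⁻¹ := fun t => zpw_neg hbp t
  have hneg_a : ∀ t : ZMod p, a ^ (-t).val = (a ^ t.val)⁻¹ := fun t => zpw_neg hap t
  refine ⟨fun s t => zpw_add hap s t, fun s t => zpw_add hbp s t, ?_, ?_⟩
  · intro t ht s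
    have hmk := hmt t ht
    have hn := matched_n_a hs hmk
    show (a ^ t.val * b ^ (-t⁻¹).val * a ^ t.val) * a ^ s.val *
      (a ^ t.val * b ^ (-t⁻¹).val * a ^ t.val)⁻¹ = b ^ (-(s / t ^ 2)).val
    rw [hneg_b]
    have e1 : a ^ s.val = (a ^ t.val) ^ (s / t).val := by
      rw [← zpw_mul hap]; congr 2; field_simp
    have e2 : b ^ (-(s / t ^ 2)).val = ((b ^ (t⁻¹).val)⁻¹) ^ (s / t).val := by
      rw [← hneg_b, ← zpw_mul hbp]; congr 2; field_simp
    obtain ⟨n, hnn⟩ : ∃ n, n = a ^ t.val * (b ^ (t⁻¹).val)⁻¹ * a ^ t.val := ⟨_, rfl⟩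
    rw [← hnn] at hn ⊢
    rw [e1, e2, ← hn, conj_pow]
  · intro t ht s
    have hmk := hmt t ht
    have hn := matched_n_b hs hmk
    show (a ^ t.val * b ^ (-t⁻¹).val * a ^ t.val) * b ^ s.val *
      (a ^ t.val * b ^ (-t⁻¹).val * a ^ t.val)⁻¹ = a ^ (-(s * t ^ 2)).val
    rw [hneg_b]
    have e1 : b ^ s.val = (b ^ (t⁻¹).val) ^ (s * t).val := by
      rw [← zpw_mul hbp]; congr 2; field_simp
    have e2 : a ^ (-(s * t ^ 2)).val = ((a ^ t.val)⁻¹) ^ (s * t).val := by
      rw [← hneg_a, ← zpw_mul hap]; congr 2; ring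
    obtain ⟨n, hnn⟩ : ∃ n, n = a ^ t.val * (b ^ (t⁻¹).val)⁻¹ * a ^ t.val := ⟨_, rfl⟩
    rw [← hnn] at hn ⊢
    rw [e1, e2, ← hn, conj_pow]

end Matched

section SL2

open Matrix

variable {p : ℕ} [Fact p.Prime]

theorem sl2_steinberg : IsSteinberg (sl2L : ZMod p → SpecialLinearGroup (Fin 2) (ZMod p)) sl2U := by
  have : NeZero p := ⟨(Fact.out : p.Prime).ne_zero⟩
  have h := steinberg_of_matched (p := p) sl2_special sl2_matched_one sl2L_one_pow_p
  have e1 : (fun t : ZMod p => sl2L (1 : ZMod p) ^ t.val) = sl2L := by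
    funext t
    rw [sl2L_pow, mul_one, ZMod.natCast_zmod_val]
  have e2 : (fun t : ZMod p => sl2U (1 : ZMod p) ^ t.val) = sl2U := by
    funext t
    rw [sl2U_pow, mul_one, ZMod.natCast_zmod_val]
  rw [e1, e2] at h
  exact h

theorem sl2_stN_00 {t : ZMod p} (ht : t ≠ 0) :
    ((stN (sl2L : ZMod p → SpecialLinearGroup (Fin 2) (ZMod p)) sl2U t : SpecialLinearGroup (Fin 2) (ZMod p)) : Matrix (Fin 2) (Fin 2) (ZMod p)) 0 0 = 0 := by
  unfold stN
  simp only [sl2_mul_apply, sl2L_00, sl2L_01, sl2L_10, sl2L_11, sl2U_00, sl2U_01, sl2U_10,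
    sl2U_11]
  field_simp
  ring

theorem sl2_stN_01 (t : ZMod p) :
    ((stN (sl2L : ZMod p → SpecialLinearGroup (Fin 2) (ZMod p)) sl2U t : SpecialLinearGroup (Fin 2) (ZMod p)) : Matrix (Fin 2) (Fin 2) (ZMod p)) 0 1 = -t⁻¹ := by
  unfold stN
  simp only [sl2_mul_apply, sl2L_00, sl2L_01, sl2L_10, sl2L_11, sl2U_00, sl2U_01, sl2U_10,
    sl2U_11]
  ring

theorem sl2_stN_10 {t : ZMod p} (ht : t ≠ 0) :
    ((stN (sl2L : ZMod p → SpecialLinearGroup (Fin 2) (ZMod p)) sl2U t : SpecialLinearGroup (Fin 2) (ZMod p)) : Matrix (Fin 2) (Fin 2) (ZMod p)) 1 0 = t := by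
  unfold stN
  simp only [sl2_mul_apply, sl2L_00, sl2L_01, sl2L_10, sl2L_11, sl2U_00, sl2U_01, sl2U_10,
    sl2U_11]
  field_simp
  ring

theorem sl2_stN_11 {t : ZMod p} (ht : t ≠ 0) :
    ((stN (sl2L : ZMod p → SpecialLinearGroup (Fin 2) (ZMod p)) sl2U t : SpecialLinearGroup (Fin 2) (ZMod p)) : Matrix (Fin 2) (Fin 2) (ZMod p)) 1 1 = 0 := by
  unfold stN
  simp only [sl2_mul_apply, sl2L_00, sl2L_01, sl2L_10, sl2L_11, sl2U_00, sl2U_01, sl2U_10,
    sl2U_11]
  field_simp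
  ring

theorem sl2_hinj1 (x t : ZMod p) (ht : t ≠ 0)
    (h : sl2L x * stH (sl2L : ZMod p → SpecialLinearGroup (Fin 2) (ZMod p)) sl2U t = 1) :
    x = 0 ∧ t = 1 := by
  have h1 : sl2L x * stN (sl2L : ZMod p → SpecialLinearGroup (Fin 2) (ZMod p)) sl2U t =
      stN sl2L sl2U 1 := by
    unfold stH at h
    rw [← mul_assoc] at h
    exact mul_inv_eq_one.mp h
  have c10 := congrArg
    (fun g : SpecialLinearGroup (Fin 2) (ZMod p) => (g : Matrix (Fin 2) (Fin 2) (ZMod p)) 1 0) h1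
  have c11 := congrArg
    (fun g : SpecialLinearGroup (Fin 2) (ZMod p) => (g : Matrix (Fin 2) (Fin 2) (ZMod p)) 1 1) h1
  simp only [sl2_mul_apply, sl2L_00, sl2L_01, sl2L_10, sl2L_11, sl2_stN_00 ht, sl2_stN_01,
    sl2_stN_10 ht, sl2_stN_10 (one_ne_zero (α := ZMod p)), sl2_stN_11 ht,
    sl2_stN_11 (one_ne_zero (α := ZMod p))] at c10 c11
  have ht1 : t = 1 := by linear_combination c10
  refine ⟨?_, ht1⟩
  have : x * t⁻¹ = 0 := by linear_combination -c11
  rcases mul_eq_zero.mp this with h0 | h0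
  · exact h0
  · exact absurd h0 (inv_ne_zero ht)

theorem sl2_hinj2 (x t y : ZMod p) (ht : t ≠ 0) :
    sl2L x * stH (sl2L : ZMod p → SpecialLinearGroup (Fin 2) (ZMod p)) sl2U t *
      stN sl2L sl2U 1 * sl2L y ≠ 1 := by
  intro h
  have h1 : sl2L x * stN (sl2L : ZMod p → SpecialLinearGroup (Fin 2) (ZMod p)) sl2U t * sl2L y
      = 1 := by
    rw [IsSteinberg.n_eq t, ← mul_assoc]
    exact h
  have c01 := congrArg
    (fun g : SpecialLinearGroup (Fin 2) (ZMod p) => (g : Matrix (Fin 2) (Fin 2) (ZMod p)) 0 1) h1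
  simp only [sl2_mul_apply, sl2L_00, sl2L_01, sl2L_10, sl2L_11, sl2_stN_00 ht, sl2_stN_01,
    sl2_stN_10 ht, sl2_stN_11 ht] at c01
  have : t⁻¹ = 0 := by
    have e : ((1 : SpecialLinearGroup (Fin 2) (ZMod p)) : Matrix (Fin 2) (Fin 2) (ZMod p)) 0 1
        = 0 := by simp
    rw [e] at c01
    linear_combination -c01
  exact inv_ne_zero ht this

theorem sl2_gen_pair :
    Subgroup.closure ({sl2L (1 : ZMod p), sl2U (1 : ZMod p)} :
      Set (SpecialLinearGroup (Fin 2) (ZMod p))) = ⊤ := by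
  rw [eq_top_iff, ← sl2_small_gen (p := p), Subgroup.closure_le]
  rintro g (rfl | rfl)
  · exact Subgroup.subset_closure (by simp)
  · exact Subgroup.inv_mem _ (Subgroup.subset_closure (by simp))

/-- A matched pair `(a, b)` in a special rank one group with `a` of prime order `p` generates a
central quotient of `SL₂(p)`. -/
theorem matched_sl2 {X : Type*} [Group X] {A B : Subgroup X} (hs : IsSpecialRankOnePair A B)
    {a b : X} (hm : Matched A B a b) (hap : a ^ p = 1) :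
    ∃ φ : SpecialLinearGroup (Fin 2) (ZMod p) →* X,
      φ.range = Subgroup.closure ({a, b} : Set X) ∧
      (φ.ker = ⊥ ∨ φ.ker = Subgroup.center (SpecialLinearGroup (Fin 2) (ZMod p))) := by
  have hp : p.Prime := Fact.out
  have : NeZero p := ⟨hp.ne_zero⟩
  have hS₂ := steinberg_of_matched (p := p) hs hm hap
  obtain ⟨φ, hφa, hφb⟩ := steinberg_hom sl2_steinberg hS₂ sl2_gen_pair sl2_hinj1 sl2_hinj2
  have h1v : (1 : ZMod p).val = 1 := ZMod.val_one p
  simp only [h1v, pow_one] at hφa hφb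
  have hrange : φ.range = Subgroup.closure ({a, b} : Set X) := by
    rw [MonoidHom.range_eq_map, ← sl2_gen_pair, MonoidHom.map_closure, Set.image_pair, hφa, hφb]
  refine ⟨φ, hrange, ?_⟩
  have h₁ : IsRankOneGroup (SpecialLinearGroup (Fin 2) (ZMod p)) (lowerUnipotentSL2 (ZMod p))
      (upperUnipotentSL2 (ZMod p)) := ⟨sl2_sup_eq_top, sl2_rankOnePair⟩
  have hcen : φ.ker ≤ Subgroup.center (SpecialLinearGroup (Fin 2) (ZMod p)) := by
    rcases rog_dichotomy h₁ φ.ker inferInstance with hd | hd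
    · exfalso
      have hb : b ∈ (⊤ : Subgroup (SpecialLinearGroup (Fin 2) (ZMod p))).map φ :=
        ⟨sl2U 1, Subgroup.mem_top _, hφb⟩
      rw [← hd, Subgroup.map_sup, (Subgroup.map_eq_bot_iff φ.ker).mpr le_rfl, bot_sup_eq] at hb
      obtain ⟨l, hl, hlb⟩ := hb
      obtain ⟨x, rfl⟩ := mem_lowerUnipotentSL2.mp hl
      have hbA : b ∈ A := by
        rw [← hlb]
        have e : sl2L x = sl2L (1 : ZMod p) ^ x.val := by
          rw [sl2L_pow, mul_one, ZMod.natCast_zmod_val]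
        rw [e, map_pow, hφa]
        exact A.pow_mem hm.1 _
      have h2 : conjBy B a = A := by rw [← hm.2.2.2.2, conjBy_of_mem hbA]
      exact rop_conjBy_right_ne_left hs.1 hm.1 h2
    · exact hd
  by_cases hk : φ.ker = ⊥
  · exact Or.inl hk
  · right
    refine le_antisymm hcen ?_
    have hex : ∃ g ∈ φ.ker, g ≠ 1 := by
      by_contra hcon
      push Not at hcon
      exact hk ((Subgroup.eq_bot_iff_forall _).mpr hcon)
    obtain ⟨g, hg, hg1⟩ := hex
    have key : ∀ c ∈ Subgroup.center (SpecialLinearGroup (Fin 2) (ZMod p)), c ≠ 1 →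
        (c : Matrix (Fin 2) (Fin 2) (ZMod p)) = Matrix.scalar (Fin 2) (-1 : ZMod p) := by
      intro c hc hc1
      obtain ⟨r, hr, hrc⟩ := Matrix.SpecialLinearGroup.mem_center_iff.mp hc
      rw [Fintype.card_fin] at hr
      rcases sq_eq_one_iff.mp hr with h0 | h0
      · exfalso
        apply hc1
        apply Subtype.ext
        rw [← hrc, h0]
        simp
      · rw [← hrc, h0]
    intro c hc
    by_cases hc1 : c = 1
    · rw [hc1]; exact Subgroup.one_mem _
    · have e : c = g := Subtype.ext ((key c hc hc1).trans (key g (hcen hg) hg1).symm)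
      rw [e]; exact hg

end SL2

end Cfsg.Agent.H85
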