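import Mathlib
import Cfsg.Agent.Lib.Helper96.TqPlusDefs
import Cfsg.Agent.H3.TqArithOrd

/-!
# S5977 team project (helper96), piece S5977-ARITHORD (helper85)

Plus-type twin of helper3's S5978-ARITHORD: for `4 ∣ ord_r(q)` the `r`-part of `|O⁺_{2d}(q)|` is
that of `|O_d(q²)|`.
-/

set_option autoImplicit false

namespace Cfsg.Agent.H85.Tqp

open Cfsg.Agent.H3.Tq

theorem not_dvd_minus_odd (q r : ℕ) (hq : 2 ≤ q) (h4 : 4 ∣ orderOf (q : ZMod r)) (k : ℕ) :
    ¬ r ∣ q ^ (2 * k + 1) - 1 := by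
  intro h
  have h1 := pow_eq_one_of_dvd_sub q r _ hq h
  have h2 := orderOf_dvd_of_pow_eq_one h1
  have h3 : 4 ∣ 2 * k + 1 := h4.trans h2
  omega

/-- S5977-ARITHORD. -/
theorem arithOrdP : Cfsg.Agent.Lib.Helper96.TqP.StArithOrdP := by
  intro q d r hq hr hr2 hrq h4
  rcases Nat.even_or_odd' d with ⟨k, hk | hk⟩
  · -- `d = 2 k`
    subst hk
    rcases k with _ | k
    · refine ⟨1, ?_, ?_⟩
      · intro h; exact hr.one_lt.ne' (Nat.dvd_one.1 h)
      · simp
    · have heven : Even (2 * (k + 1)) := even_two_mul _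
      rw [if_pos heven]
      have hdiv : 2 * (k + 1) / 2 = k + 1 := by omega
      have hsub : 2 * (k + 1) - 1 = 2 * k + 1 := by omega
      rw [hdiv, hsub, Nat.add_sub_cancel]
      refine ⟨q ^ (2 * (k + 1) ^ 2) * ∏ j ∈ Finset.range (k + 1), (q ^ (2 * (2 * j + 1)) - 1),
        ?_, ?_⟩
      · intro h
        rcases (Nat.Prime.dvd_mul hr).1 h with h | h
        · exact hrq (hr.dvd_of_dvd_pow h)
        · exact not_dvd_prod_odd q r hr hq h4 (k + 1) h
      · apply dvd_of_eq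
        rw [Finset.prod_range_succ, prod_range_two_mul,
          Finset.prod_range_succ (fun j => q ^ (2 * (2 * j + 1)) - 1)]
        have e1 : ∀ j, q ^ (2 * (2 * j + 1 + 1)) - 1 = (q ^ 2) ^ (2 * (j + 1)) - 1 := by
          intro j
          rw [← pow_mul]
          congr 2
        simp_rw [e1]
        have e2 : (q ^ 2) ^ ((k + 1) * k) = q ^ (2 * ((k + 1) * k)) := by rw [← pow_mul]
        have e3 : (q ^ 2) ^ (k + 1) = q ^ (2 * (k + 1)) := by rw [← pow_mul]
        rw [e2, e3]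
        ring
  · -- `d = 2 k + 1`
    subst hk
    have hodd : ¬ Even (2 * k + 1) := by rw [Nat.even_iff]; omega
    rw [if_neg hodd]
    have hdiv : (2 * k + 1) / 2 = k := by omega
    rw [hdiv, Nat.add_sub_cancel]
    refine ⟨q ^ (2 * k ^ 2 + 2 * k) * (q ^ (2 * k + 1) - 1) *
      ∏ j ∈ Finset.range k, (q ^ (2 * (2 * j + 1)) - 1), ?_, ?_⟩
    · intro h
      rcases (Nat.Prime.dvd_mul hr).1 h with h | h
      · rcases (Nat.Prime.dvd_mul hr).1 h with h | h
        · exact hrq (hr.dvd_of_dvd_pow h)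
        · exact not_dvd_minus_odd q r hq h4 k h
      · exact not_dvd_prod_odd q r hr hq h4 k h
    · apply dvd_of_eq
      rw [prod_range_two_mul]
      have e1 : ∀ j, q ^ (2 * (2 * j + 1 + 1)) - 1 = (q ^ 2) ^ (2 * (j + 1)) - 1 := by
        intro j
        rw [← pow_mul]
        congr 2
      simp_rw [e1]
      have e2 : (q ^ 2) ^ (k ^ 2) = q ^ (2 * k ^ 2) := by rw [← pow_mul]
      rw [e2]
      ring

example : Cfsg.Agent.Lib.Helper96.TqP.StArithOrdP := arithOrdP

end Cfsg.Agent.H85.Tqp
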