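import Mathlib
import Cfsg.Agent.Lib.Helper96.TqPlusDefs
import Cfsg.Agent.H49.Disc
import Cfsg.Agent.H49.Plus

/-!
# S5977 team project (helper96), piece S5977-BCOND (helper85)

If the plus-type form in dimension `2 d` has an isometry of square `-1`, then `(-1) ^ d` is a
square of `F`: in an adapted basis the Gram matrix of the polar form is `2 • 1`, so
`2 ^ (2 n) = c ^ 2 * (-1) ^ d` with `c ≠ 0`.
-/

set_option autoImplicit false
open scoped MatrixGroups
open scoped Matrix

namespace Cfsg.Agent.H85.Tqp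

open Module Cfsg.Agent.H77.Tq Cfsg.Agent.Lib.Helper96.TqP

universe u

/-- S5977-BCOND. -/
theorem bCondP (hAd : StBAdapt.{u}) : StBCondP.{u} := by
  intro F _ _ d h2 x hx hxx
  have hnd : (QuadraticMap.polarBilin (Cfsg.Agent.H49.QP d F)).Nondegenerate :=
    Cfsg.Agent.H49.QP_nondeg d F
  obtain ⟨n, b₀, -, hb2, hb3⟩ := hAd F (Fin d ⊕ Fin d) (Cfsg.Agent.H49.QP d F) h2 hnd x hx hxx
  obtain ⟨c, hc0, hc⟩ := Cfsg.Agent.H49.gram_det_basis (Cfsg.quadFormPlus d F)
    (Cfsg.Agent.H49.hypGram d F) (Cfsg.Agent.H49.polar_quadFormPlus d F) b₀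
  have hG : (Matrix.of fun i j : Fin n ⊕ Fin n =>
      QuadraticMap.polar (Cfsg.quadFormPlus d F) (b₀ i) (b₀ j)) =
      (2 : F) • (1 : Matrix (Fin n ⊕ Fin n) (Fin n ⊕ Fin n) F) := by
    ext i j
    rw [Matrix.of_apply, Matrix.smul_apply, Matrix.one_apply]
    by_cases hij : i = j
    · subst hij
      rw [if_pos rfl, smul_eq_mul, mul_one]
      have h1 := QuadraticMap.polar_self (Cfsg.Agent.H49.QP d F) (b₀ i)
      rw [hb2 i] at h1
      have h3 : QuadraticMap.polar (Cfsg.quadFormPlus d F) (b₀ i) (b₀ i) = 2 • (1 : F) := h1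
      rw [h3]
      simp
    · rw [if_neg hij, smul_zero]
      exact hb3 i j hij
  rw [hG, Matrix.det_smul, Matrix.det_one, mul_one, Cfsg.Agent.H49.det_hypGram] at hc
  simp only [Fintype.card_sum, Fintype.card_fin] at hc
  refine ⟨2 ^ n / c, ?_⟩
  field_simp
  linear_combination (-1 : F) * hc

example (hAd : StBAdapt.{u}) : StBCondP.{u} := bCondP hAd

end Cfsg.Agent.H85.Tqp
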