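import Mathlib
import Cfsg.Agent.Lib.Helper96.TqPlusDefs
import Cfsg.Agent.H32.TqCentOrd

set_option autoImplicit false
open scoped MatrixGroups
open scoped Matrix

/-!
# S5977 team project (helper96), piece S5977-CENTORD (helper85)

Plus-type twin of helper32's S5978-CENTORD: `N(K) ∩ O(Q)` contains a subgroup of the order of
`O_d(q²)` (plus type for `d` even).
-/

namespace Cfsg.Agent.H85.Tqp

open Module Cfsg.Agent.H77.Tq Cfsg.Agent.Lib.Helper96.TqP

universe u

/-- S5977-CENTORD. -/
theorem centOrdP (hS : StStruct.{u}) (hLift : StLift.{u}) (hDisc : StDiscP.{u})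
    (hOO : StOrdDiagOdd.{u}) (hOE : StOrdDiagEvenP.{u}) : StCentOrdP.{u} := by
  classical
  intro F _ _ d K hd hKO
  obtain ⟨n, L, _, _, _, ψ, φ, α, hKC, hns⟩ :=
    hS F (Fin d ⊕ Fin d) (Cfsg.Agent.H49.QP d F) K hKO
  have hdim := hKC.dim
  have hn : n = d := by
    simp only [Fintype.card_sum, Fintype.card_fin] at hdim
    omega
  subst hn
  obtain ⟨m, rfl⟩ : ∃ m, n = m + 1 := ⟨n - 1, by omega⟩
  obtain ⟨Φ, hΦinj, hΦiso, hΦcomm, -⟩ :=
    hLift F (Fin (m + 1) ⊕ Fin (m + 1)) (Cfsg.Agent.H49.QP (m + 1) F) K L (m + 1) ψ φ α hKO hKC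
  refine ⟨Φ.range, ?_, ?_, ?_⟩
  · rintro _ ⟨Y, rfl⟩
    exact hΦiso Y
  · rintro _ ⟨Y, rfl⟩
    exact Cfsg.Agent.H32.Tq.mem_subalgebraNormalizer_of_comm K (Φ Y) (hΦcomm Y)
  · have hcard : Nat.card ↥Φ.range = Nat.card
        ↥(Cfsg.isometryGroup L (fun w : Fin (m + 1) → L => ∑ l, α l * w l ^ 2)) :=
      Nat.card_congr (MonoidHom.ofInjective hΦinj).symm.toEquiv
    rw [hcard]
    have h2L : (2 : L) ≠ 0 := by
      intro h
      apply hKO.two
      apply (algebraMap F L).injective
      rw [map_ofNat, map_zero]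
      exact h
    have hq : Fintype.card L = Fintype.card F ^ 2 := hKC.card
    by_cases hev : Even (m + 1)
    · rw [if_pos hev]
      have hneg1 : IsSquare (-1 : L) := by
        rw [FiniteField.isSquare_neg_one_iff, hq, Nat.pow_mod]
        have : Fintype.card F % 4 < 4 := Nat.mod_lt _ (by norm_num)
        interval_cases (Fintype.card F % 4) <;> norm_num
      have hlast : ¬ IsSquare (α (Fin.last m)) := by
        rw [hDisc F (m + 1) K L (m + 1) ψ φ α hKO.two hKC hns (Fin.last m) (by simp)]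
        rw [Even.neg_one_pow hev]
        exact not_not.2 IsSquare.one
      have hχ : quadraticChar L ((-1 : L) ^ ((m + 1) / 2) * ∏ l, α l) = 1 := by
        rw [map_mul, map_pow, map_prod]
        have h1 : quadraticChar L (-1) = 1 :=
          (quadraticChar_one_iff_isSquare (neg_ne_zero.mpr one_ne_zero)).mpr hneg1
        have h2 : ∀ i : Fin (m + 1), quadraticChar L (α i) = -1 := fun i => by
          apply quadraticChar_neg_one_iff_not_isSquare.mpr
          by_cases hi : (i : ℕ) + 1 < m + 1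
          · exact hns i hi
          · have : i = Fin.last m :=
              Fin.ext (by have := i.isLt; simp only [Fin.val_last]; omega)
            rw [this]; exact hlast
        rw [h1, one_pow, one_mul, Finset.prod_congr rfl (fun i _ => h2 i),
          Finset.prod_const, Finset.card_univ, Fintype.card_fin]
        exact Even.neg_one_pow hev
      have hne : (-1 : L) ^ ((m + 1) / 2) * ∏ l, α l ≠ 0 :=
        mul_ne_zero (pow_ne_zero _ (neg_ne_zero.mpr one_ne_zero))
          (Finset.prod_ne_zero_iff.2 (fun l _ => hKC.ne l))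
      have hsq : IsSquare ((-1 : L) ^ ((m + 1) / 2) * ∏ l, α l) :=
        (quadraticChar_one_iff_isSquare hne).mp hχ
      rw [hOE L (m + 1) α h2L hKC.ne hev (Nat.succ_pos m) hsq, hq]
    · rw [if_neg hev]
      have hodd : Odd (m + 1) := Nat.not_even_iff_odd.mp hev
      rw [hOO L (m + 1) α h2L hKC.ne hodd, hq]

example (hS : StStruct.{u}) (hLift : StLift.{u}) (hDisc : StDiscP.{u})
    (hOO : StOrdDiagOdd.{u}) (hOE : StOrdDiagEvenP.{u}) : StCentOrdP.{u} :=
  centOrdP hS hLift hDisc hOO hOE

end Cfsg.Agent.H85.Tqp
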