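import Mathlib
import Cfsg.Agent.H85.ExtraCore

set_option autoImplicit false
open Cfsg
open Matrix

/-!
The centralizer of a transvection in `SL_{n+2}(2)`, in block form.
-/

namespace Cfsg.Agent.H85.TC

open Cfsg.Agent.H85.GL2 Cfsg.Agent.H85.ExtraCore

variable {n : ℕ}

/-- The upper left block. -/
def Ab (a : ZMod 2) : Matrix (Fin 2) (Fin 2) (ZMod 2) := !![1, a; 0, 1]

/-- The upper right block: first row `u`, second row zero. -/
def Bb (u : Fin n → ZMod 2) : Matrix (Fin 2) (Fin n) (ZMod 2) := Matrix.of ![u, 0]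

/-- The lower left block: first column zero, second column `v`. -/
def Cb (v : Fin n → ZMod 2) : Matrix (Fin n) (Fin 2) (ZMod 2) := Matrix.of fun i => ![0, v i]

/-- The upper right block with second row `w`. -/
def Tb (w : Fin n → ZMod 2) : Matrix (Fin 2) (Fin n) (ZMod 2) := Matrix.of ![0, w]

theorem Ab_apply (a : ZMod 2) (i j : Fin 2) :
    Ab a i j = if i = j then 1 else if i = 0 then a else 0 := by
  fin_cases i <;> fin_cases j <;> simp [Ab]

theorem Bb_apply (u : Fin n → ZMod 2) (i : Fin 2) (j : Fin n) :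
    Bb u i j = if i = 0 then u j else 0 := by
  fin_cases i <;> simp [Bb]

theorem Cb_apply (v : Fin n → ZMod 2) (i : Fin n) (j : Fin 2) :
    Cb v i j = if j = 1 then v i else 0 := by
  fin_cases j <;> simp [Cb]

theorem Tb_apply (w : Fin n → ZMod 2) (i : Fin 2) (j : Fin n) :
    Tb w i j = if i = 1 then w j else 0 := by
  fin_cases i <;> simp [Tb]

theorem Ab_zero : Ab 0 = 1 := by
  ext i j; fin_cases i <;> fin_cases j <;> simp [Ab]

theorem Bb_zero : Bb (0 : Fin n → ZMod 2) = 0 := by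
  ext i j; simp [Bb_apply]

theorem Cb_zero : Cb (0 : Fin n → ZMod 2) = 0 := by
  ext i j; simp [Cb_apply]

theorem Bb_add (u u' : Fin n → ZMod 2) : Bb u + Bb u' = Bb (u + u') := by
  ext i j
  rw [Matrix.add_apply, Bb_apply, Bb_apply, Bb_apply]
  fin_cases i <;> simp

theorem Cb_add (v v' : Fin n → ZMod 2) : Cb v + Cb v' = Cb (v + v') := by
  ext i j
  rw [Matrix.add_apply, Cb_apply, Cb_apply, Cb_apply]
  fin_cases j <;> simp

theorem Ab_mul_add (a a' : ZMod 2) (u v' : Fin n → ZMod 2) :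
    Ab a * Ab a' + Bb u * Cb v' = Ab (a + a' + u ⬝ᵥ v') := by
  ext i j
  rw [Matrix.add_apply, Matrix.mul_apply, Matrix.mul_apply, Fin.sum_univ_two]
  simp only [Ab_apply, Bb_apply, Cb_apply]
  fin_cases i <;> fin_cases j <;> simp [dotProduct, add_comm]

theorem Ab_mul_Bb (a : ZMod 2) (u : Fin n → ZMod 2) : Ab a * Bb u = Bb u := by
  ext i j
  rw [Matrix.mul_apply, Fin.sum_univ_two]
  simp only [Ab_apply, Bb_apply]
  fin_cases i <;> simp

theorem Cb_mul_Ab (v : Fin n → ZMod 2) (a : ZMod 2) : Cb v * Ab a = Cb v := by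
  ext i j
  rw [Matrix.mul_apply, Fin.sum_univ_two]
  simp only [Ab_apply, Cb_apply]
  fin_cases j <;> simp

theorem Cb_mul_Bb (v u : Fin n → ZMod 2) : Cb v * Bb u = 0 := by
  ext i j
  rw [Matrix.mul_apply, Fin.sum_univ_two]
  simp only [Cb_apply, Bb_apply]
  simp

theorem Bb_mul (u : Fin n → ZMod 2) (D : Matrix (Fin n) (Fin n) (ZMod 2)) :
    Bb u * D = Bb (u ᵥ* D) := by
  ext i j
  rw [Matrix.mul_apply]
  simp only [Bb_apply]
  fin_cases i <;> simp [vecMul, dotProduct]

theorem mul_Cb (D : Matrix (Fin n) (Fin n) (ZMod 2)) (v : Fin n → ZMod 2) :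
    D * Cb v = Cb (D *ᵥ v) := by
  ext i j
  rw [Matrix.mul_apply]
  simp only [Cb_apply]
  fin_cases j <;> simp [mulVec, dotProduct]

theorem Ab_mul_Tb (w : Fin n → ZMod 2) : Ab 1 * Tb w + Tb w = Bb w := by
  ext i j
  rw [Matrix.add_apply, Matrix.mul_apply, Fin.sum_univ_two]
  simp only [Ab_apply, Tb_apply, Bb_apply]
  fin_cases i <;> simp [zadd_self]

/-- The matrix `q a u v` in block form. -/
def Qm (a : ZMod 2) (u v : Fin n → ZMod 2) : Matrix (Fin 2 ⊕ Fin n) (Fin 2 ⊕ Fin n) (ZMod 2) :=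
  fromBlocks (Ab a) (Bb u) (Cb v) 1

/-- The block diagonal matrix. -/
def Km (D : Matrix (Fin n) (Fin n) (ZMod 2)) : Matrix (Fin 2 ⊕ Fin n) (Fin 2 ⊕ Fin n) (ZMod 2) :=
  fromBlocks 1 0 0 D

/-- A transvection not centralizing `z`. -/
def Tm (w : Fin n → ZMod 2) : Matrix (Fin 2 ⊕ Fin n) (Fin 2 ⊕ Fin n) (ZMod 2) :=
  fromBlocks 1 (Tb w) 0 1

theorem Qm_mul (a : ZMod 2) (u v : Fin n → ZMod 2) (a' : ZMod 2) (u' v' : Fin n → ZMod 2) :
    Qm a u v * Qm a' u' v' = Qm (a + a' + u ⬝ᵥ v') (u + u') (v + v') := by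
  unfold Qm
  rw [fromBlocks_multiply, Ab_mul_add, Ab_mul_Bb, Cb_mul_Ab, Cb_mul_Bb, Matrix.mul_one,
    Matrix.one_mul, Matrix.one_mul, zero_add, Cb_add, add_comm (Bb u'), Bb_add]

theorem Qm_one : Qm (0 : ZMod 2) (0 : Fin n → ZMod 2) 0 = 1 := by
  unfold Qm
  rw [Ab_zero, Bb_zero, Cb_zero, fromBlocks_one]

theorem Qm_z : Qm (1 : ZMod 2) (0 : Fin n → ZMod 2) 0 = fromBlocks (Ab 1) 0 0 1 := by
  unfold Qm
  rw [Bb_zero, Cb_zero]

theorem Km_mul (D D' : Matrix (Fin n) (Fin n) (ZMod 2)) : Km D * Km D' = Km (D * D') := by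
  unfold Km
  rw [fromBlocks_multiply]
  simp

theorem Km_one : Km (1 : Matrix (Fin n) (Fin n) (ZMod 2)) = 1 := fromBlocks_one

theorem Km_Qm_Km (D D' : Matrix (Fin n) (Fin n) (ZMod 2)) (a : ZMod 2) (u v : Fin n → ZMod 2) :
    Km D * Qm a u v * Km D' = fromBlocks (Ab a) (Bb (u ᵥ* D')) (Cb (D *ᵥ v)) (D * D') := by
  unfold Km Qm
  rw [fromBlocks_multiply, fromBlocks_multiply]
  simp [Bb_mul, mul_Cb]

theorem Tm_mul (w : Fin n → ZMod 2) : Tm w * Tm w = 1 := by
  unfold Tm
  rw [fromBlocks_multiply]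
  simp only [Matrix.mul_one, Matrix.one_mul, Matrix.mul_zero, Matrix.zero_mul, add_zero, zero_add,
    madd_self]
  exact fromBlocks_one

theorem Tm_conj (w : Fin n → ZMod 2) : Tm w * Qm 1 0 0 * Tm w = Qm 1 w 0 := by
  rw [Qm_z]
  unfold Tm Qm
  rw [fromBlocks_multiply, fromBlocks_multiply]
  simp only [Matrix.mul_one, Matrix.one_mul, Matrix.mul_zero, Matrix.zero_mul, add_zero, zero_add,
    Cb_zero, Ab_mul_Tb]

theorem det_eq_one_of_mul {ι : Type*} [Fintype ι] [DecidableEq ι] (A B : Matrix ι ι (ZMod 2))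
    (h : A * B = 1) : A.det = 1 := by
  apply zmod2_eq_one
  intro h0
  have := congrArg Matrix.det h
  rw [Matrix.det_mul, h0, zero_mul, Matrix.det_one] at this
  exact zero_ne_one this

theorem Qm_inv (a : ZMod 2) (u v : Fin n → ZMod 2) : Qm a u v * Qm (a + u ⬝ᵥ v) u v = 1 := by
  rw [Qm_mul, vadd_self, vadd_self, ← Qm_one]
  congr 1
  have h1 := zadd_self a
  have h2 := zadd_self (u ⬝ᵥ v)
  linear_combination h1 + h2

/-- `q a u v` in the special linear group on the block index type. -/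
def qB (a : ZMod 2) (u v : Fin n → ZMod 2) : SpecialLinearGroup (Fin 2 ⊕ Fin n) (ZMod 2) :=
  ⟨Qm a u v, det_eq_one_of_mul _ _ (Qm_inv a u v)⟩

/-- The block diagonal embedding of `GL_n(2)`. -/
def kB : GL (Fin n) (ZMod 2) →* SpecialLinearGroup (Fin 2 ⊕ Fin n) (ZMod 2) where
  toFun g := ⟨Km (g : Matrix (Fin n) (Fin n) (ZMod 2)),
    det_eq_one_of_mul _ (Km ((g⁻¹ : GL (Fin n) (ZMod 2)) : Matrix (Fin n) (Fin n) (ZMod 2))) (by
      rw [Km_mul, ← Units.val_mul, mul_inv_cancel, Units.val_one, Km_one])⟩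
  map_one' := Subtype.ext (by
    show Km ((1 : GL (Fin n) (ZMod 2)) : Matrix (Fin n) (Fin n) (ZMod 2)) = 1
    rw [Units.val_one, Km_one])
  map_mul' g h := Subtype.ext (by
    show Km ((g * h : GL (Fin n) (ZMod 2)) : Matrix (Fin n) (Fin n) (ZMod 2)) =
      Km (g : Matrix (Fin n) (Fin n) (ZMod 2)) * Km (h : Matrix (Fin n) (Fin n) (ZMod 2))
    rw [Km_mul, Units.val_mul])

/-- The conjugating involution. -/
def tB (w : Fin n → ZMod 2) : SpecialLinearGroup (Fin 2 ⊕ Fin n) (ZMod 2) :=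
  ⟨Tm w, det_eq_one_of_mul _ _ (Tm_mul w)⟩

theorem qB_val (a : ZMod 2) (u v : Fin n → ZMod 2) : (qB a u v).1 = Qm a u v := rfl

theorem kB_val (g : GL (Fin n) (ZMod 2)) :
    (kB g).1 = Km (g : Matrix (Fin n) (Fin n) (ZMod 2)) := rfl

theorem tB_inv (w : Fin n → ZMod 2) : (tB w)⁻¹ = tB w :=
  inv_eq_of_mul_eq_one_right (Subtype.ext (Tm_mul w))

theorem tB_conj (w : Fin n → ZMod 2) : tB w * qB 1 0 0 * (tB w)⁻¹ = qB 1 w 0 := by
  rw [tB_inv]
  exact Subtype.ext (Tm_conj w)

theorem paramB : Param n (qB (n := n)) kB where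
  mul := fun a u v a' u' v' => Subtype.ext (Qm_mul a u v a' u' v')
  conj := by
    intro g a u v
    rw [← map_inv]
    apply Subtype.ext
    show Km (g : Matrix (Fin n) (Fin n) (ZMod 2)) * Qm a u v *
      Km ((g⁻¹ : GL (Fin n) (ZMod 2)) : Matrix (Fin n) (Fin n) (ZMod 2)) = Qm a _ _
    rw [Km_Qm_Km, ← Units.val_mul, mul_inv_cancel, Units.val_one]
    rfl
  inj := by
    intro a u v a' u' v' h
    have h1 : Qm a u v = Qm a' u' v' := congrArg Subtype.val h
    unfold Qm at h1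
    rw [fromBlocks_inj] at h1
    obtain ⟨hA, hB, hC, -⟩ := h1
    refine ⟨?_, ?_, ?_⟩
    · have := congrFun (congrFun hA 0) 1
      simpa [Ab] using this
    · funext j
      have := congrFun (congrFun hB 0) j
      simpa [Bb] using this
    · funext i
      have := congrFun (congrFun hC i) 1
      simpa [Cb] using this
  disj := by
    intro a u v g h
    have h1 : Qm a u v = Km (g : Matrix (Fin n) (Fin n) (ZMod 2)) := congrArg Subtype.val h
    unfold Qm Km at h1
    rw [fromBlocks_inj] at h1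
    exact Units.ext h1.2.2.2.symm
  kinj := by
    intro g h hgh
    have h1 : Km (g : Matrix (Fin n) (Fin n) (ZMod 2)) = Km (h : Matrix (Fin n) (Fin n) (ZMod 2)) :=
      congrArg Subtype.val hgh
    unfold Km at h1
    rw [fromBlocks_inj] at h1
    exact Units.ext h1.2.2.2

/-- Transport of a parametrization along an isomorphism. -/
theorem param_map {G G' : Type*} [Group G] [Group G']
    {q : ZMod 2 → (Fin n → ZMod 2) → (Fin n → ZMod 2) → G} {k : GL (Fin n) (ZMod 2) →* G}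
    (P : Param n q k) (φ : G ≃* G') :
    Param n (fun a u v => φ (q a u v)) (φ.toMonoidHom.comp k) where
  mul := by
    intro a u v a' u' v'
    show φ (q a u v) * φ (q a' u' v') = φ (q _ _ _)
    rw [← map_mul, P.mul]
  conj := by
    intro g a u v
    show φ (k g) * φ (q a u v) * (φ (k g))⁻¹ = φ (q _ _ _)
    rw [← map_inv, ← map_mul, ← map_mul, P.conj]
  inj := by
    intro a u v a' u' v' h
    exact P.inj _ _ _ _ _ _ (φ.injective h)
  disj := by
    intro a u v g h
    exact P.disj a u v g (φ.injective h)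
  kinj := fun g h hgh => P.kinj (φ.injective hgh)

/-- The index equivalence. -/
def eIdx (n : ℕ) : Fin 2 ⊕ Fin n ≃ Fin (n + 2) :=
  finSumFinEquiv.trans (finCongr (add_comm 2 n))

theorem eIdx_zero : eIdx n (Sum.inl 0) = 0 := by
  apply Fin.ext; simp [eIdx]

theorem eIdx_one : eIdx n (Sum.inl 1) = 1 := by
  apply Fin.ext; simp [eIdx]

/-- Reindexing the special linear group. -/
def slReindex {ι κ : Type*} [Fintype ι] [DecidableEq ι] [Fintype κ] [DecidableEq κ] (e : ι ≃ κ) :
    SpecialLinearGroup ι (ZMod 2) ≃* SpecialLinearGroup κ (ZMod 2) where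
  toFun A := ⟨Matrix.reindex e e A.1, by rw [Matrix.det_reindex_self]; exact A.2⟩
  invFun A := ⟨Matrix.reindex e.symm e.symm A.1, by rw [Matrix.det_reindex_self]; exact A.2⟩
  left_inv A := Subtype.ext (by simp)
  right_inv A := Subtype.ext (by simp)
  map_mul' A B := Subtype.ext (by
    show Matrix.reindex e e (A.1 * B.1) = Matrix.reindex e e A.1 * Matrix.reindex e e B.1
    simp only [Matrix.reindex_apply]
    rw [Matrix.submatrix_mul_equiv])

theorem reindex_z :
    Matrix.reindex (eIdx n) (eIdx n) (Qm 1 0 0) = Matrix.transvection 0 1 1 := by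
  have h : Qm (1 : ZMod 2) (0 : Fin n → ZMod 2) 0 =
      1 + Matrix.single (Sum.inl 0) (Sum.inl 1) 1 := by
    rw [Qm_z]
    ext (i | i) (j | j)
    · rw [fromBlocks_apply₁₁, Ab_apply, Matrix.add_apply, Matrix.one_apply, Matrix.single_apply]
      fin_cases i <;> fin_cases j <;> simp
    · simp [Matrix.one_apply, Matrix.single_apply]
    · simp [Matrix.one_apply, Matrix.single_apply]
    · simp [Matrix.one_apply, Matrix.single_apply]
  rw [h, Matrix.transvection, Matrix.reindex_apply]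
  have h2 : (1 + Matrix.single (Sum.inl 0) (Sum.inl 1) (1 : ZMod 2) :
      Matrix (Fin 2 ⊕ Fin n) (Fin 2 ⊕ Fin n) (ZMod 2)).submatrix (eIdx n).symm (eIdx n).symm =
      (1 : Matrix (Fin 2 ⊕ Fin n) (Fin 2 ⊕ Fin n) (ZMod 2)).submatrix (eIdx n).symm (eIdx n).symm +
        (Matrix.single (Sum.inl 0) (Sum.inl 1) (1 : ZMod 2)).submatrix (eIdx n).symm
          (eIdx n).symm := rfl
  rw [h2, Matrix.submatrix_one_equiv, Matrix.submatrix_single_equiv]
  simp [eIdx_zero, eIdx_one]

theorem decompB (X : SpecialLinearGroup (Fin 2 ⊕ Fin n) (ZMod 2))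
    (hX : X * qB 1 0 0 = qB 1 0 0 * X) : ∃ a u v g, X = qB a u v * kB g := by
  set A := X.1.toBlocks₁₁ with hA
  set B := X.1.toBlocks₁₂ with hB
  set C := X.1.toBlocks₂₁ with hC
  set D := X.1.toBlocks₂₂ with hD
  have hXb : X.1 = fromBlocks A B C D := (fromBlocks_toBlocks X.1).symm
  have hcomm : X.1 * Qm 1 0 0 = Qm 1 0 0 * X.1 := congrArg Subtype.val hX
  rw [Qm_z, hXb, fromBlocks_multiply, fromBlocks_multiply] at hcomm
  simp only [Matrix.mul_one, Matrix.one_mul, Matrix.mul_zero, Matrix.zero_mul, add_zero,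
    zero_add] at hcomm
  rw [fromBlocks_inj] at hcomm
  obtain ⟨h1, h2, h3, -⟩ := hcomm
  have hB1 : ∀ j, B 1 j = 0 := by
    intro j
    have := congrFun (congrFun h2 0) j
    rw [Matrix.mul_apply, Fin.sum_univ_two] at this
    simp only [Ab_apply] at this
    simpa using this
  have hC0 : ∀ i, C i 0 = 0 := by
    intro i
    have := congrFun (congrFun h3 i) 1
    rw [Matrix.mul_apply, Fin.sum_univ_two] at this
    simp only [Ab_apply] at this
    simpa using this
  have hA10 : A 1 0 = 0 := by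
    have := congrFun (congrFun h1 0) 0
    rw [Matrix.mul_apply, Matrix.mul_apply, Fin.sum_univ_two, Fin.sum_univ_two] at this
    simp only [Ab_apply] at this
    simpa using this
  have hA00 : A 0 0 = A 1 1 := by
    have := congrFun (congrFun h1 0) 1
    rw [Matrix.mul_apply, Matrix.mul_apply, Fin.sum_univ_two, Fin.sum_univ_two] at this
    simp only [Ab_apply] at this
    simp at this
    linear_combination this
  have hA00' : A 0 0 = 1 := by
    apply zmod2_eq_one
    intro h0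
    have hdet : X.1.det = 0 := by
      apply Matrix.det_eq_zero_of_column_eq_zero (Sum.inl 0)
      rintro (i | i)
      · rw [hXb, fromBlocks_apply₁₁]
        fin_cases i
        · exact h0
        · exact hA10
      · rw [hXb, fromBlocks_apply₂₁]
        exact hC0 i
    rw [X.2] at hdet
    exact one_ne_zero hdet
  have hAeq : A = Ab (A 0 1) := by
    ext i j
    rw [Ab_apply]
    fin_cases i <;> fin_cases j <;> simp [hA00', hA10, ← hA00]
  have hBeq : B = Bb (B 0) := by
    ext i j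
    rw [Bb_apply]
    fin_cases i <;> simp [hB1]
  have hCeq : C = Cb (fun i => C i 1) := by
    ext i j
    rw [Cb_apply]
    fin_cases j <;> simp [hC0]
  have hmat : X.1 = Qm (A 0 1) 0 (fun i => C i 1) * Km D * Qm 0 (B 0) 0 := by
    rw [hXb]
    unfold Qm Km
    rw [fromBlocks_multiply, fromBlocks_multiply]
    simp only [Bb_zero, Cb_zero, Ab_zero, Matrix.mul_one, Matrix.one_mul, Matrix.mul_zero,
      Matrix.zero_mul, add_zero, zero_add, Ab_mul_Bb, Cb_mul_Bb]
    rw [← hAeq, ← hBeq, ← hCeq]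
  have hdetD : D.det = 1 := by
    have := congrArg Matrix.det hmat
    rw [Matrix.det_mul, Matrix.det_mul, X.2] at this
    have e1 : (Qm (A 0 1) 0 (fun i => C i 1)).det = 1 := (qB _ _ _).2
    have e2 : (Qm 0 (B 0) (0 : Fin n → ZMod 2)).det = 1 := (qB _ _ _).2
    have e3 : (Km D).det = D.det := by
      unfold Km
      rw [Matrix.det_fromBlocks_zero₂₁, Matrix.det_one, one_mul]
    rw [e1, e2, e3, one_mul, mul_one] at this
    exact this.symm
  let g : GL (Fin n) (ZMod 2) :=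
    Matrix.GeneralLinearGroup.mkOfDetNeZero D (by rw [hdetD]; exact one_ne_zero)
  have hX' : X = qB (A 0 1) 0 (fun i => C i 1) * kB g * qB 0 (B 0) 0 := Subtype.ext hmat
  have P := paramB (n := n)
  rw [hX', mul_assoc, P.k_q, ← mul_assoc, P.mul]
  exact ⟨_, _, _, g, rfl⟩

theorem main (n : ℕ) (z : SpecialLinearGroup (Fin (n + 2)) (ZMod 2))
    (hz : (z : Matrix (Fin (n + 2)) (Fin (n + 2)) (ZMod 2)) = Matrix.transvection 0 1 1) :
    ∃ (q : ZMod 2 → (Fin n → ZMod 2) → (Fin n → ZMod 2) →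
        SpecialLinearGroup (Fin (n + 2)) (ZMod 2))
      (k : GL (Fin n) (ZMod 2) →* SpecialLinearGroup (Fin (n + 2)) (ZMod 2)),
      Param n q k ∧ q 1 0 0 = z ∧ (∀ x, x * z = z * x → ∃ a u v g, x = q a u v * k g) ∧
      ∀ w, ∃ t, t * z * t⁻¹ = q 1 w 0 := by
  have hqz : slReindex (eIdx n) (qB 1 0 0) = z := Subtype.ext (by rw [hz]; exact reindex_z)
  refine ⟨fun a u v => slReindex (eIdx n) (qB a u v), (slReindex (eIdx n)).toMonoidHom.comp kB,
    param_map paramB (slReindex (eIdx n)), hqz, ?_, ?_⟩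
  · intro x hx
    have hX : (slReindex (eIdx n)).symm x * qB 1 0 0 = qB 1 0 0 * (slReindex (eIdx n)).symm x := by
      apply (slReindex (eIdx n)).injective
      rw [map_mul, map_mul, hqz, MulEquiv.apply_symm_apply]
      exact hx
    obtain ⟨a, u, v, g, h⟩ := decompB _ hX
    refine ⟨a, u, v, g, ?_⟩
    have := congrArg (slReindex (eIdx n)) h
    rw [MulEquiv.apply_symm_apply, map_mul] at this
    exact this
  · intro w
    refine ⟨slReindex (eIdx n) (tB w), ?_⟩
    rw [← hqz, ← map_inv, ← map_mul, ← map_mul, tB_conj]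

/-- Over the field with two elements the general and special linear groups coincide. -/
noncomputable def glEquivSL (n : ℕ) : GL (Fin n) (ZMod 2) ≃* SpecialLinearGroup (Fin n) (ZMod 2) :=
  (MulEquiv.ofBijective (Matrix.SpecialLinearGroup.toGL :
      SpecialLinearGroup (Fin n) (ZMod 2) →* GL (Fin n) (ZMod 2))
    ⟨Matrix.SpecialLinearGroup.toGL_injective, by
      intro g
      have hdet : (g : Matrix (Fin n) (Fin n) (ZMod 2)).det = 1 :=
        det_eq_one_of_mul _ ((g⁻¹ : GL (Fin n) (ZMod 2)) : Matrix (Fin n) (Fin n) (ZMod 2)) (by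
          rw [← Units.val_mul, mul_inv_cancel, Units.val_one])
      exact ⟨⟨(g : Matrix (Fin n) (Fin n) (ZMod 2)), hdet⟩, Units.ext rfl⟩⟩).symm

end Cfsg.Agent.H85.TC
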