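import Mathlib
import Cfsg.Prelude.Def_RootSubgroups
import Cfsg.Agent.H85.Transv

/-!
# Transvections in characteristic two are root involutions
-/

set_option autoImplicit false

namespace Cfsg.Agent.H85

open Cfsg Matrix

theorem orderOf_mul_swap {G : Type*} [Group G] (a b : G) : orderOf (a * b) = orderOf (b * a) := by
  have := orderOf_injective (MulAut.conj a⁻¹).toMonoidHom (MulAut.conj a⁻¹).injective (a * b)
  rw [← this]
  congr 1
  simp

section SL2Char2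

variable {F : Type*} [Field F]

theorem sl2_one_00 : ((1 : SpecialLinearGroup (Fin 2) F) : Matrix (Fin 2) (Fin 2) F) 0 0 = 1 := by
  simp
theorem sl2_one_01 : ((1 : SpecialLinearGroup (Fin 2) F) : Matrix (Fin 2) (Fin 2) F) 0 1 = 0 := by
  simp
theorem sl2_one_10 : ((1 : SpecialLinearGroup (Fin 2) F) : Matrix (Fin 2) (Fin 2) F) 1 0 = 0 := by
  simp
theorem sl2_one_11 : ((1 : SpecialLinearGroup (Fin 2) F) : Matrix (Fin 2) (Fin 2) F) 1 1 = 1 := by
  simp

variable [CharP F 2]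

/-- In characteristic two, an element of `SL₂` commuting with an involution has trace zero. -/
theorem sl2_trace_of_commute_involution {g i : SpecialLinearGroup (Fin 2) F} (hi : i * i = 1)
    (hi1 : i ≠ 1) (hc : g * i = i * g) :
    (g : Matrix (Fin 2) (Fin 2) F) 0 0 + (g : Matrix (Fin 2) (Fin 2) F) 1 1 = 0 := by
  have h2 : (2 : F) = 0 := CharTwo.two_eq_zero
  have e00 := congrArg
    (fun m : SpecialLinearGroup (Fin 2) F => (m : Matrix (Fin 2) (Fin 2) F) 0 0) hi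
  have e01 := congrArg
    (fun m : SpecialLinearGroup (Fin 2) F => (m : Matrix (Fin 2) (Fin 2) F) 0 1) hi
  have e10 := congrArg
    (fun m : SpecialLinearGroup (Fin 2) F => (m : Matrix (Fin 2) (Fin 2) F) 1 0) hi
  have e11 := congrArg
    (fun m : SpecialLinearGroup (Fin 2) F => (m : Matrix (Fin 2) (Fin 2) F) 1 1) hi
  have c01 := congrArg
    (fun m : SpecialLinearGroup (Fin 2) F => (m : Matrix (Fin 2) (Fin 2) F) 0 1) hc
  have c10 := congrArg
    (fun m : SpecialLinearGroup (Fin 2) F => (m : Matrix (Fin 2) (Fin 2) F) 1 0) hc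
  simp only [sl2_mul_apply, sl2_one_00, sl2_one_01, sl2_one_10, sl2_one_11] at e00 e01 e10 e11 c01 c10
  obtain ⟨a, ha⟩ : ∃ a, (i : Matrix (Fin 2) (Fin 2) F) 0 0 = a := ⟨_, rfl⟩
  obtain ⟨b, hb⟩ : ∃ b, (i : Matrix (Fin 2) (Fin 2) F) 0 1 = b := ⟨_, rfl⟩
  obtain ⟨c, hc'⟩ : ∃ c, (i : Matrix (Fin 2) (Fin 2) F) 1 0 = c := ⟨_, rfl⟩
  obtain ⟨d, hd⟩ : ∃ d, (i : Matrix (Fin 2) (Fin 2) F) 1 1 = d := ⟨_, rfl⟩
  obtain ⟨x, hx⟩ : ∃ x, (g : Matrix (Fin 2) (Fin 2) F) 0 0 = x := ⟨_, rfl⟩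
  obtain ⟨y, hy⟩ : ∃ y, (g : Matrix (Fin 2) (Fin 2) F) 0 1 = y := ⟨_, rfl⟩
  obtain ⟨z, hz⟩ : ∃ z, (g : Matrix (Fin 2) (Fin 2) F) 1 0 = z := ⟨_, rfl⟩
  obtain ⟨w, hw⟩ : ∃ w, (g : Matrix (Fin 2) (Fin 2) F) 1 1 = w := ⟨_, rfl⟩
  simp only [ha, hb, hc', hd, hx, hy, hz, hw] at e00 e01 e10 e11 c01 c10 ⊢
  by_cases hbc : b = 0 ∧ c = 0
  · exfalso
    obtain ⟨hb0, hc0⟩ := hbc
    apply hi1
    have ha1 : a = 1 := by
      have : (a - 1) * (a - 1) = 0 := by
        rw [hb0, hc0] at e00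
        linear_combination e00 + (1 - a) * h2
      have := mul_self_eq_zero.mp this
      linear_combination this
    have hd1 : d = 1 := by
      have : (d - 1) * (d - 1) = 0 := by
        rw [hb0, hc0] at e11
        linear_combination e11 + (1 - d) * h2
      have := mul_self_eq_zero.mp this
      linear_combination this
    apply sl2_ext
    · rw [ha, sl2_one_00, ha1]
    · rw [hb, sl2_one_01, hb0]
    · rw [hc', sl2_one_10, hc0]
    · rw [hd, sl2_one_11, hd1]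
  · have had : a + d = 0 := by
      by_cases hb0 : b = 0
      · have hc0 : c ≠ 0 := fun h => hbc ⟨hb0, h⟩
        have : c * (a + d) = 0 := by linear_combination e10
        exact (mul_eq_zero.mp this).resolve_left hc0
      · have : b * (a + d) = 0 := by linear_combination e01
        exact (mul_eq_zero.mp this).resolve_left hb0
    have hxw : x - w = 0 := by
      by_cases hb0 : b = 0
      · have hc0 : c ≠ 0 := fun h => hbc ⟨hb0, h⟩
        have : c * (x - w) = 0 := by linear_combination -c10 - z * had + (z * a) * h2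
        exact (mul_eq_zero.mp this).resolve_left hc0
      · have : b * (x - w) = 0 := by linear_combination c01 + y * had - (y * d) * h2
        exact (mul_eq_zero.mp this).resolve_left hb0
    linear_combination hxw + w * h2

/-- In `SL₂` over a finite field of characteristic two, elements of non-zero trace have odd
order. -/
theorem sl2_odd_order [Finite F] {m : SpecialLinearGroup (Fin 2) F}
    (ht : (m : Matrix (Fin 2) (Fin 2) F) 0 0 + (m : Matrix (Fin 2) (Fin 2) F) 1 1 ≠ 0) :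
    Odd (orderOf m) := by
  by_contra hodd
  rw [Nat.not_odd_iff_even] at hodd
  obtain ⟨j, hj⟩ := hodd
  have hpos : 0 < orderOf m := orderOf_pos m
  have hi : m ^ j * m ^ j = 1 := by rw [← pow_add, ← hj, pow_orderOf_eq_one]
  have hi1 : m ^ j ≠ 1 := by
    intro h1
    have := Nat.le_of_dvd (by omega) (orderOf_dvd_of_pow_eq_one h1)
    omega
  exact ht (sl2_trace_of_commute_involution hi hi1 (pow_mul_comm' m j).symm)

theorem sl2_trace_UL (x y : F) :
    ((sl2U x * sl2L y : SpecialLinearGroup (Fin 2) F) : Matrix (Fin 2) (Fin 2) F) 0 0 +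
      ((sl2U x * sl2L y : SpecialLinearGroup (Fin 2) F) : Matrix (Fin 2) (Fin 2) F) 1 1 =
      x * y := by
  simp only [sl2_mul_apply, sl2L_00, sl2L_01, sl2L_10, sl2L_11, sl2U_00, sl2U_01, sl2U_10,
    sl2U_11]
  linear_combination (CharTwo.two_eq_zero : (2 : F) = 0)

theorem sl2_UL_cube : (sl2U (1 : F) * sl2L (1 : F)) ^ 3 = 1 := by
  have h2 : (2 : F) = 0 := CharTwo.two_eq_zero
  rw [pow_succ, pow_succ, pow_one]
  apply sl2_ext
  · simp only [sl2_mul_apply, sl2L_00, sl2L_01, sl2L_10, sl2L_11, sl2U_00, sl2U_01, sl2U_10,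
      sl2U_11, sl2_one_00]
    linear_combination 6 * h2
  · simp only [sl2_mul_apply, sl2L_00, sl2L_01, sl2L_10, sl2L_11, sl2U_00, sl2U_01, sl2U_10,
      sl2U_11, sl2_one_01]
    linear_combination 4 * h2
  · simp only [sl2_mul_apply, sl2L_00, sl2L_01, sl2L_10, sl2L_11, sl2U_00, sl2U_01, sl2U_10,
      sl2U_11, sl2_one_10]
    linear_combination 4 * h2
  · simp only [sl2_mul_apply, sl2L_00, sl2L_01, sl2L_10, sl2L_11, sl2U_00, sl2U_01, sl2U_10,
      sl2U_11, sl2_one_11]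
    linear_combination 2 * h2

end SL2Char2

section RootInv

variable {ι : Type*} [Fintype ι] [DecidableEq ι] {F : Type*} [Field F]

/-- The set of all non-identity transvections. -/
def tvSet (F : Type*) [Field F] : Set (SpecialLinearGroup ι F) :=
  {t | ∃ (p φ : ι → F) (h : φ ⬝ᵥ p = 0) (c : F), p ≠ 0 ∧ φ ≠ 0 ∧ c ≠ 0 ∧ t = tv p φ h c}

theorem sl_mulVec_ne_zero (g : SpecialLinearGroup ι F) {v : ι → F} (hv : v ≠ 0) :
    (g : Matrix ι ι F) *ᵥ v ≠ 0 := by
  intro h0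
  have := congrArg (fun v => ((g⁻¹ : SpecialLinearGroup ι F) : Matrix ι ι F) *ᵥ v) h0
  simp only [mulVec_mulVec, sl_coe_inv_mul, one_mulVec, mulVec_zero] at this
  exact hv this

theorem sl_vecMul_ne_zero (g : SpecialLinearGroup ι F) {v : ι → F} (hv : v ≠ 0) :
    v ᵥ* (g : Matrix ι ι F) ≠ 0 := by
  intro h0
  have := congrArg (fun v => v ᵥ* ((g⁻¹ : SpecialLinearGroup ι F) : Matrix ι ι F)) h0
  simp only [vecMul_vecMul, sl_coe_mul_inv, vecMul_one, zero_vecMul] at this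
  exact hv this

theorem tvSet_conj {t : SpecialLinearGroup ι F} (ht : t ∈ tvSet F) (g : SpecialLinearGroup ι F) :
    g * t * g⁻¹ ∈ tvSet F := by
  obtain ⟨p, φ, h, c, hp, hφ, hc, rfl⟩ := ht
  exact ⟨_, _, conj_incident g h, c, sl_mulVec_ne_zero g hp, sl_vecMul_ne_zero g⁻¹ hφ, hc,
    conj_tv g h c⟩

/-- Every transvection is conjugate to the standard one. -/
theorem tv_eq_conj_std {i₀ i₁ i₂ : ι} (h01 : i₀ ≠ i₁) (h02 : i₀ ≠ i₂) (h12 : i₁ ≠ i₂)
    {p φ : ι → F} (hp : p ≠ 0) (hφ : φ ≠ 0) (h : φ ⬝ᵥ p = 0) {c : F} (hc : c ≠ 0) :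
    ∃ g : SpecialLinearGroup ι F,
      tv p φ h c = g * tv (Pi.single i₀ 1) (Pi.single i₁ 1) (single_incident h01) 1 * g⁻¹ := by
  have hcp : c • p ≠ 0 := smul_ne_zero hc hp
  have h' : φ ⬝ᵥ (c • p) = 0 := by rw [dotProduct_smul, h, smul_zero]
  obtain ⟨g, hg0, hg1⟩ := exists_flag_map h01 h02 h12 hcp hφ h'
  refine ⟨g, ?_⟩
  rw [conj_tv]
  apply Subtype.ext
  rw [tv_coe, tv_coe, hg0, hg1, smul_vecMulVec, one_smul]

variable [CharP F 2]

theorem tv_mul_self (p φ : ι → F) (h : φ ⬝ᵥ p = 0) (c : F) : tv p φ h c * tv p φ h c = 1 := by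
  rw [tv_mul, CharTwo.add_self_eq_zero, tv_zero]

theorem tv_inv_self (p φ : ι → F) (h : φ ⬝ᵥ p = 0) (c : F) : (tv p φ h c)⁻¹ = tv p φ h c := by
  rw [tv_inv, CharTwo.neg_eq]

theorem tvSet_orderOf {t : SpecialLinearGroup ι F} (ht : t ∈ tvSet F) : orderOf t = 2 := by
  obtain ⟨p, φ, h, c, hp, hφ, hc, rfl⟩ := ht
  have : Fact (Nat.Prime 2) := ⟨Nat.prime_two⟩
  apply orderOf_eq_prime
  · rw [pow_two, tv_mul_self]
  · intro h1
    exact hc ((tv_eq_one_iff hp hφ h).mp h1)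

theorem tv_order_four {p φ q ψ : ι → F} (hφ : φ ≠ 0) (hq : q ≠ 0) (h : φ ⬝ᵥ p = 0)
    (h' : ψ ⬝ᵥ q = 0) (hα : φ ⬝ᵥ q = 0) (hβ : ψ ⬝ᵥ p ≠ 0) {c d : F} (hc : c ≠ 0) (hd : d ≠ 0) :
    orderOf (tv p φ h c * tv q ψ h' d) = 4 ∧ (tv p φ h c * tv q ψ h' d) ^ 2 ∈ tvSet F := by
  have hz : (tv p φ h c * tv q ψ h' d) ^ 2 = tv q φ hα (-(c * d * (ψ ⬝ᵥ p))) := by
    rw [← tv_commutator h h' hα, tv_inv_self, tv_inv_self, pow_two]
    group
  have he : -(c * d * (ψ ⬝ᵥ p)) ≠ 0 := neg_ne_zero.mpr (mul_ne_zero (mul_ne_zero hc hd) hβ)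
  refine ⟨?_, ?_⟩
  · have : Fact (Nat.Prime 2) := ⟨Nat.prime_two⟩
    have := orderOf_eq_prime_pow (x := tv p φ h c * tv q ψ h' d) (p := 2) (n := 1) (by
      rw [pow_one, hz]
      intro h1
      exact he ((tv_eq_one_iff hq hφ hα).mp h1)) (by
      rw [show (2 : ℕ) ^ (1 + 1) = 2 * 2 by norm_num, pow_mul, hz, pow_two, tv_mul_self])
    rw [this]
    norm_num
  · rw [hz]
    exact ⟨q, φ, hα, _, hq, hφ, he, rfl⟩

omit [CharP F 2] in
/-- Two transvections in general position: their product is the image of a product of elementary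
matrices of `SL₂` under an injective homomorphism. -/
theorem tv_pair_sl2 {p φ q ψ : ι → F} (hp : p ≠ 0) (hφ : φ ≠ 0) (hq : q ≠ 0) (hψ : ψ ≠ 0)
    (h : φ ⬝ᵥ p = 0) (h' : ψ ⬝ᵥ q = 0) (hα : φ ⬝ᵥ q ≠ 0) (hβ : ψ ⬝ᵥ p ≠ 0) {c d : F}
    (hc : c ≠ 0) (hd : d ≠ 0) :
    ∃ x y : F, x ≠ 0 ∧ y ≠ 0 ∧
      orderOf (tv p φ h c * tv q ψ h' d) = orderOf (sl2U x * sl2L y) := by
  obtain ⟨f, hinj, hU, hL, -⟩ := exists_emb h h' hα hβ
  have ha : tv p φ h c ∈ (upperUnipotentSL2 F).map f := by rw [hU]; exact tv_mem _ _ _ _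
  have hb : tv q ψ h' d ∈ (lowerUnipotentSL2 F).map f := by rw [hL]; exact tv_mem _ _ _ _
  obtain ⟨u, hu, hfu⟩ := ha
  obtain ⟨l, hl, hfl⟩ := hb
  obtain ⟨x, rfl⟩ := mem_upperUnipotentSL2.mp hu
  obtain ⟨y, rfl⟩ := mem_lowerUnipotentSL2.mp hl
  refine ⟨x, y, ?_, ?_, ?_⟩
  · rintro rfl
    rw [sl2U_zero, map_one] at hfu
    exact hc ((tv_eq_one_iff hp hφ h).mp hfu.symm)
  · rintro rfl
    rw [sl2L_zero, map_one] at hfl
    exact hd ((tv_eq_one_iff hq hψ h').mp hfl.symm)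
  · rw [← hfu, ← hfl, ← map_mul, orderOf_injective f hinj]

theorem tvSet_pair [Finite F] {a b : SpecialLinearGroup ι F} (ha : a ∈ tvSet F)
    (hb : b ∈ tvSet F) :
    a * b = b * a ∨ Odd (orderOf (a * b)) ∨ (orderOf (a * b) = 4 ∧ (a * b) ^ 2 ∈ tvSet F) := by
  obtain ⟨p, φ, h, c, hp, hφ, hc, rfl⟩ := ha
  obtain ⟨q, ψ, h', d, hq, hψ, hd, rfl⟩ := hb
  by_cases hα : φ ⬝ᵥ q = 0
  · by_cases hβ : ψ ⬝ᵥ p = 0
    · left
      exact tv_comm h h' hα hβ c d
    · right; right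
      exact tv_order_four hφ hq h h' hα hβ hc hd
  · by_cases hβ : ψ ⬝ᵥ p = 0
    · right; right
      obtain ⟨h4, hmem⟩ := tv_order_four hψ hp h' h hβ hα hd hc
      refine ⟨by rw [orderOf_mul_swap]; exact h4, ?_⟩
      have e : (tv p φ h c * tv q ψ h' d) ^ 2 =
          tv p φ h c * (tv q ψ h' d * tv p φ h c) ^ 2 * (tv p φ h c)⁻¹ := by
        rw [pow_two, pow_two]; group
      rw [e]
      exact tvSet_conj hmem _
    · right; left
      obtain ⟨x, y, hx, hy, he⟩ := tv_pair_sl2 hp hφ hq hψ h h' hα hβ hc hd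
      rw [he]
      apply sl2_odd_order
      rw [sl2_trace_UL]
      exact mul_ne_zero hx hy

theorem tvSet_pair_two [Fintype F] (hF : Fintype.card F = 2) {a b : SpecialLinearGroup ι F}
    (ha : a ∈ tvSet F) (hb : b ∈ tvSet F) (hodd : Odd (orderOf (a * b))) :
    orderOf (a * b) = 1 ∨ orderOf (a * b) = 3 := by
  obtain ⟨p, φ, h, c, hp, hφ, hc, rfl⟩ := ha
  obtain ⟨q, ψ, h', d, hq, hψ, hd, rfl⟩ := hb
  have h4 : ¬ Odd 4 := by decide
  by_cases hα : φ ⬝ᵥ q = 0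
  · by_cases hβ : ψ ⬝ᵥ p = 0
    · left
      have hcomm := tv_comm h h' hα hβ c d
      have h2 : (tv p φ h c * tv q ψ h' d) ^ 2 = 1 := by
        rw [pow_two]
        calc tv p φ h c * tv q ψ h' d * (tv p φ h c * tv q ψ h' d)
            = tv p φ h c * (tv q ψ h' d * tv p φ h c) * tv q ψ h' d := by group
          _ = tv p φ h c * (tv p φ h c * tv q ψ h' d) * tv q ψ h' d := by rw [hcomm]
          _ = (tv p φ h c * tv p φ h c) * (tv q ψ h' d * tv q ψ h' d) := by group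
          _ = 1 := by rw [tv_mul_self, tv_mul_self, one_mul]
      have hdvd := orderOf_dvd_of_pow_eq_one h2
      rcases (Nat.dvd_prime Nat.prime_two).mp hdvd with h1 | h1
      · exact h1
      · rw [h1] at hodd
        exact absurd hodd (by decide)
    · exfalso
      rw [(tv_order_four hφ hq h h' hα hβ hc hd).1] at hodd
      exact h4 hodd
  · by_cases hβ : ψ ⬝ᵥ p = 0
    · exfalso
      rw [orderOf_mul_swap, (tv_order_four hψ hp h' h hβ hα hd hc).1] at hodd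
      exact h4 hodd
    · obtain ⟨x, y, hx, hy, he⟩ := tv_pair_sl2 hp hφ hq hψ h h' hα hβ hc hd
      have hx1 : x = 1 := by
        have := FiniteField.pow_card_sub_one_eq_one x hx
        rwa [hF, pow_one] at this
      have hy1 : y = 1 := by
        have := FiniteField.pow_card_sub_one_eq_one y hy
        rwa [hF, pow_one] at this
      rw [he, hx1, hy1]
      exact (Nat.dvd_prime Nat.prime_three).mp (orderOf_dvd_of_pow_eq_one sl2_UL_cube)

omit [CharP F 2] in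
/-- The transvections generate the special linear group. -/
theorem tvSet_closure {i₀ i₁ : ι} (h01 : i₀ ≠ i₁) :
    Subgroup.closure (tvSet (ι := ι) F) = ⊤ := by
  apply eq_top_of_elem h01
  intro i j hij x hx
  obtain ⟨c, rfl⟩ := (mem_tvG (single_incident hij)).mp hx
  by_cases hc : c = 0
  · rw [hc, tv_zero]
    exact Subgroup.one_mem _
  · exact Subgroup.subset_closure
      ⟨_, _, single_incident hij, c, single_ne_zero' i, single_ne_zero' j, hc, rfl⟩

theorem tvSet_rootInv [Finite F] {i₀ i₁ : ι} (h01 : i₀ ≠ i₁) :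
    IsRootInvolutionSet (tvSet (ι := ι) F) :=
  ⟨fun _ hd => tvSet_orderOf hd, tvSet_closure h01, fun _ hd g => tvSet_conj hd g,
    fun _ ha _ hb => tvSet_pair ha hb⟩

theorem tvSet_class [Finite F] {i₀ i₁ i₂ : ι} (h01 : i₀ ≠ i₁) (h02 : i₀ ≠ i₂) (h12 : i₁ ≠ i₂) :
    IsRootInvolutionClass (tvSet (ι := ι) F) := by
  refine ⟨tvSet_rootInv h01, ⟨_, _, _, single_incident h01, 1, single_ne_zero' i₀,
    single_ne_zero' i₁, one_ne_zero, rfl⟩, ?_⟩
  rintro a ⟨p, φ, h, c, hp, hφ, hc, rfl⟩ b ⟨q, ψ, h', d, hq, hψ, hd, rfl⟩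
  obtain ⟨g₁, e₁⟩ := tv_eq_conj_std h01 h02 h12 hp hφ h hc
  obtain ⟨g₂, e₂⟩ := tv_eq_conj_std h01 h02 h12 hq hψ h' hd
  refine ⟨g₂ * g₁⁻¹, ?_⟩
  rw [e₁, e₂]
  group

omit [CharP F 2] in
/-- The set of the statement is the set of all non-identity transvections. -/
theorem tvSet_eq {i₀ i₁ i₂ : ι} (h01 : i₀ ≠ i₁) (h02 : i₀ ≠ i₂) (h12 : i₁ ≠ i₂) :
    {t : SpecialLinearGroup ι F | ∃ c : F, c ≠ 0 ∧ ∃ g : SpecialLinearGroup ι F,
      ((g⁻¹ * t * g : SpecialLinearGroup ι F) : Matrix ι ι F) = Matrix.transvection i₀ i₁ c} =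
    tvSet F := by
  ext t
  constructor
  · rintro ⟨c, hc, g, hg⟩
    have e : g⁻¹ * t * g = tv (Pi.single i₀ 1) (Pi.single i₁ 1) (single_incident h01) c := by
      apply Subtype.ext
      rw [hg, transvection_eq_vmv]
      rfl
    have e2 : t = g * tv (Pi.single i₀ 1) (Pi.single i₁ 1) (single_incident h01) c * g⁻¹ := by
      rw [← e]; group
    rw [e2]
    exact tvSet_conj ⟨_, _, single_incident h01, c, single_ne_zero' i₀, single_ne_zero' i₁, hc,
      rfl⟩ g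
  · rintro ⟨p, φ, h, c, hp, hφ, hc, rfl⟩
    obtain ⟨g, e⟩ := tv_eq_conj_std h01 h02 h12 hp hφ h hc
    refine ⟨1, one_ne_zero, g, ?_⟩
    have e2 : g⁻¹ * tv p φ h c * g =
        tv (Pi.single i₀ 1) (Pi.single i₁ 1) (single_incident h01) 1 := by
      rw [e]; group
    rw [e2, transvection_eq_vmv]
    rfl

end RootInv

end Cfsg.Agent.H85
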