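import Mathlib
import Cfsg.Prelude.Def_RootSubgroups
import Cfsg.Agent.H85.Transv
import Cfsg.Agent.H85.RootGraph

/-!
# The transvection subgroups of `SL(ι, k)` form a class of `k`-root subgroups
-/

set_option autoImplicit false

namespace Cfsg.Agent.H85

open Cfsg Matrix
open scoped commutatorElement

variable {ι : Type*} [Fintype ι] [DecidableEq ι] {k : Type*} [Field k]

/-- The class of conjugates of the standard transvection subgroup. -/
def tvClass (k : Type*) [Field k] (i₀ i₁ : ι) : Set (Subgroup (SpecialLinearGroup ι k)) :=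
  {A | ∃ g : SpecialLinearGroup ι k, A = conjBy (tvG (Pi.single i₀ (1 : k)) (Pi.single i₁ 1)) g}

theorem tvG_mem_class {i₀ i₁ i₂ : ι} (h01 : i₀ ≠ i₁) (h02 : i₀ ≠ i₂) (h12 : i₁ ≠ i₂)
    {p φ : ι → k} (hp : p ≠ 0) (hφ : φ ≠ 0) (h : φ ⬝ᵥ p = 0) : tvG p φ ∈ tvClass k i₀ i₁ :=
  tvG_eq_conjBy h01 h02 h12 hp hφ h

theorem class_form {i₀ i₁ : ι} (h01 : i₀ ≠ i₁) {A : Subgroup (SpecialLinearGroup ι k)}
    (hA : A ∈ tvClass k i₀ i₁) :
    ∃ p φ : ι → k, p ≠ 0 ∧ φ ≠ 0 ∧ φ ⬝ᵥ p = 0 ∧ A = tvG p φ := by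
  obtain ⟨g, rfl⟩ := hA
  exact conjBy_std_eq h01 g

theorem tvClass_rootSet {i₀ i₁ i₂ : ι} (h01 : i₀ ≠ i₁) (h02 : i₀ ≠ i₂) (h12 : i₁ ≠ i₂) :
    IsRootSubgroupSet (tvClass k i₀ i₁) := by
  have hmem : ∀ {p φ : ι → k}, p ≠ 0 → φ ≠ 0 → φ ⬝ᵥ p = 0 → tvG p φ ∈ tvClass k i₀ i₁ :=
    fun hp hφ h => tvG_mem_class h01 h02 h12 hp hφ h
  refine ⟨?_, ?_, ?_, ?_, ?_⟩
  · intro A hA
    obtain ⟨p, φ, hp, hφ, h, rfl⟩ := class_form h01 hA
    exact tvG_comm h
  · intro A hA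
    obtain ⟨p, φ, hp, hφ, h, rfl⟩ := class_form h01 hA
    exact tvG_ne_bot hp hφ h
  · apply eq_top_of_elem h01
    intro i j hij
    exact le_iSup₂_of_le (tvG (Pi.single i (1 : k)) (Pi.single j 1))
      (hmem (single_ne_zero' i) (single_ne_zero' j) (single_incident hij)) le_rfl
  · rintro A ⟨g, rfl⟩ x
    exact ⟨x * g, conjBy_conjBy _ g x⟩
  · intro A hA B hB
    obtain ⟨p, φ, hp, hφ, h, rfl⟩ := class_form h01 hA
    obtain ⟨q, ψ, hq, hψ, h', rfl⟩ := class_form h01 hB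
    by_cases hα : φ ⬝ᵥ q = 0
    · by_cases hβ : ψ ⬝ᵥ p = 0
      · left
        exact commutator_eq_bot_of_comm (tvG_comm_of h h' hα hβ)
      · right; right
        exact tvG_rcc hp hφ hq hψ h h' hα hβ (hmem hq hφ hα)
    · by_cases hβ : ψ ⬝ᵥ p = 0
      · right; right
        exact rcc_symm (tvG_rcc hq hψ hp hφ h' h hβ hα (hmem hp hψ hβ))
      · right; left
        exact (tvG_psl2 h h' hα hβ).1

theorem tvClass_class {i₀ i₁ i₂ : ι} (h01 : i₀ ≠ i₁) (h02 : i₀ ≠ i₂) (h12 : i₁ ≠ i₂) :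
    IsRootSubgroupClass (tvClass k i₀ i₁) := by
  refine ⟨tvClass_rootSet h01 h02 h12, ⟨_, 1, (conjBy_one _).symm⟩, ?_⟩
  rintro A ⟨g₁, rfl⟩ B ⟨g₂, rfl⟩
  refine ⟨g₂ * g₁⁻¹, ?_⟩
  rw [conjBy_conjBy, inv_mul_cancel_right]

theorem tvClass_nondeg {i₀ i₁ i₂ : ι} (h01 : i₀ ≠ i₁) (h02 : i₀ ≠ i₂) (h12 : i₁ ≠ i₂) :
    IsNondegenerateRootSet (tvClass k i₀ i₁) := by
  have hmem : ∀ {p φ : ι → k}, p ≠ 0 → φ ≠ 0 → φ ⬝ᵥ p = 0 → tvG p φ ∈ tvClass k i₀ i₁ :=
    fun hp hφ h => tvG_mem_class h01 h02 h12 hp hφ h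
  have h00 : (Pi.single i₀ 1 : ι → k) ⬝ᵥ Pi.single i₀ 1 ≠ 0 := by
    rw [single_one_dotProduct, Pi.single_eq_same]; exact one_ne_zero
  have h11 : (Pi.single i₁ 1 : ι → k) ⬝ᵥ Pi.single i₁ 1 ≠ 0 := by
    rw [single_one_dotProduct, Pi.single_eq_same]; exact one_ne_zero
  refine ⟨?_, ?_, ?_⟩
  · refine ⟨tvG (Pi.single i₀ 1) (Pi.single i₁ 1),
      hmem (single_ne_zero' i₀) (single_ne_zero' i₁) (single_incident h01),
      tvG (Pi.single i₀ 1) (Pi.single i₂ 1),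
      hmem (single_ne_zero' i₀) (single_ne_zero' i₂) (single_incident h02), ?_, ?_⟩
    · intro he
      have h1 : tv (Pi.single i₀ (1 : k)) (Pi.single i₁ 1) (single_incident h01) 1 ∈
          tvG (Pi.single i₀ (1 : k)) (Pi.single i₂ 1) := by
        rw [← he]; exact tv_mem _ _ _ _
      obtain ⟨c, hc⟩ := (mem_tvG (single_incident h02)).mp h1
      have h2 := congrArg (fun g : SpecialLinearGroup ι k => (g : Matrix ι ι k) i₀ i₁) hc
      simp only [tv_coe, Matrix.add_apply, Matrix.smul_apply, vecMulVec_apply, Pi.single_eq_same,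
        Pi.single_eq_of_ne h12, Matrix.one_apply_ne h01, smul_eq_mul, mul_zero, mul_one,
        zero_add] at h2
      exact one_ne_zero h2
    · exact commutator_eq_bot_of_comm (tvG_comm_of (single_incident h01) (single_incident h02)
        (single_incident h01) (single_incident h02))
  · exact ⟨tvG (Pi.single i₀ 1) (Pi.single i₁ 1),
      hmem (single_ne_zero' i₀) (single_ne_zero' i₁) (single_incident h01),
      tvG (Pi.single i₁ 1) (Pi.single i₀ 1),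
      hmem (single_ne_zero' i₁) (single_ne_zero' i₀) (single_incident h01.symm),
      (tvG_psl2 (single_incident h01) (single_incident h01.symm) h11 h00).1⟩
  · exact ⟨tvG (Pi.single i₀ 1) (Pi.single i₁ 1),
      hmem (single_ne_zero' i₀) (single_ne_zero' i₁) (single_incident h01),
      tvG (Pi.single i₂ 1) (Pi.single i₀ 1),
      hmem (single_ne_zero' i₂) (single_ne_zero' i₀) (single_incident h02.symm),
      tvG_rcc (single_ne_zero' i₀) (single_ne_zero' i₁) (single_ne_zero' i₂) (single_ne_zero' i₀)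
        (single_incident h01) (single_incident h02.symm) (single_incident h12.symm) h00
        (hmem (single_ne_zero' i₂) (single_ne_zero' i₁) (single_incident h12.symm))⟩

theorem tvClass_kroot {i₀ i₁ i₂ : ι} (h01 : i₀ ≠ i₁) (h02 : i₀ ≠ i₂) (h12 : i₁ ≠ i₂) :
    IsKRootSubgroupSet k (tvClass k i₀ i₁) := by
  refine ⟨tvClass_rootSet h01 h02 h12, ?_⟩
  intro A hA B hB hr
  obtain ⟨p, φ, hp, hφ, h, rfl⟩ := class_form h01 hA
  obtain ⟨q, ψ, hq, hψ, h', rfl⟩ := class_form h01 hB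
  exact (tvG_psl2 h h' (tvG_rop_ne hp hφ h h' hr) (tvG_rop_ne hq hψ h' h (rop_symm hr))).2

theorem tvClass_conn {i₀ i₁ i₂ : ι} (h01 : i₀ ≠ i₁) (h02 : i₀ ≠ i₂) (h12 : i₁ ≠ i₂) :
    IsConnectedFamily (FAdj (tvClass k i₀ i₁)) (tvClass k i₀ i₁) := by
  obtain ⟨-, hr, -⟩ := tvClass_nondeg (k := k) h01 h02 h12
  exact fconn (tvClass_class h01 h02 h12) hr

/-- The standard root subgroup as in the statement. -/
theorem closure_transvection_eq (i j : ι) :
    Subgroup.closure {t : SpecialLinearGroup ι k |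
      ∃ c : k, (t : Matrix ι ι k) = Matrix.transvection i j c} =
    tvG (Pi.single i (1 : k)) (Pi.single j 1) := by
  unfold tvG
  congr 1
  ext t
  simp only [Set.mem_ofPred_eq, transvection_eq_vmv]

end Cfsg.Agent.H85
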