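import Cfsg.Prelude
import Cfsg.Agent.H85.RankOne

set_option autoImplicit false

/-!
# A Baer–Suzuki type theorem for unipotent subgroups of linear groups (helper85)

`G ≤ GL(M)`, `W` a `G`-invariant set of subgroups of `G`, any two generating a subgroup
acting unipotently: then the subgroup generated by `W` acts unipotently.
The proof follows the Alperin–Lyons argument, with nilpotent multiplicatively closed
subspaces of `End M` in place of Sylow subgroups.
-/

namespace Cfsg.Agent.H85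

section UnipBaer

variable {k : Type*} [Field k] {M : Type*} [AddCommGroup M] [Module k M]

theorem exists_max_nat {α : Type*} (P : α → Prop) (f : α → ℕ) (b : ℕ)
    (hb : ∀ a, P a → f a ≤ b) (hne : ∃ a, P a) : ∃ a, P a ∧ ∀ a', P a' → f a' ≤ f a := by
  by_contra hcon
  push Not at hcon
  have key : ∀ n, ∃ a, P a ∧ n ≤ f a := by
    intro n
    induction n with
    | zero => obtain ⟨a, ha⟩ := hne; exact ⟨a, ha, Nat.zero_le _⟩
    | succ n ih =>
      obtain ⟨a, ha, hn⟩ := ih
      obtain ⟨a', ha', hlt⟩ := hcon a ha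
      exact ⟨a', ha', by omega⟩
  obtain ⟨a, ha, hn⟩ := key (b + 1)
  have := hb a ha
  omega

/-- the span of the `h - 1`, `h ∈ H`. -/
def augSpan (H : Subgroup (LinearMap.GeneralLinearGroup k M)) : Submodule k (Module.End k M) :=
  Submodule.span k {x | ∃ h ∈ H, x = (h : Module.End k M) - 1}

theorem sub_one_mem_augSpan {H : Subgroup (LinearMap.GeneralLinearGroup k M)}
    {h : LinearMap.GeneralLinearGroup k M} (hh : h ∈ H) : (h : Module.End k M) - 1 ∈ augSpan H :=
  Submodule.subset_span ⟨h, hh, rfl⟩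

theorem augSpan_le_iff {H : Subgroup (LinearMap.GeneralLinearGroup k M)}
    {N : Submodule k (Module.End k M)} :
    augSpan H ≤ N ↔ ∀ h ∈ H, (h : Module.End k M) - 1 ∈ N := by
  unfold augSpan
  rw [Submodule.span_le]
  constructor
  · intro hs h hh; exact hs ⟨h, hh, rfl⟩
  · rintro hs _ ⟨h, hh, rfl⟩; exact hs h hh

theorem augSpan_mono {H H' : Subgroup (LinearMap.GeneralLinearGroup k M)} (hle : H ≤ H') :
    augSpan H ≤ augSpan H' :=
  augSpan_le_iff.mpr (fun _ hh => sub_one_mem_augSpan (hle hh))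

theorem augSpan_mul_le (H : Subgroup (LinearMap.GeneralLinearGroup k M)) :
    augSpan H * augSpan H ≤ augSpan H := by
  unfold augSpan
  rw [Submodule.span_mul_span, Submodule.span_le]
  rintro _ ⟨_, ⟨h, hh, rfl⟩, _, ⟨h', hh', rfl⟩, rfl⟩
  have e : ((h : Module.End k M) - 1) * ((h' : Module.End k M) - 1)
      = (((h * h' : LinearMap.GeneralLinearGroup k M) : Module.End k M) - 1)
        - ((h : Module.End k M) - 1) - ((h' : Module.End k M) - 1) := by
    rw [Units.val_mul]; noncomm_ring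
  show ((h : Module.End k M) - 1) * ((h' : Module.End k M) - 1) ∈ _
  rw [e]
  exact sub_mem (sub_mem (Submodule.subset_span ⟨h * h', mul_mem hh hh', rfl⟩)
    (Submodule.subset_span ⟨h, hh, rfl⟩)) (Submodule.subset_span ⟨h', hh', rfl⟩)

/-- the group of units `g` with `g - 1` and `g⁻¹ - 1` in a multiplicatively closed subspace. -/
def unipSub (N : Submodule k (Module.End k M)) (hN : N * N ≤ N) :
    Subgroup (LinearMap.GeneralLinearGroup k M) where
  carrier := {g | (g : Module.End k M) - 1 ∈ N ∧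
    ((g⁻¹ : LinearMap.GeneralLinearGroup k M) : Module.End k M) - 1 ∈ N}
  mul_mem' := by
    have key : ∀ a b : Module.End k M, a - 1 ∈ N → b - 1 ∈ N → a * b - 1 ∈ N := by
      intro a b ha hb
      have e : a * b - 1 = (a - 1) * (b - 1) + (a - 1) + (b - 1) := by noncomm_ring
      rw [e]
      exact add_mem (add_mem (hN (Submodule.mul_mem_mul ha hb)) ha) hb
    rintro a b ⟨ha, ha'⟩ ⟨hb, hb'⟩
    refine ⟨?_, ?_⟩
    · rw [Units.val_mul]; exact key _ _ ha hb
    · rw [mul_inv_rev, Units.val_mul]; exact key _ _ hb' ha'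
  one_mem' := by
    refine ⟨?_, ?_⟩
    · rw [Units.val_one, sub_self]; exact zero_mem _
    · rw [inv_one, Units.val_one, sub_self]; exact zero_mem _
  inv_mem' := by
    rintro a ⟨ha, ha'⟩
    exact ⟨ha', by rw [inv_inv]; exact ha⟩

theorem le_unipSub_iff {N : Submodule k (Module.End k M)} (hN : N * N ≤ N)
    {A : Subgroup (LinearMap.GeneralLinearGroup k M)} : A ≤ unipSub N hN ↔ augSpan A ≤ N := by
  rw [augSpan_le_iff]
  constructor
  · intro h a ha; exact (h ha).1
  · intro h a ha; exact ⟨h a ha, h a⁻¹ (inv_mem ha)⟩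

theorem augSpan_iSup_le {N : Submodule k (Module.End k M)} (hN : N * N ≤ N)
    {Γ : Set (Subgroup (LinearMap.GeneralLinearGroup k M))} (h : ∀ A ∈ Γ, augSpan A ≤ N) :
    augSpan (⨆ A ∈ Γ, A) ≤ N := by
  rw [← le_unipSub_iff hN]
  exact iSup₂_le (fun A hA => (le_unipSub_iff hN).mpr (h A hA))

theorem list_prod_mem_pow (N : Submodule k (Module.End k M)) :
    ∀ l : List (Module.End k M), (∀ x ∈ l, x ∈ N) → l.prod ∈ N ^ l.length
  | [], _ => by
    rw [List.prod_nil, List.length_nil, pow_zero]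
    exact Submodule.one_le.mp le_rfl
  | x :: l, h => by
    rw [List.prod_cons, List.length_cons, pow_succ']
    exact Submodule.mul_mem_mul (h x List.mem_cons_self)
      (list_prod_mem_pow N l (fun y hy => h y (List.mem_cons_of_mem _ hy)))

theorem coe_list_map (l : List (LinearMap.GeneralLinearGroup k M)) :
    (List.map (fun g : Module.End k M => g - 1) (do let a ← l; pure (a : Module.End k M)))
      = l.map (fun g : LinearMap.GeneralLinearGroup k M => (g : Module.End k M) - 1) := by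
  induction l with
  | nil => rfl
  | cons a l ih =>
    simp only [List.map_cons, List.bind_eq_flatMap, List.flatMap_cons, List.pure_def,
      List.singleton_append] at ih ⊢
    rw [ih]

theorem isUnipotentOn_iff {H : Subgroup (LinearMap.GeneralLinearGroup k M)} :
    IsUnipotentOn H ↔ ∃ n : ℕ, ∀ l : List (LinearMap.GeneralLinearGroup k M),
      (∀ g ∈ l, g ∈ H) → l.length = n →
      (l.map (fun g : LinearMap.GeneralLinearGroup k M => (g : Module.End k M) - 1)).prod = 0 := by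
  unfold IsUnipotentOn
  constructor
  · rintro ⟨n, hn⟩
    refine ⟨n, fun l hl hlen => ?_⟩
    have h0 := hn l hl hlen
    rwa [coe_list_map] at h0
  · rintro ⟨n, hn⟩
    refine ⟨n, fun l hl hlen => ?_⟩
    rw [coe_list_map]
    exact hn l hl hlen

theorem unipotent_of_le {H : Subgroup (LinearMap.GeneralLinearGroup k M)}
    {N : Submodule k (Module.End k M)} (hle : augSpan H ≤ N) {n : ℕ} (hn : N ^ n = ⊥) :
    IsUnipotentOn H := by
  rw [isUnipotentOn_iff]
  refine ⟨n, fun l hl hlen => ?_⟩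
  have h1 := list_prod_mem_pow N
    (l.map fun g : LinearMap.GeneralLinearGroup k M => (g : Module.End k M) - 1) (by
    intro x hx
    rw [List.mem_map] at hx
    obtain ⟨g, hg, rfl⟩ := hx
    exact hle (sub_one_mem_augSpan (hl g hg)))
  rw [List.length_map, hlen, hn] at h1
  exact (Submodule.mem_bot k).mp h1

theorem nilpotent_of_unipotent {H : Subgroup (LinearMap.GeneralLinearGroup k M)}
    (h : IsUnipotentOn H) : ∃ n, augSpan H ^ n = ⊥ := by
  rw [isUnipotentOn_iff] at h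
  obtain ⟨n, hn⟩ := h
  refine ⟨n, ?_⟩
  unfold augSpan
  rw [Submodule.span_pow, Submodule.span_eq_bot]
  intro x hx
  rw [Set.mem_pow] at hx
  obtain ⟨f, rfl⟩ := hx
  choose g hg hfg using fun i => (f i).2
  have h0 := hn (List.ofFn g) (by
    intro y hy
    rw [List.mem_ofFn] at hy
    obtain ⟨i, rfl⟩ := hy
    exact hg i) List.length_ofFn
  rw [List.map_ofFn] at h0
  have e : (fun i => ((f i : Module.End k M))) = (fun g : LinearMap.GeneralLinearGroup k M =>
      (g : Module.End k M) - 1) ∘ g := by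
    funext i; exact hfg i
  rw [e]; exact h0

theorem sm_pow_mono {N N' : Submodule k (Module.End k M)} (h : N ≤ N') (n : ℕ) :
    N ^ n ≤ N' ^ n := by
  induction n with
  | zero => rw [pow_zero, pow_zero]
  | succ n ih => rw [pow_succ, pow_succ]; exact mul_le_mul' ih h

theorem sm_pow_anti {N : Submodule k (Module.End k M)} (hN : N * N ≤ N) (b j : ℕ) :
    N ^ (b + 1 + j) ≤ N ^ (b + 1) := by
  induction j with
  | zero => exact le_rfl
  | succ j ih =>
    calc N ^ (b + 1 + (j + 1)) = N ^ (b + 1 + j) * N := by rw [← add_assoc, pow_succ]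
      _ ≤ N ^ (b + 1) * N := mul_le_mul' ih le_rfl
      _ = N ^ b * (N * N) := by rw [pow_succ, mul_assoc]
      _ ≤ N ^ b * N := mul_le_mul' le_rfl hN
      _ = N ^ (b + 1) := (pow_succ _ _).symm

/-- combining two nilpotent multiplicatively closed subspaces, one "normalizing" the other. -/
theorem combine_nilclosed {P Q : Submodule k (Module.End k M)} (hP : P * P ≤ P)
    (hQ : Q * Q ≤ Q) {p q : ℕ} (hp : P ^ p = ⊥) (hq : Q ^ q = ⊥) (hPQ : P * Q ≤ Q ⊔ Q * P) :
    ∃ R : Submodule k (Module.End k M), P ≤ R ∧ Q ≤ R ∧ R * R ≤ R ∧ ∃ n, R ^ n = ⊥ := by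
  obtain ⟨Ph, hPh⟩ : ∃ Ph : Submodule k (Module.End k M), Ph = 1 ⊔ P := ⟨_, rfl⟩
  have h1 : (1 : Submodule k (Module.End k M)) ≤ Ph := hPh ▸ le_sup_left
  have h2 : P ≤ Ph := hPh ▸ le_sup_right
  have h3 : Ph * Ph ≤ Ph := by
    have e : Ph * Ph = (1 * 1 ⊔ 1 * P) ⊔ (P * 1 ⊔ P * P) := by
      rw [hPh, Submodule.sup_mul, Submodule.mul_sup, Submodule.mul_sup]
    rw [e, one_mul, one_mul, mul_one]
    exact sup_le (sup_le h1 h2) (sup_le h2 (hP.trans h2))
  have h4 : Ph * Q ≤ Q * Ph := by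
    have e1 : Ph * Q = Q ⊔ P * Q := by rw [hPh, Submodule.sup_mul, one_mul]
    have e2 : Q * Ph = Q ⊔ Q * P := by rw [hPh, Submodule.mul_sup, mul_one]
    rw [e1, e2]
    exact sup_le le_sup_left hPQ
  obtain ⟨I, hI⟩ : ∃ I : Submodule k (Module.End k M), I = Q * Ph := ⟨_, rfl⟩
  have hQI : Q ≤ I := by
    calc Q = Q * 1 := (mul_one Q).symm
      _ ≤ Q * Ph := mul_le_mul' le_rfl h1
      _ = I := hI.symm
  have hIPh : I * Ph ≤ I := by
    rw [hI, mul_assoc]; exact mul_le_mul' le_rfl h3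
  have hPhI : Ph * I ≤ I := by
    calc Ph * I = (Ph * Q) * Ph := by rw [hI, mul_assoc]
      _ ≤ (Q * Ph) * Ph := mul_le_mul' h4 le_rfl
      _ = Q * (Ph * Ph) := mul_assoc _ _ _
      _ ≤ Q * Ph := mul_le_mul' le_rfl h3
      _ = I := hI.symm
  have hII : I * I ≤ I := by
    calc I * I = Q * ((Ph * Q) * Ph) := by rw [hI]; simp only [mul_assoc]
      _ ≤ Q * ((Q * Ph) * Ph) := mul_le_mul' le_rfl (mul_le_mul' h4 le_rfl)
      _ = (Q * Q) * (Ph * Ph) := by simp only [mul_assoc]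
      _ ≤ Q * Ph := mul_le_mul' hQ h3
      _ = I := hI.symm
  have hIP : I * P ≤ I := (mul_le_mul' le_rfl h2).trans hIPh
  have hPI : P * I ≤ I := (mul_le_mul' h2 le_rfl).trans hPhI
  refine ⟨P ⊔ I, le_sup_left, hQI.trans le_sup_right, ?_, p * q, ?_⟩
  · rw [Submodule.sup_mul, Submodule.mul_sup, Submodule.mul_sup]
    exact sup_le (sup_le (hP.trans le_sup_left) (hPI.trans le_sup_right))
      (sup_le (hIP.trans le_sup_right) (hII.trans le_sup_right))
  · have hPjI : ∀ j : ℕ, P ^ j * I ≤ I := by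
      intro j
      induction j with
      | zero => rw [pow_zero, one_mul]
      | succ j ih =>
        calc P ^ (j + 1) * I = P ^ j * (P * I) := by rw [pow_succ, mul_assoc]
          _ ≤ P ^ j * I := mul_le_mul' le_rfl hPI
          _ ≤ I := ih
    have hR : ∀ j : ℕ, (P ⊔ I) ^ j ≤ P ^ j ⊔ I := by
      intro j
      induction j with
      | zero => rw [pow_zero, pow_zero]; exact le_sup_left
      | succ j ih =>
        calc (P ⊔ I) ^ (j + 1) = (P ⊔ I) ^ j * (P ⊔ I) := pow_succ _ _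
          _ ≤ (P ^ j ⊔ I) * (P ⊔ I) := mul_le_mul' ih le_rfl
          _ = (P ^ j * P ⊔ P ^ j * I) ⊔ (I * P ⊔ I * I) := by
            rw [Submodule.sup_mul, Submodule.mul_sup, Submodule.mul_sup]
          _ ≤ P ^ (j + 1) ⊔ I :=
            sup_le (sup_le (by rw [pow_succ]; exact le_sup_left) ((hPjI j).trans le_sup_right))
              (sup_le (hIP.trans le_sup_right) (hII.trans le_sup_right))
    have hIj : ∀ j : ℕ, I ^ j ≤ Q ^ j * Ph := by
      intro j
      induction j with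
      | zero => rw [pow_zero, pow_zero, one_mul]; exact h1
      | succ j ih =>
        calc I ^ (j + 1) = I ^ j * I := pow_succ _ _
          _ ≤ (Q ^ j * Ph) * (Q * Ph) := by rw [← hI]; exact mul_le_mul' ih le_rfl
          _ = Q ^ j * ((Ph * Q) * Ph) := by simp only [mul_assoc]
          _ ≤ Q ^ j * ((Q * Ph) * Ph) := mul_le_mul' le_rfl (mul_le_mul' h4 le_rfl)
          _ = (Q ^ j * Q) * (Ph * Ph) := by simp only [mul_assoc]
          _ ≤ Q ^ (j + 1) * Ph := by rw [pow_succ]; exact mul_le_mul' le_rfl h3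
    rw [eq_bot_iff, pow_mul]
    calc ((P ⊔ I) ^ p) ^ q ≤ (P ^ p ⊔ I) ^ q := sm_pow_mono (hR p) q
      _ = I ^ q := by rw [hp, bot_sup_eq]
      _ ≤ Q ^ q * Ph := hIj q
      _ = ⊥ := by rw [hq, Submodule.bot_mul]

/-- the units normalizing a subspace of `End M`. -/
def normSub (Q : Submodule k (Module.End k M)) :
    Subgroup (LinearMap.GeneralLinearGroup k M) where
  carrier := {g | (∀ x ∈ Q, (g : Module.End k M) * x *
      ((g⁻¹ : LinearMap.GeneralLinearGroup k M) : Module.End k M) ∈ Q) ∧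
    (∀ x ∈ Q, ((g⁻¹ : LinearMap.GeneralLinearGroup k M) : Module.End k M) * x *
      (g : Module.End k M) ∈ Q)}
  mul_mem' := by
    rintro a b ⟨ha, ha'⟩ ⟨hb, hb'⟩
    refine ⟨fun x hx => ?_, fun x hx => ?_⟩
    · have e : ((a * b : LinearMap.GeneralLinearGroup k M) : Module.End k M) * x *
          (((a * b)⁻¹ : LinearMap.GeneralLinearGroup k M) : Module.End k M)
          = (a : Module.End k M) * ((b : Module.End k M) * x *
            ((b⁻¹ : LinearMap.GeneralLinearGroup k M) : Module.End k M)) *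
            ((a⁻¹ : LinearMap.GeneralLinearGroup k M) : Module.End k M) := by
        rw [mul_inv_rev, Units.val_mul, Units.val_mul]; simp only [mul_assoc]
      rw [e]; exact ha _ (hb x hx)
    · have e : (((a * b)⁻¹ : LinearMap.GeneralLinearGroup k M) : Module.End k M) * x *
          ((a * b : LinearMap.GeneralLinearGroup k M) : Module.End k M)
          = ((b⁻¹ : LinearMap.GeneralLinearGroup k M) : Module.End k M) *
            (((a⁻¹ : LinearMap.GeneralLinearGroup k M) : Module.End k M) * x *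
            (a : Module.End k M)) * (b : Module.End k M) := by
        rw [mul_inv_rev, Units.val_mul, Units.val_mul]; simp only [mul_assoc]
      rw [e]; exact hb' _ (ha' x hx)
  one_mem' := by
    refine ⟨fun x hx => ?_, fun x hx => ?_⟩
    · rw [inv_one, Units.val_one, one_mul, mul_one]; exact hx
    · rw [inv_one, Units.val_one, one_mul, mul_one]; exact hx
  inv_mem' := by
    rintro a ⟨ha, ha'⟩
    refine ⟨fun x hx => ?_, fun x hx => ?_⟩
    · rw [inv_inv]; exact ha' x hx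
    · rw [inv_inv]; exact ha x hx

theorem mem_normSub_of {J J' : Submodule k (Module.End k M)} (h1 : J' * J ≤ J)
    (h2 : J * J' ≤ J) {y : LinearMap.GeneralLinearGroup k M}
    (hy : (y : Module.End k M) - 1 ∈ J')
    (hy' : ((y⁻¹ : LinearMap.GeneralLinearGroup k M) : Module.End k M) - 1 ∈ J') :
    y ∈ normSub J := by
  have key : ∀ (a b : Module.End k M), a - 1 ∈ J' → b - 1 ∈ J' → ∀ x ∈ J, a * x * b ∈ J := by
    intro a b ha hb x hx
    have e : a * x * b = x + (a - 1) * x + x * (b - 1) + (a - 1) * x * (b - 1) := by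
      noncomm_ring
    rw [e]
    have t1 : (a - 1) * x ∈ J := h1 (Submodule.mul_mem_mul ha hx)
    have t2 : x * (b - 1) ∈ J := h2 (Submodule.mul_mem_mul hx hb)
    have t3 : (a - 1) * x * (b - 1) ∈ J := h2 (Submodule.mul_mem_mul t1 hb)
    exact add_mem (add_mem (add_mem hx t1) t2) t3
  exact ⟨fun x hx => key _ _ hy hy' x hx, fun x hx => key _ _ hy' hy x hx⟩

theorem conj_sub_one (g u : LinearMap.GeneralLinearGroup k M) :
    (g : Module.End k M) * ((u : Module.End k M) - 1) *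
      ((g⁻¹ : LinearMap.GeneralLinearGroup k M) : Module.End k M)
      = ((g * u * g⁻¹ : LinearMap.GeneralLinearGroup k M) : Module.End k M) - 1 := by
  rw [Units.val_mul, Units.val_mul, mul_sub, sub_mul, mul_one, Units.mul_inv]

theorem augSpan_conjBy_le {A : Subgroup (LinearMap.GeneralLinearGroup k M)}
    {J : Submodule k (Module.End k M)} (hA : augSpan A ≤ J)
    {g : LinearMap.GeneralLinearGroup k M} (hg : g ∈ normSub J) :
    augSpan (conjBy A g) ≤ J := by
  rw [augSpan_le_iff] at hA ⊢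
  intro h hh
  rw [mem_conjBy] at hh
  have h0 := hg.1 _ (hA _ hh)
  rw [conj_sub_one] at h0
  have e : g * (g⁻¹ * h * g) * g⁻¹ = h := by group
  rwa [e] at h0

theorem mem_normSub_augSpan {Γ : Set (Subgroup (LinearMap.GeneralLinearGroup k M))}
    {y : LinearMap.GeneralLinearGroup k M} (h : ∀ A ∈ Γ, conjBy A y ∈ Γ)
    (h' : ∀ A ∈ Γ, conjBy A y⁻¹ ∈ Γ) : y ∈ normSub (augSpan (⨆ A ∈ Γ, A)) := by
  have key : ∀ g : LinearMap.GeneralLinearGroup k M, (∀ A ∈ Γ, conjBy A g ∈ Γ) →
      ∀ x ∈ augSpan (⨆ A ∈ Γ, A), (g : Module.End k M) * x *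
        ((g⁻¹ : LinearMap.GeneralLinearGroup k M) : Module.End k M) ∈ augSpan (⨆ A ∈ Γ, A) := by
    intro g hg x hx
    have hle : conjBy (⨆ A ∈ Γ, A) g ≤ ⨆ A ∈ Γ, A := by
      show Subgroup.map _ _ ≤ _
      rw [Subgroup.map_iSup]
      refine iSup_le fun A => ?_
      rw [Subgroup.map_iSup]
      refine iSup_le fun hA => ?_
      exact le_biSup (fun B => B) (hg A hA)
    unfold augSpan at hx
    induction hx using Submodule.span_induction with
    | mem x hx =>
      obtain ⟨u, hu, rfl⟩ := hx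
      rw [conj_sub_one]
      exact sub_one_mem_augSpan (hle (conj_mem_conjBy hu g))
    | zero => rw [mul_zero, zero_mul]; exact zero_mem _
    | add x y _ _ hx hy => rw [mul_add, add_mul]; exact add_mem hx hy
    | smul c x _ hx => rw [mul_smul_comm, smul_mul_assoc]; exact Submodule.smul_mem _ c hx
  refine ⟨key y h, ?_⟩
  intro x hx
  have h0 := key y⁻¹ h' x hx
  rwa [inv_inv] at h0

theorem aug_mul_le {H : Subgroup (LinearMap.GeneralLinearGroup k M)}
    {Q : Submodule k (Module.End k M)} (hH : H ≤ normSub Q) :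
    augSpan H * Q ≤ Q ⊔ Q * augSpan H := by
  rw [Submodule.mul_le]
  intro p hp x hx
  unfold augSpan at hp
  induction hp using Submodule.span_induction with
  | mem p hp =>
    obtain ⟨u, hu, rfl⟩ := hp
    have hx' := (hH hu).1 x hx
    have hw : ((u⁻¹ : LinearMap.GeneralLinearGroup k M) : Module.End k M) * (u : Module.End k M)
        = 1 := Units.inv_mul u
    have e : ((u : Module.End k M) - 1) * x
        = ((u : Module.End k M) * x *
            ((u⁻¹ : LinearMap.GeneralLinearGroup k M) : Module.End k M) - x)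
          + ((u : Module.End k M) * x *
            ((u⁻¹ : LinearMap.GeneralLinearGroup k M) : Module.End k M)) *
            ((u : Module.End k M) - 1) := by
      calc ((u : Module.End k M) - 1) * x
          = (u : Module.End k M) * x *
              (((u⁻¹ : LinearMap.GeneralLinearGroup k M) : Module.End k M) *
                (u : Module.End k M)) - x := by rw [hw]; noncomm_ring
        _ = _ := by noncomm_ring
    rw [e]
    exact Submodule.add_mem_sup (sub_mem hx' hx)
      (Submodule.mul_mem_mul hx' (sub_one_mem_augSpan hu))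
  | zero => rw [zero_mul]; exact zero_mem _
  | add p p' _ _ hp hp' => rw [add_mul]; exact add_mem hp hp'
  | smul c p _ hp => rw [smul_mul_assoc]; exact Submodule.smul_mem _ c hp

variable {G : Subgroup (LinearMap.GeneralLinearGroup k M)}
  {W : Set (Subgroup (LinearMap.GeneralLinearGroup k M))}

/-- the members of `W` lying in the unipotent group attached to `N`. -/
def fam (W : Set (Subgroup (LinearMap.GeneralLinearGroup k M)))
    (N : Submodule k (Module.End k M)) : Set (Subgroup (LinearMap.GeneralLinearGroup k M)) :=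
  {A | A ∈ W ∧ augSpan A ≤ N}

theorem fam_mono {N N' : Submodule k (Module.End k M)} (h : N ≤ N') : fam W N ⊆ fam W N' :=
  fun _ hA => ⟨hA.1, hA.2.trans h⟩

/-- the span of the members of `fam W N`. -/
def lam (W : Set (Subgroup (LinearMap.GeneralLinearGroup k M)))
    (N : Submodule k (Module.End k M)) : Submodule k (Module.End k M) :=
  ⨆ A ∈ fam W N, augSpan A

theorem lam_le (N : Submodule k (Module.End k M)) : lam W N ≤ N :=
  iSup₂_le (fun _ hA => hA.2)

theorem lam_mono {N N' : Submodule k (Module.End k M)} (h : fam W N ⊆ fam W N') :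
    lam W N ≤ lam W N' :=
  biSup_mono (fun _ hA => h hA)

theorem lam_lt [FiniteDimensional k M] {N N' : Submodule k (Module.End k M)}
    (h : fam W N ⊆ fam W N') (hne : fam W N ≠ fam W N') :
    Module.finrank k (lam W N) < Module.finrank k (lam W N') := by
  apply Submodule.finrank_lt_finrank_of_lt
  refine lt_of_le_of_ne (lam_mono h) (fun heq => hne (Set.Subset.antisymm h ?_))
  intro Y hY
  refine ⟨hY.1, ?_⟩
  calc augSpan Y ≤ lam W N' := le_biSup (fun A => augSpan A) hY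
    _ = lam W N := heq.symm
    _ ≤ N := lam_le N

theorem lemmaA [FiniteDimensional k M] (hWG : ∀ A ∈ W, A ≤ G)
    (hWconj : ∀ A ∈ W, ∀ g ∈ G, conjBy A g ∈ W)
    {S J₀ : Submodule k (Module.End k M)} (hS : S * S ≤ S) {n : ℕ} (hSn : S ^ n = ⊥)
    (hJ₀S : J₀ ≤ S) (hJ₀ : J₀ * J₀ ≤ J₀) (hne : fam W J₀ ≠ fam W S) :
    ∃ Y ∈ fam W S, Y ∉ fam W J₀ ∧ ∀ y ∈ Y, ∀ A ∈ fam W J₀, conjBy A y ∈ fam W J₀ := by
  obtain ⟨J, ⟨hJ₀J, hJS, hJJ, hfam⟩, hmax⟩ := exists_max_nat
    (fun J : Submodule k (Module.End k M) => J₀ ≤ J ∧ J ≤ S ∧ J * J ≤ J ∧ fam W J = fam W J₀)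
    (fun J => Module.finrank k J) (Module.finrank k (Module.End k M))
    (fun J _ => Submodule.finrank_le J) ⟨J₀, le_rfl, hJ₀S, hJ₀, rfl⟩
  have hJneS : J ≠ S := by rintro rfl; exact hne hfam.symm
  have hSJ : ¬ S ≤ J := fun h => hJneS (le_antisymm hJS h)
  have hex : ∃ i, S ^ (i + 1) ≤ J :=
    ⟨n, by rw [pow_succ, hSn, Submodule.bot_mul]; exact bot_le⟩
  classical
  obtain ⟨i, hi, hmin⟩ : ∃ i, S ^ (i + 1) ≤ J ∧ ∀ j < i, ¬ S ^ (j + 1) ≤ J :=
    ⟨Nat.find hex, Nat.find_spec hex, fun j hj => Nat.find_min hex hj⟩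
  have hi0 : i ≠ 0 := by
    rintro rfl
    rw [zero_add, pow_one] at hi
    exact hSJ hi
  obtain ⟨i', rfl⟩ := Nat.exists_eq_succ_of_ne_zero hi0
  have hT : ¬ S ^ (i' + 1) ≤ J := hmin i' (Nat.lt_succ_self _)
  have hTS : S ^ (i' + 1) ≤ S := by
    have h0 := sm_pow_anti hS 0 i'
    rw [zero_add, pow_one, add_comm] at h0
    exact h0
  have hJT : J * S ^ (i' + 1) ≤ J := by
    calc J * S ^ (i' + 1) ≤ S * S ^ (i' + 1) := mul_le_mul' hJS le_rfl
      _ = S ^ (i' + 1 + 1) := (pow_succ' _ _).symm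
      _ ≤ J := hi
  have hTJ : S ^ (i' + 1) * J ≤ J := by
    calc S ^ (i' + 1) * J ≤ S ^ (i' + 1) * S := mul_le_mul' le_rfl hJS
      _ = S ^ (i' + 1 + 1) := (pow_succ _ _).symm
      _ ≤ J := hi
  have hTT : S ^ (i' + 1) * S ^ (i' + 1) ≤ J := by
    calc S ^ (i' + 1) * S ^ (i' + 1) ≤ S ^ (i' + 1) * S := mul_le_mul' le_rfl hTS
      _ = S ^ (i' + 1 + 1) := (pow_succ _ _).symm
      _ ≤ J := hi
  obtain ⟨J', hJ'⟩ : ∃ J' : Submodule k (Module.End k M), J' = J ⊔ S ^ (i' + 1) := ⟨_, rfl⟩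
  have hJJ' : J ≤ J' := hJ' ▸ le_sup_left
  have hTJ' : S ^ (i' + 1) ≤ J' := hJ' ▸ le_sup_right
  have hJ'S : J' ≤ S := hJ' ▸ sup_le hJS hTS
  have hJ'J : J' * J ≤ J := by rw [hJ', Submodule.sup_mul]; exact sup_le hJJ hTJ
  have hJJ'2 : J * J' ≤ J := by rw [hJ', Submodule.mul_sup]; exact sup_le hJJ hJT
  have hTJ'2 : S ^ (i' + 1) * J' ≤ J := by
    rw [hJ', Submodule.mul_sup]; exact sup_le hTJ hTT
  have hJ'J' : J' * J' ≤ J' := by
    have h0 : J' * J' ≤ J := by
      have e : J' * J' = J * J' ⊔ S ^ (i' + 1) * J' := by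
        nth_rewrite 1 [hJ']
        rw [Submodule.sup_mul]
      rw [e]
      exact sup_le hJJ'2 hTJ'2
    exact h0.trans hJJ'
  have hlt : J < J' := lt_of_le_of_ne hJJ' (fun h => hT (h ▸ hTJ'))
  have hfin : Module.finrank k J < Module.finrank k J' :=
    Submodule.finrank_lt_finrank_of_lt hlt
  have hfam' : fam W J' ≠ fam W J₀ := by
    intro h
    have h0 := hmax J' ⟨hJ₀J.trans hJJ', hJ'S, hJ'J', h⟩
    omega
  have hsub : fam W J ⊆ fam W J' := fam_mono hJJ'
  have hY : ∃ Y ∈ fam W J', Y ∉ fam W J := by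
    by_contra hcon
    push Not at hcon
    exact hfam' ((Set.Subset.antisymm hcon hsub).trans hfam)
  obtain ⟨Y, hY, hYJ⟩ := hY
  refine ⟨Y, fam_mono hJ'S hY, by rw [← hfam]; exact hYJ, ?_⟩
  intro y hy A hA
  rw [← hfam] at hA ⊢
  have hyN : y ∈ normSub J := mem_normSub_of hJ'J hJJ'2 ((augSpan_le_iff.mp hY.2) y hy)
    ((augSpan_le_iff.mp hY.2) y⁻¹ (inv_mem hy))
  exact ⟨hWconj A hA.1 y (hWG Y hY.1 hy), augSpan_conjBy_le hA.2 hyN⟩

/-- nilpotent and multiplicatively closed. -/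
def NilClosed (N : Submodule k (Module.End k M)) : Prop := N * N ≤ N ∧ ∃ n : ℕ, N ^ n = ⊥

/-- `fam W S` is maximal among the families of nilpotent closed subspaces. -/
def IsMaxFam (W : Set (Subgroup (LinearMap.GeneralLinearGroup k M)))
    (S : Submodule k (Module.End k M)) : Prop :=
  NilClosed S ∧ ∀ T : Submodule k (Module.End k M), NilClosed T → fam W S ⊆ fam W T →
    fam W T = fam W S

theorem exists_maxFam [FiniteDimensional k M] {N : Submodule k (Module.End k M)}
    (hN : NilClosed N) : ∃ S, IsMaxFam W S ∧ fam W N ⊆ fam W S := by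
  obtain ⟨S, ⟨hS, hNS⟩, hmax⟩ := exists_max_nat
    (fun T : Submodule k (Module.End k M) => NilClosed T ∧ fam W N ⊆ fam W T)
    (fun T => Module.finrank k (lam W T)) (Module.finrank k (Module.End k M))
    (fun T _ => Submodule.finrank_le _) ⟨N, hN, subset_rfl⟩
  refine ⟨S, ⟨hS, fun T hT hST => ?_⟩, hNS⟩
  by_contra hne
  have h1 := lam_lt hST (fun h => hne h.symm)
  have h2 := hmax T ⟨hT, hNS.trans hST⟩
  omega

theorem fam_inf (S T : Submodule k (Module.End k M)) : fam W (S ⊓ T) = fam W S ∩ fam W T := by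
  ext A
  constructor
  · rintro ⟨hA, hle⟩
    exact ⟨⟨hA, hle.trans inf_le_left⟩, ⟨hA, hle.trans inf_le_right⟩⟩
  · rintro ⟨⟨hA, h1⟩, ⟨-, h2⟩⟩
    exact ⟨hA, le_inf h1 h2⟩

/-- The Baer–Suzuki type theorem for unipotent subgroups. -/
theorem unip_baer [FiniteDimensional k M] (hWG : ∀ A ∈ W, A ≤ G)
    (hWW : ∀ A ∈ W, ∀ B ∈ W, IsUnipotentOn (A ⊔ B))
    (hWconj : ∀ A ∈ W, ∀ g ∈ G, conjBy A g ∈ W) : IsUnipotentOn (⨆ A ∈ W, A) := by
  by_contra hnot
  have hbot : NilClosed (⊥ : Submodule k (Module.End k M)) :=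
    ⟨by rw [Submodule.bot_mul], 1, pow_one _⟩
  have hWnil : ∀ A ∈ W, NilClosed (augSpan A) := fun A hA =>
    ⟨augSpan_mul_le A, nilpotent_of_unipotent (by
      have h0 := hWW A hA A hA
      rwa [sup_idem] at h0)⟩
  have step1 : ∃ S T, IsMaxFam W S ∧ IsMaxFam W T ∧ fam W S ≠ fam W T := by
    by_contra hcon
    push Not at hcon
    obtain ⟨S₀, hS₀, -⟩ := exists_maxFam (W := W) hbot
    obtain ⟨n, hn⟩ := hS₀.1.2
    apply hnot
    refine unipotent_of_le (augSpan_iSup_le hS₀.1.1 (fun A hA => ?_)) hn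
    obtain ⟨S, hS, hAS⟩ := exists_maxFam (W := W) (hWnil A hA)
    have h0 : A ∈ fam W S := hAS ⟨hA, le_rfl⟩
    rw [hcon S S₀ hS hS₀] at h0
    exact h0.2
  obtain ⟨⟨S, T⟩, ⟨hS, hT, hST⟩, hmax⟩ := exists_max_nat
    (fun p : Submodule k (Module.End k M) × Submodule k (Module.End k M) =>
      IsMaxFam W p.1 ∧ IsMaxFam W p.2 ∧ fam W p.1 ≠ fam W p.2)
    (fun p => Module.finrank k (lam W (p.1 ⊓ p.2))) (Module.finrank k (Module.End k M))
    (fun p _ => Submodule.finrank_le _)
    (by obtain ⟨S, T, h⟩ := step1; exact ⟨(S, T), h⟩)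
  simp only at hS hT hST hmax
  obtain ⟨nS, hSn⟩ := hS.1.2
  obtain ⟨nT, hTn⟩ := hT.1.2
  have hcl : (S ⊓ T) * (S ⊓ T) ≤ S ⊓ T :=
    le_inf ((mul_le_mul' inf_le_left inf_le_left).trans hS.1.1)
      ((mul_le_mul' inf_le_right inf_le_right).trans hT.1.1)
  have hneS : fam W (S ⊓ T) ≠ fam W S := by
    intro h
    apply hST
    refine (hS.2 T hT.1 ?_).symm
    intro A hA
    rw [← h] at hA
    exact ⟨hA.1, hA.2.trans inf_le_right⟩
  have hneT : fam W (S ⊓ T) ≠ fam W T := by
    intro h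
    apply hST
    refine hT.2 S hS.1 ?_
    intro A hA
    rw [← h] at hA
    exact ⟨hA.1, hA.2.trans inf_le_left⟩
  obtain ⟨Y, hYS, hYΓ, hYn⟩ := lemmaA hWG hWconj hS.1.1 hSn inf_le_left hcl hneS
  obtain ⟨Z, hZT, hZΓ, hZn⟩ := lemmaA hWG hWconj hT.1.1 hTn inf_le_right hcl hneT
  obtain ⟨Q, hQdef⟩ : ∃ Q : Submodule k (Module.End k M),
      Q = augSpan (⨆ A ∈ fam W (S ⊓ T), A) := ⟨_, rfl⟩
  have hQle : Q ≤ S ⊓ T := hQdef ▸ augSpan_iSup_le hcl (fun A hA => hA.2)
  have hQQ : Q * Q ≤ Q := hQdef ▸ augSpan_mul_le _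
  have hQn : Q ^ nS = ⊥ :=
    eq_bot_iff.mpr ((sm_pow_mono (hQle.trans inf_le_left) nS).trans hSn.le)
  have hYZ : Y ⊔ Z ≤ normSub Q := by
    rw [hQdef]
    exact sup_le (fun y hy => mem_normSub_augSpan (hYn y hy) (hYn y⁻¹ (inv_mem hy)))
      (fun z hz => mem_normSub_augSpan (hZn z hz) (hZn z⁻¹ (inv_mem hz)))
  obtain ⟨p, hp⟩ := nilpotent_of_unipotent (hWW Y hYS.1 Z hZT.1)
  obtain ⟨R, hPR, hQR, hRR, hRn⟩ :=
    combine_nilclosed (augSpan_mul_le (Y ⊔ Z)) hQQ hp hQn (aug_mul_le hYZ)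
  obtain ⟨R', hR', hRR'⟩ := exists_maxFam (W := W) (⟨hRR, hRn⟩ : NilClosed R)
  have hΓR : fam W (S ⊓ T) ⊆ fam W R' := fun A hA =>
    hRR' ⟨hA.1, (augSpan_mono (le_biSup (fun B => B) hA)).trans (hQdef ▸ hQR)⟩
  have hYR : Y ∈ fam W R' := hRR' ⟨hYS.1, (augSpan_mono le_sup_left).trans hPR⟩
  have hZR : Z ∈ fam W R' := hRR' ⟨hZT.1, (augSpan_mono le_sup_right).trans hPR⟩
  have hSR : fam W S = fam W R' := by
    by_contra hne
    have h1 := hmax (S, R') ⟨hS, hR', hne⟩
    have h2 : Module.finrank k (lam W (S ⊓ T)) < Module.finrank k (lam W (S ⊓ R')) := by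
      apply lam_lt
      · intro A hA
        exact ⟨hA.1, le_inf (hA.2.trans inf_le_left) (hΓR hA).2⟩
      · intro heq
        apply hYΓ
        rw [heq]
        exact ⟨hYS.1, le_inf hYS.2 hYR.2⟩
    simp only at h1
    omega
  have hTR : fam W T = fam W R' := by
    by_contra hne
    have h1 := hmax (T, R') ⟨hT, hR', hne⟩
    have h2 : Module.finrank k (lam W (S ⊓ T)) < Module.finrank k (lam W (T ⊓ R')) := by
      apply lam_lt
      · intro A hA
        exact ⟨hA.1, le_inf (hA.2.trans inf_le_right) (hΓR hA).2⟩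
      · intro heq
        apply hZΓ
        rw [heq]
        exact ⟨hZT.1, le_inf hZT.2 hZR.2⟩
    simp only at h1
    omega
  exact hST (hSR.trans hTR.symm)

theorem iSup_conj_eq (hWconj : ∀ A ∈ W, ∀ g ∈ G, conjBy A g ∈ W) :
    ∀ g ∈ G, conjBy (⨆ A ∈ W, A) g = ⨆ A ∈ W, A := by
  intro g hg
  apply le_antisymm
  · show Subgroup.map _ _ ≤ _
    rw [Subgroup.map_iSup]
    refine iSup_le fun A => ?_
    rw [Subgroup.map_iSup]
    refine iSup_le fun hA => ?_
    exact le_biSup (fun B => B) (hWconj A hA g hg)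
  · refine iSup₂_le fun A hA => ?_
    have h1 : conjBy A g⁻¹ ≤ ⨆ B ∈ W, B := le_biSup (fun B => B) (hWconj A hA g⁻¹ (inv_mem hg))
    have h2 := conjBy_mono h1 g
    rw [conjBy_conjBy, mul_inv_cancel, conjBy_one] at h2
    exact h2

end UnipBaer

end Cfsg.Agent.H85
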