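import Mathlib
import Cfsg.Prelude.Def_RootSubgroups
import Cfsg.Agent.H85.RootGen

/-!
# Weak TI-subsets of a non-degenerate class are abelian (Timmesfeld II (2.10)(1))
-/

set_option autoImplicit false

namespace Cfsg.Agent.H85

open Cfsg
open scoped commutatorElement

variable {G : Type*} [Group G] {S : Set (Subgroup G)}

/-- The stabilizer of a family of subgroups under conjugation. -/
def familyStabilizer (Δ : Set (Subgroup G)) : Subgroup G where
  carrier := {g | ∀ C : Subgroup G, C ∈ Δ ↔ conjBy C g ∈ Δ}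
  one_mem' := by
    intro C
    rw [conjBy_one]
  mul_mem' := by
    intro g h hg hh C
    rw [← conjBy_conjBy]
    exact (hh C).trans (hg (conjBy C h))
  inv_mem' := by
    intro g hg C
    have h1 := hg (conjBy C g⁻¹)
    rw [conjBy_conjBy, mul_inv_cancel, conjBy_one] at h1
    exact h1.symm

theorem mem_familyStabilizer {Δ : Set (Subgroup G)} {g : G} :
    g ∈ familyStabilizer Δ ↔ ∀ C : Subgroup G, C ∈ Δ ↔ conjBy C g ∈ Δ := Iff.rfl

/-- A root element moving some member of a weak TI-subset into it stabilizes it. -/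
theorem weakTI_mem_stabilizer {Δ : Set (Subgroup G)} (hΔ : IsWeakTISubset S Δ) {d : G}
    (hd : d ∈ rootElements S) {C : Subgroup G} (hC : C ∈ Δ) (hCd : conjBy C d ∈ Δ) :
    d ∈ familyStabilizer Δ := by
  rcases hΔ.2.2.2 d hd with h1 | h1
  · intro C'
    constructor
    · intro hC'
      rw [← h1]
      exact ⟨C', hC', rfl⟩
    · intro hC'
      rw [← h1] at hC'
      obtain ⟨C'', hC'', e⟩ := hC'
      have e' : C'' = C' := conjBy_inj.mp e
      rw [← e']; exact hC''
  · exfalso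
    exact Set.disjoint_left.mp h1 ⟨C, hC, rfl⟩ hCd

/-- A member of `S` commuting with a member of a weak TI-subset stabilizes it. -/
theorem weakTI_le_stabilizer {Δ : Set (Subgroup G)} (hΔ : IsWeakTISubset S Δ)
    {C D : Subgroup G} (hC : C ∈ Δ) (hD : D ∈ S) (hcomm : ∀ d ∈ D, ∀ c ∈ C, d * c = c * d) :
    D ≤ familyStabilizer Δ := by
  intro d hd
  by_cases hd1 : d = 1
  · rw [hd1]; exact Subgroup.one_mem _
  · apply weakTI_mem_stabilizer hΔ ⟨hd1, D, hD, hd⟩ hC
    rw [conjBy_eq_of_comm (hcomm d hd)]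
    exact hC

/-- Timmesfeld II (2.10)(1). -/
theorem weakTI_abelian (hS : IsRootSubgroupClass S) (hnd : IsNondegenerateRootSet S)
    {Δ : Set (Subgroup G)} (hΔ : IsWeakTISubset S Δ) : IsAbelianFamily Δ := by
  have hS' := hS.1
  have hr : ∃ A ∈ S, ∃ B ∈ S, IsRankOnePair A B := hnd.2.1
  by_contra hna
  unfold IsAbelianFamily at hna
  push Not at hna
  obtain ⟨A, hA, B, hB, a, ha, b, hb, hab⟩ := hna
  have hAS := hΔ.1 hA
  have hBS := hΔ.1 hB
  have hself : ∀ D ∈ Δ, D ≤ familyStabilizer Δ := fun D hD =>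
    weakTI_le_stabilizer hΔ hD (hΔ.1 hD)
      (fun d hd c hc => comm_of_isMulCommutative (hS'.commutative D (hΔ.1 hD)) hd hc)
  -- a rank one pair with first member in Δ and second member in the stabilizer
  have hpair : ∃ A' ∈ Δ, ∃ B' ∈ S, B' ≤ familyStabilizer Δ ∧ IsRankOnePair A' B' := by
    rcases root_trichotomy hS' hAS hBS with h0 | h1 | h2
    · exact absurd (comm_of_commutator_eq_bot h0 ha hb) hab
    · exact ⟨A, hA, B, hBS, hself B hB, h1⟩
    · obtain ⟨A₁, hA₁, hAA₁⟩ := class_partner hS hr hAS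
      have hC : ⁅A, B⁆ ∈ S := h2.1
      obtain ⟨D₁, hD₁, hCD₁⟩ := class_partner hS hr hC
      have hAl : A ∈ linePartners S ⁅A, B⁆ := rcc_line hS' hAS hA₁ hAA₁ h2
      obtain ⟨E, hE, hEC, hsup, -, hED, h2', hK, -, -, -, -⟩ :=
        line_point_full hS' hC hAl hD₁ hCD₁
      have hEm : E ∈ membersIn S (A ⊔ ⁅A, B⁆) :=
        ⟨hE, by rw [sup_comm, ← hsup]; exact le_sup_right⟩
      rw [rcc_membersIn hS' hAS hA₁ hAA₁ h2] at hEm
      rcases hEm with ⟨b₀, hb₀, hEb₀⟩ | hEm
      · have hEb₀' : E = conjBy A b₀ := hEb₀.symm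
        have hEΔ : E ∈ Δ := by
          rw [hEb₀']
          exact (mem_familyStabilizer.mp (hself B hB hb₀) A).mp hA
        have hF₁ : ⁅E, D₁⁆ ∈ S := hED.1
        have hF₁N : ⁅E, D₁⁆ ≤ familyStabilizer Δ :=
          weakTI_le_stabilizer hΔ hEΔ hF₁ (rcc_comm_A hED)
        have hBE : ⁅B, E⁆ = ⁅A, B⁆ := by
          have e1 : ⁅conjBy B b₀, conjBy A b₀⁆ = conjBy ⁅B, A⁆ b₀ :=
            (Subgroup.map_commutator B A _).symm
          rw [conjBy_of_mem hb₀] at e1
          rw [hEb₀', e1, Subgroup.commutator_comm B A]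
          exact conjBy_commutator_right hb₀
        have hFC : ⁅⁅E, D₁⁆, ⁅A, B⁆⁆ = E := by
          rw [Subgroup.commutator_comm]; exact hK
        have cfg : PlaneCfg S E B ⁅A, B⁆ ⁅E, D₁⁆ :=
          { hS := hS', hA := hE, hB := hBS, hC := hC, hD := hF₁,
            hBA := rcc_of_commutator_mem hS' hBS hE (by rw [hBE]; exact hC),
            hBAe := hBE,
            hDC := rcc_of_commutator_mem hS' hF₁ hC (by rw [hFC]; exact hE),
            hDCe := hFC }
        exact ⟨B, hB, ⁅E, D₁⁆, hF₁, hF₁N, pc_rankOne cfg⟩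
      · exact absurd hEm hEC
  obtain ⟨A', hA', B', hB'S, hB'N, hAB'⟩ := hpair
  have hA'S := hΔ.1 hA'
  have htop : familyStabilizer Δ = ⊤ := by
    rw [eq_top_iff, ← gen_line_partners hS hnd hA'S ⟨hB'S, hAB'⟩]
    apply sup_le _ hB'N
    apply iSup₂_le
    intro C hC
    apply weakTI_le_stabilizer hΔ hA' hC.1.1
    intro c hc a' ha'
    exact (comm_of_commutator_eq_bot hC.1.2.2 ha' hc).symm
  apply hΔ.2.2.1
  apply Set.Subset.antisymm hΔ.1
  intro D hD
  obtain ⟨g, rfl⟩ := hS.2.2 A' hA'S D hD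
  have hg : g ∈ familyStabilizer Δ := by rw [htop]; exact Subgroup.mem_top g
  exact (mem_familyStabilizer.mp hg A').mp hA'

end Cfsg.Agent.H85
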